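import Mathlib

set_option autoImplicit false

namespace Cfsg.Agent.Lib.Helper4.H90

open Matrix

variable {n : ℕ} {F : Type*} [Field F]

/-- twisted partial norms `A σ(A) ⋯ σ^{k-1}(A)` -/
def tw (σ : RingAut F) (A : Matrix (Fin n) (Fin n) F) : ℕ → Matrix (Fin n) (Fin n) F
  | 0 => 1
  | k + 1 => A * (tw σ A k).map σ

theorem tw_zero (σ : RingAut F) (A : Matrix (Fin n) (Fin n) F) : tw σ A 0 = 1 := rfl
theorem tw_succ (σ : RingAut F) (A : Matrix (Fin n) (Fin n) F) (k : ℕ) :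
    tw σ A (k + 1) = A * (tw σ A k).map σ := rfl

theorem comp_mulVec (σ : RingAut F) (M : Matrix (Fin n) (Fin n) F) (v : Fin n → F) :
    σ ∘ (M *ᵥ v) = (M.map σ) *ᵥ (σ ∘ v) := by
  funext i
  exact RingHom.map_mulVec (σ : F →+* F) M v i

theorem comp_smul (σ : RingAut F) (h : F) (v : Fin n → F) : σ ∘ (h • v) = σ h • (σ ∘ v) := by
  funext i
  simp

theorem comp_sum (σ : RingAut F) {ι : Type*} (s : Finset ι) (f : ι → Fin n → F) :
    σ ∘ (∑ i ∈ s, f i) = ∑ i ∈ s, σ ∘ f i := by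
  funext j
  simp [Finset.sum_apply]

theorem pow_succ_comp (σ : RingAut F) (k : ℕ) (v : Fin n → F) :
    σ ∘ (⇑(σ ^ k) ∘ v) = ⇑(σ ^ (k + 1)) ∘ v := by
  funext i
  rw [pow_succ']
  rfl

/-- the averaging operator -/
def bb (σ : RingAut F) (A : Matrix (Fin n) (Fin n) F) (r : ℕ) (x : Fin n → F) : Fin n → F :=
  ∑ i ∈ Finset.range r, tw σ A i *ᵥ (⇑(σ ^ i) ∘ x)

theorem bb_fix (σ : RingAut F) (A : Matrix (Fin n) (Fin n) F) {r : ℕ} (hσ : σ ^ r = 1) (hA : tw σ A r = 1)
    (x : Fin n → F) : A *ᵥ (σ ∘ bb σ A r x) = bb σ A r x := by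
  unfold bb
  rw [comp_sum, mulVec_sum]
  have h1 : ∀ i ∈ Finset.range r, A *ᵥ (σ ∘ (tw σ A i *ᵥ (⇑(σ ^ i) ∘ x))) =
      tw σ A (i + 1) *ᵥ (⇑(σ ^ (i + 1)) ∘ x) := by
    intro i _
    rw [comp_mulVec, mulVec_mulVec, pow_succ_comp, tw_succ]
  rw [Finset.sum_congr rfl h1]
  have h2 := Finset.sum_range_succ (fun i => tw σ A i *ᵥ (⇑(σ ^ i) ∘ x)) r
  have h3 := Finset.sum_range_succ' (fun i => tw σ A i *ᵥ (⇑(σ ^ i) ∘ x)) r
  rw [h2] at h3
  simp only [hσ, hA, tw_zero, pow_zero] at h3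
  exact (add_right_cancel h3).symm

theorem bb_smul (σ : RingAut F) (A : Matrix (Fin n) (Fin n) F) (r : ℕ) (h : F) (x : Fin n → F) :
    bb σ A r (h • x) = ∑ i ∈ Finset.range r, (σ ^ i) h • (tw σ A i *ᵥ (⇑(σ ^ i) ∘ x)) := by
  unfold bb
  apply Finset.sum_congr rfl
  intro i _
  rw [comp_smul, mulVec_smul]

theorem indep (σ : RingAut F) {r : ℕ} (hr : orderOf σ = r) (c : Fin r → F)
    (h : ∀ t : F, ∑ i : Fin r, (σ ^ (i : ℕ)) t * c i = 0) : ∀ i, c i = 0 := by
  have h1 := linearIndependent_monoidHom F F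
  let g : Fin r → (F →* F) := fun i => ((σ ^ (i : ℕ) : RingAut F) : F ≃+* F).toRingHom.toMonoidHom
  have hg : Function.Injective g := by
    intro i j hij
    have h2 : σ ^ (i : ℕ) = σ ^ (j : ℕ) := by
      ext t
      exact DFunLike.congr_fun hij t
    apply Fin.ext
    exact pow_injOn_Iio_orderOf (by rw [hr]; exact i.2) (by rw [hr]; exact j.2) h2
  have h3 := (h1.comp g hg)
  rw [Fintype.linearIndependent_iff] at h3
  apply h3 c
  funext t
  have := h t
  simp only [Finset.sum_apply, Pi.smul_apply, Function.comp, smul_eq_mul, Pi.zero_apply]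
  rw [← this]
  apply Finset.sum_congr rfl
  intro i _
  rw [mul_comm]
  rfl

theorem span_bb (σ : RingAut F) (A : Matrix (Fin n) (Fin n) F) {r : ℕ} (hr : orderOf σ = r) (hr0 : 0 < r) :
    Submodule.span F (Set.range (bb σ A r)) = ⊤ := by
  by_contra hne
  obtain ⟨f, hf0, hf⟩ := Submodule.exists_le_ker_of_lt_top _ (lt_top_iff_ne_top.2 hne)
  apply hf0
  apply LinearMap.ext
  intro x
  have h1 : ∀ t : F, ∑ i : Fin r, (σ ^ (i : ℕ)) t * f (tw σ A i *ᵥ (⇑(σ ^ (i : ℕ)) ∘ x)) = 0 := by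
    intro t
    have h2 : f (bb σ A r (t • x)) = 0 := hf (Submodule.subset_span ⟨_, rfl⟩)
    rw [bb_smul, map_sum, Finset.sum_range] at h2
    rw [← h2]
    apply Finset.sum_congr rfl
    intro i _
    rw [map_smul, smul_eq_mul]
  have h3 := indep σ hr _ h1 ⟨0, hr0⟩
  simp only [tw_zero, pow_zero, one_mulVec] at h3
  exact h3

/-- Hilbert 90 for `GL_n` and a cyclic group of field automorphisms. -/
theorem h90 (σ : RingAut F) (A : Matrix (Fin n) (Fin n) F) {r : ℕ} (hr : orderOf σ = r) (hr0 : 0 < r)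
    (hA : tw σ A r = 1) : ∃ B : GL (Fin n) F, A * B.1.map σ = B.1 := by
  classical
  have hσ : σ ^ r = 1 := by rw [← hr]; exact pow_orderOf_eq_one σ
  obtain ⟨s, hs1, hs2, hs3⟩ := exists_linearIndependent F (Set.range (bb σ A r))
  rw [span_bb σ A hr hr0] at hs2
  let bs : Module.Basis s F (Fin n → F) := Module.Basis.mk hs3 (by
    rw [Subtype.range_coe_subtype]
    simp only [Set.ofPred_mem_eq]
    rw [hs2])
  have : Fintype s := FiniteDimensional.fintypeBasisIndex bs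
  have hcard : Fintype.card s = n := by
    rw [← Module.finrank_eq_card_basis bs]
    simp
  let e : s ≃ Fin n := Fintype.equivFinOfCardEq hcard
  let y : Fin n → Fin n → F := fun j => (e.symm j : Fin n → F)
  have hy : ∀ j, A *ᵥ (σ ∘ y j) = y j := by
    intro j
    obtain ⟨x, hx⟩ := hs1 (e.symm j).2
    change A *ᵥ (σ ∘ ((e.symm j : s) : Fin n → F)) = ((e.symm j : s) : Fin n → F)
    rw [← hx]
    exact bb_fix σ A hσ hA x
  have hli : LinearIndependent F y := hs3.comp e.symm e.symm.injective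
  let B : Matrix (Fin n) (Fin n) F := Matrix.of (fun i j => y j i)
  have hB : IsUnit B := by
    rw [← Matrix.linearIndependent_cols_iff_isUnit]
    exact hli
  refine ⟨hB.unit, ?_⟩
  change A * B.map σ = B
  ext i j
  have := congrFun (hy j) i
  exact this

/-! ### scalars -/

/-- partial norms -/
def nrm (σ : RingAut F) (k : ℕ) (c : F) : F := ∏ i ∈ Finset.range k, (σ ^ i) c

theorem nrm_zero (σ : RingAut F) (c : F) : nrm σ 0 c = 1 := rfl

theorem nrm_succ (σ : RingAut F) (k : ℕ) (c : F) : nrm σ (k + 1) c = c * σ (nrm σ k c) := by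
  unfold nrm
  rw [Finset.prod_range_succ', map_prod, pow_zero, mul_comm]
  congr 1
  apply Finset.prod_congr rfl
  intro i _
  rw [pow_succ']
  rfl

theorem nrm_succ' (σ : RingAut F) (k : ℕ) (c : F) : nrm σ (k + 1) c = nrm σ k c * (σ ^ k) c := by
  unfold nrm
  rw [Finset.prod_range_succ]

theorem nrm_mul (σ : RingAut F) (k : ℕ) (c d : F) : nrm σ k (c * d) = nrm σ k c * nrm σ k d := by
  unfold nrm
  rw [← Finset.prod_mul_distrib]
  apply Finset.prod_congr rfl
  intro i _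
  rw [map_mul]

theorem nrm_ne_zero (σ : RingAut F) (k : ℕ) {c : F} (hc : c ≠ 0) : nrm σ k c ≠ 0 := by
  unfold nrm
  rw [Finset.prod_ne_zero_iff]
  intro i _
  exact (map_ne_zero_iff _ (σ ^ i).injective).2 hc

theorem nrm_fix (σ : RingAut F) {r : ℕ} (hσ : σ ^ r = 1) (c : F) : σ (nrm σ r c) = nrm σ r c := by
  by_cases hc : c = 0
  · subst hc
    cases r with
    | zero => simp [nrm_zero]
    | succ k => rw [nrm_succ]; simp
  · have h1 := nrm_succ σ r c
    rw [nrm_succ', hσ] at h1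
    have h2 : nrm σ r c * c = c * σ (nrm σ r c) := h1
    have h3 : c * (σ (nrm σ r c) - nrm σ r c) = 0 := by linear_combination -h2
    rcases mul_eq_zero.1 h3 with h | h
    · exact absurd h hc
    · linear_combination h

theorem tw_smul (σ : RingAut F) (c : F) (A : Matrix (Fin n) (Fin n) F) (k : ℕ) :
    tw σ (c • A) k = nrm σ k c • tw σ A k := by
  induction k with
  | zero => simp [tw_zero, nrm_zero]
  | succ k ih =>
    rw [tw_succ, tw_succ, ih, nrm_succ]
    have : (nrm σ k c • tw σ A k).map σ = σ (nrm σ k c) • (tw σ A k).map σ := by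
      ext i j; simp
    rw [this, smul_mul_assoc, mul_smul_comm, smul_smul]

theorem tw_one (σ : RingAut F) (k : ℕ) : tw σ (1 : Matrix (Fin n) (Fin n) F) k = 1 := by
  induction k with
  | zero => rfl
  | succ k ih =>
    rw [tw_succ, ih, one_mul]
    ext i j
    by_cases h : i = j
    · subst h; simp
    · simp [Matrix.one_apply_ne h]

/-- multiplicative Hilbert 90 -/
theorem h90_scalar (σ : RingAut F) {r : ℕ} (hr : orderOf σ = r) (hr0 : 0 < r) (c : F) (hc : nrm σ r c = 1) :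
    ∃ b : F, b ≠ 0 ∧ c * σ b = b := by
  obtain ⟨B, hB⟩ := h90 (n := 1) σ (c • 1) hr hr0 (by rw [tw_smul, tw_one, hc, one_smul])
  refine ⟨B.1 0 0, ?_, ?_⟩
  · have h1 : IsUnit B.1.det := (Matrix.isUnit_iff_isUnit_det _).1 B.isUnit
    rw [Matrix.det_fin_one] at h1
    exact h1.ne_zero
  · have := congrFun (congrFun hB 0) 0
    simpa [Matrix.smul_mul] using this

theorem nrm_map (σ : RingAut F) (k : ℕ) (c : F) : nrm σ k (σ c) = σ (nrm σ k c) := by
  unfold nrm
  rw [map_prod]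
  apply Finset.prod_congr rfl
  intro i _
  have : σ ^ i * σ = σ * σ ^ i := (Commute.pow_self σ i).eq
  exact DFunLike.congr_fun this c

/-- the norm as a homomorphism of unit groups -/
def Nh (σ : RingAut F) (r : ℕ) : Fˣ →* Fˣ :=
  MonoidHom.mk' (fun u => Units.mk0 (nrm σ r u) (nrm_ne_zero σ r u.ne_zero)) (by
    intro a b
    apply Units.ext
    exact nrm_mul σ r a b)

/-- `u ↦ u / σ u` -/
def Dh (σ : RingAut F) : Fˣ →* Fˣ :=
  MonoidHom.mk' (fun u => u * (Units.map (σ : F →* F) u)⁻¹) (by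
    intro a b
    rw [map_mul, mul_inv]
    exact mul_mul_mul_comm _ _ _ _)

theorem Nh_val (σ : RingAut F) (r : ℕ) (u : Fˣ) : ((Nh σ r u : Fˣ) : F) = nrm σ r u := rfl

theorem mem_ker_Dh (σ : RingAut F) (u : Fˣ) : u ∈ (Dh σ).ker ↔ σ (u : F) = u := by
  rw [MonoidHom.mem_ker]
  change u * (Units.map (σ : F →* F) u)⁻¹ = 1 ↔ _
  rw [mul_inv_eq_one, Units.ext_iff]
  exact eq_comm

theorem ker_Nh (σ : RingAut F) {r : ℕ} (hr : orderOf σ = r) (hr0 : 0 < r) : (Nh σ r).ker = (Dh σ).range := by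
  have hσ : σ ^ r = 1 := by rw [← hr]; exact pow_orderOf_eq_one σ
  ext u
  rw [MonoidHom.mem_ker, MonoidHom.mem_range]
  constructor
  · intro h
    have h1 : nrm σ r u = 1 := congrArg Units.val h
    obtain ⟨b, hb0, hb⟩ := h90_scalar σ hr hr0 u h1
    refine ⟨Units.mk0 b hb0, ?_⟩
    change Units.mk0 b hb0 * (Units.map (σ : F →* F) (Units.mk0 b hb0))⁻¹ = u
    rw [mul_inv_eq_iff_eq_mul]
    apply Units.ext
    exact hb.symm
  · rintro ⟨b, rfl⟩
    change Nh σ r (b * (Units.map (σ : F →* F) b)⁻¹) = 1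
    rw [map_mul, map_inv, mul_inv_eq_one]
    apply Units.ext
    change nrm σ r b = nrm σ r (σ b)
    rw [nrm_map, nrm_fix σ hσ]

theorem range_Nh [Finite F] (σ : RingAut F) {r : ℕ} (hr : orderOf σ = r) (hr0 : 0 < r) :
    (Nh σ r).range = (Dh σ).ker := by
  have hσ : σ ^ r = 1 := by rw [← hr]; exact pow_orderOf_eq_one σ
  apply Subgroup.eq_of_le_of_card_ge
  · rintro _ ⟨u, rfl⟩
    rw [mem_ker_Dh]
    exact nrm_fix σ hσ u
  · have h1 := (Nh σ r).ker.card_mul_index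
    have h2 := (Dh σ).ker.card_mul_index
    rw [Subgroup.index_ker] at h1 h2
    rw [ker_Nh σ hr hr0, ← h2, mul_comm] at h1
    have hpos : 0 < Nat.card (Dh σ).range := Nat.card_pos
    exact le_of_eq (Nat.eq_of_mul_eq_mul_right hpos h1).symm

/-- surjectivity of the norm onto the fixed field. -/
theorem nrm_surj [Finite F] (σ : RingAut F) {r : ℕ} (hr : orderOf σ = r) (hr0 : 0 < r) (c : F) (hc0 : c ≠ 0)
    (hc : σ c = c) : ∃ μ : F, μ ≠ 0 ∧ nrm σ r μ = c := by
  have h1 : Units.mk0 c hc0 ∈ (Nh σ r).range := by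
    rw [range_Nh σ hr hr0, mem_ker_Dh]
    exact hc
  obtain ⟨u, hu⟩ := h1
  exact ⟨u, u.ne_zero, congrArg Units.val hu⟩

end Cfsg.Agent.Lib.Helper4.H90
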