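import Mathlib
import Cfsg.Agent.Lib.Helper4.SL2Class2

set_option autoImplicit false

namespace Cfsg.Agent.Lib.Helper4.PSL2Aut

open Matrix Cfsg.Agent.Lib.Helper4.SL2Eigen Cfsg.Agent.Lib.Helper4.SL2Conj Cfsg.Agent.Lib.Helper4.GL2Conj
  Cfsg.Agent.Lib.Helper4.PSL2Spec Cfsg.Agent.Lib.Helper4.SL2Prod Cfsg.Agent.Lib.Helper4.SL2Class

variable {F : Type*} [Field F]

/-- upper unitriangular -/
def u (b : F) : SpecialLinearGroup (Fin 2) F := ⟨!![1, b; 0, 1], by simp [Matrix.det_fin_two_of]⟩
/-- lower unitriangular -/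
def l (b : F) : SpecialLinearGroup (Fin 2) F := ⟨!![1, 0; b, 1], by simp [Matrix.det_fin_two_of]⟩

theorem u_val (b : F) : (u b).1 = !![1, b; 0, 1] := rfl
theorem l_val (b : F) : (l b).1 = !![1, 0; b, 1] := rfl

theorem u_add (a b : F) : u (a + b) = u a * u b := by
  apply Subtype.ext
  change _ = (u a).1 * (u b).1
  rw [u_val, u_val, u_val, Matrix.mul_fin_two]
  simp [add_comm]

theorem l_add (a b : F) : l (a + b) = l a * l b := by
  apply Subtype.ext
  change _ = (l a).1 * (l b).1
  rw [l_val, l_val, l_val, Matrix.mul_fin_two]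
  simp

theorem u_zero : u (0 : F) = 1 := by
  apply Subtype.ext
  change (u 0).1 = (1 : Matrix (Fin 2) (Fin 2) F)
  rw [u_val, Matrix.one_fin_two]

theorem l_zero : l (0 : F) = 1 := by
  apply Subtype.ext
  change (l 0).1 = (1 : Matrix (Fin 2) (Fin 2) F)
  rw [l_val, Matrix.one_fin_two]

theorem u_inv (b : F) : (u b)⁻¹ = u (-b) := by
  rw [inv_eq_iff_mul_eq_one, ← u_add, add_neg_cancel, u_zero]

theorem l_inv (b : F) : (l b)⁻¹ = l (-b) := by
  rw [inv_eq_iff_mul_eq_one, ← l_add, add_neg_cancel, l_zero]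

/-- explicit form of `SL₂` elements -/
theorem eta (g : SpecialLinearGroup (Fin 2) F) : g.1 = !![g.1 0 0, g.1 0 1; g.1 1 0, g.1 1 1] :=
  Matrix.eta_fin_two _

theorem conj_val (P A : SpecialLinearGroup (Fin 2) F) :
    (P * A * P⁻¹).1 = P.1 * A.1 * Matrix.adjugate P.1 := by
  rw [← Matrix.SpecialLinearGroup.coe_inv]; rfl

/-- `g u(e) g⁻¹` -/
theorem conj_u (g : SpecialLinearGroup (Fin 2) F) (e : F) :
    (g * u e * g⁻¹).1 = !![1 - e * g.1 0 0 * g.1 1 0, e * g.1 0 0 ^ 2; -e * g.1 1 0 ^ 2, 1 + e * g.1 0 0 * g.1 1 0] := by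
  have hd := g.2
  rw [Matrix.det_fin_two] at hd
  rw [conj_val, u_val]
  have hg := eta g
  generalize g.1 0 0 = a at *
  generalize g.1 0 1 = b at *
  generalize g.1 1 0 = c at *
  generalize g.1 1 1 = d at *
  rw [hg, Matrix.adjugate_fin_two_of]
  simp only [Matrix.mul_fin_two]
  ext i j
  fin_cases i <;> fin_cases j <;> simp
  · linear_combination hd
  · ring
  · ring
  · linear_combination hd

/-- `g l(e) g⁻¹` -/
theorem conj_l (g : SpecialLinearGroup (Fin 2) F) (e : F) :
    (g * l e * g⁻¹).1 = !![1 + e * g.1 0 1 * g.1 1 1, -e * g.1 0 1 ^ 2; e * g.1 1 1 ^ 2, 1 - e * g.1 0 1 * g.1 1 1] := by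
  have hd := g.2
  rw [Matrix.det_fin_two] at hd
  rw [conj_val, l_val]
  have hg := eta g
  generalize g.1 0 0 = a at *
  generalize g.1 0 1 = b at *
  generalize g.1 1 0 = c at *
  generalize g.1 1 1 = d at *
  rw [hg, Matrix.adjugate_fin_two_of]
  simp only [Matrix.mul_fin_two]
  ext i j
  fin_cases i <;> fin_cases j <;> simp
  · linear_combination hd
  · ring
  · ring
  · linear_combination hd

/-- `u(a) l(c) u(a)` -/
theorem ulu_val (a c : F) : (u a * l c * u a).1 = !![1 + a * c, a * (2 + a * c); c, 1 + a * c] := by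
  change (u a).1 * (l c).1 * (u a).1 = _
  rw [u_val, l_val]
  simp only [Matrix.mul_fin_two]
  ext i j
  fin_cases i <;> fin_cases j <;> simp <;> ring

/-- `SL₂` is generated by the two unitriangular subgroups. -/
theorem closure_u_l : Subgroup.closure (Set.range (u : F → _) ∪ Set.range (l : F → _)) = ⊤ := by
  rw [eq_top_iff]
  have hu : ∀ b : F, u b ∈ Subgroup.closure (Set.range (u : F → _) ∪ Set.range (l : F → _)) :=
    fun b => Subgroup.subset_closure (Or.inl ⟨b, rfl⟩)
  have hl : ∀ b : F, l b ∈ Subgroup.closure (Set.range (u : F → _) ∪ Set.range (l : F → _)) :=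
    fun b => Subgroup.subset_closure (Or.inr ⟨b, rfl⟩)
  have key : ∀ g : SpecialLinearGroup (Fin 2) F, g.1 1 0 ≠ 0 →
      g ∈ Subgroup.closure (Set.range (u : F → _) ∪ Set.range (l : F → _)) := by
    intro g hc
    have : g = u ((g.1 0 0 - 1) / g.1 1 0) * l (g.1 1 0) * u ((g.1 1 1 - 1) / g.1 1 0) := by
      apply Subtype.ext
      change g.1 = (u _).1 * (l _).1 * (u _).1
      have hd := g.2
      rw [Matrix.det_fin_two] at hd
      rw [u_val, l_val, u_val]
      have hg := eta g
      generalize g.1 0 0 = a at *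
      generalize g.1 0 1 = b at *
      generalize g.1 1 0 = c at *
      generalize g.1 1 1 = d at *
      rw [hg]
      simp only [Matrix.mul_fin_two]
      ext i j
      fin_cases i <;> fin_cases j <;> simp
      · field_simp; ring
      · field_simp
        linear_combination -hd
      · field_simp; ring
    rw [this]
    exact Subgroup.mul_mem _ (Subgroup.mul_mem _ (hu _) (hl _)) (hu _)
  intro g _
  by_cases hc : g.1 1 0 = 0
  · have h1 : (l 1 * g).1 1 0 ≠ 0 := by
      change ((l 1).1 * g.1 : Matrix (Fin 2) (Fin 2) F) 1 0 ≠ 0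
      rw [l_val]
      simp [Matrix.mul_apply, Fin.sum_univ_two, hc]
      intro h0
      have hd := g.2
      rw [Matrix.det_fin_two, h0, hc] at hd
      simp at hd
    have h2 := key _ h1
    have : g = (l 1)⁻¹ * (l 1 * g) := by group
    rw [this]
    exact Subgroup.mul_mem _ (Subgroup.inv_mem _ (hl 1)) h2
  · exact key g hc

/-- automorphisms of a group induce automorphisms of the central quotient -/
noncomputable def liftAut {S : Type*} [Group S] : MulAut S →* MulAut (S ⧸ Subgroup.center S) :=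
  MonoidHom.mk' (fun e => QuotientGroup.congr _ _ e
    (Subgroup.characteristic_iff_map_eq.1 inferInstance e)) (by
    intro a b
    ext x
    induction x using QuotientGroup.induction_on
    rfl)

theorem liftAut_mk {S : Type*} [Group S] (e : MulAut S) (g : S) :
    liftAut e (QuotientGroup.mk g) = QuotientGroup.mk (e g) := rfl

def conjFun (P : GL (Fin 2) F) (g : SpecialLinearGroup (Fin 2) F) : SpecialLinearGroup (Fin 2) F :=
  ⟨P.1 * g.1 * (P⁻¹).1, by
    rw [Matrix.det_mul, Matrix.det_mul, g.2, mul_one, ← Matrix.det_mul, Units.mul_inv, Matrix.det_one]⟩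

theorem conjFun_val (P : GL (Fin 2) F) (g : SpecialLinearGroup (Fin 2) F) :
    (conjFun P g).1 = P.1 * g.1 * (P⁻¹).1 := rfl

theorem conjFun_mul (P Q : GL (Fin 2) F) (g : SpecialLinearGroup (Fin 2) F) :
    conjFun (P * Q) g = conjFun P (conjFun Q g) := by
  apply Subtype.ext
  rw [conjFun_val, conjFun_val, conjFun_val, _root_.mul_inv_rev]
  simp only [Units.val_mul, mul_assoc]

theorem conjFun_one (g : SpecialLinearGroup (Fin 2) F) : conjFun 1 g = g := by
  apply Subtype.ext
  rw [conjFun_val]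
  simp

/-- conjugation action of `GL₂` on `SL₂` -/
def conjSL : GL (Fin 2) F →* MulAut (SpecialLinearGroup (Fin 2) F) where
  toFun P :=
    { toFun := conjFun P
      invFun := conjFun P⁻¹
      left_inv := fun g => by rw [← conjFun_mul, inv_mul_cancel, conjFun_one]
      right_inv := fun g => by rw [← conjFun_mul, mul_inv_cancel, conjFun_one]
      map_mul' := fun g h => by
        apply Subtype.ext
        change P.1 * (g.1 * h.1) * (P⁻¹).1 = (P.1 * g.1 * (P⁻¹).1) * (P.1 * h.1 * (P⁻¹).1)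
        have : (P⁻¹).1 * P.1 = 1 := Units.inv_mul P
        calc P.1 * (g.1 * h.1) * (P⁻¹).1 = P.1 * g.1 * 1 * h.1 * (P⁻¹).1 := by
              simp only [mul_one, mul_assoc]
          _ = _ := by rw [← this]; simp only [mul_assoc] }
  map_one' := by
    ext g : 1
    exact conjFun_one g
  map_mul' P Q := by
    ext g : 1
    exact conjFun_mul P Q g

theorem conjSL_val (P : GL (Fin 2) F) (g : SpecialLinearGroup (Fin 2) F) :
    (conjSL P g).1 = P.1 * g.1 * (P⁻¹).1 := rfl

theorem trace_conjSL (P : GL (Fin 2) F) (g : SpecialLinearGroup (Fin 2) F) :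
    (conjSL P g).1.trace = g.1.trace := by
  rw [conjSL_val, Matrix.trace_mul_cycle, Units.inv_mul, one_mul]

/-- entrywise action of a field automorphism -/
def mapSL (σ : F ≃+* F) : MulAut (SpecialLinearGroup (Fin 2) F) where
  toFun := SpecialLinearGroup.map (σ : F →+* F)
  invFun := SpecialLinearGroup.map (σ.symm : F →+* F)
  left_inv g := by
    apply Subtype.ext
    ext i j
    exact σ.symm_apply_apply (g.1 i j)
  right_inv g := by
    apply Subtype.ext
    ext i j
    exact σ.apply_symm_apply (g.1 i j)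
  map_mul' := map_mul _

theorem mapSL_apply (σ : F ≃+* F) (g : SpecialLinearGroup (Fin 2) F) (i j : Fin 2) :
    (mapSL σ g).1 i j = σ (g.1 i j) := rfl

theorem trace_mapSL (σ : F ≃+* F) (g : SpecialLinearGroup (Fin 2) F) :
    (mapSL σ g).1.trace = σ g.1.trace := by
  rw [Matrix.trace_fin_two, Matrix.trace_fin_two, map_add]
  rfl

theorem mapSL_u (σ : F ≃+* F) (b : F) : mapSL σ (u b) = u (σ b) := by
  apply Subtype.ext
  ext i j
  rw [mapSL_apply, u_val, u_val]
  fin_cases i <;> fin_cases j <;> simp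

theorem mapSL_l (σ : F ≃+* F) (b : F) : mapSL σ (l b) = l (σ b) := by
  apply Subtype.ext
  ext i j
  rw [mapSL_apply, l_val, l_val]
  fin_cases i <;> fin_cases j <;> simp

/-- `diag(e, 1)` -/
noncomputable def dg (e : F) (he : e ≠ 0) : GL (Fin 2) F :=
  ⟨!![e, 0; 0, 1], !![e⁻¹, 0; 0, 1], by
    rw [Matrix.mul_fin_two, Matrix.one_fin_two]; simp [he], by
    rw [Matrix.mul_fin_two, Matrix.one_fin_two]; simp [he]⟩

theorem conjSL_dg_u (e : F) (he : e ≠ 0) (b : F) : conjSL (dg e he) (u b) = u (e * b) := by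
  apply Subtype.ext
  change (!![e, 0; 0, 1] : Matrix (Fin 2) (Fin 2) F) * (u b).1 * !![e⁻¹, 0; 0, 1] = (u (e * b)).1
  rw [u_val, u_val]
  simp only [Matrix.mul_fin_two]
  simp [he]

theorem conjSL_dg_l (e : F) (he : e ≠ 0) (b : F) : conjSL (dg e he) (l b) = l (e⁻¹ * b) := by
  apply Subtype.ext
  change (!![e, 0; 0, 1] : Matrix (Fin 2) (Fin 2) F) * (l b).1 * !![e⁻¹, 0; 0, 1] = (l (e⁻¹ * b)).1
  rw [l_val, l_val]
  simp only [Matrix.mul_fin_two]
  simp [he, mul_comm]

theorem conjSL_toGL (s g : SpecialLinearGroup (Fin 2) F) :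
    conjSL (SpecialLinearGroup.toGL s) g = s * g * s⁻¹ := by
  apply Subtype.ext
  rw [conjSL_val, ← map_inv]
  rfl

/-- the automorphism of `PSL₂` induced by conjugation with an element of `GL₂` -/
noncomputable def cbar : GL (Fin 2) F →* MulAut (ProjectiveSpecialLinearGroup (Fin 2) F) :=
  liftAut.comp conjSL

/-- the automorphism of `PSL₂` induced by a field automorphism -/
noncomputable def fbar (σ : F ≃+* F) : MulAut (ProjectiveSpecialLinearGroup (Fin 2) F) :=
  liftAut (mapSL σ)

theorem cbar_mk (P : GL (Fin 2) F) (g : SpecialLinearGroup (Fin 2) F) :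
    cbar P (QuotientGroup.mk g) = QuotientGroup.mk (conjSL P g) := rfl

theorem fbar_mk (σ : F ≃+* F) (g : SpecialLinearGroup (Fin 2) F) :
    fbar σ (QuotientGroup.mk g) = QuotientGroup.mk (mapSL σ g) := rfl

theorem cbar_toGL (s : SpecialLinearGroup (Fin 2) F) :
    cbar (SpecialLinearGroup.toGL s) = MulAut.conj (QuotientGroup.mk s) := by
  ext x
  induction x using QuotientGroup.induction_on with
  | H g =>
    rw [cbar_mk, conjSL_toGL, MulAut.conj_apply]
    rfl

theorem exists_GL_conj (M N : SpecialLinearGroup (Fin 2) F)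
    (hM : ∀ c : F, M.1 ≠ c • (1 : Matrix (Fin 2) (Fin 2) F))
    (hN : ∀ c : F, N.1 ≠ c • (1 : Matrix (Fin 2) (Fin 2) F)) (htr : M.1.trace = N.1.trace) :
    ∃ P : GL (Fin 2) F, conjSL P M = N := by
  let gM : GL (Fin 2) F := Matrix.GeneralLinearGroup.mkOfDetNeZero M.1 (by rw [M.2]; exact one_ne_zero)
  let gN : GL (Fin 2) F := Matrix.GeneralLinearGroup.mkOfDetNeZero N.1 (by rw [N.2]; exact one_ne_zero)
  have h1 := isConj_compGL gM hM
  have h2 := isConj_compGL gN hN
  have hd1 : Matrix.GeneralLinearGroup.det gM = 1 := Units.ext M.2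
  have hd2 : Matrix.GeneralLinearGroup.det gN = 1 := Units.ext N.2
  rw [hd1] at h1; rw [hd2] at h2
  have e : gM.1.trace = gN.1.trace := htr
  rw [e] at h1
  obtain ⟨P, hP⟩ := isConj_iff.1 (h1.trans h2.symm)
  exact ⟨P, Subtype.ext (congrArg Units.val hP)⟩

theorem nonscalar_of_mk_ne_one (G : SpecialLinearGroup (Fin 2) F)
    (hg : (QuotientGroup.mk G : ProjectiveSpecialLinearGroup (Fin 2) F) ≠ 1) :
    ∀ c : F, G.1 ≠ c • (1 : Matrix (Fin 2) (Fin 2) F) := by
  intro c hc
  apply hg
  rw [QuotientGroup.eq_one_iff, Matrix.SpecialLinearGroup.mem_center_iff]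
  refine ⟨c, ?_, ?_⟩
  · have hdet := G.2
    rw [hc, Matrix.det_smul, Matrix.det_one, mul_one] at hdet
    exact hdet
  · rw [hc]
    ext i j
    fin_cases i <;> fin_cases j <;> simp

/-- equality in `PSL₂` -/
theorem mk_eq_mk_iff (g h : SpecialLinearGroup (Fin 2) F) :
    (QuotientGroup.mk g : ProjectiveSpecialLinearGroup (Fin 2) F) = QuotientGroup.mk h ↔
      h = g ∨ h = negOne F * g := by
  rw [QuotientGroup.eq, mem_center_iff']
  constructor
  · rintro (h1 | h1)
    · left; exact (inv_mul_eq_one.1 h1).symm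
    · right
      rw [← negOne_comm, ← h1, mul_inv_cancel_left]
  · rintro (rfl | rfl)
    · left; group
    · right
      rw [← negOne_comm]; group

theorem negOne_mul_val (g : SpecialLinearGroup (Fin 2) F) : (negOne F * g).1 = -g.1 := by
  change (-1 : Matrix (Fin 2) (Fin 2) F) * g.1 = _
  simp

end Cfsg.Agent.Lib.Helper4.PSL2Aut
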