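import Mathlib
import Cfsg.Agent.Lib.Helper4.PSL2Aut

set_option autoImplicit false

namespace Cfsg.Agent.Lib.Helper4.PSL2Aut

open Matrix Cfsg.Agent.Lib.Helper4.SL2Eigen Cfsg.Agent.Lib.Helper4.SL2Conj Cfsg.Agent.Lib.Helper4.GL2Conj
  Cfsg.Agent.Lib.Helper4.PSL2Spec Cfsg.Agent.Lib.Helper4.SL2Prod Cfsg.Agent.Lib.Helper4.SL2Class

variable {F : Type*} [Field F]

local notation "PSL" => ProjectiveSpecialLinearGroup (Fin 2) F
local notation "SL" => SpecialLinearGroup (Fin 2) F

/-- elements of order `p` lift to unipotent elements -/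
theorem exists_unip_lift [Fintype F] (p : ℕ) [Fact p.Prime] [CharP F p] (x : PSL) (hx1 : x ≠ 1)
    (hxp : x ^ p = 1) :
    ∃ X : SL, (QuotientGroup.mk X : PSL) = x ∧ X.1.trace = 2 ∧
      ∀ c : F, X.1 ≠ c • (1 : Matrix (Fin 2) (Fin 2) F) := by
  classical
  have hp : p.Prime := Fact.out
  obtain ⟨X₀, rfl⟩ := QuotientGroup.mk_surjective x
  have hord : orderOf (QuotientGroup.mk X₀ : PSL) = p := orderOf_eq_prime hxp hx1
  obtain ⟨k, -, hk⟩ := FiniteField.card F p
  have hpq : p ∣ Fintype.card F := by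
    rw [hk]; exact dvd_pow_self p k.ne_zero
  have hq1 : 1 ≤ Fintype.card F := Fintype.card_pos
  rcases trichotomy rfl X₀ with h | h | h | h
  · exfalso
    have h1 : (QuotientGroup.mk X₀ : PSL) ^ (Fintype.card F - 1) = 1 := by
      rw [← QuotientGroup.mk_pow, h]; rfl
    have h2 := orderOf_dvd_of_pow_eq_one h1
    rw [hord] at h2
    have h3 : p ∣ 1 := by
      have := (Nat.dvd_sub hpq h2)
      rwa [Nat.sub_sub_self hq1] at this
    exact hp.one_lt.ne' (Nat.dvd_one.1 h3)
  · exfalso
    have h1 : (QuotientGroup.mk X₀ : PSL) ^ (Fintype.card F + 1) = 1 := by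
      rw [← QuotientGroup.mk_pow, h]; rfl
    have h2 := orderOf_dvd_of_pow_eq_one h1
    rw [hord] at h2
    have h3 : p ∣ 1 := by
      have := (Nat.dvd_sub h2 hpq)
      rwa [Nat.add_sub_cancel_left] at this
    exact hp.one_lt.ne' (Nat.dvd_one.1 h3)
  · exact ⟨X₀, rfl, h, nonscalar_of_mk_ne_one X₀ hx1⟩
  · refine ⟨negOne F * X₀, mk_negOne_mul X₀, by rw [trace_negOne_mul, h, neg_neg], ?_⟩
    apply nonscalar_of_mk_ne_one
    rw [mk_negOne_mul]; exact hx1

theorem mk_u_injective : Function.Injective (fun b : F => (QuotientGroup.mk (u b) : PSL)) := by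
  intro a b h
  rcases (mk_eq_mk_iff _ _).1 h with h1 | h1
  · have := congrFun (congrFun (congrArg Subtype.val h1) 0) 1
    rw [u_val, u_val] at this
    simpa using this.symm
  · have h2 := congrArg Subtype.val h1
    rw [negOne_mul_val, u_val, u_val] at h2
    have e00 := congrFun (congrFun h2 0) 0
    have e01 := congrFun (congrFun h2 0) 1
    simp at e00 e01
    -- 1 = -1
    have : a = -a := by linear_combination a * e00
    rw [this, e01]

theorem mk_l_injective : Function.Injective (fun b : F => (QuotientGroup.mk (l b) : PSL)) := by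
  intro a b h
  rcases (mk_eq_mk_iff _ _).1 h with h1 | h1
  · have := congrFun (congrFun (congrArg Subtype.val h1) 1) 0
    rw [l_val, l_val] at this
    simpa using this.symm
  · have h2 := congrArg Subtype.val h1
    rw [negOne_mul_val, l_val, l_val] at h2
    have e00 := congrFun (congrFun h2 0) 0
    have e10 := congrFun (congrFun h2 1) 0
    simp at e00 e10
    have : a = -a := by linear_combination a * e00
    rw [this, e10]

/-- the centralizer of a nontrivial upper unitriangular element -/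
theorem centralizer_u (c : F) (hc : c ≠ 0) (y : PSL)
    (hy : y * QuotientGroup.mk (u c) = QuotientGroup.mk (u c) * y) :
    ∃ b : F, y = QuotientGroup.mk (u b) := by
  obtain ⟨h, rfl⟩ := QuotientGroup.mk_surjective y
  have h1 : (QuotientGroup.mk (h * u c * h⁻¹) : PSL) = QuotientGroup.mk (u c) := by
    rw [QuotientGroup.mk_mul, QuotientGroup.mk_mul, hy, QuotientGroup.mk_inv]
    group
  have hd := h.2
  rw [Matrix.det_fin_two] at hd
  have key : h.1 1 0 = 0 ∧ h.1 0 0 ^ 2 = 1 := by
    rcases (mk_eq_mk_iff _ _).1 h1 with h2 | h2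
    · have h3 := congrArg Subtype.val h2
      rw [conj_u, u_val] at h3
      have e10 := congrFun (congrFun h3 1) 0
      have e01 := congrFun (congrFun h3 0) 1
      simp at e10 e01
      refine ⟨e10.resolve_left hc, ?_⟩
      exact (mul_left_cancel₀ hc (by linear_combination -e01 : c * h.1 0 0 ^ 2 = c * 1))
    · have h3 := congrArg Subtype.val h2
      rw [negOne_mul_val, conj_u, u_val] at h3
      have e10 := congrFun (congrFun h3 1) 0
      have e01 := congrFun (congrFun h3 0) 1
      have e00 := congrFun (congrFun h3 0) 0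
      simp at e10 e01 e00
      have h10 := e10.resolve_left hc
      rw [h10] at e00
      refine ⟨h10, ?_⟩
      apply mul_left_cancel₀ hc
      linear_combination e01 - c * e00
  obtain ⟨h10, h00⟩ := key
  rw [h10] at hd
  have h11 : h.1 1 1 = h.1 0 0 := by
    linear_combination h.1 0 0 * hd - h.1 1 1 * h00
  have h5 : (h.1 0 0 - 1) * (h.1 0 0 + 1) = 0 := by linear_combination h00
  rcases mul_eq_zero.1 h5 with h6 | h6
  · refine ⟨h.1 0 1, ?_⟩
    congr 1
    apply Subtype.ext
    rw [u_val]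
    ext i j
    fin_cases i <;> fin_cases j <;> simp [h10, h11, sub_eq_zero.1 h6]
  · refine ⟨-h.1 0 1, ?_⟩
    rw [← mk_negOne_mul (u _)]
    congr 1
    apply Subtype.ext
    rw [negOne_mul_val, u_val]
    ext i j
    fin_cases i <;> fin_cases j <;> simp [h10, h11, eq_neg_of_add_eq_zero_left h6]

/-- the centralizer of a nontrivial lower unitriangular element -/
theorem centralizer_l (c : F) (hc : c ≠ 0) (y : PSL)
    (hy : y * QuotientGroup.mk (l c) = QuotientGroup.mk (l c) * y) :
    ∃ b : F, y = QuotientGroup.mk (l b) := by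
  obtain ⟨h, rfl⟩ := QuotientGroup.mk_surjective y
  have h1 : (QuotientGroup.mk (h * l c * h⁻¹) : PSL) = QuotientGroup.mk (l c) := by
    rw [QuotientGroup.mk_mul, QuotientGroup.mk_mul, hy, QuotientGroup.mk_inv]
    group
  have hd := h.2
  rw [Matrix.det_fin_two] at hd
  have key : h.1 0 1 = 0 ∧ h.1 1 1 ^ 2 = 1 := by
    rcases (mk_eq_mk_iff _ _).1 h1 with h2 | h2
    · have h3 := congrArg Subtype.val h2
      rw [conj_l, l_val] at h3
      have e10 := congrFun (congrFun h3 1) 0
      have e01 := congrFun (congrFun h3 0) 1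
      simp at e10 e01
      refine ⟨e01.resolve_left hc, ?_⟩
      exact (mul_left_cancel₀ hc (by linear_combination -e10 : c * h.1 1 1 ^ 2 = c * 1))
    · have h3 := congrArg Subtype.val h2
      rw [negOne_mul_val, conj_l, l_val] at h3
      have e10 := congrFun (congrFun h3 1) 0
      have e01 := congrFun (congrFun h3 0) 1
      have e00 := congrFun (congrFun h3 0) 0
      simp at e10 e01 e00
      have h01 := e01.resolve_left hc
      rw [h01] at e00
      refine ⟨h01, ?_⟩
      apply mul_left_cancel₀ hc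
      linear_combination e10 - c * e00
  obtain ⟨h01, h11⟩ := key
  rw [h01] at hd
  have h00 : h.1 0 0 = h.1 1 1 := by
    linear_combination h.1 1 1 * hd - h.1 0 0 * h11
  have h5 : (h.1 1 1 - 1) * (h.1 1 1 + 1) = 0 := by linear_combination h11
  rcases mul_eq_zero.1 h5 with h6 | h6
  · refine ⟨h.1 1 0, ?_⟩
    congr 1
    apply Subtype.ext
    rw [l_val]
    ext i j
    fin_cases i <;> fin_cases j <;> simp [h01, h00, sub_eq_zero.1 h6]
  · refine ⟨-h.1 1 0, ?_⟩
    rw [← mk_negOne_mul (l _)]
    congr 1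
    apply Subtype.ext
    rw [negOne_mul_val, l_val]
    ext i j
    fin_cases i <;> fin_cases j <;> simp [h01, h00, eq_neg_of_add_eq_zero_left h6]

theorem u_pow (b : F) (n : ℕ) : (u b) ^ n = u (n * b) := by
  induction n with
  | zero => simp [u_zero]
  | succ n ih => rw [pow_succ, ih, ← u_add]; congr 1; push_cast; ring

theorem l_pow (b : F) (n : ℕ) : (l b) ^ n = l (n * b) := by
  induction n with
  | zero => simp [l_zero]
  | succ n ih => rw [pow_succ, ih, ← l_add]; congr 1; push_cast; ring

theorem mk_u_ne_one (b : F) (hb : b ≠ 0) : (QuotientGroup.mk (u b) : PSL) ≠ 1 := by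
  intro h
  apply hb
  apply mk_u_injective
  simp only
  rw [h, u_zero]; rfl

theorem mk_l_ne_one (b : F) (hb : b ≠ 0) : (QuotientGroup.mk (l b) : PSL) ≠ 1 := by
  intro h
  apply hb
  apply mk_l_injective
  simp only
  rw [h, l_zero]; rfl

theorem trace_u (b : F) : (u b).1.trace = 2 := by
  rw [u_val, Matrix.trace_fin_two_of]; norm_num

theorem trace_l (b : F) : (l b).1.trace = 2 := by
  rw [l_val, Matrix.trace_fin_two_of]; norm_num

theorem conj_to_l (Y : SL) (ht : Y.1.trace = 2) (h10 : Y.1 1 0 ≠ 0) :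
    u ((1 - Y.1 0 0) / Y.1 1 0) * Y * (u ((1 - Y.1 0 0) / Y.1 1 0))⁻¹ = l (Y.1 1 0) := by
  apply Subtype.ext
  have hd := Y.2
  rw [Matrix.det_fin_two] at hd
  rw [Matrix.trace_fin_two] at ht
  rw [conj_val, u_val, l_val]
  have hg := eta Y
  generalize Y.1 0 0 = a at *
  generalize Y.1 0 1 = b at *
  generalize Y.1 1 0 = c at *
  generalize Y.1 1 1 = d at *
  rw [hg, Matrix.adjugate_fin_two_of]
  simp only [Matrix.mul_fin_two]
  have hd' : d = 2 - a := by linear_combination ht
  subst hd'
  ext i j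
  fin_cases i <;> fin_cases j <;> simp
  · field_simp; ring
  · field_simp
    linear_combination -hd
  · field_simp; ring

/-- an automorphism in standard position: it preserves the two unitriangular subgroups. -/
def Std (α : MulAut PSL) : Prop :=
  (∀ b : F, ∃ b' : F, α (QuotientGroup.mk (u b)) = QuotientGroup.mk (u b')) ∧
  (∀ b : F, ∃ b' : F, α (QuotientGroup.mk (l b)) = QuotientGroup.mk (l b'))

theorem exists_std [Fintype F] (p : ℕ) [Fact p.Prime] [CharP F p] (α : MulAut PSL) :
    ∃ P : GL (Fin 2) F, Std (cbar P * α) := by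
  classical
  have hu1 : (QuotientGroup.mk (u (1 : F)) : PSL) ^ p = 1 := by
    rw [← QuotientGroup.mk_pow, u_pow, CharP.cast_eq_zero F p, zero_mul, u_zero]; rfl
  have hl1 : (QuotientGroup.mk (l (1 : F)) : PSL) ^ p = 1 := by
    rw [← QuotientGroup.mk_pow, l_pow, CharP.cast_eq_zero F p, zero_mul, l_zero]; rfl
  obtain ⟨X, hX, hXt, hXn⟩ := exists_unip_lift p (α (QuotientGroup.mk (u 1)))
    (by
      intro h
      exact mk_u_ne_one (1 : F) one_ne_zero ((map_eq_one_iff α α.injective).1 h))
    (by rw [← map_pow, hu1, map_one])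
  obtain ⟨P, hP⟩ := exists_GL_conj X (u 1) hXn (nonscalar_of_mk_ne_one _ (mk_u_ne_one 1 one_ne_zero))
    (by rw [hXt, trace_u])
  set α₁ := cbar P * α with hα₁
  have h1 : α₁ (QuotientGroup.mk (u 1)) = QuotientGroup.mk (u 1) := by
    rw [hα₁, MulAut.mul_apply, ← hX, cbar_mk, hP]
  have hE1 : ∀ b : F, ∃ b' : F, α₁ (QuotientGroup.mk (u b)) = QuotientGroup.mk (u b') := by
    intro b
    apply centralizer_u 1 one_ne_zero
    rw [← h1, ← map_mul, ← map_mul, ← QuotientGroup.mk_mul, ← QuotientGroup.mk_mul, ← u_add, ← u_add,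
      add_comm]
  obtain ⟨Y, hY, hYt, hYn⟩ := exists_unip_lift p (α₁ (QuotientGroup.mk (l 1)))
    (by
      intro h
      exact mk_l_ne_one (1 : F) one_ne_zero ((map_eq_one_iff α₁ α₁.injective).1 h))
    (by rw [← map_pow, hl1, map_one])
  have hY10 : Y.1 1 0 ≠ 0 := by
    intro h10
    have hd := Y.2
    rw [Matrix.det_fin_two, h10] at hd
    have ht := hYt
    rw [Matrix.trace_fin_two] at ht
    have h00 : Y.1 0 0 = 1 := by
      have : (Y.1 0 0 - 1) ^ 2 = 0 := by linear_combination Y.1 0 0 * ht - hd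
      exact sub_eq_zero.1 (pow_eq_zero_iff (by norm_num) |>.1 this)
    have h11 : Y.1 1 1 = 1 := by linear_combination ht - h00
    have hYu : Y = u (Y.1 0 1) := by
      apply Subtype.ext
      rw [u_val]
      ext i j
      fin_cases i <;> fin_cases j <;> simp [h10, h00, h11]
    -- then l 1 commutes with u 1
    have hcomm : α₁ (QuotientGroup.mk (l 1) * QuotientGroup.mk (u 1)) =
        α₁ (QuotientGroup.mk (u 1) * QuotientGroup.mk (l 1)) := by
      rw [map_mul, map_mul, h1, ← hY, hYu, ← QuotientGroup.mk_mul, ← QuotientGroup.mk_mul, ← u_add, ← u_add,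
        add_comm]
    obtain ⟨b, hb⟩ := centralizer_u 1 one_ne_zero _ (α₁.injective hcomm)
    rcases (mk_eq_mk_iff _ _).1 hb with h2 | h2
    · have := congrFun (congrFun (congrArg Subtype.val h2) 1) 0
      rw [u_val, l_val] at this
      simp at this
    · have h3 := congrArg Subtype.val h2
      rw [negOne_mul_val, u_val, l_val] at h3
      have := congrFun (congrFun h3 1) 0
      simp at this
  set x := (1 - Y.1 0 0) / Y.1 1 0 with hx
  have hconj := conj_to_l Y hYt hY10
  rw [← hx] at hconj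
  refine ⟨SpecialLinearGroup.toGL (u x) * P, ?_⟩
  have hα₂ : cbar (SpecialLinearGroup.toGL (u x) * P) * α = MulAut.conj (QuotientGroup.mk (u x)) * α₁ := by
    rw [map_mul, cbar_toGL, hα₁, mul_assoc]
  rw [hα₂]
  set α₂ : MulAut PSL := MulAut.conj (QuotientGroup.mk (u x)) * α₁ with hα₂'
  have h2 : α₂ (QuotientGroup.mk (l 1)) = QuotientGroup.mk (l (Y.1 1 0)) := by
    rw [MulAut.mul_apply, ← hY, MulAut.conj_apply, ← hconj]
    rfl
  constructor
  · intro b
    obtain ⟨b', hb'⟩ := hE1 b
    refine ⟨b', ?_⟩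
    rw [MulAut.mul_apply, hb', MulAut.conj_apply, ← QuotientGroup.mk_mul, ← QuotientGroup.mk_inv,
      ← QuotientGroup.mk_mul, u_inv, ← u_add, ← u_add]
    congr 2
    ring
  · intro b
    apply centralizer_l _ hY10
    rw [← h2, ← map_mul, ← map_mul, ← QuotientGroup.mk_mul, ← QuotientGroup.mk_mul, ← l_add, ← l_add,
      add_comm]

end Cfsg.Agent.Lib.Helper4.PSL2Aut
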