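import Mathlib
import Cfsg.Agent.Lib.Helper4.PSL2Aut2

set_option autoImplicit false

namespace Cfsg.Agent.Lib.Helper4.PSL2Aut

open Matrix Cfsg.Agent.Lib.Helper4.SL2Eigen Cfsg.Agent.Lib.Helper4.SL2Conj Cfsg.Agent.Lib.Helper4.GL2Conj
  Cfsg.Agent.Lib.Helper4.PSL2Spec Cfsg.Agent.Lib.Helper4.SL2Prod Cfsg.Agent.Lib.Helper4.SL2Class

variable {F : Type*} [Field F]

local notation "PSL" => ProjectiveSpecialLinearGroup (Fin 2) F
local notation "SL" => SpecialLinearGroup (Fin 2) F

theorem conj_u_of_zero (g : SL) (h : g.1 0 0 = 0) (e : F) : g * u e * g⁻¹ = l (-e * g.1 1 0 ^ 2) := by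
  apply Subtype.ext
  rw [conj_u, l_val, h]
  simp

theorem entry_zero_of_conj (g : SL) (e c : F) (he : e ≠ 0)
    (h : (QuotientGroup.mk (g * u e * g⁻¹) : PSL) = QuotientGroup.mk (l c)) : g.1 0 0 = 0 := by
  rcases (mk_eq_mk_iff _ _).1 h with h2 | h2
  · have h3 := congrArg Subtype.val h2
    rw [conj_u, l_val] at h3
    have e01 := congrFun (congrFun h3 0) 1
    simp at e01
    exact e01.resolve_left he
  · have h3 := congrArg Subtype.val h2
    rw [negOne_mul_val, conj_u, l_val] at h3
    have e01 := congrFun (congrFun h3 0) 1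
    simp at e01
    exact e01.resolve_left he

/-- a normalized additive map satisfying the square relation is a field automorphism. -/
theorem exists_ringEquiv [Finite F] (s : F → F) (hadd : ∀ a b, s (a + b) = s a + s b)
    (hinj : Function.Injective s) (h1 : s 1 = 1)
    (hrel : ∀ a b : F, a ≠ 0 → s a ^ 2 * s (a⁻¹ ^ 2 * b) = s b) :
    ∃ σ : F ≃+* F, ∀ a, σ a = s a := by
  classical
  have h0 : s 0 = 0 := by
    have := hadd 0 0
    rw [add_zero] at this
    linear_combination -this
  have hsq : ∀ a, s (a ^ 2) = s a ^ 2 := by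
    intro a
    by_cases ha : a = 0
    · subst ha; simp [h0]
    · have := hrel a (a ^ 2) ha
      have e : a⁻¹ ^ 2 * a ^ 2 = 1 := by field_simp
      rw [e, h1, mul_one] at this
      exact this.symm
  have hsqmul : ∀ a b, s (a ^ 2 * b) = s a ^ 2 * s b := by
    intro a b
    by_cases ha : a = 0
    · subst ha; simp [h0]
    · have := hrel a (a ^ 2 * b) ha
      have e : a⁻¹ ^ 2 * (a ^ 2 * b) = b := by field_simp
      rw [e] at this
      exact this.symm
  have hmul : ∀ a b, s (a * b) = s a * s b := by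
    intro a b
    by_cases h2 : (2 : F) = 0
    · have : CharP F 2 := CharTwo.of_one_ne_zero_of_two_eq_zero one_ne_zero h2
      obtain ⟨c, hc⟩ := FiniteField.isSquare_of_char_two (ringChar.eq F 2) a
      have hc' : a = c ^ 2 := by rw [hc, sq]
      rw [hc', hsqmul, hsq]
    · have e1 := hsq (a + b)
      have e2 : (a + b) ^ 2 = a ^ 2 + (a * b + a * b) + b ^ 2 := by ring
      rw [e2, hadd, hadd, hadd, hadd, hsq, hsq] at e1
      have : 2 * s (a * b) = 2 * (s a * s b) := by linear_combination e1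
      exact mul_left_cancel₀ h2 this
  let f : F →+* F :=
    { toFun := s
      map_one' := h1
      map_mul' := hmul
      map_zero' := h0
      map_add' := hadd }
  have hbij : Function.Bijective f := ⟨hinj, Finite.surjective_of_injective hinj⟩
  exact ⟨RingEquiv.ofBijective f hbij, fun a => rfl⟩

theorem std_eq [Finite F] (α : MulAut PSL) (hα : Std α) :
    ∃ (e : F) (he : e ≠ 0) (σ : F ≃+* F), α = cbar (dg e he) * fbar σ := by
  classical
  obtain ⟨h1, h2⟩ := hα
  choose φ hφ using h1
  choose ψ hψ using h2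
  have φadd : ∀ a b, φ (a + b) = φ a + φ b := by
    intro a b
    apply mk_u_injective
    simp only
    rw [← hφ, u_add, QuotientGroup.mk_mul, map_mul, hφ, hφ, ← QuotientGroup.mk_mul, ← u_add]
  have ψadd : ∀ a b, ψ (a + b) = ψ a + ψ b := by
    intro a b
    apply mk_l_injective
    simp only
    rw [← hψ, l_add, QuotientGroup.mk_mul, map_mul, hψ, hψ, ← QuotientGroup.mk_mul, ← l_add]
  have φinj : Function.Injective φ := by
    intro a b hab
    apply mk_u_injective
    apply α.injective
    simp only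
    rw [hφ, hφ, hab]
  have φ0 : φ 0 = 0 := by
    have := φadd 0 0
    rw [add_zero] at this
    linear_combination -this
  have ψ0 : ψ 0 = 0 := by
    have := ψadd 0 0
    rw [add_zero] at this
    linear_combination -this
  have φneg : ∀ a, φ (-a) = -φ a := by
    intro a
    have := φadd a (-a)
    rw [add_neg_cancel, φ0] at this
    linear_combination -this
  have ψneg : ∀ a, ψ (-a) = -ψ a := by
    intro a
    have := ψadd a (-a)
    rw [add_neg_cancel, ψ0] at this
    linear_combination -this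
  have φne : ∀ a, a ≠ 0 → φ a ≠ 0 := by
    intro a ha h
    apply ha
    apply φinj
    rw [h, φ0]
  set e := φ 1 with he
  have he0 : e ≠ 0 := φne 1 one_ne_zero
  -- the key relation
  have key : ∀ a b : F, a ≠ 0 → 1 + φ a * ψ (-a⁻¹) = 0 ∧ ψ (-b * a⁻¹ ^ 2) = -φ b * ψ (-a⁻¹) ^ 2 := by
    intro a b ha
    set W : SL := u a * l (-a⁻¹) * u a with hW
    set W' : SL := u (φ a) * l (ψ (-a⁻¹)) * u (φ a) with hW'
    have hW00 : W.1 0 0 = 0 := by
      rw [hW, ulu_val]
      simp [ha]
    have hW10 : W.1 1 0 = -a⁻¹ := by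
      rw [hW, ulu_val]
      simp
    have hαW : α (QuotientGroup.mk W) = QuotientGroup.mk W' := by
      rw [hW, hW', QuotientGroup.mk_mul, QuotientGroup.mk_mul, map_mul, map_mul, hφ, hψ]
      rfl
    have hrel : ∀ b : F, (QuotientGroup.mk (W' * u (φ b) * W'⁻¹) : PSL) =
        QuotientGroup.mk (l (ψ (-b * a⁻¹ ^ 2))) := by
      intro b
      have e1 := conj_u_of_zero W hW00 b
      rw [hW10] at e1
      have e2 : α (QuotientGroup.mk (W * u b * W⁻¹)) = α (QuotientGroup.mk (l (-b * (-a⁻¹) ^ 2))) := by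
        rw [e1]
      rw [QuotientGroup.mk_mul, QuotientGroup.mk_mul, QuotientGroup.mk_inv, map_mul, map_mul, map_inv, hαW,
        hφ, hψ] at e2
      rw [neg_sq] at e2
      exact e2
    have hW'00 : W'.1 0 0 = 0 := entry_zero_of_conj W' (φ 1) _ he0 (hrel 1)
    have hW'10 : W'.1 1 0 = ψ (-a⁻¹) := by
      rw [hW', ulu_val]
      simp
    refine ⟨?_, ?_⟩
    · rw [hW', ulu_val] at hW'00
      simpa using hW'00
    · have e3 := hrel b
      rw [conj_u_of_zero W' hW'00, hW'10] at e3
      exact (mk_l_injective e3).symm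
  have hψφ : ∀ b, ψ b = φ b / e ^ 2 := by
    intro b
    obtain ⟨k1, k2⟩ := key 1 (-b) one_ne_zero
    simp only [inv_one, one_pow, mul_one, neg_neg] at k1 k2
    rw [← he] at k1
    have hψ1 : ψ (-1) = -e⁻¹ := by
      field_simp
      linear_combination k1
    rw [k2, hψ1, φneg]
    field_simp
  have hrel : ∀ a b : F, a ≠ 0 → (φ a / e) ^ 2 * (φ (a⁻¹ ^ 2 * b) / e) = φ b / e := by
    intro a b ha
    obtain ⟨k1, k2⟩ := key a (-b) ha
    have hφa := φne a ha
    have hψ1 : ψ (-a⁻¹) = -(φ a)⁻¹ := by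
      have hinv : φ a * (φ a)⁻¹ = 1 := mul_inv_cancel₀ hφa
      linear_combination (φ a)⁻¹ * k1 - ψ (-a⁻¹) * hinv
    rw [hψ1, hψφ, φneg, neg_neg, neg_neg, mul_comm b] at k2
    field_simp at k2 ⊢
    linear_combination k2
  obtain ⟨σ, hσ⟩ := exists_ringEquiv (fun a => φ a / e) (by
      intro a b
      rw [φadd, add_div]) (by
      intro a b hab
      apply φinj
      have hab' : φ a / e = φ b / e := hab
      field_simp at hab'
      exact hab') (by rw [← he]; exact div_self he0) hrel
  refine ⟨e, he0, σ, ?_⟩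
  ext x
  obtain ⟨g, rfl⟩ := QuotientGroup.mk_surjective x
  have hg : g ∈ Subgroup.closure (Set.range (u : F → _) ∪ Set.range (l : F → _)) := by
    rw [closure_u_l]; trivial
  induction hg using Subgroup.closure_induction with
  | mem y hy =>
    rcases hy with ⟨b, rfl⟩ | ⟨b, rfl⟩
    · rw [hφ, MulAut.mul_apply, fbar_mk, mapSL_u, cbar_mk, conjSL_dg_u, hσ]
      congr 2
      field_simp
    · rw [hψ, MulAut.mul_apply, fbar_mk, mapSL_l, cbar_mk, conjSL_dg_l, hσ, hψφ]
      congr 2
      field_simp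
  | one =>
    change α 1 = (cbar (dg e he0) * fbar σ) 1
    rw [map_one, map_one]
  | mul y z _ _ hy hz =>
    rw [QuotientGroup.mk_mul, map_mul, map_mul, hy, hz]
  | inv y _ hy =>
    rw [QuotientGroup.mk_inv, map_inv, map_inv, hy]

end Cfsg.Agent.Lib.Helper4.PSL2Aut
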