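import Mathlib
import Cfsg.Agent.Lib.Helper4.PSL2Aut3

set_option autoImplicit false

namespace Cfsg.Agent.Lib.Helper4.PSL2Aut

open Matrix Cfsg.Agent.Lib.Helper4.SL2Eigen Cfsg.Agent.Lib.Helper4.SL2Conj Cfsg.Agent.Lib.Helper4.GL2Conj
  Cfsg.Agent.Lib.Helper4.PSL2Spec Cfsg.Agent.Lib.Helper4.SL2Prod Cfsg.Agent.Lib.Helper4.SL2Class

variable {F : Type*} [Field F]

local notation "PSL" => ProjectiveSpecialLinearGroup (Fin 2) F
local notation "SL" => SpecialLinearGroup (Fin 2) F

/-- every automorphism of `PSL₂(q)` is induced by a semilinear map. -/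
theorem aut_eq [Fintype F] (p : ℕ) [Fact p.Prime] [CharP F p] (α : MulAut PSL) :
    ∃ (P : GL (Fin 2) F) (σ : F ≃+* F), α = cbar P * fbar σ := by
  obtain ⟨P, hP⟩ := exists_std p α
  obtain ⟨e, he, σ, h⟩ := std_eq _ hP
  refine ⟨P⁻¹ * dg e he, σ, ?_⟩
  rw [map_mul, map_inv, mul_assoc, ← h]
  group

def Compat (α : MulAut PSL) (σ : RingAut F) : Prop :=
  ∀ g h : SL, α (QuotientGroup.mk g) = QuotientGroup.mk h → h.1.trace ^ 2 = σ (g.1.trace ^ 2)

theorem trace_sq_of_mk_eq {g h : SL} (e : (QuotientGroup.mk g : PSL) = QuotientGroup.mk h) :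
    h.1.trace ^ 2 = g.1.trace ^ 2 := by
  rcases (mk_eq_mk_iff _ _).1 e with rfl | rfl
  · rfl
  · rw [trace_negOne_mul]; ring

theorem compat_unique {α : MulAut PSL} {σ τ : RingAut F} (h1 : Compat α σ) (h2 : Compat α τ) : σ = τ := by
  have hsq : ∀ t : F, σ t ^ 2 = τ t ^ 2 := by
    intro t
    obtain ⟨h, hh⟩ := QuotientGroup.mk_surjective (α (QuotientGroup.mk (compSL t)))
    have e1 := h1 _ _ hh.symm
    have e2 := h2 _ _ hh.symm
    have ht : (compSL t).1.trace = t := trace_comp t 1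
    rw [ht, map_pow] at e1 e2
    rw [← e1, ← e2]
  ext t
  by_cases h2F : (2 : F) = 0
  · have : (σ t - τ t) ^ 2 = 0 := by
      linear_combination hsq t + (τ t ^ 2 - σ t * τ t) * h2F
    exact sub_eq_zero.1 (pow_eq_zero_iff (by norm_num) |>.1 this)
  · have e := hsq (t + 1)
    rw [map_add, map_add, map_one, map_one] at e
    have : 2 * σ t = 2 * τ t := by linear_combination e - hsq t
    exact mul_left_cancel₀ h2F this

theorem compat_mul {α β : MulAut PSL} {σ τ : RingAut F} (h1 : Compat α σ) (h2 : Compat β τ) :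
    Compat (α * β) (σ * τ) := by
  intro g h hgh
  obtain ⟨k, hk⟩ := QuotientGroup.mk_surjective (β (QuotientGroup.mk g))
  rw [MulAut.mul_apply, ← hk] at hgh
  rw [h1 _ _ hgh, h2 _ _ hk.symm]
  rfl

theorem compat_cbar_fbar (P : GL (Fin 2) F) (σ : F ≃+* F) : Compat (cbar P * fbar σ) σ := by
  intro g h hgh
  rw [MulAut.mul_apply, fbar_mk, cbar_mk] at hgh
  rw [trace_sq_of_mk_eq hgh, trace_conjSL, trace_mapSL, map_pow]

theorem fbar_one : fbar (1 : RingAut F) = 1 := by
  ext x
  obtain ⟨g, rfl⟩ := QuotientGroup.mk_surjective x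
  rw [fbar_mk]
  rfl

theorem exists_compat [Fintype F] (p : ℕ) [Fact p.Prime] [CharP F p] (α : MulAut PSL) :
    ∃ σ : RingAut F, Compat α σ := by
  obtain ⟨P, σ, rfl⟩ := aut_eq p α
  exact ⟨σ, compat_cbar_fbar P σ⟩

/-- the field automorphism attached to an automorphism of `PSL₂(q)` -/
noncomputable def Phi [Fintype F] (p : ℕ) [Fact p.Prime] [CharP F p] : MulAut PSL →* RingAut F :=
  MonoidHom.mk' (fun α => Classical.choose (exists_compat p α)) (by
    intro α β
    exact compat_unique (Classical.choose_spec (exists_compat p (α * β)))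
      (compat_mul (Classical.choose_spec (exists_compat p α)) (Classical.choose_spec (exists_compat p β))))

theorem Phi_spec [Fintype F] (p : ℕ) [Fact p.Prime] [CharP F p] (α : MulAut PSL) :
    Compat α (Phi p α) := Classical.choose_spec (exists_compat p α)

theorem Phi_eq [Fintype F] (p : ℕ) [Fact p.Prime] [CharP F p] (P : GL (Fin 2) F) (σ : RingAut F) :
    Phi p (cbar P * fbar σ) = σ := compat_unique (Phi_spec p _) (compat_cbar_fbar P σ)

theorem Phi_surjective [Fintype F] (p : ℕ) [Fact p.Prime] [CharP F p] :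
    Function.Surjective (Phi (F := F) p) := by
  intro σ
  exact ⟨cbar 1 * fbar σ, Phi_eq p 1 σ⟩

theorem Phi_cbar [Fintype F] (p : ℕ) [Fact p.Prime] [CharP F p] (P : GL (Fin 2) F) :
    Phi p (cbar P) = 1 := by
  have := Phi_eq p P (1 : RingAut F)
  rwa [fbar_one, mul_one] at this

theorem exists_cbar_of_Phi [Fintype F] (p : ℕ) [Fact p.Prime] [CharP F p] (α : MulAut PSL)
    (h : Phi p α = 1) : ∃ P : GL (Fin 2) F, α = cbar P := by
  obtain ⟨P, σ, rfl⟩ := aut_eq p α
  have h2 : Phi p (cbar P * fbar σ) = σ := Phi_eq p P σ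
  rw [h] at h2
  refine ⟨P, ?_⟩
  have : fbar σ = 1 := by
    have e : σ = (1 : RingAut F) := h2.symm
    rw [e]; exact fbar_one
  rw [this, mul_one]

/-- conjugation by a matrix of square determinant is inner -/
theorem cbar_inner (P : GL (Fin 2) F) (s : F) (hs : P.1.det = s ^ 2) :
    ∃ x : PSL, cbar P = MulAut.conj x := by
  have hs0 : s ≠ 0 := by
    rintro rfl
    have : IsUnit P.1.det := (Matrix.isUnit_iff_isUnit_det _).1 P.isUnit
    rw [hs] at this
    simp at this
  let P' : SL := ⟨s⁻¹ • P.1, by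
    rw [Matrix.det_smul, hs, Fintype.card_fin]; field_simp⟩
  refine ⟨QuotientGroup.mk P', ?_⟩
  rw [← cbar_toGL]
  ext x
  obtain ⟨g, rfl⟩ := QuotientGroup.mk_surjective x
  rw [cbar_mk, cbar_mk, conjSL_toGL]
  congr 1
  rw [eq_mul_inv_iff_mul_eq]
  apply Subtype.ext
  change P.1 * g.1 * (P⁻¹).1 * (s⁻¹ • P.1) = (s⁻¹ • P.1) * g.1
  rw [Matrix.mul_smul, mul_assoc _ _ P.1, Units.inv_mul, mul_one, Matrix.smul_mul]

/-- if conjugation by `Q` is trivial on `PSL₂` (odd characteristic), the determinant of `Q` is a square -/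
theorem det_sq_of_cbar_eq_one (h2 : (2 : F) ≠ 0) (Q : GL (Fin 2) F) (h : cbar Q = 1) :
    ∃ a : F, Q.1.det = a ^ 2 := by
  have h4 : (4 : F) ≠ 0 := by
    have : (4 : F) = 2 * 2 := by norm_num
    rw [this]; exact mul_ne_zero h2 h2
  have key : ∀ g : SL, g.1.trace = 2 → Q.1 * g.1 = g.1 * Q.1 := by
    intro g hg
    have e : cbar Q (QuotientGroup.mk g) = QuotientGroup.mk g := by rw [h]; rfl
    rw [cbar_mk] at e
    have e2 : conjSL Q g = g := by
      rcases (mk_eq_mk_iff _ _).1 e with h1 | h1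
      · exact h1.symm
      · exfalso
        have : g.1.trace = (negOne F * conjSL Q g).1.trace := congrArg (fun z : SL => z.1.trace) h1
        rw [trace_negOne_mul, trace_conjSL, hg] at this
        apply h4
        linear_combination this
    have e3 := congrArg Subtype.val e2
    rw [conjSL_val] at e3
    calc Q.1 * g.1 = Q.1 * g.1 * ((Q⁻¹).1 * Q.1) := by rw [Units.inv_mul, mul_one]
      _ = (Q.1 * g.1 * (Q⁻¹).1) * Q.1 := by simp only [mul_assoc]
      _ = g.1 * Q.1 := by rw [e3]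
  have k1 := key (u 1) (trace_u 1)
  have k2 := key (l 1) (trace_l 1)
  rw [u_val] at k1
  rw [l_val] at k2
  have a00 := congrFun (congrFun k1 0) 0
  have a01 := congrFun (congrFun k1 0) 1
  have b00 := congrFun (congrFun k2 0) 0
  simp [Matrix.mul_apply, Fin.sum_univ_two] at a00 a01 b00
  refine ⟨Q.1 0 0, ?_⟩
  rw [Matrix.det_fin_two, a00, b00]
  linear_combination -Q.1 0 0 * a01

end Cfsg.Agent.Lib.Helper4.PSL2Aut
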