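import Mathlib

set_option autoImplicit false

namespace Cfsg.Agent.Lib.Helper4.SLnTv

open Matrix

variable {n : ℕ} {F : Type*} [Field F]

local notation "SL" => SpecialLinearGroup (Fin n) F
local notation "PSL" => ProjectiveSpecialLinearGroup (Fin n) F

/-- the matrix `1 + v φᵀ` -/
def tvM (v φ : Fin n → F) : Matrix (Fin n) (Fin n) F := 1 + vecMulVec v φ

theorem det_tvM (v φ : Fin n → F) : (tvM v φ).det = 1 + φ ⬝ᵥ v := by
  rw [tvM, vecMulVec_eq Unit, det_one_add_replicateCol_mul_replicateRow]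

def tvOf (v φ : Fin n → F) (h : φ ⬝ᵥ v = 0) : SL := ⟨tvM v φ, by rw [det_tvM, h, add_zero]⟩

open Classical in
/-- the transvection `1 + v φᵀ` (junk value `1` if `φ v ≠ 0`) -/
noncomputable def tv (v φ : Fin n → F) : SL :=
  if h : φ ⬝ᵥ v = 0 then tvOf v φ h else 1

theorem tv_val {v φ : Fin n → F} (h : φ ⬝ᵥ v = 0) : (tv v φ).1 = 1 + vecMulVec v φ := by
  unfold tv
  rw [dif_pos h]
  rfl

theorem tv_mulVec {v φ : Fin n → F} (h : φ ⬝ᵥ v = 0) (w : Fin n → F) :
    (tv v φ).1 *ᵥ w = w + (φ ⬝ᵥ w) • v := by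
  rw [tv_val h, add_mulVec, one_mulVec, vecMulVec_mulVec, op_smul_eq_smul]

theorem tv_zero_right (v : Fin n → F) : tv v 0 = 1 := by
  apply Subtype.ext
  rw [tv_val (by simp)]
  simp

theorem tv_zero_left (φ : Fin n → F) : tv 0 φ = 1 := by
  apply Subtype.ext
  rw [tv_val (by simp)]
  simp

theorem tv_mul_center {v φ ψ : Fin n → F} (h1 : φ ⬝ᵥ v = 0) (h2 : ψ ⬝ᵥ v = 0) :
    tv v φ * tv v ψ = tv v (φ + ψ) := by
  apply Subtype.ext
  change (tv v φ).1 * (tv v ψ).1 = _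
  rw [tv_val h1, tv_val h2, tv_val (by rw [add_dotProduct, h1, h2, add_zero]), add_mul, mul_add, mul_add,
    vecMulVec_mul_vecMulVec, h1, zero_smul, vecMulVec_zero, vecMulVec_add]
  simp [add_assoc, add_comm]

theorem tv_mul_axis {v w φ : Fin n → F} (h1 : φ ⬝ᵥ v = 0) (h2 : φ ⬝ᵥ w = 0) :
    tv v φ * tv w φ = tv (v + w) φ := by
  apply Subtype.ext
  change (tv v φ).1 * (tv w φ).1 = _
  rw [tv_val h1, tv_val h2, tv_val (by rw [dotProduct_add, h1, h2, add_zero]), add_mul, mul_add, mul_add,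
    vecMulVec_mul_vecMulVec, h2, zero_smul, vecMulVec_zero, add_vecMulVec]
  simp [add_assoc, add_comm]

theorem tv_smul (c : F) (v φ : Fin n → F) : tv (c • v) φ = tv v (c • φ) := by
  by_cases h : φ ⬝ᵥ v = 0
  · apply Subtype.ext
    rw [tv_val (by rw [dotProduct_smul, h, smul_zero]), tv_val (by rw [smul_dotProduct, h, smul_zero]),
      smul_vecMulVec, vecMulVec_smul]
  · by_cases hc : c = 0
    · subst hc
      rw [zero_smul, zero_smul, tv_zero_left, tv_zero_right]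
    · unfold tv
      rw [dif_neg, dif_neg]
      · rw [smul_dotProduct]
        exact smul_ne_zero hc h
      · rw [dotProduct_smul]
        exact smul_ne_zero hc h

theorem tv_inv {v φ : Fin n → F} (h : φ ⬝ᵥ v = 0) : (tv v φ)⁻¹ = tv v (-φ) := by
  rw [inv_eq_iff_mul_eq_one, tv_mul_center h (by rw [neg_dotProduct, h, neg_zero]), add_neg_cancel,
    tv_zero_right]

theorem conj_tv (g : SL) {v φ : Fin n → F} (h : φ ⬝ᵥ v = 0) :
    g * tv v φ * g⁻¹ = tv (g.1 *ᵥ v) (φ ᵥ* (g⁻¹).1) := by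
  have hinv : (g⁻¹).1 * g.1 = 1 := congrArg Subtype.val (inv_mul_cancel g)
  have hinv' : g.1 * (g⁻¹).1 = 1 := congrArg Subtype.val (mul_inv_cancel g)
  have h' : (φ ᵥ* (g⁻¹).1) ⬝ᵥ (g.1 *ᵥ v) = 0 := by
    rw [← dotProduct_mulVec, mulVec_mulVec, hinv, one_mulVec, h]
  apply Subtype.ext
  change g.1 * (tv v φ).1 * (g⁻¹).1 = _
  rw [tv_val h, tv_val h', mul_add, add_mul, mul_one, hinv', mul_vecMulVec, vecMulVec_mul]

theorem tv_eq_one_iff {v φ : Fin n → F} (h : φ ⬝ᵥ v = 0) : tv v φ = 1 ↔ v = 0 ∨ φ = 0 := by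
  constructor
  · intro h1
    have h2 := congrArg Subtype.val h1
    rw [tv_val h] at h2
    have h3 : vecMulVec v φ = 0 := by
      have : (1 : SL).1 = (1 : Matrix (Fin n) (Fin n) F) := rfl
      rw [this] at h2
      exact add_eq_left.1 h2
    exact vecMulVec_eq_zero.1 h3
  · rintro (rfl | rfl)
    · exact tv_zero_left _
    · exact tv_zero_right _

/-- parallel vectors -/
def Par (v w : Fin n → F) : Prop := ∃ c : F, c ≠ 0 ∧ w = c • v

theorem Par.refl (v : Fin n → F) : Par v v := ⟨1, one_ne_zero, (one_smul _ _).symm⟩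

theorem Par.symm {v w : Fin n → F} (h : Par v w) : Par w v := by
  obtain ⟨c, hc, rfl⟩ := h
  exact ⟨c⁻¹, inv_ne_zero hc, by rw [smul_smul, inv_mul_cancel₀ hc, one_smul]⟩

theorem Par.trans {u v w : Fin n → F} (h1 : Par u v) (h2 : Par v w) : Par u w := by
  obtain ⟨c, hc, rfl⟩ := h1
  obtain ⟨d, hd, rfl⟩ := h2
  exact ⟨d * c, mul_ne_zero hd hc, by rw [smul_smul]⟩

theorem vecMulVec_eq {v φ v' φ' : Fin n → F} (hv : v ≠ 0) (hφ : φ ≠ 0)
    (h : vecMulVec v φ = vecMulVec v' φ') : ∃ c : F, c ≠ 0 ∧ v' = c • v ∧ φ = c • φ' := by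
  obtain ⟨i, hi⟩ := Function.ne_iff.mp hv
  obtain ⟨j, hj⟩ := Function.ne_iff.mp hφ
  simp only [Pi.zero_apply] at hi hj
  have hij : v i * φ j = v' i * φ' j := congrFun (congrFun h i) j
  have h1 : v' i ≠ 0 := by
    intro h0
    rw [h0, zero_mul] at hij
    exact (mul_ne_zero hi hj) hij
  have h2 : φ' j ≠ 0 := by
    intro h0
    rw [h0, mul_zero] at hij
    exact (mul_ne_zero hi hj) hij
  refine ⟨v' i / v i, div_ne_zero h1 hi, ?_, ?_⟩
  · funext k
    have hk : v k * φ j = v' k * φ' j := congrFun (congrFun h k) j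
    simp only [Pi.smul_apply, smul_eq_mul]
    field_simp
    have : v' k * v i * φ' j = v' i * v k * φ' j := by
      linear_combination (-v i) * hk + v k * hij
    exact mul_right_cancel₀ h2 this
  · funext k
    have hk : v i * φ k = v' i * φ' k := congrFun (congrFun h i) k
    simp only [Pi.smul_apply, smul_eq_mul]
    field_simp
    linear_combination hk

theorem tv_eq_tv {v φ v' φ' : Fin n → F} (h : φ ⬝ᵥ v = 0) (h' : φ' ⬝ᵥ v' = 0) (hv : v ≠ 0) (hφ : φ ≠ 0)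
    (e : tv v φ = tv v' φ') : ∃ c : F, c ≠ 0 ∧ v' = c • v ∧ φ = c • φ' := by
  have h2 := congrArg Subtype.val e
  rw [tv_val h, tv_val h'] at h2
  exact vecMulVec_eq hv hφ (add_left_cancel h2)

end Cfsg.Agent.Lib.Helper4.SLnTv
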