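import Mathlib
import Cfsg.Agent.Lib.Helper4.SLnTv

set_option autoImplicit false

namespace Cfsg.Agent.Lib.Helper4.SLnTv

open Matrix

variable {n : ℕ} {F : Type*} [Field F]

local notation "SL" => SpecialLinearGroup (Fin n) F
local notation "PSL" => ProjectiveSpecialLinearGroup (Fin n) F

theorem exists_orth2 (hn : 3 ≤ n) (φ φ' : Fin n → F) :
    ∃ w : Fin n → F, w ≠ 0 ∧ φ ⬝ᵥ w = 0 ∧ φ' ⬝ᵥ w = 0 := by
  let M : Matrix (Fin 2) (Fin n) F := Matrix.of ![φ, φ']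
  have hlt : Module.finrank F (Fin 2 → F) < Module.finrank F (Fin n → F) := by
    simp; omega
  have hker := LinearMap.ker_ne_bot_of_finrank_lt (f := M.mulVecLin) hlt
  obtain ⟨w, hw, hw0⟩ := (Submodule.ne_bot_iff _).1 hker
  rw [LinearMap.mem_ker, Matrix.mulVecLin_apply] at hw
  refine ⟨w, hw0, ?_, ?_⟩
  · exact congrFun hw 0
  · exact congrFun hw 1

theorem exists_dot_ne_zero {φ : Fin n → F} (hφ : φ ≠ 0) : ∃ u : Fin n → F, φ ⬝ᵥ u ≠ 0 := by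
  obtain ⟨i, hi⟩ := Function.ne_iff.mp hφ
  refine ⟨Pi.single i 1, ?_⟩
  simpa using hi

theorem sep {φ φ' : Fin n → F} (hφ' : φ' ≠ 0) (h : ∀ w, φ' ⬝ᵥ w = 0 → φ ⬝ᵥ w = 0) :
    ∃ c : F, φ = c • φ' := by
  obtain ⟨k, hk⟩ := Function.ne_iff.mp hφ'
  simp only [Pi.zero_apply] at hk
  refine ⟨φ k / φ' k, ?_⟩
  funext j
  have := h (Pi.single j 1 - (φ' j / φ' k) • Pi.single k 1) (by
    rw [dotProduct_sub, dotProduct_smul]
    simp
    field_simp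
    ring)
  rw [dotProduct_sub, dotProduct_smul] at this
  simp at this
  simp only [Pi.smul_apply, smul_eq_mul]
  field_simp
  field_simp at this
  linear_combination this

theorem exists_sep {φ φ' : Fin n → F} (hφ : φ ≠ 0) (hφ' : φ' ≠ 0) (h : ¬ Par φ' φ) :
    ∃ w, φ' ⬝ᵥ w = 0 ∧ φ ⬝ᵥ w ≠ 0 := by
  by_contra hcon
  push Not at hcon
  obtain ⟨c, hc⟩ := sep hφ' hcon
  apply h
  refine ⟨c, ?_, hc⟩
  rintro rfl
  rw [zero_smul] at hc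
  exact hφ hc

theorem eq_smul_of_mk_eq {g h : SL} (e : (QuotientGroup.mk g : PSL) = QuotientGroup.mk h) :
    ∃ r : F, h.1 = r • g.1 := by
  rw [QuotientGroup.eq, Matrix.SpecialLinearGroup.mem_center_iff] at e
  obtain ⟨r, -, hr⟩ := e
  refine ⟨r, ?_⟩
  have : h.1 = g.1 * (g⁻¹ * h).1 := by
    change h.1 = (g * (g⁻¹ * h)).1
    rw [mul_inv_cancel_left]
  rw [this, ← hr]
  simp [Matrix.scalar_apply, ← Matrix.smul_eq_mul_diagonal]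

theorem tv_eq_of_mk_eq (hn : 3 ≤ n) {v φ v' φ' : Fin n → F} (h : φ ⬝ᵥ v = 0) (h' : φ' ⬝ᵥ v' = 0)
    (e : (QuotientGroup.mk (tv v φ) : PSL) = QuotientGroup.mk (tv v' φ')) : tv v φ = tv v' φ' := by
  obtain ⟨r, hr⟩ := eq_smul_of_mk_eq e
  obtain ⟨w, hw0, hw1, hw2⟩ := exists_orth2 hn φ φ'
  have h1 : (tv v' φ').1 *ᵥ w = (r • (tv v φ).1) *ᵥ w := congrArg (fun M => M *ᵥ w) hr
  rw [smul_mulVec, tv_mulVec h, tv_mulVec h', hw1, hw2, zero_smul, zero_smul, add_zero] at h1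
  have hr1 : r = 1 := by
    have : (r - 1) • w = 0 := by rw [sub_smul, one_smul, ← h1, sub_self]
    rcases smul_eq_zero.1 this with h2 | h2
    · exact sub_eq_zero.1 h2
    · exact absurd h2 hw0
  rw [hr1, one_smul] at hr
  exact (Subtype.ext hr).symm

/-- if a product of two transvections is (projectively) a transvection or trivial, they have the same centre
or the same axis. -/
theorem par_of_mul (hn : 3 ≤ n) {v φ v' φ' a ψ : Fin n → F} (h : φ ⬝ᵥ v = 0) (h' : φ' ⬝ᵥ v' = 0)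
    (ha : ψ ⬝ᵥ a = 0) (hv : v ≠ 0) (hφ : φ ≠ 0) (hv' : v' ≠ 0) (hφ' : φ' ≠ 0)
    (e : (QuotientGroup.mk (tv v φ * tv v' φ') : PSL) = QuotientGroup.mk (tv a ψ)) :
    Par v v' ∨ Par φ φ' := by
  by_contra hcon
  push Not at hcon
  obtain ⟨hc1, hc2⟩ := hcon
  obtain ⟨r, hr⟩ := eq_smul_of_mk_eq e.symm
  have hact : ∀ w, (tv v φ * tv v' φ').1 *ᵥ w = w + (φ' ⬝ᵥ w) • v' + (φ ⬝ᵥ w + (φ' ⬝ᵥ w) * (φ ⬝ᵥ v')) • v := by
    intro w
    change ((tv v φ).1 * (tv v' φ').1) *ᵥ w = _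
    rw [← mulVec_mulVec, tv_mulVec h', tv_mulVec h, dotProduct_add, dotProduct_smul, smul_eq_mul]
  have hact2 : ∀ w, w + (φ' ⬝ᵥ w) • v' + (φ ⬝ᵥ w + (φ' ⬝ᵥ w) * (φ ⬝ᵥ v')) • v = r • (w + (ψ ⬝ᵥ w) • a) := by
    intro w
    rw [← hact, hr, smul_mulVec, tv_mulVec ha]
  -- r = 1
  obtain ⟨w, hw0, hw1, hw2⟩ := exists_orth2 hn φ φ'
  have h1 := hact2 w
  rw [hw1, hw2] at h1
  simp only [zero_smul, zero_mul, add_zero] at h1
  have hr1 : r = 1 := by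
    have h2 : ψ ⬝ᵥ w = ψ ⬝ᵥ (r • (w + (ψ ⬝ᵥ w) • a)) := congrArg (fun x => ψ ⬝ᵥ x) h1
    rw [dotProduct_smul, dotProduct_add, dotProduct_smul, ha, smul_zero, add_zero, smul_eq_mul] at h2
    have h3 : (1 - r) * (ψ ⬝ᵥ w) = 0 := by linear_combination h2
    rcases mul_eq_zero.1 h3 with h4 | h4
    · linear_combination -h4
    · rw [h4, zero_smul, add_zero] at h1
      have : (r - 1) • w = 0 := by rw [sub_smul, one_smul, ← h1, sub_self]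
      rcases smul_eq_zero.1 this with h2 | h2
      · exact sub_eq_zero.1 h2
      · exact absurd h2 hw0
  subst hr1
  have hact3 : ∀ w, (φ' ⬝ᵥ w) • v' + (φ ⬝ᵥ w + (φ' ⬝ᵥ w) * (φ ⬝ᵥ v')) • v = (ψ ⬝ᵥ w) • a := by
    intro w
    have := hact2 w
    rw [one_smul, add_assoc] at this
    exact add_left_cancel this
  -- v ∥ a
  obtain ⟨w₁, hw₁, hw₁'⟩ := exists_sep hφ hφ' (fun hp => hc2 hp.symm)
  have e1 := hact3 w₁
  rw [hw₁] at e1
  simp only [zero_smul, zero_mul, add_zero, zero_add] at e1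
  -- v' ∥ a
  have hφ2 : φ + (φ ⬝ᵥ v') • φ' ≠ 0 := by
    intro h0
    apply hc2
    have hne : φ ⬝ᵥ v' ≠ 0 := by
      intro h00
      rw [h00, zero_smul, add_zero] at h0
      exact hφ h0
    refine Par.symm ⟨-(φ ⬝ᵥ v'), neg_ne_zero.2 hne, ?_⟩
    rw [neg_smul]
    exact eq_neg_of_add_eq_zero_left h0
  obtain ⟨w₂, hw₂, hw₂'⟩ := exists_sep hφ' hφ2 (by
    rintro ⟨c, hc0, hc⟩
    apply hc2
    have : (1 - c * (φ ⬝ᵥ v')) • φ' = c • φ := by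
      rw [sub_smul, one_smul, mul_smul]
      nth_rewrite 1 [hc]
      rw [smul_add]
      abel
    have hne : 1 - c * (φ ⬝ᵥ v') ≠ 0 := by
      intro h00
      rw [h00, zero_smul] at this
      exact (smul_ne_zero hc0 hφ) this.symm
    refine ⟨(1 - c * (φ ⬝ᵥ v'))⁻¹ * c, mul_ne_zero (inv_ne_zero hne) hc0, ?_⟩
    rw [mul_smul, ← this, smul_smul, inv_mul_cancel₀ hne, one_smul])
  have e2 := hact3 w₂
  rw [add_dotProduct, smul_dotProduct, smul_eq_mul] at hw₂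
  have e3 : φ ⬝ᵥ w₂ + (φ' ⬝ᵥ w₂) * (φ ⬝ᵥ v') = 0 := by linear_combination hw₂
  rw [e3, zero_smul, add_zero] at e2
  apply hc1
  have ha1 : ψ ⬝ᵥ w₁ ≠ 0 := by
    intro h0
    rw [h0, zero_smul] at e1
    exact (smul_ne_zero hw₁' hv) e1
  have ha2 : ψ ⬝ᵥ w₂ ≠ 0 := by
    intro h0
    rw [h0, zero_smul] at e2
    exact (smul_ne_zero hw₂' hv') e2
  have p1 : Par v a := ⟨(ψ ⬝ᵥ w₁)⁻¹ * (φ ⬝ᵥ w₁), mul_ne_zero (inv_ne_zero ha1) hw₁', by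
    rw [mul_smul, e1, smul_smul, inv_mul_cancel₀ ha1, one_smul]⟩
  have p2 : Par v' a := ⟨(ψ ⬝ᵥ w₂)⁻¹ * (φ' ⬝ᵥ w₂), mul_ne_zero (inv_ne_zero ha2) hw₂', by
    rw [mul_smul, e2, smul_smul, inv_mul_cancel₀ ha2, one_smul]⟩
  exact p1.trans p2.symm

end Cfsg.Agent.Lib.Helper4.SLnTv
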