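import Mathlib
import Cfsg.Agent.Lib.Helper4.SLnTv2
import Cfsg.Agent.Lib.Helper4.PSL2Aut

set_option autoImplicit false

namespace Cfsg.Agent.Lib.Helper4.PSLn

open Matrix Cfsg.Agent.Lib.Helper4.SLnTv
open Cfsg.Agent.Lib.Helper4.PSL2Aut (liftAut liftAut_mk)

variable {n : ℕ} {F : Type*} [Field F]

local notation "SL" => SpecialLinearGroup (Fin n) F
local notation "PSL" => ProjectiveSpecialLinearGroup (Fin n) F

def conjFun (P : GL (Fin n) F) (g : SL) : SL :=
  ⟨P.1 * g.1 * (P⁻¹).1, by
    rw [Matrix.det_mul, Matrix.det_mul, g.2, mul_one, ← Matrix.det_mul, Units.mul_inv, Matrix.det_one]⟩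

theorem conjFun_val (P : GL (Fin n) F) (g : SL) : (conjFun P g).1 = P.1 * g.1 * (P⁻¹).1 := rfl

theorem conjFun_mul (P Q : GL (Fin n) F) (g : SL) : conjFun (P * Q) g = conjFun P (conjFun Q g) := by
  apply Subtype.ext
  rw [conjFun_val, conjFun_val, conjFun_val, _root_.mul_inv_rev]
  simp only [Units.val_mul, mul_assoc]

theorem conjFun_one (g : SL) : conjFun 1 g = g := by
  apply Subtype.ext
  rw [conjFun_val]
  simp

/-- conjugation action of `GL_n` on `SL_n` -/
def conjSL : GL (Fin n) F →* MulAut SL where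
  toFun P :=
    { toFun := conjFun P
      invFun := conjFun P⁻¹
      left_inv := fun g => by rw [← conjFun_mul, inv_mul_cancel, conjFun_one]
      right_inv := fun g => by rw [← conjFun_mul, mul_inv_cancel, conjFun_one]
      map_mul' := fun g h => by
        apply Subtype.ext
        change P.1 * (g.1 * h.1) * (P⁻¹).1 = (P.1 * g.1 * (P⁻¹).1) * (P.1 * h.1 * (P⁻¹).1)
        have : (P⁻¹).1 * P.1 = 1 := Units.inv_mul P
        calc P.1 * (g.1 * h.1) * (P⁻¹).1 = P.1 * g.1 * 1 * h.1 * (P⁻¹).1 := by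
              simp only [mul_one, mul_assoc]
          _ = _ := by rw [← this]; simp only [mul_assoc] }
  map_one' := by
    ext g : 1
    exact conjFun_one g
  map_mul' P Q := by
    ext g : 1
    exact conjFun_mul P Q g

theorem conjSL_val (P : GL (Fin n) F) (g : SL) : (conjSL P g).1 = P.1 * g.1 * (P⁻¹).1 := rfl

/-- entrywise action of a field automorphism -/
def mapSL (σ : F ≃+* F) : MulAut SL where
  toFun := SpecialLinearGroup.map (σ : F →+* F)
  invFun := SpecialLinearGroup.map (σ.symm : F →+* F)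
  left_inv g := by
    apply Subtype.ext
    ext i j
    exact σ.symm_apply_apply (g.1 i j)
  right_inv g := by
    apply Subtype.ext
    ext i j
    exact σ.apply_symm_apply (g.1 i j)
  map_mul' := map_mul _

theorem mapSL_apply (σ : F ≃+* F) (g : SL) (i j : Fin n) : (mapSL σ g).1 i j = σ (g.1 i j) := rfl

theorem mapSL_val (σ : F ≃+* F) (g : SL) : (mapSL σ g).1 = g.1.map σ := rfl

theorem transpose_inv (g : SL) : (g.transpose)⁻¹ = (g⁻¹).transpose := by
  apply inv_eq_of_mul_eq_one_right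
  apply Subtype.ext
  change g.1.transpose * (g⁻¹).1.transpose = 1
  rw [← Matrix.transpose_mul]
  have : (g⁻¹).1 * g.1 = 1 := congrArg Subtype.val (inv_mul_cancel g)
  rw [this, Matrix.transpose_one]

theorem transpose_transpose (g : SL) : g.transpose.transpose = g := by
  apply Subtype.ext
  exact Matrix.transpose_transpose g.1

/-- inverse transpose -/
def gamSL : MulAut SL where
  toFun g := (g⁻¹).transpose
  invFun g := (g⁻¹).transpose
  left_inv g := by
    change (((g⁻¹).transpose)⁻¹).transpose = g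
    rw [transpose_inv, inv_inv, transpose_transpose]
  right_inv g := by
    change (((g⁻¹).transpose)⁻¹).transpose = g
    rw [transpose_inv, inv_inv, transpose_transpose]
  map_mul' g h := by
    apply Subtype.ext
    change ((g * h)⁻¹).1.transpose = (g⁻¹).1.transpose * (h⁻¹).1.transpose
    rw [_root_.mul_inv_rev, ← Matrix.transpose_mul]
    rfl

theorem gamSL_val (g : SL) : (gamSL g).1 = (g⁻¹).1.transpose := rfl

theorem gamSL_gamSL (g : SL) : gamSL (gamSL g) = g := gamSL.left_inv g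

noncomputable def cbar : GL (Fin n) F →* MulAut PSL := liftAut.comp conjSL
noncomputable def fbar (σ : F ≃+* F) : MulAut PSL := liftAut (mapSL σ)
noncomputable def gbar : MulAut PSL := liftAut gamSL

theorem cbar_mk (P : GL (Fin n) F) (g : SL) : cbar P (QuotientGroup.mk g) = QuotientGroup.mk (conjSL P g) := rfl
theorem fbar_mk (σ : F ≃+* F) (g : SL) : fbar σ (QuotientGroup.mk g) = QuotientGroup.mk (mapSL σ g) := rfl
theorem gbar_mk (g : SL) : gbar (QuotientGroup.mk g) = QuotientGroup.mk (gamSL g) := rfl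

theorem gbar_gbar (x : PSL) : gbar (gbar x) = x := by
  obtain ⟨g, rfl⟩ := QuotientGroup.mk_surjective x
  rw [gbar_mk, gbar_mk, gamSL_gamSL]

theorem gbar_mul_self : (gbar : MulAut PSL) * gbar = 1 := by
  ext x
  exact gbar_gbar x

theorem conjSL_toGL (s g : SL) : conjSL (SpecialLinearGroup.toGL s) g = s * g * s⁻¹ := by
  apply Subtype.ext
  rw [conjSL_val, ← map_inv]
  rfl

theorem cbar_toGL (s : SL) : cbar (SpecialLinearGroup.toGL s) = MulAut.conj (QuotientGroup.mk s) := by
  ext x
  obtain ⟨g, rfl⟩ := QuotientGroup.mk_surjective x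
  rw [cbar_mk, conjSL_toGL, MulAut.conj_apply]
  rfl

theorem conjSL_tv (P : GL (Fin n) F) {v φ : Fin n → F} (h : φ ⬝ᵥ v = 0) :
    conjSL P (tv v φ) = tv (P.1 *ᵥ v) (φ ᵥ* (P⁻¹).1) := by
  have h' : (φ ᵥ* (P⁻¹).1) ⬝ᵥ (P.1 *ᵥ v) = 0 := by
    rw [← dotProduct_mulVec, mulVec_mulVec, Units.inv_mul, one_mulVec, h]
  apply Subtype.ext
  rw [conjSL_val, tv_val h, tv_val h', mul_add, add_mul, mul_one, Units.mul_inv, mul_vecMulVec, vecMulVec_mul]

theorem gamSL_tv {v φ : Fin n → F} (h : φ ⬝ᵥ v = 0) : gamSL (tv v φ) = tv φ (-v) := by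
  apply Subtype.ext
  rw [gamSL_val, tv_inv h, tv_val (by rw [neg_dotProduct, h, neg_zero]),
    tv_val (by rw [neg_dotProduct, dotProduct_comm, h, neg_zero]), Matrix.transpose_add, Matrix.transpose_one]
  congr 1
  ext i j
  simp [vecMulVec_apply, mul_comm]

theorem mapSL_tv (σ : F ≃+* F) {v φ : Fin n → F} (h : φ ⬝ᵥ v = 0) :
    mapSL σ (tv v φ) = tv (σ ∘ v) (σ ∘ φ) := by
  have h' : (σ ∘ φ) ⬝ᵥ (σ ∘ v) = 0 := by
    have := congrArg σ h
    rw [map_zero] at this
    rw [← this]
    simp [dotProduct, map_sum]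
  apply Subtype.ext
  rw [mapSL_val, tv_val h, tv_val h']
  ext i j
  simp [vecMulVec_apply, Matrix.one_apply]

end Cfsg.Agent.Lib.Helper4.PSLn
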