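import Mathlib
import Cfsg.Agent.Lib.Helper4.PSLnDefs

set_option autoImplicit false

namespace Cfsg.Agent.Lib.Helper4.PSLn

open Matrix Cfsg.Agent.Lib.Helper4.SLnTv

variable {n : ℕ} {F : Type*} [Field F]

local notation "SL" => SpecialLinearGroup (Fin n) F
local notation "PSL" => ProjectiveSpecialLinearGroup (Fin n) F

/-- images of the (nontrivial) transvections -/
def X : Set PSL := {x | ∃ v φ : Fin n → F, v ≠ 0 ∧ φ ≠ 0 ∧ φ ⬝ᵥ v = 0 ∧ x = QuotientGroup.mk (tv v φ)}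
/-- transvections with centre `v` -/
def Tc (v : Fin n → F) : Set PSL := {x | ∃ φ : Fin n → F, φ ⬝ᵥ v = 0 ∧ x = QuotientGroup.mk (tv v φ)}
/-- transvections with axis `φ` -/
def Ta (φ : Fin n → F) : Set PSL := {x | ∃ v : Fin n → F, φ ⬝ᵥ v = 0 ∧ x = QuotientGroup.mk (tv v φ)}

theorem one_mem_Tc (v : Fin n → F) : (1 : PSL) ∈ Tc v := ⟨0, by simp, by rw [tv_zero_right]; rfl⟩
theorem one_mem_Ta (φ : Fin n → F) : (1 : PSL) ∈ Ta φ := ⟨0, by simp, by rw [tv_zero_left]; rfl⟩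

theorem Tc_sub {v : Fin n → F} (hv : v ≠ 0) {x : PSL} (hx : x ∈ Tc v) : x ∈ X ∨ x = 1 := by
  obtain ⟨φ, h, rfl⟩ := hx
  by_cases hφ : φ = 0
  · right; rw [hφ, tv_zero_right]; rfl
  · left; exact ⟨v, φ, hv, hφ, h, rfl⟩

theorem Ta_sub {φ : Fin n → F} (hφ : φ ≠ 0) {x : PSL} (hx : x ∈ Ta φ) : x ∈ X ∨ x = 1 := by
  obtain ⟨v, h, rfl⟩ := hx
  by_cases hv : v = 0
  · right; rw [hv, tv_zero_left]; rfl
  · left; exact ⟨v, φ, hv, hφ, h, rfl⟩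

theorem Tc_mul {v : Fin n → F} {x y : PSL} (hx : x ∈ Tc v) (hy : y ∈ Tc v) : x * y ∈ Tc v := by
  obtain ⟨φ, h, rfl⟩ := hx
  obtain ⟨ψ, h', rfl⟩ := hy
  exact ⟨φ + ψ, by rw [add_dotProduct, h, h', add_zero], by rw [← QuotientGroup.mk_mul, tv_mul_center h h']⟩

theorem Ta_mul {φ : Fin n → F} {x y : PSL} (hx : x ∈ Ta φ) (hy : y ∈ Ta φ) : x * y ∈ Ta φ := by
  obtain ⟨v, h, rfl⟩ := hx
  obtain ⟨w, h', rfl⟩ := hy
  exact ⟨v + w, by rw [dotProduct_add, h, h', add_zero], by rw [← QuotientGroup.mk_mul, tv_mul_axis h h']⟩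

theorem Tc_le_of_par {v a : Fin n → F} (h : Par v a) : Tc a ⊆ Tc v := by
  obtain ⟨c, hc, rfl⟩ := h
  rintro x ⟨φ, h, rfl⟩
  rw [dotProduct_smul, smul_eq_mul] at h
  have h0 : φ ⬝ᵥ v = 0 := (mul_eq_zero.1 h).resolve_left hc
  exact ⟨c • φ, by rw [smul_dotProduct, h0, smul_zero], by rw [tv_smul]⟩

theorem Tc_eq_of_par {v a : Fin n → F} (h : Par v a) : Tc v = Tc a :=
  Set.Subset.antisymm (Tc_le_of_par h.symm) (Tc_le_of_par h)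

theorem Ta_le_of_par {φ ψ : Fin n → F} (h : Par φ ψ) : Ta ψ ⊆ Ta φ := by
  obtain ⟨c, hc, rfl⟩ := h
  rintro x ⟨v, h, rfl⟩
  rw [smul_dotProduct, smul_eq_mul] at h
  have h0 : φ ⬝ᵥ v = 0 := (mul_eq_zero.1 h).resolve_left hc
  exact ⟨c • v, by rw [dotProduct_smul, h0, smul_zero], by rw [tv_smul]⟩

theorem Ta_eq_of_par {φ ψ : Fin n → F} (h : Par φ ψ) : Ta φ = Ta ψ :=
  Set.Subset.antisymm (Ta_le_of_par h.symm) (Ta_le_of_par h)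

theorem mk_tv_ne_one (hn : 3 ≤ n) {v φ : Fin n → F} (h : φ ⬝ᵥ v = 0) (hv : v ≠ 0) (hφ : φ ≠ 0) :
    (QuotientGroup.mk (tv v φ) : PSL) ≠ 1 := by
  intro e
  have e' : (QuotientGroup.mk (tv v φ) : PSL) = QuotientGroup.mk (tv 0 0) := by
    rw [e, tv_zero_left]; rfl
  have := tv_eq_of_mk_eq hn h (by simp) e'
  rw [tv_zero_left, tv_eq_one_iff h] at this
  rcases this with h1 | h1
  · exact hv h1
  · exact hφ h1

/-- two descriptions of the same nontrivial projective transvection -/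
theorem par_of_mk_eq (hn : 3 ≤ n) {v φ v' φ' : Fin n → F} (h : φ ⬝ᵥ v = 0) (h' : φ' ⬝ᵥ v' = 0)
    (hv : v ≠ 0) (hφ : φ ≠ 0)
    (e : (QuotientGroup.mk (tv v φ) : PSL) = QuotientGroup.mk (tv v' φ')) : Par v v' ∧ Par φ' φ := by
  obtain ⟨c, hc, h1, h2⟩ := tv_eq_tv h h' hv hφ (tv_eq_of_mk_eq hn h h' e)
  exact ⟨⟨c, hc, h1⟩, ⟨c, hc, h2⟩⟩

theorem structure_lemma (hn : 3 ≤ n) (S : Set PSL) (h1 : ∀ x ∈ S, x ∈ X ∨ x = 1)
    (h2 : ∀ x ∈ S, ∀ y ∈ S, x * y ∈ X ∨ x * y = 1) :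
    (∃ a : Fin n → F, a ≠ 0 ∧ S ⊆ Tc a) ∨ (∃ ψ : Fin n → F, ψ ≠ 0 ∧ S ⊆ Ta ψ) := by
  classical
  have key : ∀ {v φ v' φ' : Fin n → F}, φ ⬝ᵥ v = 0 → φ' ⬝ᵥ v' = 0 → v ≠ 0 → φ ≠ 0 → v' ≠ 0 → φ' ≠ 0 →
      (QuotientGroup.mk (tv v φ) : PSL) ∈ S → (QuotientGroup.mk (tv v' φ') : PSL) ∈ S →
      Par v v' ∨ Par φ φ' := by
    intro v φ v' φ' h h' hv hφ hv' hφ' hs hs'
    rcases h2 _ hs _ hs' with ⟨a, ψ, -, -, ha, e⟩ | e
    · exact par_of_mul hn h h' ha hv hφ hv' hφ' e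
    · exact par_of_mul hn h h' (a := 0) (ψ := 0) (by simp) hv hφ hv' hφ' (by
        rw [tv_zero_left]; exact e)
  by_cases hS : ∃ x ∈ S, x ≠ 1
  · obtain ⟨x, hxS, hx1⟩ := hS
    obtain ⟨a, ψ, ha, hψ, hor, rfl⟩ := (h1 x hxS).resolve_right hx1
    by_cases hall : S ⊆ Tc a
    · exact Or.inl ⟨a, ha, hall⟩
    · right
      rw [Set.not_subset] at hall
      obtain ⟨y, hyS, hy⟩ := hall
      have hy1 : y ≠ 1 := by
        rintro rfl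
        exact hy (one_mem_Tc a)
      obtain ⟨b, χ, hb, hχ, hor', rfl⟩ := (h1 y hyS).resolve_right hy1
      have hab : ¬ Par a b := by
        intro hp
        exact hy (Tc_le_of_par hp ⟨χ, hor', rfl⟩)
      have hψχ : Par ψ χ := (key hor hor' ha hψ hb hχ hxS hyS).resolve_left hab
      refine ⟨ψ, hψ, ?_⟩
      intro z hzS
      rcases h1 z hzS with ⟨d, ω, hd, hω, hor'', rfl⟩ | rfl
      · have k1 := key hor hor'' ha hψ hd hω hxS hzS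
        have k2 := key hor' hor'' hb hχ hd hω hyS hzS
        have hpar : Par ψ ω := by
          rcases k1 with k1 | k1
          · rcases k2 with k2 | k2
            · exact absurd (k1.trans k2.symm) hab
            · exact hψχ.trans k2
          · exact k1
        exact Ta_le_of_par hpar ⟨d, hor'', rfl⟩
      · exact one_mem_Ta ψ
  · push Not at hS
    left
    refine ⟨Pi.single ⟨0, by omega⟩ 1, ?_, ?_⟩
    · intro h
      have := congrFun h ⟨0, by omega⟩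
      simp at this
    · intro x hx
      rw [hS x hx]
      exact one_mem_Tc _

theorem par_of_Tc_subset (hn : 3 ≤ n) {v a : Fin n → F} (hv : v ≠ 0) (h : Tc v ⊆ Tc a) : Par v a := by
  obtain ⟨φ, hφ, h1, -⟩ := exists_orth2 hn v v
  rw [dotProduct_comm] at h1
  obtain ⟨ψ, h2, e⟩ := h ⟨φ, h1, rfl⟩
  exact (par_of_mk_eq hn h1 h2 hv hφ e).1

theorem not_Tc_subset_Ta (hn : 3 ≤ n) {v ψ : Fin n → F} (hv : v ≠ 0) : ¬ Tc v ⊆ Ta ψ := by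
  intro h
  obtain ⟨φ₁, hφ₁, h1, -⟩ := exists_orth2 hn v v
  rw [dotProduct_comm] at h1
  obtain ⟨u, hu⟩ := exists_dot_ne_zero hφ₁
  obtain ⟨φ₂, hφ₂, h2, h3⟩ := exists_orth2 hn v u
  rw [dotProduct_comm] at h2 h3
  obtain ⟨w₁, k1, e1⟩ := h ⟨φ₁, h1, rfl⟩
  obtain ⟨w₂, k2, e2⟩ := h ⟨φ₂, h2, rfl⟩
  have p1 := (par_of_mk_eq hn h1 k1 hv hφ₁ e1).2
  have p2 := (par_of_mk_eq hn h2 k2 hv hφ₂ e2).2
  obtain ⟨c, hc, hc'⟩ := p2.symm.trans p1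
  apply hu
  rw [hc', smul_dotProduct, h3, smul_zero]

theorem Tc_ne_Ta (hn : 3 ≤ n) {v ψ : Fin n → F} (hv : v ≠ 0) : Tc v ≠ Ta ψ := by
  intro h
  exact not_Tc_subset_Ta hn hv (ψ := ψ) (by rw [h])

theorem par_of_mem_Tc_Tc (hn : 3 ≤ n) {v v' : Fin n → F} {x : PSL} (hx1 : x ≠ 1)
    (h : x ∈ Tc v) (h' : x ∈ Tc v') : Par v v' := by
  obtain ⟨φ, h1, rfl⟩ := h
  obtain ⟨φ', h2, e⟩ := h'
  have hv : v ≠ 0 := by
    rintro rfl
    apply hx1; rw [tv_zero_left]; rfl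
  have hφ : φ ≠ 0 := by
    rintro rfl
    apply hx1; rw [tv_zero_right]; rfl
  exact (par_of_mk_eq hn h1 h2 hv hφ e).1

theorem par_of_mem_Ta_Ta (hn : 3 ≤ n) {φ φ' : Fin n → F} {x : PSL} (hx1 : x ≠ 1)
    (h : x ∈ Ta φ) (h' : x ∈ Ta φ') : Par φ φ' := by
  obtain ⟨v, h1, rfl⟩ := h
  obtain ⟨v', h2, e⟩ := h'
  have hv : v ≠ 0 := by
    rintro rfl
    apply hx1; rw [tv_zero_left]; rfl
  have hφ : φ ≠ 0 := by
    rintro rfl
    apply hx1; rw [tv_zero_right]; rfl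
  exact (par_of_mk_eq hn h1 h2 hv hφ e).2.symm

theorem orth_of_mem_Tc_Ta (hn : 3 ≤ n) {v φ : Fin n → F} {x : PSL} (hx1 : x ≠ 1)
    (h : x ∈ Tc v) (h' : x ∈ Ta φ) : φ ⬝ᵥ v = 0 := by
  obtain ⟨φ', h1, rfl⟩ := h
  obtain ⟨v', h2, e⟩ := h'
  have hv : v ≠ 0 := by
    rintro rfl
    apply hx1; rw [tv_zero_left]; rfl
  have hφ : φ' ≠ 0 := by
    rintro rfl
    apply hx1; rw [tv_zero_right]; rfl
  obtain ⟨c, hc, rfl⟩ := (par_of_mk_eq hn h1 h2 hv hφ e).1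
  rw [dotProduct_smul, smul_eq_mul] at h2
  exact (mul_eq_zero.1 h2).resolve_left hc

theorem gbar_image_Tc (v : Fin n → F) : gbar '' Tc v = Ta v := by
  ext x
  constructor
  · rintro ⟨_, ⟨φ, h, rfl⟩, rfl⟩
    rw [gbar_mk, gamSL_tv h]
    refine ⟨-φ, by rw [dotProduct_neg, dotProduct_comm, h, neg_zero], ?_⟩
    have e1 : tv φ (-v) = tv φ ((-1 : F) • v) := by rw [neg_one_smul]
    have e2 : tv (-φ) v = tv ((-1 : F) • φ) v := by rw [neg_one_smul]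
    rw [e1, e2, tv_smul]
  · rintro ⟨w, h, rfl⟩
    refine ⟨QuotientGroup.mk (tv v (-w)), ⟨-w, by rw [neg_dotProduct, dotProduct_comm, h, neg_zero], rfl⟩, ?_⟩
    rw [gbar_mk, gamSL_tv (by rw [neg_dotProduct, dotProduct_comm, h, neg_zero])]
    have e1 : tv (-w) (-v) = tv ((-1 : F) • w) (-v) := by rw [neg_one_smul]
    rw [e1, tv_smul, neg_one_smul, neg_neg]

theorem gbar_image_Ta (v : Fin n → F) : gbar '' Ta v = Tc v := by
  rw [← gbar_image_Tc, Set.image_image]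
  simp [gbar_gbar]

end Cfsg.Agent.Lib.Helper4.PSLn
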