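import Mathlib
import Cfsg.Agent.Lib.Helper4.PSLnGeom

set_option autoImplicit false

namespace Cfsg.Agent.Lib.Helper4.PSLn

open Matrix Cfsg.Agent.Lib.Helper4.SLnTv

variable {n : ℕ} {F : Type*} [Field F]

local notation "SL" => SpecialLinearGroup (Fin n) F
local notation "PSL" => ProjectiveSpecialLinearGroup (Fin n) F

/-- all automorphisms preserve the set of projective transvections -/
def HX (n : ℕ) (F : Type*) [Field F] : Prop :=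
  ∀ (β : MulAut (ProjectiveSpecialLinearGroup (Fin n) F)) (x : ProjectiveSpecialLinearGroup (Fin n) F),
    x ∈ (X : Set (ProjectiveSpecialLinearGroup (Fin n) F)) → β x ∈ (X : Set (ProjectiveSpecialLinearGroup (Fin n) F))

theorem structure_image (hn : 3 ≤ n) (hX : HX n F) (β : MulAut PSL) (S : Set PSL)
    (h1 : ∀ x ∈ S, x ∈ X ∨ x = 1) (h2 : ∀ x ∈ S, ∀ y ∈ S, x * y ∈ S) :
    (∃ a : Fin n → F, a ≠ 0 ∧ β '' S ⊆ Tc a) ∨ (∃ ψ : Fin n → F, ψ ≠ 0 ∧ β '' S ⊆ Ta ψ) := by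
  have h3 : ∀ x ∈ β '' S, x ∈ X ∨ x = 1 := by
    rintro _ ⟨x, hx, rfl⟩
    rcases h1 x hx with h | rfl
    · exact Or.inl (hX β x h)
    · exact Or.inr (map_one β)
  apply structure_lemma hn _ h3
  rintro _ ⟨x, hx, rfl⟩ _ ⟨y, hy, rfl⟩
  rw [← map_mul]
  exact h3 _ ⟨x * y, h2 x hx y hy, rfl⟩

theorem image_Tc (hn : 3 ≤ n) (hX : HX n F) (β : MulAut PSL) {v : Fin n → F} (hv : v ≠ 0) :
    (∃ a : Fin n → F, a ≠ 0 ∧ β '' Tc v = Tc a) ∨ (∃ ψ : Fin n → F, ψ ≠ 0 ∧ β '' Tc v = Ta ψ) := by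
  have main : ∀ (M : Set PSL), (∀ x ∈ M, x ∈ X ∨ x = 1) → (∀ x ∈ M, ∀ y ∈ M, x * y ∈ M) →
      β '' Tc v ⊆ M → β '' Tc v = M := by
    intro M hM1 hM2 hsub
    have hsub' : Tc v ⊆ (⇑(β⁻¹ : MulAut PSL)) '' M := by
      intro x hx
      exact ⟨β x, hsub ⟨x, hx, rfl⟩, MulAut.inv_apply_self _ β x⟩
    have hle : (⇑(β⁻¹ : MulAut PSL)) '' M ⊆ Tc v := by
      rcases structure_image hn hX β⁻¹ M hM1 hM2 with ⟨v', hv', h⟩ | ⟨ψ', hψ', h⟩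
      · have hp := par_of_Tc_subset hn hv (hsub'.trans h)
        rw [Tc_eq_of_par hp]
        exact h
      · exact absurd (hsub'.trans h) (not_Tc_subset_Ta hn hv)
    apply Set.Subset.antisymm hsub
    intro y hy
    exact ⟨β⁻¹ y, hle ⟨y, hy, rfl⟩, MulAut.apply_inv_self _ β y⟩
  rcases structure_image hn hX β (Tc v) (fun x hx => Tc_sub hv hx) (fun x hx y hy => Tc_mul hx hy) with
    ⟨a, ha, h⟩ | ⟨ψ, hψ, h⟩
  · exact Or.inl ⟨a, ha, main _ (fun x hx => Tc_sub ha hx) (fun x hx y hy => Tc_mul hx hy) h⟩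
  · exact Or.inr ⟨ψ, hψ, main _ (fun x hx => Ta_sub hψ hx) (fun x hx y hy => Ta_mul hx hy) h⟩

theorem mul_image (α β : MulAut PSL) (S : Set PSL) : (α * β) '' S = α '' (β '' S) := by
  rw [Set.image_image]
  rfl

theorem image_Ta (hn : 3 ≤ n) (hX : HX n F) (β : MulAut PSL) {φ : Fin n → F} (hφ : φ ≠ 0) :
    (∃ a : Fin n → F, a ≠ 0 ∧ β '' Ta φ = Tc a) ∨ (∃ ψ : Fin n → F, ψ ≠ 0 ∧ β '' Ta φ = Ta ψ) := by
  have := image_Tc hn hX (β * gbar) hφ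
  rwa [mul_image, gbar_image_Tc] at this

theorem image_inj (β : MulAut PSL) {A B : Set PSL} (h : β '' A = β '' B) : A = B :=
  Set.image_injective.2 β.injective h

theorem ne_one_image (β : MulAut PSL) {x : PSL} (hx : x ≠ 1) : β x ≠ 1 := by
  intro h
  exact hx ((map_eq_one_iff β β.injective).1 h)

theorem not_Tc_Ta_to_Tc (hn : 3 ≤ n) (β : MulAut PSL) {v φ a b : Fin n → F} (hv : v ≠ 0) (hφ : φ ≠ 0)
    (hor : φ ⬝ᵥ v = 0) (h1 : β '' Tc v = Tc a) (h2 : β '' Ta φ = Tc b) : False := by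
  have hx1 := mk_tv_ne_one hn hor hv hφ
  have m1 : β (QuotientGroup.mk (tv v φ)) ∈ Tc a := by rw [← h1]; exact ⟨_, ⟨φ, hor, rfl⟩, rfl⟩
  have m2 : β (QuotientGroup.mk (tv v φ)) ∈ Tc b := by rw [← h2]; exact ⟨_, ⟨v, hor, rfl⟩, rfl⟩
  have hp := par_of_mem_Tc_Tc hn (ne_one_image β hx1) m1 m2
  rw [← Tc_eq_of_par hp, ← h1] at h2
  exact Tc_ne_Ta hn hv (image_inj β h2).symm

theorem not_Tc_Ta_to_Ta (hn : 3 ≤ n) (β : MulAut PSL) {v φ ψ χ : Fin n → F} (hv : v ≠ 0) (hφ : φ ≠ 0)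
    (hor : φ ⬝ᵥ v = 0) (h1 : β '' Tc v = Ta ψ) (h2 : β '' Ta φ = Ta χ) : False := by
  have hx1 := mk_tv_ne_one hn hor hv hφ
  have m1 : β (QuotientGroup.mk (tv v φ)) ∈ Ta ψ := by rw [← h1]; exact ⟨_, ⟨φ, hor, rfl⟩, rfl⟩
  have m2 : β (QuotientGroup.mk (tv v φ)) ∈ Ta χ := by rw [← h2]; exact ⟨_, ⟨v, hor, rfl⟩, rfl⟩
  have hp := par_of_mem_Ta_Ta hn (ne_one_image β hx1) m1 m2
  rw [← Ta_eq_of_par hp, ← h1] at h2
  exact Tc_ne_Ta hn hv (image_inj β h2).symm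

theorem no_mixed (hn : 3 ≤ n) (hX : HX n F) (β : MulAut PSL) {v v' a ψ : Fin n → F} (hv : v ≠ 0) (hv' : v' ≠ 0)
    (h1 : β '' Tc v = Tc a) (h2 : β '' Tc v' = Ta ψ) : False := by
  obtain ⟨φ, hφ, k1, k2⟩ := exists_orth2 hn v v'
  rw [dotProduct_comm] at k1 k2
  rcases image_Ta hn hX β hφ with ⟨b, -, h3⟩ | ⟨χ, -, h3⟩
  · exact not_Tc_Ta_to_Tc hn β hv hφ k1 h1 h3
  · exact not_Tc_Ta_to_Ta hn β hv' hφ k2 h2 h3

/-- the automorphism maps point-type subgroups to point-type subgroups -/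
def TypeI (β : MulAut PSL) : Prop := ∀ v : Fin n → F, v ≠ 0 → ∃ a : Fin n → F, a ≠ 0 ∧ β '' Tc v = Tc a

theorem exists_orth1 (hn : 3 ≤ n) (φ : Fin n → F) : ∃ v : Fin n → F, v ≠ 0 ∧ φ ⬝ᵥ v = 0 := by
  obtain ⟨v, hv, h, -⟩ := exists_orth2 hn φ φ
  exact ⟨v, hv, h⟩

theorem typeI_or (hn : 3 ≤ n) (hX : HX n F) (β : MulAut PSL) : TypeI β ∨ TypeI (β * gbar) := by
  let e₀ : Fin n → F := Pi.single ⟨0, by omega⟩ 1
  have he₀ : e₀ ≠ 0 := by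
    intro h
    have := congrFun h ⟨0, by omega⟩
    simp [e₀] at this
  rcases image_Tc hn hX β he₀ with ⟨a₀, -, h0⟩ | ⟨ψ₀, -, h0⟩
  · left
    intro v hv
    rcases image_Tc hn hX β hv with h | ⟨ψ, -, h⟩
    · exact h
    · exact (no_mixed hn hX β he₀ hv h0 h).elim
  · right
    intro φ hφ
    rw [mul_image, gbar_image_Tc]
    rcases image_Ta hn hX β hφ with h | ⟨χ, -, h⟩
    · exact h
    · exfalso
      obtain ⟨v, hv, hor⟩ := exists_orth1 hn φ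
      rcases image_Tc hn hX β hv with ⟨a, -, h1⟩ | ⟨ψ, -, h1⟩
      · exact no_mixed hn hX β hv he₀ h1 h0
      · exact not_Tc_Ta_to_Ta hn β hv hφ hor h1 h

theorem typeI_Ta (hn : 3 ≤ n) (hX : HX n F) {β : MulAut PSL} (h : TypeI β) {φ : Fin n → F} (hφ : φ ≠ 0) :
    ∃ ψ : Fin n → F, ψ ≠ 0 ∧ β '' Ta φ = Ta ψ := by
  rcases image_Ta hn hX β hφ with ⟨b, -, h2⟩ | h2
  · exfalso
    obtain ⟨v, hv, hor⟩ := exists_orth1 hn φ
    obtain ⟨a, -, h1⟩ := h v hv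
    exact not_Tc_Ta_to_Tc hn β hv hφ hor h1 h2
  · exact h2

theorem image_inv {β : MulAut PSL} {A B : Set PSL} (h : β '' A = B) : (⇑(β⁻¹ : MulAut PSL)) '' B = A := by
  rw [← h, ← mul_image, inv_mul_cancel]
  simp

theorem typeI_inv (hn : 3 ≤ n) (hX : HX n F) {β : MulAut PSL} (h : TypeI β) : TypeI β⁻¹ := by
  intro a ha
  rcases image_Tc hn hX β⁻¹ ha with h1 | ⟨ψ, hψ, h1⟩
  · exact h1
  · exfalso
    have h2 : β '' Ta ψ = Tc a := by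
      have := image_inv h1
      rwa [inv_inv] at this
    obtain ⟨ψ', -, h3⟩ := typeI_Ta hn hX h hψ
    rw [h2] at h3
    exact Tc_ne_Ta hn ha h3

theorem typeI_mul {α β : MulAut PSL} (h1 : TypeI α) (h2 : TypeI β) : TypeI (α * β) := by
  intro v hv
  obtain ⟨a, ha, e1⟩ := h2 v hv
  obtain ⟨b, hb, e2⟩ := h1 a ha
  exact ⟨b, hb, by rw [mul_image, e1, e2]⟩

theorem incidence (hn : 3 ≤ n) (β : MulAut PSL) {v φ a ψ : Fin n → F} (hv : v ≠ 0) (hφ : φ ≠ 0)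
    (hor : φ ⬝ᵥ v = 0) (h1 : β '' Tc v = Tc a) (h2 : β '' Ta φ = Ta ψ) : ψ ⬝ᵥ a = 0 := by
  have hx1 := mk_tv_ne_one hn hor hv hφ
  have m1 : β (QuotientGroup.mk (tv v φ)) ∈ Tc a := by rw [← h1]; exact ⟨_, ⟨φ, hor, rfl⟩, rfl⟩
  have m2 : β (QuotientGroup.mk (tv v φ)) ∈ Ta ψ := by rw [← h2]; exact ⟨_, ⟨v, hor, rfl⟩, rfl⟩
  exact orth_of_mem_Tc_Ta hn (ne_one_image β hx1) m1 m2

theorem cbar_image_Tc (P : GL (Fin n) F) (v : Fin n → F) : cbar P '' Tc v = Tc (P.1 *ᵥ v) := by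
  ext x
  constructor
  · rintro ⟨_, ⟨φ, h, rfl⟩, rfl⟩
    rw [cbar_mk, conjSL_tv P h]
    refine ⟨φ ᵥ* (P⁻¹).1, ?_, rfl⟩
    rw [← dotProduct_mulVec, mulVec_mulVec, Units.inv_mul, one_mulVec, h]
  · rintro ⟨φ, h, rfl⟩
    have h' : (φ ᵥ* P.1) ⬝ᵥ v = 0 := by rw [← dotProduct_mulVec, h]
    refine ⟨QuotientGroup.mk (tv v (φ ᵥ* P.1)), ⟨_, h', rfl⟩, ?_⟩
    rw [cbar_mk, conjSL_tv P h', vecMul_vecMul, Units.mul_inv, vecMul_one]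

theorem typeI_cbar (P : GL (Fin n) F) : TypeI (cbar P) := by
  intro v hv
  refine ⟨P.1 *ᵥ v, ?_, cbar_image_Tc P v⟩
  intro h
  apply hv
  have := congrArg (fun w => (P⁻¹).1 *ᵥ w) h
  simpa [mulVec_mulVec, Units.inv_mul] using this

end Cfsg.Agent.Lib.Helper4.PSLn
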