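import Mathlib
import Cfsg.Agent.Lib.Helper4.PSLnGeom2

set_option autoImplicit false

namespace Cfsg.Agent.Lib.Helper4.PSLn

open Matrix Cfsg.Agent.Lib.Helper4.SLnTv

variable {n : ℕ} {F : Type*} [Field F]

local notation "SL" => SpecialLinearGroup (Fin n) F
local notation "PSL" => ProjectiveSpecialLinearGroup (Fin n) F

/-- standard basis vector -/
def e (i : Fin n) : Fin n → F := Pi.single i 1

theorem e_ne_zero (i : Fin n) : (e i : Fin n → F) ≠ 0 := by
  intro h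
  have := congrFun h i
  simp [e] at this

theorem dot_e (φ : Fin n → F) (i : Fin n) : φ ⬝ᵥ e i = φ i := by simp [e]
theorem e_dot (φ : Fin n → F) (i : Fin n) : e i ⬝ᵥ φ = φ i := by simp [e]

theorem e_dot_e {i j : Fin n} (h : i ≠ j) : (e j : Fin n → F) ⬝ᵥ e i = 0 := by
  rw [dot_e]; simp [e, h]

/-- elementary transvection -/
noncomputable def E (i j : Fin n) (t : F) : SL := tv (t • e i) (e j)

theorem E_orth {i j : Fin n} (h : i ≠ j) (t : F) : (e j : Fin n → F) ⬝ᵥ (t • e i) = 0 := by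
  rw [dotProduct_smul, e_dot_e h, smul_zero]

theorem exists_frame (hn : 3 ≤ n) (hX : HX n F) {β : MulAut PSL} (h : TypeI β) :
    ∃ P : GL (Fin n) F, ∀ i : Fin n, (cbar P * β) '' Tc (e i) = Tc (e i) := by
  classical
  choose a ha hβ using fun i : Fin n => h (e i) (e_ne_zero i)
  let A : Matrix (Fin n) (Fin n) F := Matrix.of (fun i j => a j i)
  have hAe : ∀ j, A *ᵥ e j = a j := by
    intro j
    funext i
    simp [A, e, Matrix.mulVec, dotProduct, Pi.single_apply]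
  have hdet : A.det ≠ 0 := by
    intro h0
    obtain ⟨ψ, hψ, hψA⟩ := Matrix.exists_vecMul_eq_zero_iff.2 h0
    have hor : ∀ j, ψ ⬝ᵥ a j = 0 := by
      intro j
      rw [← hAe, dotProduct_mulVec, hψA, zero_dotProduct]
    have hinv := typeI_inv hn hX h
    obtain ⟨φ, hφ, h1⟩ := typeI_Ta hn hX hinv hψ
    apply hφ
    funext j
    have h2 := incidence hn (β⁻¹) (ha j) hψ (hor j) (image_inv (hβ j)) h1
    rw [dot_e] at h2
    exact h2
  let P₀ : GL (Fin n) F := Matrix.GeneralLinearGroup.mkOfDetNeZero A hdet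
  refine ⟨P₀⁻¹, fun i => ?_⟩
  rw [mul_image, hβ, cbar_image_Tc, ← hAe]
  have : (P₀⁻¹).1 * A = 1 := Units.inv_mul P₀
  rw [mulVec_mulVec, this, one_mulVec]

theorem frame_Ta (hn : 3 ≤ n) (hX : HX n F) {β : MulAut PSL} (h : TypeI β)
    (hf : ∀ i : Fin n, β '' Tc (e i) = Tc (e i)) (j : Fin n) : β '' Ta (e j) = Ta (e j) := by
  obtain ⟨ψ, hψ, h1⟩ := typeI_Ta hn hX h (e_ne_zero j)
  have h2 : ∀ i, i ≠ j → ψ i = 0 := by
    intro i hij
    have := incidence hn β (e_ne_zero i) (e_ne_zero j) (e_dot_e hij) (hf i) h1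
    rwa [dot_e] at this
  have hψj : ψ j ≠ 0 := by
    intro h0
    apply hψ
    funext i
    by_cases hij : i = j
    · rw [hij, h0]; rfl
    · exact h2 i hij
  have hp : Par (e j) ψ := by
    refine ⟨ψ j, hψj, ?_⟩
    funext i
    by_cases hij : i = j
    · subst hij; simp [e]
    · rw [h2 i hij]; simp [e, hij]
  rw [h1, Ta_eq_of_par hp]

theorem frame_E (hn : 3 ≤ n) {β : MulAut PSL}
    (hc : ∀ i : Fin n, β '' Tc (e i) = Tc (e i)) (ha : ∀ j : Fin n, β '' Ta (e j) = Ta (e j))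
    {i j : Fin n} (hij : i ≠ j) (t : F) :
    ∃ s : F, β (QuotientGroup.mk (E i j t)) = QuotientGroup.mk (E i j s) := by
  have m1 : β (QuotientGroup.mk (E i j t)) ∈ Tc (e i) := by
    rw [← hc i]
    refine ⟨_, ⟨t • e j, ?_, ?_⟩, rfl⟩
    · rw [smul_dotProduct, e_dot_e hij, smul_zero]
    · rw [E, tv_smul]
  have m2 : β (QuotientGroup.mk (E i j t)) ∈ Ta (e j) := by
    rw [← ha j]
    exact ⟨_, ⟨t • e i, E_orth hij t, rfl⟩, rfl⟩
  by_cases h1 : β (QuotientGroup.mk (E i j t)) = 1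
  · refine ⟨0, ?_⟩
    rw [h1, E, zero_smul, tv_zero_left]; rfl
  · obtain ⟨φ, k1, e1⟩ := m1
    obtain ⟨w, k2, e2⟩ := m2
    have hφ : φ ≠ 0 := by
      rintro rfl
      apply h1; rw [e1, tv_zero_right]; rfl
    obtain ⟨c, hc0, hc1⟩ := (par_of_mk_eq hn k1 k2 (e_ne_zero i) hφ (e1.symm.trans e2)).1
    exact ⟨c, by rw [e2, hc1, E]⟩

theorem exists_std (hn : 3 ≤ n) (hX : HX n F) {β : MulAut PSL} (h : TypeI β) :
    ∃ P : GL (Fin n) F, ∀ i j : Fin n, i ≠ j → ∀ t : F,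
      ∃ s : F, (cbar P * β) (QuotientGroup.mk (E i j t)) = QuotientGroup.mk (E i j s) := by
  obtain ⟨P, hP⟩ := exists_frame hn hX h
  refine ⟨P, fun i j hij t => ?_⟩
  exact frame_E hn hP (frame_Ta hn hX (typeI_mul (typeI_cbar P) h) hP) hij t

end Cfsg.Agent.Lib.Helper4.PSLn
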