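import Mathlib
import Cfsg.Agent.Lib.Helper4.PSLnFrame
import Cfsg.Agent.Lib.Helper3.SLn

set_option autoImplicit false

namespace Cfsg.Agent.Lib.Helper4.PSLn

open Matrix Cfsg.Agent.Lib.Helper4.SLnTv

variable {n : ℕ} {F : Type*} [Field F]

local notation "SL" => SpecialLinearGroup (Fin n) F
local notation "PSL" => ProjectiveSpecialLinearGroup (Fin n) F

theorem E_eq {i j : Fin n} (hij : i ≠ j) (t : F) : E i j t = SpecialLinearGroup.transvection hij t := by
  apply Subtype.ext
  rw [E, tv_val (E_orth hij t), SpecialLinearGroup.transvection_coe]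
  congr 1
  ext a b
  simp only [vecMulVec_apply, e, Pi.smul_apply, Pi.single_apply, Matrix.single_apply, smul_eq_mul]
  by_cases h1 : a = i <;> by_cases h2 : b = j <;> simp [h1, h2] <;> grind

theorem E_entry {i j : Fin n} (hij : i ≠ j) (t : F) : (E i j t).1 i j = t := by
  rw [E_eq hij, SpecialLinearGroup.transvection_coe]
  simp [Matrix.one_apply, hij]

theorem E_add {i j : Fin n} (hij : i ≠ j) (s t : F) : E i j (s + t) = E i j s * E i j t := by
  rw [E, E, E, tv_mul_axis (E_orth hij s) (E_orth hij t), add_smul]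

theorem E_zero (i j : Fin n) : (E i j 0 : SL) = 1 := by
  rw [E, zero_smul, tv_zero_left]

open Matrix.SpecialLinearGroup in
theorem transvection_comm {i j k : Fin n} (hij : i ≠ j) (hik : i ≠ k) (hkj : k ≠ j) (s t : F) :
    SpecialLinearGroup.transvection hik s * SpecialLinearGroup.transvection hkj t *
      SpecialLinearGroup.transvection hik (-s) * SpecialLinearGroup.transvection hkj (-t) =
      SpecialLinearGroup.transvection hij (s * t) := by
  apply Subtype.ext
  simp only [Matrix.SpecialLinearGroup.coe_mul, Matrix.SpecialLinearGroup.transvection_coe]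
  simp only [mul_add, add_mul, mul_one, one_mul, single_mul_single_same,
    single_mul_single_of_ne _ _ _ _ hij, single_mul_single_of_ne _ _ _ _ hij.symm,
    single_mul_single_of_ne _ _ _ _ hik, single_mul_single_of_ne _ _ _ _ hik.symm,
    single_mul_single_of_ne _ _ _ _ hkj, single_mul_single_of_ne _ _ _ _ hkj.symm, add_zero]
  ext a b
  simp only [Matrix.add_apply, Matrix.one_apply, Matrix.single_apply]
  by_cases h1 : a = b <;> by_cases h2 : i = a <;> by_cases h3 : j = b <;> by_cases h4 : k = a <;>
    by_cases h5 : k = b <;> simp_all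

theorem E_comm {i j k : Fin n} (hij : i ≠ j) (hik : i ≠ k) (hkj : k ≠ j) (s t : F) :
    E i k s * E k j t * (E i k s)⁻¹ * (E k j t)⁻¹ = E i j (s * t) := by
  rw [E_eq hij, E_eq hik, E_eq hkj, SpecialLinearGroup.transvection_inv, SpecialLinearGroup.transvection_inv]
  exact transvection_comm hij hik hkj s t

theorem mk_E_inj (hn : 3 ≤ n) {i j : Fin n} (hij : i ≠ j) {s t : F}
    (h : (QuotientGroup.mk (E i j s) : PSL) = QuotientGroup.mk (E i j t)) : s = t := by
  have := tv_eq_of_mk_eq hn (E_orth hij s) (E_orth hij t) h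
  have h2 : (E i j s).1 i j = (E i j t).1 i j := by
    rw [E, E, this]
  rwa [E_entry hij, E_entry hij] at h2

/-- diagonal element of `GL_n` -/
def dgn (d : Fin n → F) (hd : ∀ i, d i ≠ 0) : GL (Fin n) F where
  val := diagonal d
  inv := diagonal (fun i => (d i)⁻¹)
  val_inv := by
    rw [diagonal_mul_diagonal, ← diagonal_one]
    congr 1
    funext i
    exact mul_inv_cancel₀ (hd i)
  inv_val := by
    rw [diagonal_mul_diagonal, ← diagonal_one]
    congr 1
    funext i
    exact inv_mul_cancel₀ (hd i)

theorem dgn_val (d : Fin n → F) (hd : ∀ i, d i ≠ 0) : (dgn d hd).1 = diagonal d := rfl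
theorem dgn_inv_val (d : Fin n → F) (hd : ∀ i, d i ≠ 0) :
    ((dgn d hd)⁻¹).1 = diagonal (fun i => (d i)⁻¹) := rfl

theorem conjSL_dgn_E (d : Fin n → F) (hd : ∀ i, d i ≠ 0) {i j : Fin n} (hij : i ≠ j) (t : F) :
    conjSL (dgn d hd) (E i j t) = E i j (d i * t / d j) := by
  rw [E, conjSL_tv _ (E_orth hij t), dgn_val, dgn_inv_val, E]
  have h1 : diagonal d *ᵥ (t • e i) = (d i * t) • e i := by
    funext a
    rw [mulVec_diagonal]
    by_cases h : a = i
    · subst h; simp [e]
    · simp [e, h]
  have h2 : (e j : Fin n → F) ᵥ* diagonal (fun i => (d i)⁻¹) = (d j)⁻¹ • e j := by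
    funext a
    rw [vecMul_diagonal]
    by_cases h : a = j
    · subst h; simp [e]
    · simp [e, h]
  rw [h1, h2, ← tv_smul, smul_smul]
  congr 2
  rw [div_eq_mul_inv, mul_comm]

theorem mapSL_E (σ : F ≃+* F) {i j : Fin n} (hij : i ≠ j) (t : F) :
    mapSL σ (E i j t) = E i j (σ t) := by
  rw [E, mapSL_tv _ (E_orth hij t), E]
  congr 1
  · funext a
    by_cases h : a = i
    · subst h; simp [e]
    · simp [e, h]
  · funext a
    by_cases h : a = j
    · subst h; simp [e]
    · simp [e, h]

theorem exists_third (hn : 3 ≤ n) (i j : Fin n) : ∃ k : Fin n, k ≠ i ∧ k ≠ j := by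
  by_contra hcon
  push Not at hcon
  have h0 := hcon ⟨0, by omega⟩
  have h1 := hcon ⟨1, by omega⟩
  have h2 := hcon ⟨2, by omega⟩
  by_cases a0 : (⟨0, by omega⟩ : Fin n) = i <;> by_cases a1 : (⟨1, by omega⟩ : Fin n) = i <;>
    by_cases a2 : (⟨2, by omega⟩ : Fin n) = i
  all_goals
    first
    | (have := a0.trans a1.symm; simp at this; done)
    | (have := a0.trans a2.symm; simp at this; done)
    | (have := a1.trans a2.symm; simp at this; done)
    | (have := (h0 a0).trans (h1 a1).symm; simp at this; done)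
    | (have := (h0 a0).trans (h2 a2).symm; simp at this; done)
    | (have := (h1 a1).trans (h2 a2).symm; simp at this; done)

theorem std_eq_n [Finite F] (hn : 3 ≤ n) (β : MulAut PSL)
    (hβ : ∀ i j : Fin n, i ≠ j → ∀ t : F,
      ∃ s : F, β (QuotientGroup.mk (E i j t)) = QuotientGroup.mk (E i j s)) :
    ∃ (d : Fin n → F) (hd : ∀ i, d i ≠ 0) (σ : F ≃+* F), β = cbar (dgn d hd) * fbar σ := by
  classical
  have hβ' : ∀ (i j : Fin n) (t : F), ∃ s : F, i ≠ j →
      β (QuotientGroup.mk (E i j t)) = QuotientGroup.mk (E i j s) := by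
    intro i j t
    by_cases hij : i = j
    · exact ⟨0, fun h => absurd hij h⟩
    · obtain ⟨s, hs⟩ := hβ i j hij t
      exact ⟨s, fun _ => hs⟩
  choose Φ hΦ using hβ'
  have Φadd : ∀ i j, i ≠ j → ∀ s t, Φ i j (s + t) = Φ i j s + Φ i j t := by
    intro i j hij s t
    apply mk_E_inj hn hij
    rw [← hΦ i j _ hij, E_add hij, E_add hij, QuotientGroup.mk_mul, map_mul, hΦ i j _ hij, hΦ i j _ hij]
    rfl
  have Φinj : ∀ i j, i ≠ j → Function.Injective (Φ i j) := by
    intro i j hij s t hst
    apply mk_E_inj hn hij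
    apply β.injective
    rw [hΦ i j _ hij, hΦ i j _ hij, hst]
  have Φ0 : ∀ i j, i ≠ j → Φ i j 0 = 0 := by
    intro i j hij
    have := Φadd i j hij 0 0
    rw [add_zero] at this
    linear_combination -this
  have Φmul : ∀ i j k, i ≠ j → i ≠ k → k ≠ j → ∀ s t, Φ i j (s * t) = Φ i k s * Φ k j t := by
    intro i j k hij hik hkj s t
    apply mk_E_inj hn hij
    rw [← hΦ i j _ hij, ← E_comm hij hik hkj, ← E_comm hij hik hkj]
    simp only [QuotientGroup.mk_mul, QuotientGroup.mk_inv, map_mul, map_inv]
    rw [hΦ i k _ hik, hΦ k j _ hkj]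
  set c : Fin n → Fin n → F := fun i j => Φ i j 1 with hc
  have c0 : ∀ i j, i ≠ j → c i j ≠ 0 := by
    intro i j hij h
    have : Φ i j 1 = Φ i j 0 := by rw [Φ0 i j hij]; exact h
    exact one_ne_zero (Φinj i j hij this)
  have cmul : ∀ i j k, i ≠ j → i ≠ k → k ≠ j → c i j = c i k * c k j := by
    intro i j k hij hik hkj
    have := Φmul i j k hij hik hkj 1 1
    rwa [mul_one] at this
  set S : Fin n → Fin n → F → F := fun i j t => Φ i j t / c i j with hS
  have S1 : ∀ i j k, i ≠ j → i ≠ k → k ≠ j → ∀ t, S i j t = S i k t := by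
    intro i j k hij hik hkj t
    have h1 := Φmul i j k hij hik hkj t 1
    rw [mul_one] at h1
    change Φ i j t / c i j = Φ i k t / c i k
    rw [h1, cmul i j k hij hik hkj]
    have := c0 i k hik
    have := c0 k j hkj
    change Φ i k t * c k j / _ = _
    field_simp
  have S2 : ∀ i j k, i ≠ j → i ≠ k → k ≠ j → ∀ t, S i j t = S k j t := by
    intro i j k hij hik hkj t
    have h1 := Φmul i j k hij hik hkj 1 t
    rw [one_mul] at h1
    change Φ i j t / c i j = Φ k j t / c k j
    rw [h1, cmul i j k hij hik hkj]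
    have := c0 i k hik
    have := c0 k j hkj
    change c i k * Φ k j t / _ = _
    field_simp
  have Smul : ∀ i j k, i ≠ j → i ≠ k → k ≠ j → ∀ s t, S i j (s * t) = S i k s * S k j t := by
    intro i j k hij hik hkj s t
    change Φ i j (s * t) / c i j = Φ i k s / c i k * (Φ k j t / c k j)
    rw [Φmul i j k hij hik hkj, cmul i j k hij hik hkj]
    have := c0 i k hik
    have := c0 k j hkj
    field_simp
  let z : Fin n := ⟨0, by omega⟩
  let o : Fin n := ⟨1, by omega⟩
  have hzo : z ≠ o := by simp [z, o]
  have Sall' : ∀ i j, i ≠ j → j ≠ z → ∀ t, S i j t = S z o t := by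
    intro i j hij hj t
    have h1 : S i j t = S z j t := by
      by_cases hi : i = z
      · rw [hi]
      · exact S2 i j z hij hi hj.symm t
    rw [h1]
    by_cases hjo : j = o
    · rw [hjo]
    · exact S1 z j o hj.symm hzo (Ne.symm hjo) t
  have Sall : ∀ i j, i ≠ j → ∀ t, S i j t = S z o t := by
    intro i j hij t
    by_cases hj : j = z
    · obtain ⟨k, hk1, hk2⟩ := exists_third hn i j
      rw [S1 i j k hij hk1.symm hk2 t]
      exact Sall' i k hk1.symm (by rw [← hj]; exact hk2) t
    · exact Sall' i j hij hj t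
  obtain ⟨w, hw1, hw2⟩ := exists_third hn z o
  let f : F →+* F :=
    { toFun := S z o
      map_one' := div_self (c0 z o hzo)
      map_mul' := by
        intro s t
        rw [Smul z o w hzo hw1.symm hw2, Sall z w hw1.symm, Sall w o hw2]
      map_zero' := by
        change Φ z o 0 / c z o = 0
        rw [Φ0 z o hzo, zero_div]
      map_add' := by
        intro s t
        change Φ z o (s + t) / c z o = Φ z o s / c z o + Φ z o t / c z o
        rw [Φadd z o hzo, add_div] }
  have hbij : Function.Bijective f := by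
    have hinj : Function.Injective f := f.injective
    exact ⟨hinj, Finite.surjective_of_injective hinj⟩
  let σ : F ≃+* F := RingEquiv.ofBijective f hbij
  have hσ : ∀ i j, i ≠ j → ∀ t, Φ i j t = c i j * σ t := by
    intro i j hij t
    have : σ t = Φ i j t / c i j := (Sall i j hij t).symm
    rw [this]
    have := c0 i j hij
    field_simp
  let d : Fin n → F := fun i => if i = z then 1 else c i z
  have hd : ∀ i, d i ≠ 0 := by
    intro i
    by_cases hi : i = z
    · simp [d, hi]
    · simp only [d, if_neg hi]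
      exact c0 i z hi
  have hcd : ∀ i j, i ≠ j → c i j = d i / d j := by
    intro i j hij
    by_cases hj : j = z
    · have hi : i ≠ z := by rw [← hj]; exact hij
      subst hj
      simp [d, if_neg hi]
    · by_cases hi : i = z
      · simp only [d, if_pos hi, if_neg hj]
        obtain ⟨k, hk1, hk2⟩ := exists_third hn z j
        have e1 := cmul z k j hk1.symm (Ne.symm hj) hk2.symm
        have e2 := cmul j k z hk2.symm hj hk1.symm
        rw [e2] at e1
        have := c0 z k hk1.symm
        have := c0 j z hj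
        rw [hi]
        field_simp
        have e3 : c z k * (c z j * c j z - 1) = 0 := by linear_combination -e1
        rcases mul_eq_zero.1 e3 with h | h
        · exact absurd h (c0 z k hk1.symm)
        · linear_combination h
      · simp only [d, if_neg hi, if_neg hj]
        have := c0 j z hj
        rw [cmul i z j hi hij hj]
        field_simp
  refine ⟨d, hd, σ, ?_⟩
  ext x
  obtain ⟨g, rfl⟩ := QuotientGroup.mk_surjective x
  have : Nontrivial (Fin n) := ⟨z, o, hzo⟩
  refine Cfsg.Agent.Lib.Helper3.SLn.transvection_induction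
    (fun g : SL => β (QuotientGroup.mk g) = (cbar (dgn d hd) * fbar σ : MulAut PSL) (QuotientGroup.mk g)) ?_ ?_ g
  · intro i j hij t
    rw [← E_eq hij, hΦ i j _ hij, MulAut.mul_apply, fbar_mk, mapSL_E σ hij, cbar_mk, conjSL_dgn_E d hd hij,
      hσ i j hij, hcd i j hij]
    congr 2
    have := hd j
    field_simp
  · intro A B hA hB
    simp only [QuotientGroup.mk_mul, map_mul] at hA hB ⊢
    rw [hA, hB]

end Cfsg.Agent.Lib.Helper4.PSLn
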