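import Mathlib
import Cfsg.Agent.Lib.Helper4.PSLnStd

set_option autoImplicit false

namespace Cfsg.Agent.Lib.Helper4.PSLn

open Matrix Cfsg.Agent.Lib.Helper4.SLnTv

variable {n : ℕ} {F : Type*} [Field F]

local notation "SL" => SpecialLinearGroup (Fin n) F
local notation "PSL" => ProjectiveSpecialLinearGroup (Fin n) F

theorem tv_vecMul {v φ : Fin n → F} (h : φ ⬝ᵥ v = 0) (w : Fin n → F) :
    w ᵥ* (tv v φ).1 = w + (w ⬝ᵥ v) • φ := by
  rw [tv_val h, vecMul_add, vecMul_one, vecMul_vecMulVec]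

theorem e_self (i : Fin n) : (e i : Fin n → F) i = 1 := by simp [e]
theorem e_of_ne {i j : Fin n} (h : j ≠ i) : (e i : Fin n → F) j = 0 := by simp [e, h]

/-- one transvection moves `v` to `e a`, fixing the covector-side condition. -/
theorem move_aux {a k : Fin n} (hk : k ≠ a) {v : Fin n → F} (hv : v k ≠ 0) :
    ∃ ψ : Fin n → F, ψ ⬝ᵥ (e a - v) = 0 ∧ ψ ⬝ᵥ v = 1 ∧ ∀ b, b ≠ a → b ≠ k → ψ b = 0 := by
  refine ⟨e a + ((1 - v a) / v k) • e k, ?_, ?_, ?_⟩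
  · rw [dotProduct_sub, add_dotProduct, add_dotProduct, smul_dotProduct, smul_dotProduct, e_dot, e_dot,
      e_dot, e_dot, e_self, e_of_ne hk]
    simp only [smul_eq_mul]
    field_simp
    ring
  · rw [add_dotProduct, smul_dotProduct, e_dot, e_dot]
    simp only [smul_eq_mul]
    field_simp
    ring
  · intro b hb1 hb2
    simp [e_of_ne hb1, e_of_ne hb2]

theorem exists_move (hn : 2 ≤ n) (a : Fin n) {v : Fin n → F} (hv : v ≠ 0) :
    ∃ g : SL, g.1 *ᵥ v = e a := by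
  have key : ∀ v : Fin n → F, (∃ k, k ≠ a ∧ v k ≠ 0) → ∃ g : SL, g.1 *ᵥ v = e a := by
    rintro v ⟨k, hk, hvk⟩
    obtain ⟨ψ, h1, h2, -⟩ := move_aux hk hvk
    refine ⟨tv (e a - v) ψ, ?_⟩
    rw [tv_mulVec h1, h2, one_smul]
    abel
  by_cases h : ∃ k, k ≠ a ∧ v k ≠ 0
  · exact key v h
  · push Not at h
    have hva : v a ≠ 0 := by
      intro h0
      apply hv
      funext i
      by_cases hi : i = a
      · rw [hi, h0]; rfl
      · exact h i hi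
    obtain ⟨b, hb⟩ : ∃ b : Fin n, b ≠ a := by
      by_cases ha : a = ⟨0, by omega⟩
      · exact ⟨⟨1, by omega⟩, by rw [ha]; simp⟩
      · exact ⟨⟨0, by omega⟩, fun h => ha h.symm⟩
    obtain ⟨g, hg⟩ := key ((E b a 1).1 *ᵥ v) ⟨b, hb, by
      rw [E, tv_mulVec (E_orth hb 1), e_dot, one_smul]
      simp [e_self, h b hb, hva]⟩
    refine ⟨g * E b a 1, ?_⟩
    rw [← hg, mulVec_mulVec]
    rfl

theorem exists_move_dual (hn : 3 ≤ n) {a l : Fin n} (hal : a ≠ l) {φ : Fin n → F} (hφ : φ ≠ 0)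
    (h0 : φ a = 0) : ∃ g : SL, g.1 *ᵥ e a = e a ∧ φ ᵥ* g.1 = e l := by
  have key : ∀ φ : Fin n → F, φ a = 0 → (∃ k, k ≠ l ∧ φ k ≠ 0) →
      ∃ g : SL, g.1 *ᵥ e a = e a ∧ φ ᵥ* g.1 = e l := by
    rintro φ h0 ⟨k, hk, hvk⟩
    obtain ⟨w, h1, h2, -⟩ := move_aux hk hvk
    rw [dotProduct_comm] at h1 h2
    refine ⟨tv w (e l - φ), ?_, ?_⟩
    · rw [tv_mulVec h1, sub_dotProduct, dot_e, dot_e, e_of_ne hal, h0, sub_zero, zero_smul, add_zero]
    · rw [tv_vecMul h1, h2, one_smul]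
      abel
  by_cases h : ∃ k, k ≠ l ∧ φ k ≠ 0
  · exact key φ h0 h
  · push Not at h
    have hva : φ l ≠ 0 := by
      intro h0
      apply hφ
      funext i
      by_cases hi : i = l
      · rw [hi, h0]; rfl
      · exact h i hi
    obtain ⟨b, hb1, hb2⟩ := exists_third hn a l
    obtain ⟨g, hg1, hg2⟩ := key (φ ᵥ* (E l b 1).1) (by
      rw [E, tv_vecMul (E_orth hb2.symm 1)]
      simp [h0, e_of_ne hb1.symm]) ⟨b, hb2, by
      rw [E, tv_vecMul (E_orth hb2.symm 1), one_smul, dot_e]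
      simp [e_self, h b hb2, hva]⟩
    refine ⟨E l b 1 * g, ?_, ?_⟩
    · change ((E l b 1).1 * g.1) *ᵥ e a = e a
      rw [← mulVec_mulVec, hg1, E, tv_mulVec (E_orth hb2.symm 1), e_dot_e hb1.symm, zero_smul, add_zero]
    · rw [← hg2, vecMul_vecMul]
      rfl

theorem inv_mulVec {g : SL} {v w : Fin n → F} (h : g.1 *ᵥ v = w) : (g⁻¹).1 *ᵥ w = v := by
  have hinv : (g⁻¹).1 * g.1 = 1 := congrArg Subtype.val (inv_mul_cancel g)
  rw [← h, mulVec_mulVec, hinv, one_mulVec]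

/-- every transvection is conjugate in `SL_n` to a fixed elementary transvection (`n ≥ 3`). -/
theorem conj_to_E (hn : 3 ≤ n) {a l : Fin n} (hal : a ≠ l) {v φ : Fin n → F} (hv : v ≠ 0) (hφ : φ ≠ 0)
    (h : φ ⬝ᵥ v = 0) : ∃ g : SL, g * tv v φ * g⁻¹ = E a l 1 := by
  obtain ⟨g₁, hg₁⟩ := exists_move (by omega) a hv
  have hinv : (g₁⁻¹).1 * g₁.1 = 1 := congrArg Subtype.val (inv_mul_cancel g₁)
  set φ' := φ ᵥ* (g₁⁻¹).1 with hφ'
  have h1 : φ' ⬝ᵥ e a = 0 := by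
    rw [← hg₁, hφ', ← dotProduct_mulVec, mulVec_mulVec, hinv, one_mulVec, h]
  have h2 : φ' ≠ 0 := by
    intro h0
    apply hφ
    have : φ' ᵥ* g₁.1 = φ := by rw [hφ', vecMul_vecMul, hinv, vecMul_one]
    rw [← this, h0, zero_vecMul]
  obtain ⟨τ, hτ1, hτ2⟩ := exists_move_dual hn hal h2 (by rwa [dot_e] at h1)
  refine ⟨τ⁻¹ * g₁, ?_⟩
  have e1 : τ⁻¹ * g₁ * tv v φ * (τ⁻¹ * g₁)⁻¹ = τ⁻¹ * (g₁ * tv v φ * g₁⁻¹) * (τ⁻¹)⁻¹ := by group
  rw [e1, conj_tv g₁ h, hg₁, ← hφ', conj_tv _ h1, inv_inv, hτ2, inv_mulVec hτ1, E, one_smul]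

end Cfsg.Agent.Lib.Helper4.PSLn
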