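import Mathlib
import Cfsg.Agent.Lib.Helper4.PSLnConj
import Cfsg.Agent.S0242

set_option autoImplicit false

namespace Cfsg.Agent.Lib.Helper4.PSLn

open Matrix Cfsg.Agent.Lib.Helper4.SLnTv

variable {n : ℕ} {F : Type*} [Field F]

local notation "SL" => SpecialLinearGroup (Fin n) F
local notation "PSL" => ProjectiveSpecialLinearGroup (Fin n) F

/-- upper unitriangular -/
def IsU (M : Matrix (Fin n) (Fin n) F) : Prop := (∀ i j, j < i → M i j = 0) ∧ ∀ i, M i i = 1

theorem IsU.one : IsU (1 : Matrix (Fin n) (Fin n) F) :=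
  ⟨fun i j h => Matrix.one_apply_ne (ne_of_gt h), fun i => Matrix.one_apply_eq i⟩

theorem IsU.mul {A B : Matrix (Fin n) (Fin n) F} (hA : IsU A) (hB : IsU B) : IsU (A * B) := by
  constructor
  · intro i j hij
    rw [Matrix.mul_apply]
    apply Finset.sum_eq_zero
    intro k _
    by_cases hk : k < i
    · rw [hA.1 i k hk, zero_mul]
    · rw [hB.1 k j (lt_of_lt_of_le hij (not_lt.1 hk)), mul_zero]
  · intro i
    rw [Matrix.mul_apply, Finset.sum_eq_single i]
    · rw [hA.2, hB.2, mul_one]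
    · intro k _ hk
      rcases lt_or_gt_of_ne hk with h | h
      · rw [hA.1 i k h, zero_mul]
      · rw [hB.1 k i h, mul_zero]
    · intro h; exact absurd (Finset.mem_univ i) h

theorem IsU.pow {A : Matrix (Fin n) (Fin n) F} (hA : IsU A) (k : ℕ) : IsU (A ^ k) := by
  induction k with
  | zero => rw [pow_zero]; exact IsU.one
  | succ k ih => rw [pow_succ]; exact ih.mul hA

theorem IsU.det {A : Matrix (Fin n) (Fin n) F} (hA : IsU A) : A.det = 1 := by
  rw [Matrix.det_of_isUpperTriangular (fun i j h => hA.1 i j h)]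
  simp [hA.2]

/-- the group of upper unitriangular matrices -/
def U (n : ℕ) (F : Type*) [Field F] [Finite F] : Subgroup (SpecialLinearGroup (Fin n) F) where
  carrier := {g | IsU g.1}
  one_mem' := IsU.one
  mul_mem' := fun ha hb => IsU.mul ha hb
  inv_mem' := by
    intro g hg
    have h1 : g⁻¹ ∈ Subgroup.zpowers g := Subgroup.inv_mem _ (Subgroup.mem_zpowers g)
    rw [← mem_powers_iff_mem_zpowers] at h1
    obtain ⟨k, hk⟩ := h1
    change IsU (g⁻¹).1
    rw [← hk]
    exact IsU.pow hg k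

theorem mem_U [Finite F] {g : SL} : g ∈ U n F ↔ IsU g.1 := Iff.rfl

/-- coordinates on `U` -/
def Uequiv [Finite F] : U n F ≃ ((j : Fin n) → Fin j.val → F) where
  toFun u := fun j i => u.1.1 ⟨i.1, lt_trans i.2 j.2⟩ j
  invFun f :=
    ⟨⟨Matrix.of (fun a b => if h : a < b then f b ⟨a.1, h⟩ else if a = b then 1 else 0), by
      apply IsU.det
      constructor
      · intro i j hij
        simp [not_lt.2 (le_of_lt hij), ne_of_gt hij]
      · intro i
        simp⟩, by
      constructor
      · intro i j hij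
        simp [not_lt.2 (le_of_lt hij), ne_of_gt hij]
      · intro i
        simp⟩
  left_inv u := by
    apply Subtype.ext
    apply Subtype.ext
    ext a b
    simp only [Matrix.of_apply]
    rcases lt_trichotomy a b with h | h | h
    · rw [dif_pos h]
    · subst h
      rw [dif_neg (lt_irrefl _), if_pos rfl, u.2.2]
    · rw [dif_neg (not_lt.2 (le_of_lt h)), if_neg (ne_of_gt h), u.2.1 a b h]
  right_inv f := by
    funext j i
    have : (⟨i.1, lt_trans i.2 j.2⟩ : Fin n) < j := i.2
    simp only [Matrix.of_apply]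
    rw [dif_pos this]

theorem card_U [Finite F] : Nat.card (U n F) = ∏ j : Fin n, Nat.card F ^ (j : ℕ) := by
  rw [Nat.card_congr Uequiv, Nat.card_pi]
  apply Finset.prod_congr rfl
  intro j _
  rw [Nat.card_fun, Nat.card_fin]

theorem index_U [Finite F] {p : ℕ} [Fact p.Prime] [CharP F p] (hn : 1 ≤ n) : ¬ p ∣ (U n F).index := by
  classical
  have : Fintype F := Fintype.ofFinite F
  set q := Fintype.card F with hq
  obtain ⟨k, hp, hk⟩ := FiniteField.card F p
  have hpq : p ∣ q := by rw [hq, hk]; exact dvd_pow_self p k.ne_zero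
  have hq1 : 1 < q := Fintype.one_lt_card
  have h1 := Cfsg.Agent.S0242.result (F := F) hq.symm n hn
  have h2 := (U n F).card_mul_index
  rw [card_U, Nat.card_eq_fintype_card, ← hq] at h2
  have h3 : ∏ i : Fin n, (q ^ n - q ^ (i : ℕ)) = (∏ i : Fin n, q ^ (i : ℕ)) * ∏ i : Fin n, (q ^ (n - i : ℕ) - 1) := by
    rw [← Finset.prod_mul_distrib]
    apply Finset.prod_congr rfl
    intro i _
    rw [Nat.mul_sub, mul_one, ← pow_add]
    congr 2
    have := i.2
    omega
  rw [← h2, h3] at h1
  have h4 : (q - 1) * (U n F).index = ∏ i : Fin n, (q ^ (n - i : ℕ) - 1) := by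
    have hpos : 0 < ∏ i : Fin n, q ^ (i : ℕ) := Finset.prod_pos (fun i _ => by positivity)
    apply Nat.eq_of_mul_eq_mul_left hpos
    rw [← h1]; ring
  intro hdvd
  have h5 : p ∣ ∏ i : Fin n, (q ^ (n - i : ℕ) - 1) := by
    rw [← h4]; exact Dvd.dvd.mul_left hdvd _
  obtain ⟨i, -, hi⟩ := (Prime.dvd_finsetProd_iff (Nat.Prime.prime hp) _).1 h5
  have h6 : p ∣ q ^ (n - i : ℕ) := Dvd.dvd.trans hpq (dvd_pow_self q (by have := i.2; omega))
  have h7 : 1 ≤ q ^ (n - i : ℕ) := Nat.one_le_pow _ _ (by omega)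
  have h8 : p ∣ 1 := by
    have := (Nat.dvd_sub_iff_right h7 h6).1 hi
    exact this
  exact hp.one_lt.ne' (Nat.dvd_one.1 h8)

theorem isPGroup_U [Finite F] {p : ℕ} [Fact p.Prime] [CharP F p] : IsPGroup p (U n F) := by
  classical
  have : Fintype F := Fintype.ofFinite F
  obtain ⟨k, hp, hk⟩ := FiniteField.card F p
  apply IsPGroup.of_card (n := ∑ j : Fin n, (k : ℕ) * (j : ℕ))
  rw [card_U, Nat.card_eq_fintype_card, hk, ← Finset.prod_pow_eq_pow_sum]
  apply Finset.prod_congr rfl
  intro j _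
  rw [pow_mul]

end Cfsg.Agent.Lib.Helper4.PSLn
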