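import Mathlib
import Cfsg.Agent.Lib.Helper4.PSLnU

set_option autoImplicit false

namespace Cfsg.Agent.Lib.Helper4.PSLn

open Matrix Cfsg.Agent.Lib.Helper4.SLnTv
open scoped Pointwise

variable {n : ℕ} {F : Type*} [Field F]

local notation "SL" => SpecialLinearGroup (Fin n) F
local notation "PSL" => ProjectiveSpecialLinearGroup (Fin n) F

theorem E_val {i j : Fin n} (hij : i ≠ j) (t : F) : (E i j t).1 = 1 + Matrix.single i j t := by
  rw [E_eq hij, Matrix.SpecialLinearGroup.transvection_coe]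

theorem E_isU {i j : Fin n} (hij : i < j) (t : F) : IsU (E i j t).1 := by
  rw [E_val (ne_of_lt hij)]
  constructor
  · intro a b hab
    rw [Matrix.add_apply, Matrix.one_apply_ne (ne_of_gt hab), Matrix.single_apply, if_neg, add_zero]
    rintro ⟨rfl, rfl⟩
    exact lt_asymm hij hab
  · intro a
    rw [Matrix.add_apply, Matrix.one_apply_eq, Matrix.single_apply, if_neg, add_zero]
    rintro ⟨rfl, h⟩
    exact (ne_of_lt hij) h.symm

theorem eq_of_mk_eq_of_isU (hn : 1 ≤ n) {a b : SL} (ha : IsU a.1) (hb : IsU b.1)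
    (h : (QuotientGroup.mk a : PSL) = QuotientGroup.mk b) : a = b := by
  obtain ⟨r, hr⟩ := eq_smul_of_mk_eq h
  have h1 := congrFun (congrFun hr ⟨0, by omega⟩) ⟨0, by omega⟩
  rw [Matrix.smul_apply, ha.2, hb.2, smul_eq_mul, mul_one] at h1
  apply Subtype.ext
  rw [hr, ← h1, one_smul]

theorem center_U (hn : 2 ≤ n) {g : SL} (hg : IsU g.1)
    (hc : ∀ i j : Fin n, i < j → g * E i j 1 = E i j 1 * g) :
    g = E ⟨0, by omega⟩ ⟨n - 1, by omega⟩ (g.1 ⟨0, by omega⟩ ⟨n - 1, by omega⟩) := by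
  have hc' : ∀ i j : Fin n, i < j → g.1 * Matrix.single i j 1 = Matrix.single i j 1 * g.1 := by
    intro i j hij
    have h1 : g.1 * (E i j 1).1 = (E i j 1).1 * g.1 := congrArg Subtype.val (hc i j hij)
    rw [E_val (ne_of_lt hij), mul_add, add_mul, mul_one, one_mul] at h1
    exact add_left_cancel h1
  have h1 : ∀ a i j : Fin n, i < j → a ≠ i → g.1 a i = 0 := by
    intro a i j hij ha
    have := congrFun (congrFun (hc' i j hij) a) j
    rw [Matrix.mul_single_apply_same, Matrix.single_mul_apply_of_ne _ _ _ _ _ ha, mul_one] at this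
    exact this
  have h2 : ∀ b i j : Fin n, i < j → b ≠ j → g.1 j b = 0 := by
    intro b i j hij hb
    have := congrFun (congrFun (hc' i j hij) i) b
    rw [Matrix.mul_single_apply_of_ne _ _ _ _ _ hb, Matrix.single_mul_apply_same, one_mul] at this
    exact this.symm
  have hne : (⟨0, by omega⟩ : Fin n) ≠ ⟨n - 1, by omega⟩ := by
    intro h
    have := congrArg Fin.val h
    simp at this
    omega
  apply Subtype.ext
  rw [E_val hne]
  ext a b
  rw [Matrix.add_apply, Matrix.single_apply]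
  by_cases hab : a = b
  · subst hab
    rw [hg.2, Matrix.one_apply_eq, if_neg, add_zero]
    rintro ⟨rfl, h⟩
    exact hne h.symm
  · rw [Matrix.one_apply_ne hab, zero_add]
    by_cases hb : b = ⟨n - 1, by omega⟩
    · by_cases ha : a = ⟨0, by omega⟩
      · subst ha; subst hb
        rw [if_pos ⟨rfl, rfl⟩]
      · rw [if_neg (fun h => ha h.1.symm)]
        have : (⟨0, by omega⟩ : Fin n) < a := by
          rw [Fin.lt_def]
          have : a.val ≠ 0 := fun h => ha (Fin.ext h)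
          simp; omega
        exact h2 b _ a this (Ne.symm hab)
    · rw [if_neg (fun h => hb h.2.symm)]
      have : b < (⟨n - 1, by omega⟩ : Fin n) := by
        rw [Fin.lt_def]
        have h3 : b.val ≠ n - 1 := fun h => hb (Fin.ext h)
        have := b.2
        simp; omega
      exact h1 a b _ this hab

theorem isU_mulVec_e (hn : 1 ≤ n) {g : SL} (hg : IsU g.1) : g.1 *ᵥ e ⟨0, by omega⟩ = e ⟨0, by omega⟩ := by
  funext a
  have : (g.1 *ᵥ e ⟨0, by omega⟩) a = g.1 a ⟨0, by omega⟩ := by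
    change g.1 a ⬝ᵥ e _ = _
    rw [dot_e]
  rw [this]
  by_cases ha : a = ⟨0, by omega⟩
  · rw [ha, hg.2, e_self]
  · rw [e_of_ne ha]
    apply hg.1
    rw [Fin.lt_def]
    have : a.val ≠ 0 := fun h => ha (Fin.ext h)
    simp; omega

theorem isU_e_vecMul (hn : 1 ≤ n) {g : SL} (hg : IsU g.1) :
    e ⟨n - 1, by omega⟩ ᵥ* g.1 = e ⟨n - 1, by omega⟩ := by
  funext b
  have : (e ⟨n - 1, by omega⟩ ᵥ* g.1) b = g.1 ⟨n - 1, by omega⟩ b := by
    change e _ ⬝ᵥ (fun i => g.1 i b) = _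
    rw [e_dot]
  rw [this]
  by_cases hb : b = ⟨n - 1, by omega⟩
  · rw [hb, hg.2, e_self]
  · rw [e_of_ne hb]
    apply hg.1
    rw [Fin.lt_def]
    have h3 : b.val ≠ n - 1 := fun h => hb (Fin.ext h)
    have := b.2
    simp; omega

theorem E_central [Finite F] (hn : 2 ≤ n) {g : SL} (hg : g ∈ U n F) (c : F) :
    g * E ⟨0, by omega⟩ ⟨n - 1, by omega⟩ c = E ⟨0, by omega⟩ ⟨n - 1, by omega⟩ c * g := by
  have hne : (⟨0, by omega⟩ : Fin n) ≠ ⟨n - 1, by omega⟩ := by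
    intro h
    have := congrArg Fin.val h
    simp at this
    omega
  have h1 := conj_tv g (E_orth hne c)
  have hg' : IsU (g⁻¹).1 := (U n F).inv_mem hg
  rw [mulVec_smul, isU_mulVec_e (by omega) hg, isU_e_vecMul (by omega) hg'] at h1
  rw [← E] at h1
  calc g * E ⟨0, by omega⟩ ⟨n - 1, by omega⟩ c
      = (g * E ⟨0, by omega⟩ ⟨n - 1, by omega⟩ c * g⁻¹) * g := by group
    _ = _ := by rw [h1]

theorem X_conj {x : PSL} (hx : x ∈ (X : Set PSL)) (y : PSL) : y * x * y⁻¹ ∈ (X : Set PSL) := by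
  obtain ⟨v, φ, hv, hφ, h, rfl⟩ := hx
  obtain ⟨g, rfl⟩ := QuotientGroup.mk_surjective y
  have hinv : (g⁻¹).1 * g.1 = 1 := congrArg Subtype.val (inv_mul_cancel g)
  have h' : (φ ᵥ* (g⁻¹).1) ⬝ᵥ (g.1 *ᵥ v) = 0 := by
    rw [← dotProduct_mulVec, mulVec_mulVec, hinv, one_mulVec, h]
  refine ⟨g.1 *ᵥ v, φ ᵥ* (g⁻¹).1, ?_, ?_, h', ?_⟩
  · intro h0
    apply hv
    have : (g⁻¹).1 *ᵥ (g.1 *ᵥ v) = v := by rw [mulVec_mulVec, hinv, one_mulVec]
    rw [← this, h0, mulVec_zero]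
  · intro h0
    apply hφ
    have : (φ ᵥ* (g⁻¹).1) ᵥ* g.1 = φ := by rw [vecMul_vecMul, hinv, vecMul_one]
    rw [← this, h0, zero_vecMul]
  · rw [← conj_tv g h]
    rfl

theorem hX_aux [Finite F] (hn : 3 ≤ n) (β : MulAut PSL) (c : F) (hc : c ≠ 0) :
    β (QuotientGroup.mk (E ⟨0, by omega⟩ ⟨n - 1, by omega⟩ c)) ∈ (X : Set PSL) := by
  classical
  obtain ⟨p, hchar⟩ := CharP.exists F
  have hp : Fact p.Prime := ⟨CharP.char_is_prime F p⟩
  have hne : (⟨0, by omega⟩ : Fin n) ≠ ⟨n - 1, by omega⟩ := by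
    intro h
    have := congrArg Fin.val h
    simp at this
    omega
  let π : SL →* PSL := QuotientGroup.mk' _
  have hπ : Function.Surjective π := QuotientGroup.mk'_surjective _
  let Ub : Subgroup PSL := (U n F).map π
  have hidx : ¬ p ∣ Ub.index := fun h =>
    index_U (p := p) (by omega) (h.trans (Subgroup.index_map_dvd (U n F) hπ))
  let P : Sylow p PSL := ((isPGroup_U (p := p)).map π).toSylow hidx
  obtain ⟨x, hx⟩ := MulAction.exists_smul_eq PSL (β • P) P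
  have hx' : (MulAut.conj x • (β • Ub) : Subgroup PSL) = Ub := congrArg Sylow.toSubgroup hx
  have hmem : ∀ y : PSL, x * β y * x⁻¹ ∈ Ub ↔ y ∈ Ub := by
    intro y
    have h1 : x * β y * x⁻¹ = MulAut.conj x • (β • y) := rfl
    rw [h1]
    conv_lhs => rw [← hx']
    rw [Subgroup.smul_mem_pointwise_smul_iff, Subgroup.smul_mem_pointwise_smul_iff]
  let β' : MulAut PSL := MulAut.conj x * β
  have hβ' : ∀ y, β' y = x * β y * x⁻¹ := fun y => rfl
  set z : PSL := QuotientGroup.mk (E ⟨0, by omega⟩ ⟨n - 1, by omega⟩ c) with hz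
  have hlt : (⟨0, by omega⟩ : Fin n) < ⟨n - 1, by omega⟩ := by
    rw [Fin.lt_def]; simp; omega
  have hzU : z ∈ Ub := ⟨_, E_isU hlt c, rfl⟩
  obtain ⟨g, hgU, hg⟩ := (hmem z).2 hzU
  have hcomm : ∀ i j : Fin n, i < j → g * E i j 1 = E i j 1 * g := by
    intro i j hij
    apply eq_of_mk_eq_of_isU (by omega) (IsU.mul hgU (E_isU hij 1)) (IsU.mul (E_isU hij 1) hgU)
    have hw : (QuotientGroup.mk (E i j 1) : PSL) ∈ Ub := ⟨_, E_isU hij 1, rfl⟩
    have hw' : β'⁻¹ (QuotientGroup.mk (E i j 1)) ∈ Ub := by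
      rw [← hmem, ← hβ', MulAut.apply_inv_self]
      exact hw
    obtain ⟨u, huU, hu⟩ := hw'
    have h2 : β' (π u) = QuotientGroup.mk (E i j 1) := by rw [hu, MulAut.apply_inv_self]
    have h3 : π g = β' z := hg
    rw [QuotientGroup.mk_mul, QuotientGroup.mk_mul, ← h2]
    change π g * _ = _ * π g
    rw [h3, ← map_mul, ← map_mul]
    congr 1
    change π _ * π u = π u * π _
    rw [← map_mul, ← map_mul, E_central (by omega) huU]
  have hgE := center_U (by omega) hgU hcomm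
  set c' := g.1 ⟨0, by omega⟩ ⟨n - 1, by omega⟩ with hc'
  have hc'0 : c' ≠ 0 := by
    intro h0
    rw [h0, E_zero] at hgE
    have h3 : β' z = 1 := by
      rw [hβ', ← hg, hgE]; rfl
    have h4 : z = 1 := by
      apply β'.injective
      rw [h3, map_one]
    have h5 : (QuotientGroup.mk (E ⟨0, by omega⟩ ⟨n - 1, by omega⟩ c) : PSL) =
        QuotientGroup.mk (E ⟨0, by omega⟩ ⟨n - 1, by omega⟩ 0) := by
      rw [E_zero]; exact h4
    exact hc (mk_E_inj hn hne h5)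
  have h6 : β z = x⁻¹ * QuotientGroup.mk (E ⟨0, by omega⟩ ⟨n - 1, by omega⟩ c') * x⁻¹⁻¹ := by
    have : (QuotientGroup.mk (E ⟨0, by omega⟩ ⟨n - 1, by omega⟩ c') : PSL) = x * β z * x⁻¹ := by
      rw [← hgE]; exact hg
    rw [this]; group
  rw [h6]
  apply X_conj
  refine ⟨c' • e _, e _, ?_, e_ne_zero _, E_orth hne c', rfl⟩
  exact smul_ne_zero hc'0 (e_ne_zero _)

theorem hX [Finite F] (hn : 3 ≤ n) : HX n F := by
  rintro β x ⟨v, φ, hv, hφ, h, rfl⟩
  have hne : (⟨0, by omega⟩ : Fin n) ≠ ⟨n - 1, by omega⟩ := by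
    intro h
    have := congrArg Fin.val h
    simp at this
    omega
  obtain ⟨g, hg⟩ := conj_to_E hn hne hv hφ h
  have h1 : tv v φ = g⁻¹ * E ⟨0, by omega⟩ ⟨n - 1, by omega⟩ 1 * g⁻¹⁻¹ := by
    rw [← hg]; group
  have h2 : β (QuotientGroup.mk (g⁻¹ * E ⟨0, by omega⟩ ⟨n - 1, by omega⟩ 1 * g⁻¹⁻¹)) =
      β (QuotientGroup.mk g⁻¹) * β (QuotientGroup.mk (E ⟨0, by omega⟩ ⟨n - 1, by omega⟩ 1)) *
        (β (QuotientGroup.mk g⁻¹))⁻¹ := by
    rw [← map_inv, ← map_mul, ← map_mul]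
    rfl
  rw [h1, h2]
  exact X_conj (hX_aux hn β 1 one_ne_zero) _

end Cfsg.Agent.Lib.Helper4.PSLn
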