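import Mathlib
import Cfsg.Agent.Lib.Helper4.PSLnHX
import Cfsg.Agent.Lib.Helper4.PSL2Aut4

set_option autoImplicit false

namespace Cfsg.Agent.Lib.Helper4.PSLn

open Matrix Cfsg.Agent.Lib.Helper4.SLnTv
open Cfsg.Agent.Lib.Helper4.PSL2Aut (liftAut liftAut_mk)

variable {n : ℕ} {F : Type*} [Field F]

local notation "SL" => SpecialLinearGroup (Fin n) F
local notation "PSL" => ProjectiveSpecialLinearGroup (Fin n) F

theorem aut_eq_n [Finite F] (hn : 3 ≤ n) (α : MulAut PSL) :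
    ∃ (P : GL (Fin n) F) (σ : F ≃+* F), α = cbar P * fbar σ ∨ α = cbar P * fbar σ * gbar := by
  have key : ∀ β : MulAut PSL, TypeI β → ∃ (P : GL (Fin n) F) (σ : F ≃+* F), β = cbar P * fbar σ := by
    intro β hβ
    obtain ⟨P₀, hP₀⟩ := exists_std hn (hX hn) hβ
    obtain ⟨d, hd, σ, h⟩ := std_eq_n hn _ hP₀
    refine ⟨P₀⁻¹ * dgn d hd, σ, ?_⟩
    rw [map_mul, map_inv, mul_assoc, ← h]
    group
  rcases typeI_or hn (hX hn) α with h | h
  · obtain ⟨P, σ, e⟩ := key α h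
    exact ⟨P, σ, Or.inl e⟩
  · obtain ⟨P, σ, e⟩ := key _ h
    refine ⟨P, σ, Or.inr ?_⟩
    rw [← e, mul_assoc, gbar_mul_self, mul_one]

theorem cbar_two (P : GL (Fin 2) F) : PSL2Aut.cbar P = cbar P := by
  ext x
  obtain ⟨g, rfl⟩ := QuotientGroup.mk_surjective x
  rfl

theorem fbar_two (σ : F ≃+* F) : PSL2Aut.fbar σ = (fbar σ : MulAut (ProjectiveSpecialLinearGroup (Fin 2) F)) := by
  ext x
  obtain ⟨g, rfl⟩ := QuotientGroup.mk_surjective x
  rfl

theorem aut_eq_all [Finite F] (hn : 2 ≤ n) (α : MulAut PSL) :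
    ∃ (P : GL (Fin n) F) (σ : F ≃+* F), α = cbar P * fbar σ ∨ α = cbar P * fbar σ * gbar := by
  rcases Nat.lt_or_ge n 3 with h | h
  · obtain rfl : n = 2 := by omega
    have : Fintype F := Fintype.ofFinite F
    obtain ⟨p, hchar⟩ := CharP.exists F
    have hp : Fact p.Prime := ⟨CharP.char_is_prime F p⟩
    obtain ⟨P, σ, e⟩ := PSL2Aut.aut_eq p α
    exact ⟨P, σ, Or.inl (by rw [e, cbar_two, fbar_two])⟩
  · exact aut_eq_n h α

/-! ### commutation relations -/

theorem fbar_mul (σ τ : RingAut F) : (fbar (σ * τ) : MulAut PSL) = fbar σ * fbar τ := by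
  ext x
  obtain ⟨g, rfl⟩ := QuotientGroup.mk_surjective x
  rfl

theorem fbar_one : (fbar (1 : RingAut F) : MulAut PSL) = 1 := by
  ext x
  obtain ⟨g, rfl⟩ := QuotientGroup.mk_surjective x
  rfl

theorem fbar_inv (σ : RingAut F) : (fbar (σ⁻¹) : MulAut PSL) = (fbar σ)⁻¹ := by
  rw [eq_inv_iff_mul_eq_one, ← fbar_mul, inv_mul_cancel, fbar_one]

theorem fbar_cbar (σ : F ≃+* F) (P : GL (Fin n) F) :
    fbar σ * cbar P = cbar (Matrix.GeneralLinearGroup.map (σ : F →+* F) P) * fbar σ := by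
  ext x
  obtain ⟨g, rfl⟩ := QuotientGroup.mk_surjective x
  rw [MulAut.mul_apply, MulAut.mul_apply, cbar_mk, fbar_mk, fbar_mk, cbar_mk]
  congr 1
  apply Subtype.ext
  rw [mapSL_val, conjSL_val, conjSL_val, mapSL_val, Matrix.map_mul, Matrix.map_mul]
  rfl

/-- inverse transpose on `GL_n` -/
def tinv (P : GL (Fin n) F) : GL (Fin n) F where
  val := (P⁻¹).1.transpose
  inv := P.1.transpose
  val_inv := by rw [← Matrix.transpose_mul, Units.mul_inv, Matrix.transpose_one]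
  inv_val := by rw [← Matrix.transpose_mul, Units.inv_mul, Matrix.transpose_one]

theorem gbar_cbar (P : GL (Fin n) F) : gbar * cbar P = cbar (tinv P) * gbar := by
  ext x
  obtain ⟨g, rfl⟩ := QuotientGroup.mk_surjective x
  rw [MulAut.mul_apply, MulAut.mul_apply, cbar_mk, gbar_mk, gbar_mk, cbar_mk]
  congr 1
  apply Subtype.ext
  rw [gamSL_val, ← map_inv, conjSL_val, conjSL_val, gamSL_val, Matrix.transpose_mul, Matrix.transpose_mul,
    mul_assoc]
  rfl

theorem gbar_fbar (σ : F ≃+* F) : (gbar * fbar σ : MulAut PSL) = fbar σ * gbar := by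
  ext x
  obtain ⟨g, rfl⟩ := QuotientGroup.mk_surjective x
  rw [MulAut.mul_apply, MulAut.mul_apply, fbar_mk, gbar_mk, gbar_mk, fbar_mk]
  congr 1
  apply Subtype.ext
  rw [gamSL_val, ← map_inv, mapSL_val, mapSL_val, gamSL_val, Matrix.transpose_map]

/-! ### uniqueness -/

theorem eq_of_mk_eq_of_unip (hn : 1 ≤ n) {a b : SL} (ha : (a.1 - 1) * (a.1 - 1) = 0)
    (hb : (b.1 - 1) * (b.1 - 1) = 0) (h : (QuotientGroup.mk a : PSL) = QuotientGroup.mk b) : a = b := by
  obtain ⟨r, hr⟩ := eq_smul_of_mk_eq h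
  set N := a.1 - 1 with hN
  have hA : a.1 = 1 + N := by rw [hN]; abel
  rw [hr, hA] at hb
  have expand : (r • (1 + N) - 1) * (r • (1 + N) - 1) =
      ((r - 1) ^ 2) • (1 : Matrix (Fin n) (Fin n) F) + (2 * r * (r - 1)) • N + (r ^ 2) • (N * N) := by
    simp only [smul_add, sub_mul, mul_sub, add_mul, mul_add, smul_mul_assoc, mul_smul_comm, one_mul, mul_one,
      smul_smul]
    module
  rw [expand, ha, smul_zero, add_zero] at hb
  have hr1 : (r - 1) ^ 2 = 0 := by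
    by_cases hN0 : N = 0
    · rw [hN0, smul_zero, add_zero] at hb
      have := congrFun (congrFun hb ⟨0, by omega⟩) ⟨0, by omega⟩
      simpa using this
    · have h2 := congrArg (fun M => M * N) hb
      simp only [add_mul, smul_mul_assoc, one_mul, ha, smul_zero, add_zero, zero_mul] at h2
      exact (smul_eq_zero.1 h2).resolve_right hN0
  have hr2 : r = 1 := by
    have := pow_eq_zero_iff (two_ne_zero) |>.1 hr1
    linear_combination this
  apply Subtype.ext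
  rw [hr, hr2, one_smul]

theorem E_unip {i j : Fin n} (hij : i ≠ j) (t : F) : ((E i j t).1 - 1) * ((E i j t).1 - 1) = 0 := by
  rw [E_val hij, add_sub_cancel_left, single_mul_single_of_ne _ _ _ _ hij.symm]

theorem conjSL_unip (Q : GL (Fin n) F) {a : SL} (ha : (a.1 - 1) * (a.1 - 1) = 0) :
    ((conjSL Q a).1 - 1) * ((conjSL Q a).1 - 1) = 0 := by
  have h1 : (conjSL Q a).1 - 1 = Q.1 * (a.1 - 1) * (Q⁻¹).1 := by
    rw [conjSL_val, mul_sub, sub_mul, mul_one, Units.mul_inv]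
  rw [h1]
  calc Q.1 * (a.1 - 1) * (Q⁻¹).1 * (Q.1 * (a.1 - 1) * (Q⁻¹).1)
      = Q.1 * (a.1 - 1) * ((Q⁻¹).1 * Q.1) * (a.1 - 1) * (Q⁻¹).1 := by simp only [mul_assoc]
    _ = Q.1 * ((a.1 - 1) * (a.1 - 1)) * (Q⁻¹).1 := by rw [Units.inv_mul, mul_one]; simp only [mul_assoc]
    _ = 0 := by rw [ha, mul_zero, zero_mul]

theorem mk_E_inj' (hn : 1 ≤ n) {i j : Fin n} (hij : i ≠ j) {s t : F}
    (h : (QuotientGroup.mk (E i j s) : PSL) = QuotientGroup.mk (E i j t)) : s = t := by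
  have := eq_of_mk_eq_of_unip hn (E_unip hij s) (E_unip hij t) h
  have h2 : (E i j s).1 i j = (E i j t).1 i j := by rw [this]
  rwa [E_entry hij, E_entry hij] at h2

theorem cbar_of_scalar {Q : GL (Fin n) F} {c : F} (h : Q.1 = c • 1) : cbar Q = 1 := by
  ext x
  obtain ⟨g, rfl⟩ := QuotientGroup.mk_surjective x
  rw [cbar_mk]
  congr 1
  apply Subtype.ext
  rw [conjSL_val]
  have : Q.1 * g.1 = g.1 * Q.1 := by rw [h]; simp
  rw [this, mul_assoc, Units.mul_inv, mul_one]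

theorem scalar_of_fix (hn : 1 ≤ n) {Q : GL (Fin n) F}
    (h : ∀ i j : Fin n, i ≠ j → cbar Q (QuotientGroup.mk (E i j 1)) = QuotientGroup.mk (E i j 1)) :
    ∃ c : F, Q.1 = c • 1 := by
  have h1 : Q.1 ∈ Set.range (Matrix.scalar (Fin n)) := by
    apply Matrix.mem_range_scalar_of_commute_single
    intro i j hij
    have h2 := h i j hij
    rw [cbar_mk] at h2
    have h3 := eq_of_mk_eq_of_unip hn (conjSL_unip Q (E_unip hij 1)) (E_unip hij 1) h2
    have h4 := congrArg Subtype.val h3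
    rw [conjSL_val, E_val hij, mul_add, add_mul, mul_one, Units.mul_inv] at h4
    have h5 : Q.1 * single i j 1 * (Q⁻¹).1 = single i j 1 := add_left_cancel h4
    change single i j 1 * Q.1 = Q.1 * single i j 1
    calc single i j 1 * Q.1 = Q.1 * single i j 1 * (Q⁻¹).1 * Q.1 := by rw [h5]
      _ = Q.1 * single i j 1 := by rw [mul_assoc, Units.inv_mul, mul_one]
  obtain ⟨c, hc⟩ := h1
  refine ⟨c, ?_⟩
  rw [← hc]
  ext a b
  simp [Matrix.scalar_apply, Matrix.diagonal_apply, Matrix.one_apply]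

theorem cbar_eq_fbar (hn : 2 ≤ n) {Q : GL (Fin n) F} {τ : F ≃+* F} (h : cbar Q = fbar τ) :
    τ = RingEquiv.refl F ∧ ∃ c : F, Q.1 = c • 1 := by
  have h1 : ∃ c : F, Q.1 = c • 1 := by
    apply scalar_of_fix (by omega)
    intro i j hij
    rw [h, fbar_mk, mapSL_E τ hij, map_one]
  refine ⟨?_, h1⟩
  obtain ⟨c, hc⟩ := h1
  rw [cbar_of_scalar hc] at h
  ext t
  have hne : (⟨0, by omega⟩ : Fin n) ≠ ⟨1, by omega⟩ := by simp
  have h2 : fbar τ (QuotientGroup.mk (E ⟨0, by omega⟩ ⟨1, by omega⟩ t)) =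
      (QuotientGroup.mk (E ⟨0, by omega⟩ ⟨1, by omega⟩ t) : PSL) := by rw [← h]; rfl
  rw [fbar_mk, mapSL_E τ hne] at h2
  exact mk_E_inj' (by omega) hne h2

theorem cbar_ker (hn : 2 ≤ n) :
    (cbar : GL (Fin n) F →* MulAut PSL).ker = Subgroup.center (GL (Fin n) F) := by
  ext Q
  rw [MonoidHom.mem_ker, Subgroup.mem_center_iff]
  constructor
  · intro h
    have h' : cbar Q = fbar (RingEquiv.refl F) := by
      rw [h]; exact fbar_one.symm
    obtain ⟨-, c, hc⟩ := cbar_eq_fbar hn h'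
    intro g
    apply Units.ext
    change g.1 * Q.1 = Q.1 * g.1
    rw [hc]; simp
  · intro h
    ext x
    obtain ⟨g, rfl⟩ := QuotientGroup.mk_surjective x
    rw [cbar_mk]
    congr 1
    apply Subtype.ext
    rw [conjSL_val]
    have h1 : g.1 * Q.1 = Q.1 * g.1 := congrArg Units.val (h (SpecialLinearGroup.toGL g))
    rw [← h1, mul_assoc, Units.mul_inv, mul_one]

end Cfsg.Agent.Lib.Helper4.PSLn
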