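import Mathlib
import Cfsg.Agent.Lib.Helper4.PSLnAut

set_option autoImplicit false

namespace Cfsg.Agent.Lib.Helper4.PSLn

open Matrix Cfsg.Agent.Lib.Helper4.SLnTv

variable {n : ℕ} {F : Type*} [Field F]

local notation "SL" => SpecialLinearGroup (Fin n) F
local notation "PSL" => ProjectiveSpecialLinearGroup (Fin n) F

theorem map_dot (σ : F ≃+* F) (φ v : Fin n → F) : (σ ∘ φ) ⬝ᵥ (σ ∘ v) = σ (φ ⬝ᵥ v) := by
  simp [dotProduct, map_sum]

theorem fbar_image_Tc (σ : F ≃+* F) (v : Fin n → F) : fbar σ '' Tc v = Tc (σ ∘ v) := by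
  ext x
  constructor
  · rintro ⟨_, ⟨φ, h, rfl⟩, rfl⟩
    rw [fbar_mk, mapSL_tv σ h]
    exact ⟨σ ∘ φ, by rw [map_dot, h, map_zero], rfl⟩
  · rintro ⟨φ, h, rfl⟩
    have e1 : σ ∘ (σ.symm ∘ φ) = φ := by
      funext i; simp
    have h' : (σ.symm ∘ φ) ⬝ᵥ v = 0 := by
      apply σ.injective
      rw [← map_dot, e1, h, map_zero]
    refine ⟨QuotientGroup.mk (tv v (σ.symm ∘ φ)), ⟨_, h', rfl⟩, ?_⟩
    rw [fbar_mk, mapSL_tv σ h', e1]

theorem typeI_fbar (σ : F ≃+* F) : TypeI (fbar σ : MulAut PSL) := by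
  intro v hv
  refine ⟨σ ∘ v, ?_, fbar_image_Tc σ v⟩
  intro h
  apply hv
  funext i
  have := congrFun h i
  simpa using this

theorem zmod2_cases (a : ZMod 2) : a = 0 ∨ a = 1 := by
  revert a; decide

/-- `gbar ^ ε` -/
noncomputable def gp (ε : ZMod 2) : MulAut PSL := if ε = 0 then 1 else gbar

theorem gp_zero : (gp 0 : MulAut PSL) = 1 := if_pos rfl
theorem gp_one : (gp 1 : MulAut PSL) = gbar := if_neg (by decide)

theorem gp_add (a b : ZMod 2) : (gp (a + b) : MulAut PSL) = gp a * gp b := by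
  have h11 : (1 : ZMod 2) + 1 = 0 := by decide
  rcases zmod2_cases a with rfl | rfl <;> rcases zmod2_cases b with rfl | rfl
  · rw [add_zero, gp_zero, mul_one]
  · rw [zero_add, gp_zero, one_mul]
  · rw [add_zero, gp_zero, mul_one]
  · rw [h11, gp_zero, gp_one, gbar_mul_self]

theorem gp_cbar (ε : ZMod 2) (P : GL (Fin n) F) : ∃ P' : GL (Fin n) F, gp ε * cbar P = cbar P' * gp ε := by
  rcases zmod2_cases ε with rfl | rfl
  · exact ⟨P, by rw [gp_zero, one_mul, mul_one]⟩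
  · exact ⟨tinv P, by rw [gp_one, gbar_cbar]⟩

theorem gp_fbar (ε : ZMod 2) (σ : F ≃+* F) : (gp ε * fbar σ : MulAut PSL) = fbar σ * gp ε := by
  rcases zmod2_cases ε with rfl | rfl
  · rw [gp_zero, one_mul, mul_one]
  · rw [gp_one, gbar_fbar]

def Compat (α : MulAut PSL) (x : RingAut F × Multiplicative (ZMod 2)) : Prop :=
  ∃ P : GL (Fin n) F, α = cbar P * fbar x.1 * gp (Multiplicative.toAdd x.2)

theorem compat_mul {α β : MulAut PSL} {x y : RingAut F × Multiplicative (ZMod 2)}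
    (h1 : Compat α x) (h2 : Compat β y) : Compat (α * β) (x * y) := by
  obtain ⟨σ, ε⟩ := x
  obtain ⟨σ', ε'⟩ := y
  obtain ⟨P, rfl⟩ := h1
  obtain ⟨P', rfl⟩ := h2
  simp only
  obtain ⟨P1, k1⟩ := gp_cbar (Multiplicative.toAdd ε) P'
  have k2 := fbar_cbar σ P1
  have k3 := gp_fbar (n := n) (Multiplicative.toAdd ε) σ'
  refine ⟨P * Matrix.GeneralLinearGroup.map (σ : F →+* F) P1, ?_⟩
  simp only [Prod.mk_mul_mk, toAdd_mul]
  calc cbar P * fbar σ * gp (Multiplicative.toAdd ε) * (cbar P' * fbar σ' * gp (Multiplicative.toAdd ε'))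
      = cbar P * fbar σ * (gp (Multiplicative.toAdd ε) * cbar P') * fbar σ' * gp (Multiplicative.toAdd ε') := by
        simp only [mul_assoc]
    _ = cbar P * (fbar σ * cbar P1) * (gp (Multiplicative.toAdd ε) * fbar σ') * gp (Multiplicative.toAdd ε') := by
        rw [k1]; simp only [mul_assoc]
    _ = cbar P * cbar (Matrix.GeneralLinearGroup.map (σ : F →+* F) P1) * (fbar σ * fbar σ') *
          (gp (Multiplicative.toAdd ε) * gp (Multiplicative.toAdd ε')) := by
        rw [k2, k3]; simp only [mul_assoc]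
    _ = _ := by rw [map_mul, fbar_mul, gp_add]

theorem typeI_iff [Finite F] (hn : 3 ≤ n) (P : GL (Fin n) F) (σ : F ≃+* F) (ε : ZMod 2) :
    TypeI (cbar P * fbar σ * gp ε) ↔ ε = 0 := by
  have h0 : TypeI (cbar P * fbar σ) := typeI_mul (typeI_cbar P) (typeI_fbar σ)
  constructor
  · intro h
    rcases zmod2_cases ε with rfl | rfl
    · rfl
    · exfalso
      rw [gp_one] at h
      have hv : (e ⟨0, by omega⟩ : Fin n → F) ≠ 0 := e_ne_zero _
      obtain ⟨a, ha, h1⟩ := h _ hv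
      rw [mul_image, gbar_image_Tc] at h1
      obtain ⟨ψ, hψ, h2⟩ := typeI_Ta hn (hX hn) h0 hv
      rw [h2] at h1
      exact Tc_ne_Ta hn ha h1.symm
  · rintro rfl
    rw [gp_zero, mul_one]
    exact h0

theorem compat_unique [Finite F] (hn : 3 ≤ n) {α : MulAut PSL} {x y : RingAut F × Multiplicative (ZMod 2)}
    (h1 : Compat α x) (h2 : Compat α y) : x = y := by
  obtain ⟨σ, ε⟩ := x
  obtain ⟨σ', ε'⟩ := y
  obtain ⟨P, e1⟩ := h1
  obtain ⟨P', e2⟩ := h2
  simp only at e1 e2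
  have hε : Multiplicative.toAdd ε = Multiplicative.toAdd ε' := by
    have k1 := typeI_iff hn P σ (Multiplicative.toAdd ε)
    have k2 := typeI_iff hn P' σ' (Multiplicative.toAdd ε')
    rw [← e1] at k1
    rw [← e2] at k2
    rcases zmod2_cases (Multiplicative.toAdd ε) with h | h
    · rw [h, k2.1 (k1.2 h)]
    · rcases zmod2_cases (Multiplicative.toAdd ε') with h' | h'
      · rw [h', k1.1 (k2.2 h')]
      · rw [h, h']
  rw [e1, hε] at e2
  have e3 : cbar P * fbar σ = cbar P' * fbar σ' := mul_right_cancel e2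
  have e4 : cbar (P'⁻¹ * P) = fbar (σ' * σ⁻¹ : RingAut F) := by
    rw [map_mul, map_inv, fbar_mul, fbar_inv, inv_mul_eq_iff_eq_mul, ← mul_assoc, ← e3]
    group
  obtain ⟨e5, -⟩ := cbar_eq_fbar (by omega) e4
  have e6 : σ' * σ⁻¹ = (1 : RingAut F) := e5
  have e7 : σ = σ' := (mul_inv_eq_one.1 e6).symm
  have e8 : ε = ε' := hε
  rw [e7, e8]

theorem exists_compat [Finite F] (hn : 3 ≤ n) (α : MulAut PSL) :
    ∃ x : RingAut F × Multiplicative (ZMod 2), Compat α x := by
  obtain ⟨P, σ, h | h⟩ := aut_eq_n hn α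
  · exact ⟨(σ, Multiplicative.ofAdd 0), P, by rw [h]; simp [gp_zero]⟩
  · exact ⟨(σ, Multiplicative.ofAdd 1), P, by rw [h]; simp [gp_one]⟩

/-- the (field, graph) component of an automorphism of `PSL_n(q)`, `n ≥ 3`. -/
noncomputable def Phi [Finite F] (hn : 3 ≤ n) : MulAut PSL →* RingAut F × Multiplicative (ZMod 2) :=
  MonoidHom.mk' (fun α => Classical.choose (exists_compat hn α)) (by
    intro α β
    exact compat_unique hn (Classical.choose_spec (exists_compat hn (α * β)))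
      (compat_mul (Classical.choose_spec (exists_compat hn α)) (Classical.choose_spec (exists_compat hn β))))

theorem Phi_spec [Finite F] (hn : 3 ≤ n) (α : MulAut PSL) : Compat α (Phi hn α) :=
  Classical.choose_spec (exists_compat hn α)

theorem Phi_eq [Finite F] (hn : 3 ≤ n) (P : GL (Fin n) F) (x : RingAut F × Multiplicative (ZMod 2)) :
    Phi hn (cbar P * fbar x.1 * gp (Multiplicative.toAdd x.2)) = x :=
  compat_unique hn (Phi_spec hn _) ⟨P, rfl⟩

theorem Phi_surjective [Finite F] (hn : 3 ≤ n) : Function.Surjective (Phi (F := F) hn) :=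
  fun x => ⟨_, Phi_eq hn 1 x⟩

theorem Phi_ker [Finite F] (hn : 3 ≤ n) : (Phi (F := F) hn).ker = (cbar : GL (Fin n) F →* MulAut PSL).range := by
  ext α
  rw [MonoidHom.mem_ker, MonoidHom.mem_range]
  constructor
  · intro h
    obtain ⟨P, hP⟩ := Phi_spec hn α
    rw [h] at hP
    refine ⟨P, ?_⟩
    rw [hP]
    simp [gp_zero, fbar_one]
  · rintro ⟨P, rfl⟩
    have := Phi_eq hn P (1 : RingAut F × Multiplicative (ZMod 2))
    simpa [gp_zero, fbar_one] using this

end Cfsg.Agent.Lib.Helper4.PSLn
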