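import Mathlib
import Cfsg.Prelude.Def_LieTypeDatum
import Cfsg.Agent.Lib.Helper4.PSLnPhi
import Cfsg.Agent.Lib.Helper4.PSLnH90
import Cfsg.Agent.S2602

set_option autoImplicit false

namespace Cfsg.Agent.Lib.Helper4.PSLn

open Matrix Cfsg.Agent.Lib.Helper4.SLnTv Cfsg.Agent.Lib.Helper4.H90

variable {n : ℕ} {F : Type*} [Field F]

local notation "SL" => SpecialLinearGroup (Fin n) F
local notation "PSL" => ProjectiveSpecialLinearGroup (Fin n) F

/-! ### the Prelude predicates -/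

theorem isInnerDiagonal_iff (β : MulAut PSL) : Cfsg.IsInnerDiagonalAutPSL β ↔ ∃ g : GL (Fin n) F, β = cbar g := by
  constructor
  · rintro ⟨g, hg⟩
    refine ⟨g, ?_⟩
    ext x
    obtain ⟨s, rfl⟩ := QuotientGroup.mk_surjective x
    exact hg s (conjSL g s) rfl
  · rintro ⟨g, rfl⟩
    refine ⟨g, fun s s' hs' => ?_⟩
    rw [cbar_mk]
    congr 1
    apply Subtype.ext
    rw [hs']; rfl

theorem isStdField_iff (σ : F ≃+* F) (β : MulAut PSL) : Cfsg.IsStdFieldAutPSL σ β ↔ β = fbar σ := by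
  constructor
  · intro h
    ext x
    obtain ⟨s, rfl⟩ := QuotientGroup.mk_surjective x
    exact h s (mapSL σ s) rfl
  · rintro rfl s s' hs'
    rw [fbar_mk]
    congr 1
    apply Subtype.ext
    rw [hs']; rfl

theorem isInvTranspose_iff (β : MulAut PSL) : Cfsg.IsInverseTransposeAutPSL β ↔ β = gbar := by
  constructor
  · intro h
    ext x
    obtain ⟨s, rfl⟩ := QuotientGroup.mk_surjective x
    exact h s (gamSL s) rfl
  · rintro rfl s s' hs'
    rw [gbar_mk]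
    congr 1
    apply Subtype.ext
    rw [hs']; rfl

theorem inndiag_eq : Cfsg.inndiagPSL n F = (cbar : GL (Fin n) F →* MulAut PSL).range := by
  apply le_antisymm
  · unfold Cfsg.inndiagPSL Cfsg.autSubgroupOf
    rw [Subgroup.closure_le]
    intro β hβ
    obtain ⟨g, rfl⟩ := (isInnerDiagonal_iff β).1 hβ
    exact ⟨g, rfl⟩
  · rintro _ ⟨g, rfl⟩
    exact Subgroup.subset_closure ((isInnerDiagonal_iff _).2 ⟨g, rfl⟩)

/-! ### normality of the inner-diagonal group -/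

theorem ringAut_comm [Finite F] (σ τ : RingAut F) : σ * τ = τ * σ := by
  have : Fintype F := Fintype.ofFinite F
  obtain ⟨p, hchar⟩ := CharP.exists F
  obtain ⟨k, hp, hk⟩ := FiniteField.card F p
  have : Fact p.Prime := ⟨hp⟩
  obtain ⟨hcyc, -⟩ := Cfsg.Agent.S2602.ringAut_cyclic hk
  letI := IsCyclic.commGroup (α := RingAut F)
  exact mul_comm σ τ

theorem swap_cbar [Finite F] (hn : 2 ≤ n) (α : MulAut PSL) (P : GL (Fin n) F) :
    ∃ P' : GL (Fin n) F, α * cbar P = cbar P' * α := by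
  obtain ⟨Q, σ, h | h⟩ := aut_eq_all hn α
  · refine ⟨Q * Matrix.GeneralLinearGroup.map (σ : F →+* F) P * Q⁻¹, ?_⟩
    rw [h, mul_assoc, fbar_cbar, map_mul, map_mul, map_inv]
    group
  · refine ⟨Q * Matrix.GeneralLinearGroup.map (σ : F →+* F) (tinv P) * Q⁻¹, ?_⟩
    rw [h, mul_assoc, gbar_cbar, ← mul_assoc, mul_assoc (cbar Q), fbar_cbar, map_mul, map_mul, map_inv]
    group

theorem conj_cbar [Finite F] (hn : 2 ≤ n) (α : MulAut PSL) (P : GL (Fin n) F) :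
    ∃ P' : GL (Fin n) F, α * cbar P * α⁻¹ = cbar P' := by
  obtain ⟨P', h⟩ := swap_cbar hn α P
  exact ⟨P', by rw [h, mul_assoc, mul_inv_cancel, mul_one]⟩

theorem cbar_eq_of_smul {P Q : GL (Fin n) F} {c : F} (h : P.1 = c • Q.1) : cbar P = cbar Q := by
  have h1 : (P * Q⁻¹).1 = c • 1 := by
    change P.1 * (Q⁻¹).1 = _
    rw [h, smul_mul_assoc, Units.mul_inv]
  have h2 := cbar_of_scalar h1
  rw [map_mul, map_inv, mul_inv_eq_one] at h2
  exact h2

theorem smul_of_cbar_eq (hn : 2 ≤ n) {P Q : GL (Fin n) F} (h : cbar P = cbar Q) : ∃ c : F, P.1 = c • Q.1 := by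
  have h1 : cbar (P * Q⁻¹) = fbar (RingEquiv.refl F) := by
    rw [map_mul, map_inv, h, mul_inv_cancel]
    exact fbar_one.symm
  obtain ⟨-, c, hc⟩ := cbar_eq_fbar hn h1
  refine ⟨c, ?_⟩
  have h2 : P.1 * (Q⁻¹).1 = c • 1 := hc
  calc P.1 = P.1 * (Q⁻¹).1 * Q.1 := by rw [mul_assoc, Units.inv_mul, mul_one]
    _ = c • Q.1 := by rw [h2, smul_mul_assoc, one_mul]

theorem fbar_injective (hn : 2 ≤ n) {σ τ : RingAut F} (h : (fbar σ : MulAut PSL) = fbar τ) : σ = τ := by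
  have h1 : cbar (1 : GL (Fin n) F) = fbar (τ⁻¹ * σ : RingAut F) := by
    rw [map_one, fbar_mul, fbar_inv, h, inv_mul_cancel]
  obtain ⟨h2, -⟩ := cbar_eq_fbar hn h1
  have h3 : τ⁻¹ * σ = (1 : RingAut F) := h2
  exact (inv_mul_eq_one.1 h3).symm

/-- the standard representative `fbar σ * gp ε` -/
noncomputable def x0 (σ : RingAut F) (ε : ZMod 2) : MulAut PSL := fbar σ * gp ε

theorem x0_comm [Finite F] (σ τ : RingAut F) (ε η : ZMod 2) :
    (x0 σ ε * x0 τ η : MulAut PSL) = x0 τ η * x0 σ ε := by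
  unfold x0
  calc fbar σ * gp ε * (fbar τ * gp η) = fbar σ * (gp ε * fbar τ) * gp η := by simp only [mul_assoc]
    _ = (fbar σ * fbar τ) * (gp ε * gp η) := by rw [gp_fbar]; simp only [mul_assoc]
    _ = (fbar τ * fbar σ) * (gp η * gp ε) := by
        rw [← fbar_mul, ← fbar_mul, ringAut_comm σ τ, ← gp_add, ← gp_add, add_comm]
    _ = fbar τ * (gp η * fbar σ) * gp ε := by rw [gp_fbar]; simp only [mul_assoc]
    _ = _ := by simp only [mul_assoc]

theorem aut_eq_x0 [Finite F] (hn : 2 ≤ n) (α : MulAut PSL) :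
    ∃ (Q : GL (Fin n) F) (τ : RingAut F) (η : ZMod 2), α = cbar Q * x0 τ η := by
  obtain ⟨Q, σ, h | h⟩ := aut_eq_all hn α
  · exact ⟨Q, σ, 0, by rw [h, x0, gp_zero, mul_one]⟩
  · exact ⟨Q, σ, 1, by rw [h, x0, gp_one, mul_assoc]⟩

/-- an `Aut`-conjugate of a standard representative is an `Inndiag`-conjugate. -/
theorem conj_x0 [Finite F] (hn : 2 ≤ n) (α x : MulAut PSL) (σ : RingAut F) (ε : ZMod 2)
    (h : α * x * α⁻¹ = x0 σ ε) : ∃ c : GL (Fin n) F, x = cbar c * x0 σ ε * (cbar c)⁻¹ := by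
  obtain ⟨Q, τ, η, rfl⟩ := aut_eq_x0 hn α
  obtain ⟨c, hc⟩ := conj_cbar hn (x0 τ η)⁻¹ Q⁻¹
  refine ⟨c, ?_⟩
  rw [← hc]
  have h1 : x = (cbar Q * x0 τ η)⁻¹ * x0 σ ε * (cbar Q * x0 τ η) := by
    rw [← h]; group
  have h2 : (x0 τ η : MulAut PSL)⁻¹ * x0 σ ε * x0 τ η = x0 σ ε := by
    rw [mul_assoc, x0_comm σ τ, ← mul_assoc, inv_mul_cancel, one_mul]
  rw [h1, map_inv]
  conv_rhs => rw [← h2]
  group

end Cfsg.Agent.Lib.Helper4.PSLn
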