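import Mathlib
import Cfsg.Agent.Lib.Helper4.PSLnField
import Cfsg.Agent.Lib.Helper4.UniMat
import Cfsg.Agent.S0755

set_option autoImplicit false

namespace Cfsg.Agent.Lib.Helper4.PSLn

open Matrix Cfsg.Agent.Lib.Helper4.SLnTv Cfsg.Agent.Lib.Helper4.H90

variable {n : ℕ} {F : Type*} [Field F]

local notation "SL" => SpecialLinearGroup (Fin n) F
local notation "PSL" => ProjectiveSpecialLinearGroup (Fin n) F

/-- entrywise action on `GL_n` -/
noncomputable def gmap (σ : RingAut F) : GL (Fin n) F →* GL (Fin n) F :=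
  Matrix.GeneralLinearGroup.map ((σ : F ≃+* F) : F →+* F)

theorem gmap_val (σ : RingAut F) (P : GL (Fin n) F) : (gmap σ P).1 = P.1.map σ := rfl

theorem fbar_cbar' (σ : RingAut F) (P : GL (Fin n) F) : fbar σ * cbar P = cbar (gmap σ P) * fbar σ :=
  fbar_cbar σ P

/-- twisted partial norms in `GL_n` -/
noncomputable def twG (σ : RingAut F) (A : GL (Fin n) F) : ℕ → GL (Fin n) F
  | 0 => 1
  | k + 1 => A * gmap σ (twG σ A k)

theorem twG_val (σ : RingAut F) (A : GL (Fin n) F) (k : ℕ) : (twG σ A k).1 = tw σ A.1 k := by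
  induction k with
  | zero => rfl
  | succ k ih =>
    change A.1 * (twG σ A k).1.map σ = _
    rw [ih]; rfl

theorem pow_cbar_fbar (σ : RingAut F) (A : GL (Fin n) F) (k : ℕ) :
    (cbar A * fbar σ) ^ k = cbar (twG σ A k) * fbar (σ ^ k) := by
  induction k with
  | zero =>
    rw [pow_zero, pow_zero, fbar_one, mul_one]
    exact (map_one cbar).symm
  | succ k ih =>
    rw [pow_succ', ih, pow_succ', fbar_mul]
    change _ = cbar (A * gmap σ (twG σ A k)) * _
    rw [map_mul]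
    calc cbar A * fbar σ * (cbar (twG σ A k) * fbar (σ ^ k))
        = cbar A * (fbar σ * cbar (twG σ A k)) * fbar (σ ^ k) := by simp only [mul_assoc]
      _ = _ := by rw [fbar_cbar']; simp only [mul_assoc]

theorem map_map_pow (σ : RingAut F) (k : ℕ) (M : Matrix (Fin n) (Fin n) F) :
    (M.map ⇑(σ ^ k)).map σ = M.map ⇑(σ ^ (k + 1)) := by
  ext i j
  rw [pow_succ']
  rfl

theorem tw_succ' (σ : RingAut F) (A : Matrix (Fin n) (Fin n) F) (k : ℕ) :
    tw σ A (k + 1) = tw σ A k * A.map ⇑(σ ^ k) := by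
  induction k with
  | zero =>
    rw [tw_succ, tw_zero, one_mul, pow_zero]
    have h1 : (1 : Matrix (Fin n) (Fin n) F).map σ = 1 := by
      ext i j
      by_cases h : i = j
      · subst h; simp
      · simp [Matrix.one_apply_ne h]
    rw [h1, mul_one]
    ext i j; rfl
  | succ k ih =>
    conv_lhs => rw [tw_succ, ih, Matrix.map_mul, map_map_pow, ← mul_assoc, ← tw_succ]

theorem GL_ne_zero (hn : 1 ≤ n) (A : GL (Fin n) F) : A.1 ≠ 0 := by
  intro h
  have h1 : A.1 * (A⁻¹).1 = 1 := Units.mul_inv A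
  rw [h, zero_mul] at h1
  have := congrFun (congrFun h1 ⟨0, by omega⟩) ⟨0, by omega⟩
  simp at this

theorem smul_map (σ : RingAut F) (c : F) (M : Matrix (Fin n) (Fin n) F) :
    (c • M).map σ = σ c • M.map σ := by
  ext i j; simp

theorem one_map (σ : RingAut F) : (1 : Matrix (Fin n) (Fin n) F).map σ = 1 := by
  ext i j
  by_cases h : i = j
  · subst h; simp
  · simp [Matrix.one_apply_ne h]

/-- **field case**: an element of order dividing `r` in the coset `Inndiag · fbar σ` is conjugate to `fbar σ`. -/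
theorem field_conj [Finite F] (hn : 2 ≤ n) (σ : RingAut F) {r : ℕ} (hr : orderOf σ = r) (hr0 : 0 < r)
    (A : GL (Fin n) F) (h : (cbar A * fbar σ) ^ r = 1) :
    ∃ B : GL (Fin n) F, cbar A * fbar σ = cbar B * fbar σ * (cbar B)⁻¹ := by
  have hσ : σ ^ r = 1 := by rw [← hr]; exact pow_orderOf_eq_one σ
  rw [pow_cbar_fbar, hσ, fbar_one, mul_one] at h
  have h' : cbar (twG σ A r) = fbar (RingEquiv.refl F) := by rw [h]; exact fbar_one.symm
  obtain ⟨-, lam, hlam⟩ := cbar_eq_fbar hn h'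
  rw [twG_val] at hlam
  have hA0 := GL_ne_zero (by omega) A
  have hlam0 : lam ≠ 0 := by
    rintro rfl
    rw [zero_smul, ← twG_val] at hlam
    exact GL_ne_zero (by omega) _ hlam
  have hfix : σ lam = lam := by
    have h1 := tw_succ σ A.1 r
    rw [tw_succ', hlam, hσ, smul_map, one_map, mul_smul_comm, mul_one, smul_mul_assoc, one_mul] at h1
    have h2 : A.1.map ⇑(1 : RingAut F) = A.1 := by ext i j; rfl
    rw [h2] at h1
    have h3 : (lam - σ lam) • A.1 = 0 := by rw [sub_smul, h1, sub_self]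
    rcases smul_eq_zero.1 h3 with h4 | h4
    · linear_combination -h4
    · exact absurd h4 hA0
  obtain ⟨μ, hμ0, hμ⟩ := nrm_surj σ hr hr0 lam hlam0 hfix
  have htw : tw σ (μ⁻¹ • A.1) r = 1 := by
    rw [tw_smul, hlam, smul_smul, ← hμ, ← nrm_mul, inv_mul_cancel₀ hμ0]
    have : nrm σ r (1 : F) = 1 := by unfold nrm; simp
    rw [this, one_smul]
  obtain ⟨B, hB⟩ := h90 σ _ hr hr0 htw
  refine ⟨B, ?_⟩
  rw [eq_mul_inv_iff_mul_eq, mul_assoc, fbar_cbar', ← mul_assoc, ← map_mul]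
  congr 1
  apply cbar_eq_of_smul (c := μ)
  change A.1 * B.1.map σ = μ • B.1
  conv_rhs => rw [← hB, smul_mul_assoc, smul_smul, mul_inv_cancel₀ hμ0, one_smul]

/-! ### graph-field case -/

/-- `P ↦ σ(P)^{-T}` -/
noncomputable def st (σ : RingAut F) (P : GL (Fin n) F) : GL (Fin n) F := gmap σ (tinv P)

theorem st_val (σ : RingAut F) (P : GL (Fin n) F) : (st σ P).1 = ((P⁻¹).1ᵀ).map σ := rfl
theorem st_inv_val (σ : RingAut F) (P : GL (Fin n) F) : ((st σ P)⁻¹).1 = (P.1ᵀ).map σ := rfl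

theorem xg_cbar (σ : RingAut F) (P : GL (Fin n) F) :
    (fbar σ * gbar) * cbar P = cbar (st σ P) * (fbar σ * gbar) := by
  rw [mul_assoc, gbar_cbar, ← mul_assoc, fbar_cbar', mul_assoc]
  rfl

theorem xg_sq (σ : RingAut F) (h : σ * σ = 1) : (fbar σ * gbar : MulAut PSL) * (fbar σ * gbar) = 1 := by
  calc (fbar σ * gbar : MulAut PSL) * (fbar σ * gbar) = fbar σ * (gbar * fbar σ) * gbar := by
        simp only [mul_assoc]
    _ = (fbar σ * fbar σ) * (gbar * gbar) := by rw [gbar_fbar]; simp only [mul_assoc]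
    _ = 1 := by rw [← fbar_mul, h, fbar_one, gbar_mul_self, one_mul]

theorem st_st (σ : RingAut F) (h : ∀ a, σ (σ a) = a) (P : GL (Fin n) F) : st σ (st σ P) = P := by
  apply Units.ext
  rw [st_val, st_inv_val]
  ext i j
  exact h _

/-- a nondegenerate hermitian matrix is congruent to the identity -/
theorem exists_herm_frame [Finite F] (σ : RingAut F) (hσ1 : σ ≠ 1) (hσσ : ∀ a, σ (σ a) = a)
    (H Hinv : Matrix (Fin n) (Fin n) F) (hHH : H * Hinv = 1) (hH : ∀ i j, σ (H j i) = H i j) :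
    ∃ P : Matrix (Fin n) (Fin n) F, (Pᵀ).map σ * (H * P) = 1 := by
  classical
  have hHH' : Hinv * H = 1 := mul_eq_one_comm.1 hHH
  let σ' : F →+* F := ((σ : F ≃+* F) : F →+* F)
  let B₀ : (Fin n → F) →ₛₗ[σ'] (Fin n → F) →ₗ[F] F := (UniMat.stdB σ' n).compl₂ H.mulVecLin
  have hB₀ : ∀ u v, B₀ u v = (σ ∘ u) ⬝ᵥ (H *ᵥ v) := fun u v => rfl
  have hS : B₀.IsSymm := by
    rw [LinearMap.isSymm_def]
    intro u v
    rw [hB₀, hB₀]
    change σ ((σ ∘ u) ⬝ᵥ (H *ᵥ v)) = _
    simp only [dotProduct, mulVec, map_sum, map_mul, Function.comp, hσσ, Finset.mul_sum]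
    rw [Finset.sum_comm]
    apply Finset.sum_congr rfl
    intro j _
    apply Finset.sum_congr rfl
    intro i _
    rw [hH j i]
    ring
  have hB : B₀.Nondegenerate := by
    constructor
    · intro u hu
      apply (UniMat.stdB_nondeg (σ := σ') (n := n)).1 u
      intro w
      have := hu (Hinv *ᵥ w)
      rw [hB₀, mulVec_mulVec, hHH, one_mulVec] at this
      exact this
    · intro v hv
      have h1 : H *ᵥ v = 0 := (UniMat.stdB_nondeg (σ := σ') (n := n)).2 _ hv
      have h2 : Hinv *ᵥ (H *ᵥ v) = v := by rw [mulVec_mulVec, hHH', one_mulVec]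
      rw [← h2, h1, mulVec_zero]
  have hne : σ' ≠ RingHom.id F := by
    intro h
    apply hσ1
    ext a
    exact DFunLike.congr_fun h a
  obtain ⟨b, hb⟩ := Cfsg.Agent.S0755.result σ' hne hσσ B₀ hS hB
  let e : Fin (Module.finrank F (Fin n → F)) ≃ Fin n := finCongr (Module.finrank_fin_fun F)
  let P : Matrix (Fin n) (Fin n) F := Matrix.of (fun i j => b (e.symm j) i)
  refine ⟨P, ?_⟩
  ext i j
  have h1 := hb (e.symm i) (e.symm j)
  rw [hB₀] at h1
  rw [Matrix.one_apply]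
  have h2 : (e.symm i = e.symm j) ↔ i = j := e.symm.apply_eq_iff_eq
  simp only [h2] at h1
  rw [← h1]
  rfl

theorem gf_conj [Finite F] (hn : 2 ≤ n) (σ : RingAut F) (hσ : orderOf σ = 2) (A : GL (Fin n) F)
    (h : (cbar A * (fbar σ * gbar)) ^ 2 = 1) :
    ∃ B : GL (Fin n) F, cbar A * (fbar σ * gbar) = cbar B * (fbar σ * gbar) * (cbar B)⁻¹ := by
  have hσ2 : σ * σ = 1 := by
    have := pow_orderOf_eq_one σ
    rwa [hσ, sq] at this
  have hσσ : ∀ a, σ (σ a) = a := fun a => DFunLike.congr_fun hσ2 a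
  have hσ1 : σ ≠ 1 := by
    rintro rfl
    rw [orderOf_one] at hσ
    omega
  have h1 : cbar (A * st σ A) = 1 := by
    rw [← h, sq, map_mul]
    calc cbar A * cbar (st σ A) = cbar A * cbar (st σ A) * ((fbar σ * gbar) * (fbar σ * gbar)) := by
          rw [xg_sq σ hσ2, mul_one]
      _ = cbar A * (cbar (st σ A) * (fbar σ * gbar)) * (fbar σ * gbar) := by simp only [mul_assoc]
      _ = _ := by rw [← xg_cbar]; simp only [mul_assoc]
  have h1' : cbar (A * st σ A) = fbar (RingEquiv.refl F) := by rw [h1]; exact fbar_one.symm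
  obtain ⟨-, lam, hlam⟩ := cbar_eq_fbar hn h1'
  have hlam' : A.1 * ((A⁻¹).1ᵀ).map σ = lam • 1 := hlam
  have hA0 := GL_ne_zero (by omega) A
  set As := (A.1ᵀ).map σ with hAs
  have hinv : ((A⁻¹).1ᵀ).map σ * As = 1 := by
    rw [hAs, ← Matrix.map_mul, ← transpose_mul, Units.mul_inv, transpose_one, one_map]
  have hA : A.1 = lam • As := by
    calc A.1 = A.1 * (((A⁻¹).1ᵀ).map σ * As) := by rw [hinv, mul_one]
      _ = lam • As := by rw [← mul_assoc, hlam', smul_mul_assoc, one_mul]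
  have hAss : (Asᵀ).map σ = A.1 := by
    ext i j
    exact hσσ _
  have hAs2 : As = σ lam • A.1 := by
    conv_lhs => rw [hAs, hA, transpose_smul, smul_map, hAss]
  have hnorm : lam * σ lam = 1 := by
    have h3 : (lam * σ lam - 1) • A.1 = 0 := by
      rw [sub_smul, one_smul, mul_smul, ← hAs2, ← hA, sub_self]
    rcases smul_eq_zero.1 h3 with h4 | h4
    · linear_combination h4
    · exact absurd h4 hA0
  have hlam0 : lam ≠ 0 := by
    rintro rfl
    rw [zero_mul] at hnorm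
    exact zero_ne_one hnorm
  have hn2 : nrm σ 2 lam⁻¹ = 1 := by
    unfold nrm
    rw [Finset.prod_range_succ, Finset.prod_range_one, pow_zero, pow_one]
    change lam⁻¹ * σ lam⁻¹ = 1
    rw [map_inv₀, ← mul_inv, hnorm, inv_one]
  obtain ⟨b, hb0, hb⟩ := h90_scalar σ hσ (by norm_num) lam⁻¹ hn2
  have hb' : σ b = lam * b := by
    conv_rhs => rw [← hb, ← mul_assoc, mul_inv_cancel₀ hlam0, one_mul]
  set H := b • A.1 with hHdef
  have hHs : (Hᵀ).map σ = H := by
    rw [hHdef, transpose_smul, smul_map, ← hAs, hb', mul_comm, mul_smul, ← hA]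
  have hH : ∀ i j, σ (H j i) = H i j := fun i j => congrFun (congrFun hHs i) j
  obtain ⟨P, hP⟩ := exists_herm_frame σ hσ1 hσσ H (b⁻¹ • (A⁻¹).1) (by
    rw [hHdef, smul_mul_smul_comm, mul_inv_cancel₀ hb0, Units.mul_inv, one_smul]) hH
  have hPl : ((Pᵀ).map σ * H) * P = 1 := by rw [mul_assoc]; exact hP
  have hPu : IsUnit P := ⟨⟨P, (Pᵀ).map σ * H, mul_eq_one_comm.1 hPl, hPl⟩, rfl⟩
  let Pg : GL (Fin n) F := hPu.unit
  have hPg : Pg.1 = P := rfl
  have hHP : H * P = (st σ Pg).1 := by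
    have h5 : (st σ Pg).1 * ((st σ Pg)⁻¹).1 = 1 := Units.mul_inv _
    rw [st_inv_val, hPg] at h5
    calc H * P = ((st σ Pg).1 * (Pᵀ).map σ) * (H * P) := by rw [h5, one_mul]
      _ = (st σ Pg).1 := by rw [mul_assoc, hP, mul_one]
  refine ⟨st σ Pg, ?_⟩
  rw [eq_mul_inv_iff_mul_eq, mul_assoc, xg_cbar, ← mul_assoc, ← map_mul, st_st σ hσσ]
  congr 1
  apply cbar_eq_of_smul (c := b⁻¹)
  change A.1 * P = b⁻¹ • (st σ Pg).1
  rw [← hHP, hHdef, smul_mul_assoc, smul_smul, inv_mul_cancel₀ hb0, one_smul]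

end Cfsg.Agent.Lib.Helper4.PSLn
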