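import Mathlib
import Cfsg.Agent.Lib.Helper4.PSLnField2

set_option autoImplicit false

namespace Cfsg.Agent.Lib.Helper4.PSLn

open Matrix Cfsg.Agent.Lib.Helper4.SLnTv Cfsg.Agent.Lib.Helper4.H90

variable {n : ℕ} {F : Type*} [Field F]

local notation "SL" => SpecialLinearGroup (Fin n) F
local notation "PSL" => ProjectiveSpecialLinearGroup (Fin n) F

/-- `fbar` as a homomorphism -/
noncomputable def fbarHom : RingAut F →* MulAut PSL := MonoidHom.mk' fbar fbar_mul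

theorem fbarHom_apply (σ : RingAut F) : (fbarHom σ : MulAut PSL) = fbar σ := rfl

theorem orderOf_fbar (hn : 2 ≤ n) (σ : RingAut F) : orderOf (fbar σ : MulAut PSL) = orderOf σ :=
  orderOf_injective (fbarHom : RingAut F →* MulAut PSL) (fun _ _ h => fbar_injective hn h) σ

theorem x0_zero (σ : RingAut F) : (x0 σ 0 : MulAut PSL) = fbar σ := by rw [x0, gp_zero, mul_one]
theorem x0_one (σ : RingAut F) : (x0 σ 1 : MulAut PSL) = fbar σ * gbar := by rw [x0, gp_one]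

theorem Phi_x0 [Finite F] (hn : 3 ≤ n) (σ : RingAut F) (ε : ZMod 2) :
    Phi hn (x0 σ ε) = (σ, Multiplicative.ofAdd ε) := by
  have := Phi_eq hn 1 ((σ, Multiplicative.ofAdd ε) : RingAut F × Multiplicative (ZMod 2))
  rw [map_one, one_mul] at this
  exact this

/-- a graph-field representative of prime order has order `2`. -/
theorem gf_order [Finite F] (hn : 3 ≤ n) (σ : RingAut F) (hσ : σ ≠ 1) {r : ℕ} (hr : r.Prime)
    (hord : orderOf (x0 σ 1 : MulAut PSL) = r) : r = 2 ∧ orderOf σ = 2 := by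
  have h1 : (x0 σ 1 : MulAut PSL) ^ r = 1 := by rw [← hord]; exact pow_orderOf_eq_one _
  have h2 := congrArg (Phi hn) h1
  rw [map_pow, Phi_x0, map_one (Phi hn), Prod.pow_mk, Prod.mk_eq_one] at h2
  obtain ⟨h3, h4⟩ := h2
  have h5 : ((r : ℕ) : ZMod 2) = 0 := by
    have : Multiplicative.toAdd ((Multiplicative.ofAdd (1 : ZMod 2)) ^ r) = 0 := by rw [h4]; rfl
    rw [toAdd_pow, toAdd_ofAdd, nsmul_eq_mul, mul_one] at this
    exact this
  have h6 : 2 ∣ r := (ZMod.natCast_eq_zero_iff r 2).1 h5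
  have h7 : r = 2 := ((Nat.prime_dvd_prime_iff_eq Nat.prime_two hr).1 h6).symm
  refine ⟨h7, ?_⟩
  rw [h7] at h3
  exact orderOf_eq_prime h3 hσ

theorem coset_conj [Finite F] (hn : 2 ≤ n) (σ : RingAut F) (ε : ZMod 2) (hε : ε = 0 ∨ 3 ≤ n) (hσ : σ ≠ 1)
    {r : ℕ} (hr : r.Prime) (hord : orderOf (x0 σ ε : MulAut PSL) = r) (A : GL (Fin n) F)
    (h : (cbar A * x0 σ ε) ^ r = 1) :
    ∃ B : GL (Fin n) F, cbar A * x0 σ ε = cbar B * x0 σ ε * (cbar B)⁻¹ := by
  rcases zmod2_cases ε with rfl | rfl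
  · rw [x0_zero] at hord h ⊢
    rw [orderOf_fbar hn] at hord
    exact field_conj hn σ hord hr.pos A h
  · have hn3 : 3 ≤ n := by
      rcases hε with h0 | h0
      · exact absurd h0 (by decide)
      · exact h0
    obtain ⟨rfl, h2⟩ := gf_order hn3 σ hσ hr hord
    rw [x0_one] at h ⊢
    exact gf_conj hn σ h2 A h

theorem orderOf_conj' {G : Type*} [Group G] (h x : G) : orderOf (h * x * h⁻¹) = orderOf x :=
  (MulAut.conj h).orderOf_eq x

/-- the coset statement for an arbitrary conjugate of a standard representative. -/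
theorem coset_conj_gen [Finite F] (hn : 2 ≤ n) (σ : RingAut F) (ε : ZMod 2) (hε : ε = 0 ∨ 3 ≤ n) (hσ : σ ≠ 1)
    {r : ℕ} (hr : r.Prime) (x α : MulAut PSL) (hx : α * x * α⁻¹ = x0 σ ε) (hord : orderOf x = r)
    (D : GL (Fin n) F) (h : orderOf (cbar D * x) = r) :
    ∃ B : GL (Fin n) F, cbar D * x = cbar B * x * (cbar B)⁻¹ := by
  obtain ⟨c, hc⟩ := conj_x0 hn α x σ ε hx
  have hord0 : orderOf (x0 σ ε : MulAut PSL) = r := by
    rw [← hord, hc, orderOf_conj']
  have e1 : cbar (c⁻¹ * D * c) * x0 σ ε = (cbar c)⁻¹ * (cbar D * x) * (cbar c)⁻¹⁻¹ := by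
    rw [hc, map_mul, map_mul, map_inv]
    group
  have h1 : (cbar (c⁻¹ * D * c) * x0 σ ε) ^ r = 1 := by
    rw [← h, e1, ← orderOf_conj' (cbar c)⁻¹ (cbar D * x)]
    exact pow_orderOf_eq_one _
  obtain ⟨B, hB⟩ := coset_conj hn σ ε hε hσ hr hord0 _ h1
  refine ⟨c * B * c⁻¹, ?_⟩
  have e2 : cbar D * x = cbar c * (cbar (c⁻¹ * D * c) * x0 σ ε) * (cbar c)⁻¹ := by
    rw [e1]; group
  rw [e2, hB]
  conv_rhs => rw [hc]
  rw [map_mul, map_mul, map_inv]
  group

end Cfsg.Agent.Lib.Helper4.PSLn
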