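import Mathlib

set_option autoImplicit false

namespace Cfsg.Agent.Lib.Helper4.Fix

variable {F : Type*} [Field F]

/-- the fixed field of a field automorphism -/
def fixF (σ : RingAut F) : Subfield F := FixedPoints.subfield (Subgroup.zpowers σ) F

theorem mem_fixF (σ : RingAut F) (y : F) : y ∈ fixF σ ↔ σ y = y := by
  constructor
  · intro h
    exact h ⟨σ, Subgroup.mem_zpowers σ⟩
  · intro h m
    have h1 : Subgroup.zpowers σ ≤ MulAction.stabilizer (RingAut F) y := by
      rw [Subgroup.zpowers_le]
      exact h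
    exact h1 m.2

theorem card_fixF [Fintype F] {p f r : ℕ} [Fact p.Prime] (hF : Fintype.card F = p ^ f) (σ : RingAut F)
    (hr : orderOf σ = r) : r ∣ f ∧ Nat.card (fixF σ) = p ^ (f / r) := by
  classical
  have hp : p.Prime := Fact.out
  have : Finite (RingAut F) := Finite.of_injective (fun τ : RingAut F => (τ : F → F)) DFunLike.coe_injective
  have : Fintype (Subgroup.zpowers σ) := Fintype.ofFinite _
  have hr0 : 0 < r := by rw [← hr]; exact orderOf_pos σ
  have h1 : Module.finrank (fixF σ) F = r := by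
    have := FixedPoints.finrank_eq_card (Subgroup.zpowers σ) F
    rw [← Nat.card_eq_fintype_card, Nat.card_zpowers, hr] at this
    exact this
  have : Fintype (fixF σ) := Fintype.ofFinite _
  have h2 := Module.card_eq_pow_finrank (K := fixF σ) (V := F)
  rw [h1, hF] at h2
  have h3 : Fintype.card (fixF σ) ∣ p ^ f := by
    rw [h2]; exact dvd_pow_self _ hr0.ne'
  obtain ⟨a, -, ha⟩ := (Nat.dvd_prime_pow hp).1 h3
  rw [ha, ← pow_mul] at h2
  have h4 : f = a * r := Nat.pow_right_injective hp.two_le h2
  refine ⟨⟨a, by rw [h4, mul_comm]⟩, ?_⟩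
  rw [Nat.card_eq_fintype_card, ha, h4, Nat.mul_div_cancel _ hr0]

end Cfsg.Agent.Lib.Helper4.Fix
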