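import Mathlib
import Cfsg.Prelude.Def_LieTypeDatum

set_option autoImplicit false

namespace Cfsg.Agent.Lib.Helper4.Split

/-- counting the classes into which a class splits, through a surjection `d` with kernel mapping onto `K`. -/
theorem split_count {Γ X A : Type*} [Group Γ] [Group X] [CommGroup A] (π : Γ →* X) (d : Γ →* A)
    (hd : Function.Surjective d) (x : X) :
    Cfsg.splitClassCount π.range (d.ker.map π) x = (((Subgroup.centralizer {x}).comap π).map d).index := by
  set S := (Subgroup.centralizer {x}).comap π with hS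
  set D := S.map d with hD
  have hmemS : ∀ t : Γ, t ∈ S ↔ π t * x = x * π t := by
    intro t
    rw [hS, Subgroup.mem_comap, Subgroup.mem_centralizer_singleton_iff]
  have hex : ∀ y : {y : X // Cfsg.IsConjUnder π.range x y}, ∃ g : Γ, y.1 = π g * x * (π g)⁻¹ := by
    rintro ⟨y, h, ⟨g, rfl⟩, e⟩
    exact ⟨g, e⟩
  choose G hG using hex
  have key : ∀ g g' s : Γ, d s = 1 → π g' * x * (π g')⁻¹ = π s * (π g * x * (π g)⁻¹) * (π s)⁻¹ →
      (d g)⁻¹ * d g' ∈ D := by
    intro g g' s hs e
    refine ⟨(s * g)⁻¹ * g', ?_, ?_⟩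
    · change (s * g)⁻¹ * g' ∈ S
      rw [hmemS, map_mul, map_inv, map_mul]
      have e2 : π g' * x = π s * π g * x * (π g)⁻¹ * (π s)⁻¹ * π g' := by
        calc π g' * x = (π g' * x * (π g')⁻¹) * π g' := by group
          _ = _ := by rw [e]; group
      calc (π s * π g)⁻¹ * π g' * x = (π s * π g)⁻¹ * (π g' * x) := by group
        _ = _ := by rw [e2]; group
    · rw [map_mul, map_inv, map_mul, hs, one_mul]
  let f : {y : X // Cfsg.IsConjUnder π.range x y} → A ⧸ D := fun y => QuotientGroup.mk (d (G y))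
  have wd : ∀ y z : {y : X // Cfsg.IsConjUnder π.range x y},
      Cfsg.IsConjUnder (d.ker.map π) y.1 z.1 → f y = f z := by
    rintro y z ⟨k, ⟨s, hs, rfl⟩, e⟩
    apply QuotientGroup.eq.2
    apply key (G y) (G z) s hs
    rw [← hG, ← hG, e]
  let Fq : Quot (fun y z : {y : X // Cfsg.IsConjUnder π.range x y} =>
      Cfsg.IsConjUnder (d.ker.map π) y.1 z.1) → A ⧸ D := Quot.lift f wd
  have hbij : Function.Bijective Fq := by
    constructor
    · intro a b
      induction a using Quot.ind with | _ y => ?_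
      induction b using Quot.ind with | _ z => ?_
      intro h
      have h1 : (d (G y))⁻¹ * d (G z) ∈ D := QuotientGroup.eq.1 h
      obtain ⟨t, ht, hdt⟩ := h1
      have ht' : π t * x = x * π t := (hmemS t).1 ht
      apply Quot.sound
      refine ⟨π (G z * t⁻¹ * (G y)⁻¹), ⟨_, ?_, rfl⟩, ?_⟩
      · change G z * t⁻¹ * (G y)⁻¹ ∈ d.ker
        rw [MonoidHom.mem_ker, map_mul, map_mul, map_inv, map_inv, hdt]
        rw [mul_inv_rev, inv_inv]
        rw [mul_comm (d (G z))⁻¹, ← mul_assoc, mul_comm (d (G z)), mul_assoc, mul_assoc]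
        simp
      · rw [hG z, hG y, map_mul, map_mul, map_inv, map_inv]
        have e3 : (π t)⁻¹ * x * π t = x := by
          rw [mul_assoc, ← ht', ← mul_assoc, inv_mul_cancel, one_mul]
        calc π (G z) * x * (π (G z))⁻¹ = π (G z) * ((π t)⁻¹ * x * π t) * (π (G z))⁻¹ := by rw [e3]
          _ = _ := by group
    · intro a
      obtain ⟨a, rfl⟩ := QuotientGroup.mk_surjective a
      obtain ⟨g, rfl⟩ := hd a
      refine ⟨Quot.mk _ ⟨π g * x * (π g)⁻¹, π g, ⟨g, rfl⟩, rfl⟩, ?_⟩
      apply QuotientGroup.eq.2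
      apply key _ g 1 (map_one d)
      rw [← hG]
      simp
  unfold Cfsg.splitClassCount
  rw [Nat.card_congr (Equiv.ofBijective Fq hbij)]
  rfl

/-- in a finite cyclic group every subgroup is the group of `index`-th powers -/
theorem eq_range_pow {C : Type*} [CommGroup C] [Finite C] [IsCyclic C] (Y : Subgroup C) :
    Y = (powMonoidHom Y.index : C →* C).range := by
  symm
  apply Subgroup.eq_of_le_of_card_ge
  · rintro _ ⟨g, rfl⟩
    exact Subgroup.pow_index_mem Y g
  · rw [IsCyclic.card_powMonoidHom_range, Nat.gcd_eq_right (Subgroup.index_dvd_card Y)]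
    have h1 := Y.card_mul_index
    have h2 : 0 < Y.index := Nat.pos_of_ne_zero Subgroup.index_ne_zero_of_finite
    rw [← h1, Nat.mul_div_cancel _ h2]

theorem range_pow_sup {C : Type*} [CommGroup C] (a b : ℕ) :
    (powMonoidHom a : C →* C).range ⊔ (powMonoidHom b : C →* C).range =
      (powMonoidHom (Nat.gcd a b) : C →* C).range := by
  apply le_antisymm
  · rw [sup_le_iff]
    constructor
    · rintro _ ⟨g, rfl⟩
      obtain ⟨k, hk⟩ := Nat.gcd_dvd_left a b
      refine ⟨g ^ k, ?_⟩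
      rw [powMonoidHom_apply, powMonoidHom_apply, ← pow_mul, mul_comm, ← hk]
    · rintro _ ⟨g, rfl⟩
      obtain ⟨k, hk⟩ := Nat.gcd_dvd_right a b
      refine ⟨g ^ k, ?_⟩
      rw [powMonoidHom_apply, powMonoidHom_apply, ← pow_mul, mul_comm, ← hk]
  · rintro _ ⟨g, rfl⟩
    rw [powMonoidHom_apply]
    have h1 : g ^ (Nat.gcd a b) = (g ^ (Nat.gcdA a b)) ^ a * (g ^ (Nat.gcdB a b)) ^ b := by
      rw [← zpow_natCast g, Nat.gcd_eq_gcd_ab, zpow_add, ← zpow_natCast (g ^ (Nat.gcdA a b)),
        ← zpow_natCast (g ^ (Nat.gcdB a b)), ← zpow_mul, ← zpow_mul, mul_comm (a : ℤ), mul_comm (b : ℤ)]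
    rw [h1]
    exact Subgroup.mul_mem_sup ⟨_, rfl⟩ ⟨_, rfl⟩

theorem index_pow_sup {C : Type*} [CommGroup C] [Finite C] [IsCyclic C] (Y : Subgroup C) (k : ℕ) :
    ((powMonoidHom k : C →* C).range ⊔ Y).index = Nat.gcd k Y.index := by
  conv_lhs => rw [eq_range_pow Y, range_pow_sup, IsCyclic.index_powMonoidHom_range]
  apply Nat.gcd_eq_right
  exact (Nat.gcd_dvd_right _ _).trans (Subgroup.index_dvd_card Y)

end Cfsg.Agent.Lib.Helper4.Split
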