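import Mathlib
import Cfsg.Agent.Lib.Helper4.PSLnField3
import Cfsg.Agent.Lib.Helper4.PSLnSplit
import Cfsg.Agent.Lib.Helper4.PSLnFix

set_option autoImplicit false

namespace Cfsg.Agent.Lib.Helper4.PSLn

open Matrix Cfsg.Agent.Lib.Helper4.SLnTv Cfsg.Agent.Lib.Helper4.H90 Cfsg.Agent.Lib.Helper4.Split
  Cfsg.Agent.Lib.Helper4.Fix

variable {n : ℕ} {F : Type*} [Field F]

local notation "SL" => SpecialLinearGroup (Fin n) F
local notation "PSL" => ProjectiveSpecialLinearGroup (Fin n) F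

/-- `diag(u, 1, …, 1)` -/
def dg1 (z : Fin n) (u : Fˣ) : GL (Fin n) F :=
  dgn (fun i => if i = z then (u : F) else 1) (by
    intro i
    by_cases h : i = z
    · simp [h]
    · simp [h])

theorem dg1_val (z : Fin n) (u : Fˣ) : (dg1 z u).1 = diagonal (fun i => if i = z then (u : F) else 1) := rfl

theorem det_dg1 (z : Fin n) (u : Fˣ) : Matrix.GeneralLinearGroup.det (dg1 z u) = u := by
  apply Units.ext
  change (dg1 z u).1.det = u
  rw [dg1_val, det_diagonal]
  simp [Finset.prod_ite_eq']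

/-- scalar matrices in `GL_n` -/
def scl (u : Fˣ) : GL (Fin n) F := dgn (fun _ => (u : F)) (fun _ => u.ne_zero)

theorem scl_val (u : Fˣ) : (scl u : GL (Fin n) F).1 = (u : F) • 1 := by
  change diagonal _ = _
  ext i j
  by_cases h : i = j
  · subst h; simp
  · simp [h]

theorem det_scl (u : Fˣ) : Matrix.GeneralLinearGroup.det (scl u : GL (Fin n) F) = u ^ n := by
  apply Units.ext
  change (scl u : GL (Fin n) F).1.det = _
  rw [scl_val, det_smul, det_one, mul_one, Fintype.card_fin, Units.val_pow_eq_pow_val]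

theorem det_surj (hn : 1 ≤ n) :
    Function.Surjective (Matrix.GeneralLinearGroup.det : GL (Fin n) F →* Fˣ) :=
  fun u => ⟨dg1 ⟨0, by omega⟩ u, det_dg1 _ u⟩

theorem inn_eq : Cfsg.Inn PSL =
    (Matrix.GeneralLinearGroup.det : GL (Fin n) F →* Fˣ).ker.map (cbar : GL (Fin n) F →* MulAut PSL) := by
  ext α
  constructor
  · rintro ⟨y, rfl⟩
    obtain ⟨s, rfl⟩ := QuotientGroup.mk_surjective y
    refine ⟨SpecialLinearGroup.toGL s, ?_, cbar_toGL s⟩
    change SpecialLinearGroup.toGL s ∈ (Matrix.GeneralLinearGroup.det : GL (Fin n) F →* Fˣ).ker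
    rw [MonoidHom.mem_ker]
    exact Units.ext s.2
  · rintro ⟨g, hg, rfl⟩
    have hg' : Matrix.GeneralLinearGroup.det g = 1 := hg
    have hdet : g.1.det = 1 := congrArg Units.val hg'
    let s : SL := ⟨g.1, hdet⟩
    have : g = SpecialLinearGroup.toGL s := Units.ext rfl
    rw [this, cbar_toGL]
    exact ⟨_, rfl⟩

/-- iterating `M = λ σ(M)` -/
theorem iter_smul (σ : RingAut F) {M : Matrix (Fin n) (Fin n) F} {lam : F} (h : M = lam • M.map σ) (k : ℕ) :
    M = nrm σ k lam • M.map ⇑(σ ^ k) := by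
  induction k with
  | zero =>
    rw [nrm_zero, one_smul, pow_zero]
    ext i j; rfl
  | succ k ih =>
    conv_lhs => rw [h, ih, smul_map, map_map_pow, smul_smul, ← nrm_succ]

/-- descent: a matrix that is `σ`-fixed up to a scalar is proportional to a `σ`-fixed one. -/
theorem descent (hn : 1 ≤ n) (σ : RingAut F) {r : ℕ} (hr : orderOf σ = r) (hr0 : 0 < r) (a : GL (Fin n) F)
    {lam : F} (h : a.1 = lam • a.1.map σ) : ∃ b : F, b ≠ 0 ∧ (b • a.1).map σ = b • a.1 := by
  have hσ : σ ^ r = 1 := by rw [← hr]; exact pow_orderOf_eq_one σ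
  have ha0 := GL_ne_zero hn a
  have h1 := iter_smul σ h r
  rw [hσ] at h1
  have h2 : a.1.map ⇑(1 : RingAut F) = a.1 := by ext i j; rfl
  rw [h2] at h1
  have h3 : nrm σ r lam = 1 := by
    have h4 : (nrm σ r lam - 1) • a.1 = 0 := by rw [sub_smul, one_smul, ← h1, sub_self]
    rcases smul_eq_zero.1 h4 with h5 | h5
    · linear_combination h5
    · exact absurd h5 ha0
  have hlam0 : lam ≠ 0 := by
    rintro rfl
    rw [zero_smul] at h
    exact ha0 h
  have h5 : nrm σ r lam⁻¹ = 1 := by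
    have h6 := nrm_mul σ r lam lam⁻¹
    rw [mul_inv_cancel₀ hlam0, h3, one_mul] at h6
    rw [← h6]; unfold nrm; simp
  obtain ⟨b, hb0, hb⟩ := h90_scalar σ hr hr0 lam⁻¹ h5
  refine ⟨b, hb0, ?_⟩
  have hb' : σ b = lam * b := by
    conv_rhs => rw [← hb, ← mul_assoc, mul_inv_cancel₀ hlam0, one_mul]
  rw [smul_map, hb', mul_comm, mul_smul, ← h]

/-- commuting with `fbar σ` -/
theorem comm_fbar_iff (hn : 2 ≤ n) (σ : RingAut F) (a : GL (Fin n) F) :
    cbar a * fbar σ = fbar σ * cbar a ↔ ∃ lam : F, a.1 = lam • a.1.map σ := by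
  rw [fbar_cbar']
  constructor
  · intro h
    exact smul_of_cbar_eq hn (mul_right_cancel h)
  · rintro ⟨lam, h⟩
    rw [cbar_eq_of_smul (P := a) (Q := gmap σ a) h]

/-- the stabiliser in `GL_n` of a conjugate of `y` -/
theorem mem_stab_iff (c a : GL (Fin n) F) (y : MulAut PSL) :
    a ∈ (Subgroup.centralizer {cbar c * y * (cbar c)⁻¹}).comap (cbar : GL (Fin n) F →* MulAut PSL) ↔
      cbar (c⁻¹ * a * c) * y = y * cbar (c⁻¹ * a * c) := by
  rw [Subgroup.mem_comap, Subgroup.mem_centralizer_singleton_iff, map_mul, map_mul, map_inv]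
  constructor
  · intro h
    calc (cbar c)⁻¹ * cbar a * cbar c * y
        = (cbar c)⁻¹ * (cbar a * (cbar c * y * (cbar c)⁻¹)) * cbar c := by group
      _ = _ := by rw [h]; group
  · intro h
    calc cbar a * (cbar c * y * (cbar c)⁻¹)
        = cbar c * ((cbar c)⁻¹ * cbar a * cbar c * y) * (cbar c)⁻¹ := by group
      _ = _ := by rw [h]; group

theorem det_conj (c a : GL (Fin n) F) :
    Matrix.GeneralLinearGroup.det (c⁻¹ * a * c) = Matrix.GeneralLinearGroup.det a := by
  rw [map_mul, map_mul, map_inv, mul_comm, ← mul_assoc, mul_inv_cancel, one_mul]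

theorem det_map (σ : RingAut F) (M : Matrix (Fin n) (Fin n) F) : (M.map σ).det = σ M.det := by
  have := RingHom.map_det ((σ : F ≃+* F) : F →+* F) M
  exact this.symm

/-- determinants of the stabiliser of a field automorphism -/
theorem det_stab_field (hn : 2 ≤ n) (σ : RingAut F) {r : ℕ} (hr : orderOf σ = r) (hr0 : 0 < r)
    (c : GL (Fin n) F) :
    ((Subgroup.centralizer {cbar c * fbar σ * (cbar c)⁻¹}).comap (cbar : GL (Fin n) F →* MulAut PSL)).map
      Matrix.GeneralLinearGroup.det = (powMonoidHom n : Fˣ →* Fˣ).range ⊔ (Dh σ).ker := by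
  apply le_antisymm
  · rintro _ ⟨a, ha, rfl⟩
    have ha' := (mem_stab_iff c a (fbar σ)).1 ha
    obtain ⟨lam, hlam⟩ := (comm_fbar_iff hn σ _).1 ha'
    obtain ⟨b, hb0, hb⟩ := descent (by omega) σ hr hr0 _ hlam
    rw [← det_conj c a]
    set a' := c⁻¹ * a * c with ha'def
    have h1 : σ ((b • a'.1).det) = (b • a'.1).det := by rw [← det_map, hb]
    rw [det_smul, Fintype.card_fin] at h1
    let t : Fˣ := (Units.mk0 b hb0) ^ n * Matrix.GeneralLinearGroup.det a'
    have ht : t ∈ (Dh σ).ker := by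
      rw [mem_ker_Dh]
      exact h1
    have e : Matrix.GeneralLinearGroup.det a' = ((Units.mk0 b hb0)⁻¹) ^ n * t := by
      simp only [t]
      rw [← mul_assoc, ← mul_pow, inv_mul_cancel, one_pow, one_mul]
    rw [e]
    exact Subgroup.mul_mem_sup ⟨_, rfl⟩ ht
  · rw [sup_le_iff]
    constructor
    · rintro _ ⟨u, rfl⟩
      refine ⟨scl u, ?_, det_scl u⟩
      change scl u ∈ Subgroup.comap _ _
      rw [Subgroup.mem_comap, cbar_of_scalar (scl_val u)]
      exact Subgroup.one_mem _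
    · intro t ht
      rw [mem_ker_Dh] at ht
      refine ⟨c * dg1 ⟨0, by omega⟩ t * c⁻¹, ?_, ?_⟩
      · change _ ∈ Subgroup.comap _ _
        rw [mem_stab_iff, comm_fbar_iff hn]
        refine ⟨1, ?_⟩
        have e : c⁻¹ * (c * dg1 ⟨0, by omega⟩ t * c⁻¹) * c = dg1 ⟨0, by omega⟩ t := by group
        rw [e, one_smul, dg1_val]
        ext i j
        by_cases hij : i = j
        · subst hij
          by_cases hi : i = ⟨0, by omega⟩
          · simp [hi, ht]
          · simp [hi]
        · simp [hij]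
      · have := det_conj c⁻¹ (dg1 ⟨0, by omega⟩ t)
        rw [inv_inv] at this
        rw [this, det_dg1]

end Cfsg.Agent.Lib.Helper4.PSLn
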