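import Mathlib
import Cfsg.Agent.Lib.Helper4.PSLnCent

set_option autoImplicit false

namespace Cfsg.Agent.Lib.Helper4.PSLn

open Matrix Cfsg.Agent.Lib.Helper4.SLnTv Cfsg.Agent.Lib.Helper4.H90 Cfsg.Agent.Lib.Helper4.Split
  Cfsg.Agent.Lib.Helper4.Fix

variable {n : ℕ} {F : Type*} [Field F]

local notation "SL" => SpecialLinearGroup (Fin n) F
local notation "PSL" => ProjectiveSpecialLinearGroup (Fin n) F

theorem card_ker_Dh [Finite F] (σ : RingAut F) : Nat.card (Dh σ).ker = Nat.card (fixF σ) - 1 := by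
  classical
  have : Fintype (fixF σ) := Fintype.ofFinite _
  rw [Nat.card_eq_fintype_card (α := fixF σ), ← Fintype.card_units, ← Nat.card_eq_fintype_card]
  let g : (fixF σ)ˣ →* Fˣ := Units.map ((fixF σ).subtype : fixF σ →* F)
  have hg : Function.Injective g := by
    intro a b hab
    apply Units.ext
    apply Subtype.ext
    exact congrArg Units.val hab
  have hr : g.range = (Dh σ).ker := by
    ext u
    rw [mem_ker_Dh]
    constructor
    · rintro ⟨a, rfl⟩
      exact (mem_fixF σ _).1 a.1.2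
    · intro hu
      have hu' : σ ((u⁻¹ : Fˣ) : F) = ((u⁻¹ : Fˣ) : F) := by
        rw [Units.val_inv_eq_inv_val, map_inv₀, hu]
      refine ⟨⟨⟨u, (mem_fixF σ _).2 hu⟩, ⟨(u⁻¹ : Fˣ), (mem_fixF σ _).2 hu'⟩, ?_, ?_⟩, ?_⟩
      · apply Subtype.ext; exact u.mul_inv
      · apply Subtype.ext; exact u.inv_mul
      · apply Units.ext; rfl
  rw [← hr]
  exact (Nat.card_congr (MonoidHom.ofInjective hg).toEquiv).symm

theorem index_ker_Dh [Fintype F] {p f r : ℕ} [Fact p.Prime] (hF : Fintype.card F = p ^ f) (σ : RingAut F)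
    (hr : orderOf σ = r) : (Dh σ).ker.index = (p ^ f - 1) / (p ^ (f / r) - 1) := by
  have h1 := (Dh σ).ker.card_mul_index
  rw [card_ker_Dh, (card_fixF hF σ hr).2, Nat.card_units, Nat.card_eq_fintype_card, hF] at h1
  have hp : 1 < p := (Fact.out : p.Prime).one_lt
  have hpos : 0 < p ^ (f / r) - 1 := by
    by_contra hcon
    have h0 : p ^ (f / r) - 1 = 0 := by omega
    rw [h0, zero_mul] at h1
    have hcard : 1 < p ^ f := by rw [← hF]; exact Fintype.one_lt_card
    omega
  rw [← h1, Nat.mul_div_cancel_left _ hpos]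

theorem index_ker_Nh [Fintype F] {p f r : ℕ} [Fact p.Prime] (hF : Fintype.card F = p ^ f) (σ : RingAut F)
    (hr : orderOf σ = r) : (Nh σ r).ker.index = p ^ (f / r) - 1 := by
  have : Finite (RingAut F) := Finite.of_injective (fun τ : RingAut F => (τ : F → F)) DFunLike.coe_injective
  have hr0 : 0 < r := by rw [← hr]; exact orderOf_pos σ
  rw [Subgroup.index_ker, range_Nh σ hr hr0, card_ker_Dh, (card_fixF hF σ hr).2]

/-- the number of `Inn`-classes in the `Inndiag`-class of a field automorphism -/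
theorem split_field [Fintype F] {p f r : ℕ} [Fact p.Prime] (hF : Fintype.card F = p ^ f) (hn : 2 ≤ n)
    (σ : RingAut F) (hr : orderOf σ = r) (c : GL (Fin n) F) :
    Cfsg.splitClassCount (Cfsg.inndiagPSL n F) (Cfsg.Inn PSL) (cbar c * fbar σ * (cbar c)⁻¹) =
      Nat.gcd n ((p ^ f - 1) / (p ^ (f / r) - 1)) := by
  have : Finite (RingAut F) := Finite.of_injective (fun τ : RingAut F => (τ : F → F)) DFunLike.coe_injective
  have hr0 : 0 < r := by rw [← hr]; exact orderOf_pos σ
  rw [inndiag_eq, inn_eq, split_count (cbar : GL (Fin n) F →* MulAut PSL)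
    (Matrix.GeneralLinearGroup.det : GL (Fin n) F →* Fˣ) (det_surj (by omega)),
    det_stab_field hn σ hr hr0, index_pow_sup, index_ker_Dh hF σ hr]

/-! ### the centraliser -/

section iso

variable {F₀ : Type*} [Field F₀]

theorem map_inj (ι : F₀ →+* F) {M N : Matrix (Fin n) (Fin n) F₀} (h : M.map ι = N.map ι) : M = N := by
  ext i j
  exact ι.injective (congrFun (congrFun h i) j)

/-- the homomorphism `GL_n(F₀) → Aut(PSL_n(F))` -/
noncomputable def Theta (ι : F₀ →+* F) (c : GL (Fin n) F) : GL (Fin n) F₀ →* MulAut PSL :=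
  (MulAut.conj (cbar c)).toMonoidHom.comp (cbar.comp (Matrix.GeneralLinearGroup.map ι))

theorem Theta_apply (ι : F₀ →+* F) (c : GL (Fin n) F) (P : GL (Fin n) F₀) :
    Theta ι c P = cbar c * cbar (Matrix.GeneralLinearGroup.map ι P) * (cbar c)⁻¹ := rfl

theorem Theta_ker (hn : 2 ≤ n) (ι : F₀ →+* F) (c : GL (Fin n) F) :
    (Theta ι c).ker = Subgroup.center (GL (Fin n) F₀) := by
  ext P
  rw [MonoidHom.mem_ker, Theta_apply, Subgroup.mem_center_iff]
  have h0 : cbar c * cbar (Matrix.GeneralLinearGroup.map ι P) * (cbar c)⁻¹ = 1 ↔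
      Matrix.GeneralLinearGroup.map ι P ∈ (cbar : GL (Fin n) F →* MulAut PSL).ker := by
    rw [MonoidHom.mem_ker]
    constructor
    · intro h
      calc cbar (Matrix.GeneralLinearGroup.map ι P)
          = (cbar c)⁻¹ * (cbar c * cbar (Matrix.GeneralLinearGroup.map ι P) * (cbar c)⁻¹) * cbar c := by group
        _ = 1 := by rw [h]; group
    · intro h
      rw [h]; group
  rw [h0, cbar_ker hn, Subgroup.mem_center_iff]
  constructor
  · intro h g
    have h1 := h (Matrix.GeneralLinearGroup.map ι g)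
    rw [← map_mul, ← map_mul] at h1
    apply Units.ext
    exact map_inj ι (congrArg Units.val h1)
  · intro h
    have h1 : P ∈ Subgroup.center (GL (Fin n) F₀) := Subgroup.mem_center_iff.2 h
    rw [Matrix.GeneralLinearGroup.center_eq_range_scalar] at h1
    obtain ⟨u, rfl⟩ := h1
    intro g
    apply Units.ext
    change g.1 * ((Matrix.scalar (Fin n)) (u : F₀)).map ι = ((Matrix.scalar (Fin n)) (u : F₀)).map ι * g.1
    have h2 : ((Matrix.scalar (Fin n)) (u : F₀)).map ι = ι u • (1 : Matrix (Fin n) (Fin n) F) := by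
      ext i j
      by_cases hij : i = j
      · subst hij; simp
      · simp [hij]
    rw [h2]; simp

theorem Theta_range (hn : 2 ≤ n) (σ : RingAut F) {r : ℕ} (hr : orderOf σ = r) (hr0 : 0 < r)
    (ι : F₀ →+* F) (hι : ∀ y : F, σ y = y ↔ ∃ t, ι t = y) (c : GL (Fin n) F) :
    (Theta ι c).range = Cfsg.inndiagPSL n F ⊓ Subgroup.centralizer {cbar c * fbar σ * (cbar c)⁻¹} := by
  rw [inndiag_eq]
  ext y
  rw [Subgroup.mem_inf]
  constructor
  · rintro ⟨P, rfl⟩
    rw [Theta_apply]
    refine ⟨⟨c * Matrix.GeneralLinearGroup.map ι P * c⁻¹, by rw [map_mul, map_mul, map_inv]⟩, ?_⟩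
    have h1 : c * Matrix.GeneralLinearGroup.map ι P * c⁻¹ ∈
        (Subgroup.centralizer {cbar c * fbar σ * (cbar c)⁻¹}).comap (cbar : GL (Fin n) F →* MulAut PSL) := by
      rw [mem_stab_iff, comm_fbar_iff hn]
      refine ⟨1, ?_⟩
      have e : c⁻¹ * (c * Matrix.GeneralLinearGroup.map ι P * c⁻¹) * c = Matrix.GeneralLinearGroup.map ι P := by
        group
      rw [e, one_smul]
      ext i j
      exact ((hι _).2 ⟨P.1 i j, rfl⟩).symm
    rw [Subgroup.mem_comap, map_mul, map_mul, map_inv] at h1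
    exact h1
  · rintro ⟨⟨a, rfl⟩, ha⟩
    have ha' : a ∈ (Subgroup.centralizer {cbar c * fbar σ * (cbar c)⁻¹}).comap
        (cbar : GL (Fin n) F →* MulAut PSL) := ha
    rw [mem_stab_iff, comm_fbar_iff hn] at ha'
    obtain ⟨lam, hlam⟩ := ha'
    obtain ⟨b, hb0, hb⟩ := descent (by omega) σ hr hr0 _ hlam
    set a' := c⁻¹ * a * c with ha'def
    have hent : ∀ i j, ∃ t, ι t = (b • a'.1) i j := by
      intro i j
      exact (hι _).1 (congrFun (congrFun hb i) j)
    choose P₀ hP₀ using hent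
    have hmap : (Matrix.of P₀).map ι = b • a'.1 := by
      ext i j
      exact hP₀ i j
    have hdet : (Matrix.of P₀).det ≠ 0 := by
      intro h0
      have h1 : ((Matrix.of P₀).map ι).det = 0 := by
        have := RingHom.map_det ι (Matrix.of P₀)
        rw [h0, map_zero] at this
        exact this.symm
      rw [hmap, det_smul] at h1
      have h2 : IsUnit a'.1.det := (Matrix.isUnit_iff_isUnit_det _).1 a'.isUnit
      rcases mul_eq_zero.1 h1 with h3 | h3
      · exact hb0 (pow_eq_zero_iff (by rw [Fintype.card_fin]; omega) |>.1 h3)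
      · exact h2.ne_zero h3
    refine ⟨Matrix.GeneralLinearGroup.mkOfDetNeZero (Matrix.of P₀) hdet, ?_⟩
    rw [Theta_apply]
    have h4 : cbar (Matrix.GeneralLinearGroup.map ι (Matrix.GeneralLinearGroup.mkOfDetNeZero (Matrix.of P₀) hdet))
        = cbar a' := cbar_eq_of_smul (c := b) hmap
    rw [h4, ha'def, map_mul, map_mul, map_inv]
    group

/-- the centraliser of a field automorphism in `Inndiag` is `PGL_n` of the fixed field. -/
theorem cent_field (hn : 2 ≤ n) (σ : RingAut F) {r : ℕ} (hr : orderOf σ = r) (hr0 : 0 < r)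
    (ι : F₀ →+* F) (hι : ∀ y : F, σ y = y ↔ ∃ t, ι t = y) (c : GL (Fin n) F) :
    Nonempty (↥(Cfsg.inndiagPSL n F ⊓ Subgroup.centralizer {cbar c * fbar σ * (cbar c)⁻¹}) ≃*
      Matrix.ProjGenLinGroup (Fin n) F₀) := by
  have e1 : GL (Fin n) F₀ ⧸ (Theta (F := F) ι c).ker ≃* (Theta (F := F) ι c).range :=
    QuotientGroup.quotientKerEquivRange _
  have e2 : (Theta (F := F) ι c).range ≃*
      ↥(Cfsg.inndiagPSL n F ⊓ Subgroup.centralizer {cbar c * fbar σ * (cbar c)⁻¹}) :=
    MulEquiv.subgroupCongr (Theta_range hn σ hr hr0 ι hι c)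
  have e3 : GL (Fin n) F₀ ⧸ (Theta (F := F) ι c).ker ≃* GL (Fin n) F₀ ⧸ Subgroup.center (GL (Fin n) F₀) :=
    QuotientGroup.quotientMulEquivOfEq (Theta_ker hn ι c)
  exact ⟨(e2.symm.trans e1.symm).trans e3⟩

end iso

end Cfsg.Agent.Lib.Helper4.PSLn
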