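import Mathlib
import Cfsg.Agent.Lib.Helper4.PSLnCent2

set_option linter.unusedSimpArgs false
set_option linter.unusedSectionVars false
set_option linter.style.haveILetI false

namespace Cfsg.Agent.Lib.Helper4.FixCount

open Matrix Cfsg.Agent.Lib.Helper4.Fix Cfsg.Agent.Lib.Helper4.H90

variable {F : Type*} [Field F] {n : ℕ}

/-- `(s, P) ↦ s • P` -/
noncomputable def Phi (σ : RingAut F) (n : ℕ) : Fˣ × GL (Fin n) (fixF σ) →* GL (Fin n) F :=
  MonoidHom.mk' (fun x => PSLn.scl x.1 * Matrix.GeneralLinearGroup.map (fixF σ).subtype x.2) (by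
    intro a b
    apply Units.ext
    change (PSLn.scl (a.1 * b.1) : GL (Fin n) F).1 * (a.2.1 * b.2.1).map (fixF σ).subtype =
      ((PSLn.scl a.1 : GL (Fin n) F).1 * a.2.1.map (fixF σ).subtype) *
        ((PSLn.scl b.1 : GL (Fin n) F).1 * b.2.1.map (fixF σ).subtype)
    rw [PSLn.scl_val, PSLn.scl_val, PSLn.scl_val, Matrix.map_mul]
    simp only [smul_mul_assoc, one_mul, mul_smul_comm, smul_smul, Units.val_mul]
    rw [mul_comm])

theorem Phi_val (σ : RingAut F) (x : Fˣ × GL (Fin n) (fixF σ)) :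
    (Phi σ n x).1 = (x.1 : F) • x.2.1.map (fixF σ).subtype := by
  change (PSLn.scl x.1 : GL (Fin n) F).1 * x.2.1.map (fixF σ).subtype = _
  rw [PSLn.scl_val, smul_mul_assoc, one_mul]

theorem map_fix (σ : RingAut F) (M : Matrix (Fin n) (Fin n) (fixF σ)) :
    (M.map (fixF σ).subtype).map σ = M.map (fixF σ).subtype := by
  ext i j
  exact (mem_fixF σ _).1 (M i j).2

theorem mem_range_Phi (hn : 1 ≤ n) (σ : RingAut F) {r : ℕ} (hr : orderOf σ = r) (hr0 : 0 < r) (g : GL (Fin n) F) :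
    g ∈ (Phi σ n).range ↔ ∃ c : F, c ≠ 0 ∧ g.1.map σ = c • g.1 := by
  constructor
  · rintro ⟨x, rfl⟩
    refine ⟨σ x.1 * (x.1 : F)⁻¹, mul_ne_zero ((map_ne_zero σ).2 x.1.ne_zero) (inv_ne_zero x.1.ne_zero), ?_⟩
    rw [Phi_val, PSLn.smul_map, map_fix, smul_smul, mul_assoc, inv_mul_cancel₀ x.1.ne_zero, mul_one]
  · rintro ⟨c, hc0, hc⟩
    have h1 : g.1 = c⁻¹ • g.1.map σ := by rw [hc, smul_smul, inv_mul_cancel₀ hc0, one_smul]
    obtain ⟨b, hb0, hb⟩ := PSLn.descent hn σ hr hr0 g h1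
    let M₀ : Matrix (Fin n) (Fin n) (fixF σ) :=
      Matrix.of fun i j => ⟨(b • g.1) i j, (mem_fixF σ _).2 (congrFun (congrFun hb i) j)⟩
    have hM₀ : M₀.map (fixF σ).subtype = b • g.1 := by ext i j; rfl
    have hdet : M₀.det ≠ 0 := by
      intro h0
      have h2 : (M₀.map (fixF σ).subtype).det = 0 := by
        have := RingHom.map_det (fixF σ).subtype M₀
        rw [h0, map_zero] at this
        exact this.symm
      rw [hM₀, det_smul] at h2
      rcases mul_eq_zero.1 h2 with h3 | h3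
      · exact hb0 (pow_eq_zero_iff (by rw [Fintype.card_fin]; omega) |>.1 h3)
      · exact ((Matrix.isUnit_iff_isUnit_det _).1 g.isUnit).ne_zero h3
    refine ⟨((Units.mk0 b hb0)⁻¹, Matrix.GeneralLinearGroup.mkOfDetNeZero M₀ hdet), ?_⟩
    apply Units.ext
    rw [Phi_val]
    change ((Units.mk0 b hb0)⁻¹ : Fˣ).1 • M₀.map (fixF σ).subtype = g.1
    rw [hM₀, smul_smul]
    simp [hb0]

/-- the kernel parametrised by the units of the fixed field -/
noncomputable def kap (σ : RingAut F) (n : ℕ) : (fixF σ)ˣ →* Fˣ × GL (Fin n) (fixF σ) :=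
  MonoidHom.prod ((Units.map ((fixF σ).subtype : fixF σ →* F)).comp
    (MulEquiv.inv (fixF σ)ˣ).toMonoidHom) (MonoidHom.mk' (fun t => PSLn.scl t) (by
      intro a b
      apply Units.ext
      change (PSLn.scl (a * b) : GL (Fin n) (fixF σ)).1 = (PSLn.scl a : GL (Fin n) (fixF σ)).1 *
        (PSLn.scl b : GL (Fin n) (fixF σ)).1
      rw [PSLn.scl_val, PSLn.scl_val, PSLn.scl_val]
      simp only [smul_mul_assoc, one_mul, mul_smul_comm, smul_smul, Units.val_mul, mul_one]
      rw [mul_comm]))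

theorem kap_fst (σ : RingAut F) (t : (fixF σ)ˣ) : (((kap σ n t).1 : Fˣ) : F) = ((t : fixF σ) : F)⁻¹ := by
  change (((t⁻¹ : (fixF σ)ˣ) : fixF σ) : F) = _
  rw [Units.val_inv_eq_inv_val]
  rfl

theorem kap_snd (σ : RingAut F) (t : (fixF σ)ˣ) : (kap σ n t).2.1 = (t : fixF σ) • 1 := PSLn.scl_val t

theorem kap_inj (σ : RingAut F) : Function.Injective (kap σ n) := by
  intro a b h
  have h1 := congrArg (fun x => ((x.1 : Fˣ) : F)) h
  simp only [kap_fst] at h1
  apply Units.ext
  apply Subtype.ext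
  exact inv_injective h1

theorem kap_range (hn : 1 ≤ n) (σ : RingAut F) : (kap σ n).range = (Phi σ n).ker := by
  ext x
  rw [MonoidHom.mem_ker]
  constructor
  · rintro ⟨t, rfl⟩
    apply Units.ext
    rw [Phi_val, kap_fst, kap_snd]
    have ht : ((t : fixF σ) : F) ≠ 0 := fun h => t.ne_zero (Subtype.ext h)
    ext i j
    by_cases hij : i = j
    · subst hij; simp [ht]
    · simp [hij]
  · intro h
    have h1 : (x.1 : F) • x.2.1.map (fixF σ).subtype = 1 := by rw [← Phi_val, h]; rfl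
    let z : Fin n := ⟨0, hn⟩
    have hz : (x.1 : F) * ((x.2.1 z z : fixF σ) : F) = 1 := by
      have := congrFun (congrFun h1 z) z
      simpa using this
    have ht0 : x.2.1 z z ≠ 0 := by
      intro h0
      rw [h0] at hz
      simp at hz
    have hP : x.2.1 = (x.2.1 z z) • 1 := by
      apply PSLn.map_inj (fixF σ).subtype
      have h2 : x.2.1.map (fixF σ).subtype = (x.1 : F)⁻¹ • 1 := by
        rw [← h1, smul_smul, inv_mul_cancel₀ x.1.ne_zero, one_smul]
      rw [h2]
      have h3 : (x.1 : F)⁻¹ = ((x.2.1 z z : fixF σ) : F) := by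
        rw [inv_eq_of_mul_eq_one_right hz]
      rw [h3]
      ext i j
      by_cases hij : i = j
      · subst hij; simp
      · simp [hij]
    refine ⟨Units.mk0 _ ht0, ?_⟩
    apply Prod.ext
    · apply Units.ext
      rw [kap_fst]
      change (((x.2.1 z z : fixF σ) : F))⁻¹ = _
      rw [inv_eq_of_mul_eq_one_left hz]
    · apply Units.ext
      rw [kap_snd]
      exact hP.symm

theorem card_eq [Fintype F] (hn : 1 ≤ n) (σ : RingAut F) {r : ℕ} (hr : orderOf σ = r) (hr0 : 0 < r) :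
    (Nat.card (fixF σ) - 1) * Nat.card {g : GL (Fin n) F // ∃ c : F, c ≠ 0 ∧ g.1.map σ = c • g.1} =
      (Nat.card F - 1) * Nat.card (GL (Fin n) (fixF σ)) := by
  have h1 := (Phi σ n).ker.card_mul_index
  rw [Subgroup.index_ker, ← kap_range hn, Nat.card_prod, Nat.card_units,
    ← Nat.card_congr (MonoidHom.ofInjective (kap_inj (n := n) σ)).toEquiv, Nat.card_units] at h1
  rw [← h1]
  congr 1
  apply Nat.card_congr
  exact (Equiv.subtypeEquivRight (fun g => mem_range_Phi hn σ hr hr0 g)).symm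

end Cfsg.Agent.Lib.Helper4.FixCount
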