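import Mathlib
import Cfsg.Prelude.Def_LieClassical
import Cfsg.Agent.Lib.Helper4.UniMat

namespace Cfsg.Agent.Lib.Helper4.UniSU

open Cfsg.Agent.Lib.Helper4.UniCount Cfsg.Agent.Lib.Helper4.UniFrame Cfsg.Agent.Lib.Helper4.UniMat
open Module Matrix

variable {F : Type*} [Field F] {σ : F →+* F} {n : ℕ}

theorem IsU.det {M : Matrix (Fin n) (Fin n) F} (h : IsU σ M) : σ M.det * M.det = 1 := by
  have := congrArg Matrix.det h
  rw [det_mul, det_transpose, det_one, ← RingHom.mapMatrix_apply, ← RingHom.map_det] at this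
  exact this

theorem isU_diagonal (d : Fin n → F) (h : ∀ i, σ (d i) * d i = 1) : IsU σ (diagonal d) := by
  unfold IsU
  rw [diagonal_map (map_zero σ), diagonal_transpose, diagonal_mul_diagonal]
  simp only [h]
  exact diagonal_one

theorem IsU.mul {M N : Matrix (Fin n) (Fin n) F} (hM : IsU σ M) (hN : IsU σ N) : IsU σ (M * N) := by
  unfold IsU at *
  rw [Matrix.map_mul, transpose_mul, Matrix.mul_assoc, ← Matrix.mul_assoc _ M, hM, Matrix.one_mul, hN]

/-- build an element of `GU`. -/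
def mkGU {q : ℕ} (hσ : ∀ x, σ x = x ^ q) (M : Matrix (Fin n) (Fin n) F) (hU : IsU σ M) : Cfsg.GU n F q :=
  ⟨⟨M, (M.map σ)ᵀ, hU.mul_conj, hU⟩, (mem_GU_iff hσ _).2 hU⟩

/-- build an element of `SU`. -/
def mkSU {q : ℕ} (hσ : ∀ x, σ x = x ^ q) (M : Matrix (Fin n) (Fin n) F) (hU : IsU σ M) (hd : M.det = 1) :
    Cfsg.SU n F q :=
  ⟨⟨M, hd⟩, (mem_SU_iff hσ _).2 hU⟩

/-- the determinant on `GU`. -/
noncomputable def detGU (n : ℕ) (F : Type*) [Field F] (q : ℕ) : Cfsg.GU n F q →* Fˣ :=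
  Matrix.GeneralLinearGroup.det.comp (Cfsg.GU n F q).subtype

theorem detGU_val {q : ℕ} (g : Cfsg.GU n F q) : ((detGU n F q g : Fˣ) : F) = g.1.1.det := rfl

theorem card_norm_ker [Fintype F] {q : ℕ} (hF : Fintype.card F = q ^ 2) :
    Nat.card (powMonoidHom (q + 1) : Fˣ →* Fˣ).ker = q + 1 := by
  classical
  have hq2 := two_le_q hF
  have hcard : Nat.card Fˣ = q ^ 2 - 1 := by
    rw [Nat.card_eq_fintype_card, Fintype.card_units, hF]
  have hfac : q ^ 2 - 1 = (q - 1) * (q + 1) := by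
    obtain ⟨r, rfl⟩ : ∃ r, q = r + 1 := ⟨q - 1, by omega⟩
    simp only [Nat.add_sub_cancel]
    have : (r + 1) ^ 2 = r * (r + 1 + 1) + 1 := by ring
    omega
  rw [IsCyclic.card_powMonoidHom_ker, hcard, hfac]
  exact Nat.gcd_eq_right (Dvd.intro_left _ rfl)

theorem range_detGU {q : ℕ} (hσ : ∀ x, σ x = x ^ q) (hn : 1 ≤ n) :
    (detGU n F q).range = (powMonoidHom (q + 1) : Fˣ →* Fˣ).ker := by
  ext l
  rw [MonoidHom.mem_range, MonoidHom.mem_ker]
  constructor
  · rintro ⟨g, rfl⟩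
    apply Units.ext
    have := IsU.det ((mem_GU_iff hσ g.1).1 g.2)
    rw [hσ, ← pow_succ] at this
    simpa [detGU_val] using this
  · intro hl
    have hl' : (l : F) ^ (q + 1) = 1 := by
      have := congrArg Units.val hl
      simpa using this
    let i0 : Fin n := ⟨0, hn⟩
    refine ⟨mkGU hσ (diagonal (fun i => if i = i0 then (l : F) else 1)) (isU_diagonal _ ?_), ?_⟩
    · intro i
      split_ifs
      · rw [hσ, ← pow_succ, hl']
      · simp
    · apply Units.ext
      rw [detGU_val]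
      show (diagonal (fun i => if i = i0 then (l : F) else 1)).det = l
      rw [det_diagonal, Finset.prod_ite_eq' ]
      simp

/-- the kernel of the determinant on `GU` is `SU`. -/
def kerEquiv {q : ℕ} (hσ : ∀ x, σ x = x ^ q) : (detGU n F q).ker ≃ Cfsg.SU n F q where
  toFun g := mkSU hσ g.1.1.1 ((mem_GU_iff hσ g.1.1).1 g.1.2) (by
    have := congrArg Units.val (MonoidHom.mem_ker.1 g.2)
    rwa [detGU_val] at this)
  invFun s := ⟨mkGU hσ s.1.1 ((mem_SU_iff hσ s.1).1 s.2), by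
    rw [MonoidHom.mem_ker]
    apply Units.ext
    rw [detGU_val]
    exact s.1.2⟩
  left_inv g := by
    apply Subtype.ext
    apply Subtype.ext
    apply Units.ext
    rfl
  right_inv s := rfl

theorem card_GU_eq [Fintype F] {q : ℕ} (hF : Fintype.card F = q ^ 2) (hn : 1 ≤ n) :
    Nat.card (Cfsg.GU n F q) = (q + 1) * Nat.card (Cfsg.SU n F q) := by
  obtain ⟨σ, hσ⟩ := exists_sig hF
  rw [← Subgroup.card_mul_index (detGU n F q).ker, Subgroup.index_ker, range_detGU hσ hn, card_norm_ker hF,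
    Nat.card_congr (kerEquiv hσ), mul_comm]

end Cfsg.Agent.Lib.Helper4.UniSU
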