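import Mathlib
import Cfsg.Prelude.Def_LieClassical
import Cfsg.Agent.Lib.Helper4.UniSU

namespace Cfsg.Agent.Lib.Helper4.UniCenter

open Cfsg.Agent.Lib.Helper4.UniCount Cfsg.Agent.Lib.Helper4.UniFrame Cfsg.Agent.Lib.Helper4.UniMat
open Cfsg.Agent.Lib.Helper4.UniSU
open Module Matrix

variable {F : Type*} [Field F] {σ : F →+* F} {n : ℕ}

theorem isU_perm (π : Equiv.Perm (Fin n)) : IsU σ (π.permMatrix F) := by
  rw [← preserves_iff]
  intro u v
  rw [permMatrix_mulVec, permMatrix_mulVec, stdB_apply, stdB_apply]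
  unfold dotProduct
  exact Equiv.sum_comp π (fun k => (σ ∘ u) k * v k)

theorem exists_lam [Fintype F] {q : ℕ} (hF : Fintype.card F = q ^ 2) :
    ∃ l : F, l ^ (q + 1) = 1 ∧ l ^ 2 ≠ 1 := by
  have hq := two_le_q hF
  obtain ⟨g, hg⟩ := IsCyclic.exists_generator (α := (powMonoidHom (q + 1) : Fˣ →* Fˣ).ker)
  have ho : orderOf g = q + 1 := by
    rw [orderOf_eq_card_of_forall_mem_zpowers hg, card_norm_ker hF]
  refine ⟨((g : Fˣ) : F), ?_, ?_⟩
  · have := congrArg Units.val (MonoidHom.mem_ker.1 g.2)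
    simpa using this
  · intro h
    have h1 : g ^ 2 = 1 := by
      apply Subtype.ext
      apply Units.ext
      simpa using h
    have := Nat.le_of_dvd (by norm_num) (orderOf_dvd_of_pow_eq_one h1)
    omega

theorem central_offdiag [Fintype F] {q : ℕ} (hF : Fintype.card F = q ^ 2) (hσ : ∀ x, σ x = x ^ q)
    (g : Cfsg.SU n F q) (hg : g ∈ Subgroup.center (Cfsg.SU n F q)) (i j : Fin n) (hij : i ≠ j) :
    g.1.1 i j = 0 := by
  obtain ⟨l, hl, hl2⟩ := exists_lam hF
  have hl0 : l ≠ 0 := by
    rintro rfl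
    simp at hl
  let d : Fin n → F := fun k => (if k = i then l else 1) * (if k = j then l⁻¹ else 1)
  have hd : ∀ k, σ (d k) * d k = 1 := by
    intro k
    have h1 : σ l * l = 1 := by rw [hσ, ← pow_succ, hl]
    have h2 : σ l⁻¹ * l⁻¹ = 1 := by rw [map_inv₀, ← mul_inv, h1, inv_one]
    have ha : σ (if k = i then l else 1) * (if k = i then l else 1) = 1 := by
      split_ifs
      · exact h1
      · simp
    have hb : σ (if k = j then l⁻¹ else 1) * (if k = j then l⁻¹ else 1) = 1 := by
      split_ifs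
      · exact h2
      · simp
    simp only [d]
    rw [map_mul, mul_mul_mul_comm, ha, hb, one_mul]
  have hdet : (diagonal d).det = 1 := by
    rw [det_diagonal, Finset.prod_mul_distrib, Finset.prod_ite_eq', Finset.prod_ite_eq']
    simp [hl0]
  have hc := (Subgroup.mem_center_iff.1 hg) (mkSU hσ (diagonal d) (isU_diagonal d hd) hdet)
  have hc' : diagonal d * g.1.1 = g.1.1 * diagonal d := congrArg (fun x => x.1.1) hc
  have := congrFun (congrFun hc' i) j
  rw [diagonal_mul, mul_diagonal] at this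
  have hdi : d i = l := by simp [d, hij]
  have hdj : d j = l⁻¹ := by simp [d, hij.symm]
  rw [hdi, hdj] at this
  by_contra hne
  apply hl2
  have h3 : l = l⁻¹ := by
    apply mul_right_cancel₀ hne
    rw [this, mul_comm]
  rw [sq]
  nth_rewrite 2 [h3]
  exact mul_inv_cancel₀ hl0

theorem central_diag (hσ1 : σ (-1) = -1) {q : ℕ} (hσ : ∀ x, σ x = x ^ q)
    (g : Cfsg.SU n F q) (hg : g ∈ Subgroup.center (Cfsg.SU n F q))
    (hoff : ∀ i j : Fin n, i ≠ j → g.1.1 i j = 0) (i j : Fin n) (hij : i ≠ j) :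
    g.1.1 i i = g.1.1 j j := by
  let d : Fin n → F := fun k => if k = i then -1 else 1
  have hd : ∀ k, σ (d k) * d k = 1 := by
    intro k
    simp only [d]
    split_ifs <;> simp [hσ1]
  let W : Matrix (Fin n) (Fin n) F := (Equiv.swap i j).permMatrix F * diagonal d
  have hWU : IsU σ W := IsU.mul (isU_perm _) (isU_diagonal d hd)
  have hdet : W.det = 1 := by
    rw [det_mul, det_permutation, Equiv.Perm.sign_swap hij, det_diagonal, Finset.prod_ite_eq']
    simp
  have hc := (Subgroup.mem_center_iff.1 hg) (mkSU hσ W hWU hdet)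
  have hc' : W * g.1.1 = g.1.1 * W := congrArg (fun x => x.1.1) hc
  have hgd : g.1.1 = diagonal (fun k => g.1.1 k k) := by
    ext k l
    by_cases h : k = l
    · subst h; simp
    · rw [hoff k l h, diagonal_apply_ne _ h]
  have := congrFun (congrFun hc' i) j
  rw [hgd, diagonal_mul, mul_diagonal] at this
  have hW : W i j = 1 := by
    simp only [W, mul_diagonal, d, hij.symm, if_false, mul_one]
    simp [PEquiv.toMatrix_apply, Equiv.toPEquiv_apply]
  rw [hW, one_mul, mul_one] at this
  exact this.symm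


theorem card_center [Fintype F] {q : ℕ} (hF : Fintype.card F = q ^ 2) (hn : 2 ≤ n) :
    Nat.card (Subgroup.center (Cfsg.SU n F q)) = Nat.gcd n (q + 1) := by
  classical
  obtain ⟨σ, hσ⟩ := exists_sig hF
  have hq2 := two_le_q hF
  have hcard : Nat.card Fˣ = q ^ 2 - 1 := by
    rw [Nat.card_eq_fintype_card, Fintype.card_units, hF]
  have hfac : q ^ 2 - 1 = (q - 1) * (q + 1) := by
    obtain ⟨r, rfl⟩ : ∃ r, q = r + 1 := ⟨q - 1, by omega⟩
    simp only [Nat.add_sub_cancel]
    have : (r + 1) ^ 2 = r * (r + 1 + 1) + 1 := by ring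
    omega
  have hker : Nat.card (powMonoidHom (Nat.gcd n (q + 1)) : Fˣ →* Fˣ).ker = Nat.gcd n (q + 1) := by
    rw [IsCyclic.card_powMonoidHom_ker, hcard, hfac]
    exact Nat.gcd_eq_right (Dvd.dvd.mul_left (Nat.gcd_dvd_right _ _) _)
  rw [← hker]
  symm
  have hpow : ∀ l : (powMonoidHom (Nat.gcd n (q + 1)) : Fˣ →* Fˣ).ker,
      ((l : Fˣ) : F) ^ n = 1 ∧ ((l : Fˣ) : F) ^ (q + 1) = 1 := by
    intro l
    have h : ((l : Fˣ) : F) ^ (Nat.gcd n (q + 1)) = 1 := by
      have := congrArg Units.val (MonoidHom.mem_ker.1 l.2)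
      simpa using this
    exact pow_gcd_eq_one.1 h
  let f : (powMonoidHom (Nat.gcd n (q + 1)) : Fˣ →* Fˣ).ker → Subgroup.center (Cfsg.SU n F q) :=
    fun l => ⟨mkSU hσ (diagonal fun _ => ((l : Fˣ) : F))
      (isU_diagonal _ (fun _ => by rw [hσ, ← pow_succ, (hpow l).2]))
      (by rw [det_diagonal, Finset.prod_const, Finset.card_univ, Fintype.card_fin, (hpow l).1]), by
        rw [Subgroup.mem_center_iff]
        intro h
        apply Subtype.ext
        apply Subtype.ext
        show h.1.1 * (diagonal fun _ => ((l : Fˣ) : F)) = (diagonal fun _ => ((l : Fˣ) : F)) * h.1.1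
        ext a b
        rw [mul_diagonal, diagonal_mul, mul_comm]⟩
  have hf : ∀ l, (f l).1.1.1 = diagonal fun _ => ((l : Fˣ) : F) := fun l => rfl
  let i0 : Fin n := ⟨0, by omega⟩
  apply Nat.card_congr (Equiv.ofBijective f ⟨?_, ?_⟩)
  · intro a b hab
    have := congrFun (congrFun (congrArg (fun x => x.1.1.1) hab) i0) i0
    simp only [hf, diagonal_apply_eq] at this
    exact Subtype.ext (Units.ext this)
  · rintro ⟨g, hg⟩
    have hoff := central_offdiag hF hσ g hg
    have hdiag := central_diag (by rw [map_neg, map_one]) hσ g hg hoff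
    have hgd : g.1.1 = diagonal (fun _ => g.1.1 i0 i0) := by
      ext k l
      by_cases h : k = l
      · subst h
        rw [diagonal_apply_eq]
        by_cases h0 : k = i0
        · rw [h0]
        · exact hdiag k i0 h0
      · rw [hoff k l h, diagonal_apply_ne _ h]
    have hU := (mem_SU_iff hσ g.1).1 g.2
    have h1 : g.1.1 i0 i0 ^ (q + 1) = 1 := by
      unfold IsU at hU
      rw [hgd, diagonal_map (map_zero σ), diagonal_transpose, diagonal_mul_diagonal] at hU
      have := congrFun (congrFun hU i0) i0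
      rw [diagonal_apply_eq, one_apply_eq, hσ, ← pow_succ] at this
      exact this
    have h2 : g.1.1 i0 i0 ^ n = 1 := by
      have := g.1.2
      rw [hgd, det_diagonal, Finset.prod_const, Finset.card_univ, Fintype.card_fin] at this
      exact this
    have h0 : g.1.1 i0 i0 ≠ 0 := by
      intro h
      rw [h] at h1
      simp at h1
    refine ⟨⟨Units.mk0 _ h0, ?_⟩, ?_⟩
    · rw [MonoidHom.mem_ker]
      show (Units.mk0 _ h0) ^ (Nat.gcd n (q + 1)) = 1
      apply pow_gcd_eq_one.2
      constructor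
      · apply Units.ext; simpa using h2
      · apply Units.ext; simpa using h1
    · apply Subtype.ext
      apply Subtype.ext
      apply Subtype.ext
      rw [hf]
      exact hgd.symm

end Cfsg.Agent.Lib.Helper4.UniCenter
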