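import Mathlib
import Cfsg.Prelude.Def_LieClassical
import Cfsg.Agent.Lib.Helper4.UniCenter

namespace Cfsg.Agent.Lib.Helper4.UniScalar

open Cfsg.Agent.Lib.Helper4.UniCount Cfsg.Agent.Lib.Helper4.UniFrame Cfsg.Agent.Lib.Helper4.UniMat
open Cfsg.Agent.Lib.Helper4.UniSU Cfsg.Agent.Lib.Helper4.UniCenter
open Module Matrix

variable {F : Type*} [Field F] {σ : F →+* F} {n : ℕ}

/-- a matrix commuting with all unitary matrices of determinant one is scalar. -/
theorem scalar_of_commute [Fintype F] {q : ℕ} (hF : Fintype.card F = q ^ 2) (hσ : ∀ x, σ x = x ^ q)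
    (M : Matrix (Fin n) (Fin n) F) (hM : ∀ N : Matrix (Fin n) (Fin n) F, IsU σ N → N.det = 1 → N * M = M * N)
    (i0 : Fin n) : M = diagonal (fun _ => M i0 i0) := by
  have hoff : ∀ i j : Fin n, i ≠ j → M i j = 0 := by
    intro i j hij
    obtain ⟨l, hl, hl2⟩ := exists_lam hF
    have hl0 : l ≠ 0 := by
      rintro rfl
      simp at hl
    let d : Fin n → F := fun k => (if k = i then l else 1) * (if k = j then l⁻¹ else 1)
    have hd : ∀ k, σ (d k) * d k = 1 := by
      intro k
      have h1 : σ l * l = 1 := by rw [hσ, ← pow_succ, hl]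
      have h2 : σ l⁻¹ * l⁻¹ = 1 := by rw [map_inv₀, ← mul_inv, h1, inv_one]
      have ha : σ (if k = i then l else 1) * (if k = i then l else 1) = 1 := by
        split_ifs
        · exact h1
        · simp
      have hb : σ (if k = j then l⁻¹ else 1) * (if k = j then l⁻¹ else 1) = 1 := by
        split_ifs
        · exact h2
        · simp
      simp only [d]
      rw [map_mul, mul_mul_mul_comm, ha, hb, one_mul]
    have hdet : (diagonal d).det = 1 := by
      rw [det_diagonal, Finset.prod_mul_distrib, Finset.prod_ite_eq', Finset.prod_ite_eq']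
      simp [hl0]
    have hc' := hM (diagonal d) (isU_diagonal d hd) hdet
    have := congrFun (congrFun hc' i) j
    rw [diagonal_mul, mul_diagonal] at this
    have hdi : d i = l := by simp [d, hij]
    have hdj : d j = l⁻¹ := by simp [d, hij.symm]
    rw [hdi, hdj] at this
    by_contra hne
    apply hl2
    have h3 : l = l⁻¹ := by
      apply mul_right_cancel₀ hne
      rw [this, mul_comm]
    rw [sq]
    nth_rewrite 2 [h3]
    exact mul_inv_cancel₀ hl0
  have hgd : M = diagonal (fun k => M k k) := by
    ext k l
    by_cases h : k = l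
    · subst h; simp
    · rw [hoff k l h, diagonal_apply_ne _ h]
  have hdiag : ∀ i j : Fin n, i ≠ j → M i i = M j j := by
    intro i j hij
    let d : Fin n → F := fun k => if k = i then -1 else 1
    have hd : ∀ k, σ (d k) * d k = 1 := by
      intro k
      simp only [d]
      split_ifs <;> simp
    let W : Matrix (Fin n) (Fin n) F := (Equiv.swap i j).permMatrix F * diagonal d
    have hWU : IsU σ W := IsU.mul (isU_perm _) (isU_diagonal d hd)
    have hdet : W.det = 1 := by
      rw [det_mul, det_permutation, Equiv.Perm.sign_swap hij, det_diagonal, Finset.prod_ite_eq']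
      simp
    have hc' := hM W hWU hdet
    have := congrFun (congrFun hc' i) j
    rw [hgd, diagonal_mul, mul_diagonal] at this
    have hW : W i j = 1 := by
      simp only [W, mul_diagonal, d, hij.symm, if_false, mul_one]
      simp [PEquiv.toMatrix_apply, Equiv.toPEquiv_apply]
    rw [hW, one_mul, mul_one] at this
    exact this.symm
  ext k l
  by_cases h : k = l
  · subst h
    rw [diagonal_apply_eq]
    by_cases h0 : k = i0
    · rw [h0]
    · exact hdiag k i0 h0
  · rw [hoff k l h, diagonal_apply_ne _ h]

end Cfsg.Agent.Lib.Helper4.UniScalar
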