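import Mathlib
import Cfsg.Prelude.Def_ClassicalGeometry
import Cfsg.Agent.Lib.Helper4.UniSU

namespace Cfsg.Agent.Lib.Helper4.UniTrans

open Cfsg.Agent.Lib.Helper4.UniCount Cfsg.Agent.Lib.Helper4.UniFrame Cfsg.Agent.Lib.Helper4.UniMat
open Cfsg.Agent.Lib.Helper4.UniSU
open Module Matrix

variable {F : Type*} [Field F] {σ : F →+* F} {n : ℕ}

theorem trans_mulVec {q : ℕ} (hσ : ∀ x, σ x = x ^ q) (v : Fin n → F) (c : F) (x : Fin n → F) :
    Cfsg.unitaryTransvection n q v c *ᵥ x = x + (c * stdB σ n v x) • v := by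
  unfold Cfsg.unitaryTransvection
  rw [add_mulVec, one_mulVec, smul_mulVec, vecMulVec_mulVec, stdB_apply, op_smul_eq_smul, smul_smul]
  congr 4
  funext j
  exact (hσ _).symm

theorem stdB_trans {q : ℕ} (hσ : ∀ x, σ x = x ^ q) (h2 : ∀ a, σ (σ a) = a) (v : Fin n → F)
    (hv0 : stdB σ n v v = 0) (c : F) (x y : Fin n → F) :
    stdB σ n (Cfsg.unitaryTransvection n q v c *ᵥ x) (Cfsg.unitaryTransvection n q v c *ᵥ y)
      = stdB σ n x y + (σ c + c) * (stdB σ n x v * stdB σ n v y) := by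
  have hS : ∀ x y, σ (stdB σ n x y) = stdB σ n y x := LinearMap.isSymm_def.mp (stdB_isSymm h2)
  rw [trans_mulVec hσ, trans_mulVec hσ]
  simp only [map_add, LinearMap.add_apply, map_smulₛₗ, LinearMap.smul_apply, smul_eq_mul, hv0,
    map_mul, hS, RingHom.id_apply]
  ring


theorem trans_isU_iff {q : ℕ} (hσ : ∀ x, σ x = x ^ q) (h2 : ∀ a, σ (σ a) = a) (v : Fin n → F) (hv : v ≠ 0)
    (hv0 : stdB σ n v v = 0) (c : F) :
    IsU σ (Cfsg.unitaryTransvection n q v c) ↔ σ c + c = 0 := by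
  classical
  rw [← preserves_iff]
  constructor
  · intro h
    obtain ⟨i, hi⟩ : ∃ i, v i ≠ 0 := by
      by_contra hcon
      push Not at hcon
      exact hv (funext hcon)
    have := h (Pi.single i 1) (Pi.single i 1)
    rw [stdB_trans hσ h2 v hv0] at this
    have h3 : stdB σ n (Pi.single i 1) v = v i := by
      rw [stdB_apply, comp_single, single_dotProduct, one_mul]
    have h4 : stdB σ n v (Pi.single i 1) = σ (v i) := by
      rw [stdB_apply, dotProduct_single, mul_one]; rfl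
    rw [h3, h4] at this
    have h5 : (σ c + c) * (v i * σ (v i)) = 0 := by linear_combination this
    exact (mul_eq_zero.1 h5).resolve_right (mul_ne_zero hi ((map_ne_zero σ).2 hi))
  · intro h x y
    rw [stdB_trans hσ h2 v hv0, h, zero_mul, add_zero]

end Cfsg.Agent.Lib.Helper4.UniTrans
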