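import Mathlib
import Cfsg.Prelude.Def_LieTypeDatum
import Cfsg.Prelude.Def_StandardType
import Cfsg.Agent.Lib.Helper4.UniLines
import Cfsg.Agent.Lib.Helper4.UniScalar
import Cfsg.Agent.Lib.Helper4.UniTrans

namespace Cfsg.Agent.Lib.Helper4.PSU

open Cfsg.Agent.Lib.Helper4.UniCount Cfsg.Agent.Lib.Helper4.UniFrame Cfsg.Agent.Lib.Helper4.UniMat
open Cfsg.Agent.Lib.Helper4.UniSU Cfsg.Agent.Lib.Helper4.UniCenter Cfsg.Agent.Lib.Helper4.UniLines
open Matrix

/-- the standing context: `|F| = q^2` and `σ` is the `q`-th power map. -/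
class UC (F : Type*) [Field F] [Fintype F] (q : outParam ℕ) (σ : F →+* F) : Prop where
  hF : Fintype.card F = q ^ 2
  hσ : ∀ x, σ x = x ^ q

variable {F : Type*} [Field F] [Fintype F] {q : ℕ} {σ : F →+* F} [hc : UC F q σ] {n : ℕ}

include hc

local notation "⟪" u ", " v "⟫" => stdB σ _ u v

theorem ss (a : F) : σ (σ a) = a := by
  rw [UC.hσ (σ := σ), UC.hσ (σ := σ), pow_q_q (UC.hF (σ := σ))]

theorem sym (u v : Fin n → F) : σ ⟪u, v⟫ = ⟪v, u⟫ :=
  LinearMap.isSymm_def.mp (stdB_isSymm (ss (σ := σ))) u v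

theorem two_le : 2 ≤ q := two_le_q (UC.hF (σ := σ))

theorem exists_tr (a : F) (ha : σ a = a) : ∃ b, b + σ b = a := by
  obtain ⟨θ, hθ⟩ := exists_trace_one (UC.hF (σ := σ)) (UC.hσ (σ := σ))
  exact ⟨a * θ, by rw [map_mul, ha, ← mul_add, hθ, mul_one]⟩

theorem exists_not_fixed : ∃ x : F, σ x ≠ x := by
  obtain ⟨x, hx⟩ := sig_ne_id (UC.hF (σ := σ))
  exact ⟨x, by rw [UC.hσ (σ := σ)]; exact hx⟩

theorem exists_skew : ∃ a : F, a ≠ 0 ∧ σ a + a = 0 := by
  obtain ⟨x, hx⟩ := exists_not_fixed (σ := σ)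
  exact ⟨x - σ x, sub_ne_zero.2 (Ne.symm hx), by rw [map_sub, ss]; ring⟩

theorem skew_eq (a : F) (ha : σ a + a = 0) : ∃ l, a = σ l - l := by
  obtain ⟨θ, hθ⟩ := exists_trace_one (UC.hF (σ := σ)) (UC.hσ (σ := σ))
  refine ⟨-(a * θ), ?_⟩
  rw [map_neg, map_mul]
  linear_combination (-a) * hθ + σ θ * ha

theorem exists_norm (a : F) (ha : σ a = a) : ∃ ν, σ ν * ν = a := by
  by_cases h0 : a = 0
  · exact ⟨0, by simp [h0]⟩
  have h1 := A_eq_u (UC.hF (σ := σ)) 1 a h0 (by rw [← UC.hσ (σ := σ), ha])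
  have h2 : 0 < A F q 1 a := by
    rw [h1]; unfold u; simp
  unfold A at h2
  obtain ⟨v, hv⟩ := (Nat.card_pos_iff.1 h2).1
  refine ⟨v 0, ?_⟩
  rw [UC.hσ (σ := σ), ← pow_succ]
  simpa using hv

theorem exists_norm_neg_one : ∃ ν : F, σ ν * ν = -1 := exists_norm _ (by simp)

theorem exists_unit2 : ∃ l : F, σ l * l = 1 ∧ l ^ 2 ≠ 1 := by
  obtain ⟨l, h1, h2⟩ := exists_lam (UC.hF (σ := σ))
  exact ⟨l, by rw [UC.hσ (σ := σ), ← pow_succ, h1], h2⟩

theorem exists_unit3 (hq : q ≠ 2) : ∃ l : F, σ l * l = 1 ∧ l ^ 3 ≠ 1 := by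
  have hq2 := two_le (σ := σ)
  obtain ⟨g, hg⟩ := IsCyclic.exists_generator (α := (powMonoidHom (q + 1) : Fˣ →* Fˣ).ker)
  have ho : orderOf g = q + 1 := by
    rw [orderOf_eq_card_of_forall_mem_zpowers hg, card_norm_ker (UC.hF (σ := σ))]
  refine ⟨((g : Fˣ) : F), ?_, ?_⟩
  · have := congrArg Units.val (MonoidHom.mem_ker.1 g.2)
    rw [UC.hσ (σ := σ), ← pow_succ]
    simpa using this
  · intro h
    have h1 : g ^ 3 = 1 := by
      apply Subtype.ext
      apply Units.ext
      simpa using h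
    have := Nat.le_of_dvd (by norm_num) (orderOf_dvd_of_pow_eq_one h1)
    omega

/-- an additive map commuting with many multiplications is linear. -/
theorem lin_of_comm (k : ℕ) (hk : Nat.gcd (q ^ 2 - 1) k * (q - 1) < q ^ 2 - 1)
    (t : F → F) (hadd : ∀ x y, t (x + y) = t x + t y)
    (hcomm : ∀ x s : F, x ≠ 0 → t (x ^ k * s) = x ^ k * t s) : ∀ a s, t (a * s) = a * t s := by
  classical
  have hF := UC.hF (σ := σ)
  have t0 : t 0 = 0 := by
    have := hadd 0 0
    rw [add_zero] at this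
    exact left_eq_add.1 this
  have tneg : ∀ x, t (-x) = - t x := by
    intro x
    have := hadd x (-x)
    rw [add_neg_cancel, t0] at this
    exact (neg_eq_of_add_eq_zero_right this.symm).symm
  let P : F → Prop := fun a => ∀ s, t (a * s) = a * t s
  have Padd : ∀ a b, P a → P b → P (a + b) := by
    intro a b ha hb s
    rw [add_mul, hadd, ha, hb, add_mul]
  have Pneg : ∀ a, P a → P (-a) := by
    intro a ha s
    rw [neg_mul, tneg, ha, neg_mul]
  have Pmul : ∀ a b, P a → P b → P (a * b) := by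
    intro a b ha hb s
    rw [mul_assoc, ha, hb, mul_assoc]
  have Pinv : ∀ a, P a → P a⁻¹ := by
    intro a ha s
    by_cases h0 : a = 0
    · subst h0; simp [t0]
    have := ha (a⁻¹ * s)
    rw [mul_inv_cancel_left₀ h0] at this
    rw [this, inv_mul_cancel_left₀ h0]
  by_contra hcon
  push Not at hcon
  obtain ⟨a₀, ha₀⟩ : ∃ a₀, ¬ P a₀ := by
    obtain ⟨a, s, h⟩ := hcon
    exact ⟨a, fun h' => h (h' s)⟩
  have hinj : Function.Injective (fun p : {a // P a} × {a // P a} => p.1.1 + p.2.1 * a₀) := by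
    rintro ⟨⟨x, hx⟩, ⟨y, hy⟩⟩ ⟨⟨x', hx'⟩, ⟨y', hy'⟩⟩ h
    simp only at h
    by_cases hyy : y = y'
    · subst hyy
      have : x = x' := by linear_combination h
      subst this
      rfl
    · exfalso
      apply ha₀
      have h1 : a₀ = (x' + -x) * (y + -y')⁻¹ := by
        have h2 : y + -y' ≠ 0 := by rwa [← sub_eq_add_neg, sub_ne_zero]
        field_simp
        linear_combination h
      rw [h1]
      exact Pmul _ _ (Padd _ _ hx' (Pneg _ hx)) (Pinv _ (Padd _ _ hy (Pneg _ hy')))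
  have h1 := Nat.card_le_card_of_injective _ hinj
  rw [Nat.card_prod, Nat.card_eq_fintype_card (α := F), hF, ← sq] at h1
  have h2 : Nat.card {a // P a} ≤ q := by
    by_contra hlt
    push Not at hlt
    have := Nat.pow_lt_pow_left hlt (n := 2) (by norm_num)
    omega
  -- lower bound
  let φ : Fˣ →* Fˣ := powMonoidHom k
  have h3 : Nat.card φ.ker * Nat.card φ.range = q ^ 2 - 1 := by
    rw [← Subgroup.index_ker, Subgroup.card_mul_index, Nat.card_eq_fintype_card, Fintype.card_units, hF]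
  have h4 : Nat.card φ.ker = Nat.gcd (q ^ 2 - 1) k := by
    rw [IsCyclic.card_powMonoidHom_ker, Nat.card_eq_fintype_card, Fintype.card_units, hF]
  have h5 : Nat.card (Option φ.range) ≤ Nat.card {a // P a} := by
    apply Nat.card_le_card_of_injective
      (fun o : Option φ.range => (match o with
        | none => (⟨0, fun s => by simp [t0]⟩ : {a // P a})
        | some y => ⟨((y : Fˣ) : F), by
            obtain ⟨x, hx⟩ := y.2
            intro s
            rw [← hx]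
            simpa [φ] using hcomm (x : F) s x.ne_zero⟩))
    intro o o' h
    rcases o with _ | y <;> rcases o' with _ | y'
    · rfl
    · exfalso
      have := congrArg Subtype.val h
      exact (y' : Fˣ).ne_zero this.symm
    · exfalso
      have := congrArg Subtype.val h
      exact (y : Fˣ).ne_zero this
    · have := congrArg Subtype.val h
      congr 1
      exact Subtype.ext (Units.ext this)
  rw [Nat.card_eq_fintype_card, Fintype.card_option, ← Nat.card_eq_fintype_card] at h5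
  rw [h4] at h3
  have hk' : Nat.gcd (q ^ 2 - 1) k * (q - 1) < Nat.gcd (q ^ 2 - 1) k * Nat.card φ.range := by
    rw [h3]; exact hk
  have h6 := Nat.lt_of_mul_lt_mul_left hk'
  omega

theorem gcd_cond1 : Nat.gcd (q ^ 2 - 1) (q - 1) * (q - 1) < q ^ 2 - 1 := by
  have hq := two_le (σ := σ)
  obtain ⟨r, rfl⟩ : ∃ r, q = r + 2 := ⟨q - 2, by omega⟩
  have h1 : (r + 2) ^ 2 - 1 = (r + 1) * (r + 3) := by
    have : (r + 2) ^ 2 = (r + 1) * (r + 3) + 1 := by ring
    omega
  have h2 : r + 2 - 1 = r + 1 := by omega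
  rw [h1, h2, Nat.gcd_eq_right (Dvd.intro _ rfl)]
  nlinarith

theorem gcd_cond3 (hq2 : q ≠ 2) : Nat.gcd (q ^ 2 - 1) (2 * q - 1) * (q - 1) < q ^ 2 - 1 := by
  have hq := two_le (σ := σ)
  obtain ⟨r, rfl⟩ : ∃ r, q = r + 3 := ⟨q - 3, by omega⟩
  have h1 : (r + 3) ^ 2 - 1 = (r + 2) * (r + 4) := by
    have : (r + 3) ^ 2 = (r + 2) * (r + 4) + 1 := by ring
    omega
  have h2 : r + 3 - 1 = r + 2 := by omega
  have h3 : 2 * (r + 3) - 1 = 2 * r + 5 := by omega
  rw [h1, h2, h3]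
  have hd : Nat.gcd ((r + 2) * (r + 4)) (2 * r + 5) ∣ 3 := by
    have e : (2 * r + 5) * (2 * r + 7) = 4 * ((r + 2) * (r + 4)) + 3 := by ring
    have d1 : Nat.gcd ((r + 2) * (r + 4)) (2 * r + 5) ∣ 4 * ((r + 2) * (r + 4)) + 3 := by
      rw [← e]; exact Dvd.dvd.mul_right (Nat.gcd_dvd_right _ _) _
    exact (Nat.dvd_add_right (Dvd.dvd.mul_left (Nat.gcd_dvd_left _ _) _)).1 d1
  have := Nat.le_of_dvd (by norm_num) hd
  nlinarith

/-! ### rank one matrices -/

/-- `R u v x = ⟪v, x⟫ u`. -/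
def R (σ : F →+* F) (u v : Fin n → F) : Matrix (Fin n) (Fin n) F := vecMulVec u (σ ∘ v)

omit [Fintype F] hc in
theorem R_mulVec (u v x : Fin n → F) : R σ u v *ᵥ x = ⟪v, x⟫ • u := by
  unfold R
  rw [vecMulVec_mulVec, stdB_apply, op_smul_eq_smul]

omit [Fintype F] hc in
theorem det_R2 (a b c d : Fin n → F) :
    (1 + R σ a b + R σ c d).det = (1 + ⟪b, a⟫) * (1 + ⟪d, c⟫) - ⟪b, c⟫ * ⟪d, a⟫ := by
  let A : Matrix (Fin n) (Fin 2) F := Matrix.of fun i k => ![a i, c i] k
  let B : Matrix (Fin 2) (Fin n) F := Matrix.of fun k j => ![σ (b j), σ (d j)] k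
  have h1 : R σ a b + R σ c d = A * B := by
    ext i j
    simp [R, A, B, Matrix.mul_apply, vecMulVec_apply, Fin.sum_univ_two]
  rw [add_assoc, h1, det_one_add_mul_comm, det_fin_two]
  simp only [A, B, Matrix.add_apply, Matrix.mul_apply, Matrix.one_apply, stdB_apply, dotProduct]
  simp

omit [Fintype F] hc in
theorem det_R1 (a b : Fin n → F) : (1 + R σ a b).det = 1 + ⟪b, a⟫ := by
  have := det_R2 (σ := σ) a b 0 0
  have h0 : R σ (0 : Fin n → F) 0 = 0 := by
    unfold R; simp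
  rw [h0, add_zero] at this
  rw [this]
  simp

/-! ### elements of `SU` and their action -/

/-- an element of `SU` from a matrix (junk value `1`). -/
noncomputable def mkG (σ : F →+* F) [UC F q σ] (M : Matrix (Fin n) (Fin n) F) : Cfsg.SU n F q := by
  classical
  exact if h : IsU σ M ∧ M.det = 1 then mkSU (UC.hσ (σ := σ)) M h.1 h.2 else 1

theorem mkG_val {M : Matrix (Fin n) (Fin n) F} (hU : IsU σ M) (hd : M.det = 1) : (mkG σ M).1.1 = M := by
  unfold mkG
  rw [dif_pos ⟨hU, hd⟩]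
  rfl

/-- the natural action. -/
def act (g : Cfsg.SU n F q) (x : Fin n → F) : Fin n → F := g.1.1 *ᵥ x

omit [Fintype F] hc in
theorem act_def (g : Cfsg.SU n F q) (x : Fin n → F) : act g x = g.1.1 *ᵥ x := rfl

omit [Fintype F] hc in
theorem act_mul (g h : Cfsg.SU n F q) (x : Fin n → F) : act (g * h) x = act g (act h x) := by
  unfold act
  rw [mulVec_mulVec]
  rfl

omit [Fintype F] hc in
theorem act_one (x : Fin n → F) : act (1 : Cfsg.SU n F q) x = x := by
  unfold act
  exact one_mulVec x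

omit [Fintype F] hc in
theorem act_inv_act (g : Cfsg.SU n F q) (x : Fin n → F) : act g⁻¹ (act g x) = x := by
  rw [← act_mul, inv_mul_cancel, act_one]

omit [Fintype F] hc in
theorem act_act_inv (g : Cfsg.SU n F q) (x : Fin n → F) : act g (act g⁻¹ x) = x := by
  rw [← act_mul, mul_inv_cancel, act_one]

omit [Fintype F] hc in
theorem act_add (g : Cfsg.SU n F q) (x y : Fin n → F) : act g (x + y) = act g x + act g y := mulVec_add _ _ _

omit [Fintype F] hc in
theorem act_smul (g : Cfsg.SU n F q) (a : F) (x : Fin n → F) : act g (a • x) = a • act g x :=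
  mulVec_smul _ _ _

omit [Fintype F] hc in
theorem act_neg (g : Cfsg.SU n F q) (x : Fin n → F) : act g (-x) = - act g x := mulVec_neg _ _

omit [Fintype F] hc in
theorem act_sub (g : Cfsg.SU n F q) (x y : Fin n → F) : act g (x - y) = act g x - act g y := mulVec_sub _ _ _

omit [Fintype F] hc in
theorem act_zero (g : Cfsg.SU n F q) : act g (0 : Fin n → F) = 0 := mulVec_zero _

omit [Fintype F] hc in
theorem act_sum {ι : Type*} (g : Cfsg.SU n F q) (s : Finset ι) (f : ι → Fin n → F) :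
    act g (∑ i ∈ s, f i) = ∑ i ∈ s, act g (f i) := mulVec_sum _ _ _

omit [Fintype F] hc in
theorem act_ext {g h : Cfsg.SU n F q} (H : ∀ x, act g x = act h x) : g = h := by
  apply Subtype.ext
  apply Subtype.ext
  apply Matrix.ext_of_mulVec_single
  intro i
  exact H _

theorem isU_of (g : Cfsg.SU n F q) : IsU σ g.1.1 := (mem_SU_iff (UC.hσ (σ := σ)) g.1).1 g.2

theorem B_act (g : Cfsg.SU n F q) (x y : Fin n → F) : ⟪act g x, act g y⟫ = ⟪x, y⟫ :=
  (preserves_iff _).2 (isU_of g) x y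

theorem B_act_left (g : Cfsg.SU n F q) (x y : Fin n → F) : ⟪act g x, y⟫ = ⟪x, act g⁻¹ y⟫ := by
  rw [← B_act (σ := σ) g x, act_act_inv]

theorem B_act_right (g : Cfsg.SU n F q) (x y : Fin n → F) : ⟪x, act g y⟫ = ⟪act g⁻¹ x, y⟫ := by
  rw [← B_act (σ := σ) g _ y, act_act_inv]

omit [Fintype F] hc in
theorem act_eq_zero (g : Cfsg.SU n F q) {x : Fin n → F} (h : act g x = 0) : x = 0 := by
  rw [← act_inv_act g x, h, act_zero]

omit [Fintype F] hc in
theorem eq_zero_of_B (x : Fin n → F) (h : ∀ y, ⟪y, x⟫ = 0) : x = 0 := (stdB_nondeg (σ := σ)).2 x h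

end Cfsg.Agent.Lib.Helper4.PSU
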