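import Mathlib
import Cfsg.Agent.Lib.Helper4.PSUa

set_option linter.unusedSimpArgs false
set_option linter.unusedSectionVars false

namespace Cfsg.Agent.Lib.Helper4.PSU

open Cfsg.Agent.Lib.Helper4.UniCount Cfsg.Agent.Lib.Helper4.UniFrame Cfsg.Agent.Lib.Helper4.UniMat
open Cfsg.Agent.Lib.Helper4.UniSU Cfsg.Agent.Lib.Helper4.UniCenter Cfsg.Agent.Lib.Helper4.UniLines
open Matrix

variable {F : Type*} [Field F] [Fintype F] {q : ℕ} {σ : F →+* F} [hc : UC F q σ] {n : ℕ}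

include hc

local notation "⟪" u ", " v "⟫" => stdB σ _ u v

theorem act_mkG {M : Matrix (Fin n) (Fin n) F} (hU : IsU σ M) (hd : M.det = 1) (x : Fin n → F) :
    act (mkG σ M) x = M *ᵥ x := by
  rw [act_def, mkG_val hU hd]

theorem B_zero_symm {u v : Fin n → F} (h : ⟪u, v⟫ = 0) : ⟪v, u⟫ = 0 := by
  rw [← sym (σ := σ), h, map_zero]

theorem B_one_symm {u v : Fin n → F} (h : ⟪u, v⟫ = 1) : ⟪v, u⟫ = 1 := by
  rw [← sym (σ := σ), h, map_one]

/-! ### Siegel elements -/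

/-- admissible data for a Siegel element. -/
def Adm (σ : F →+* F) (e w : Fin n → F) (b : F) : Prop :=
  stdB σ n e e = 0 ∧ stdB σ n e w = 0 ∧ b + σ b + stdB σ n w w = 0

/-- the matrix of a Siegel element -/
def sgM (σ : F →+* F) (e w : Fin n → F) (b : F) : Matrix (Fin n) (Fin n) F :=
  1 + R σ (w + b • e) e + R σ (-e) w

omit [Fintype F] hc in
theorem sgM_mulVec (e w : Fin n → F) (b : F) (x : Fin n → F) :
    sgM σ e w b *ᵥ x = x + ⟪e, x⟫ • (w + b • e) - ⟪w, x⟫ • e := by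
  unfold sgM
  rw [add_mulVec, add_mulVec, one_mulVec, R_mulVec, R_mulVec, smul_neg, sub_eq_add_neg]

theorem sgM_isU {e w : Fin n → F} {b : F} (h : Adm σ e w b) : IsU σ (sgM σ e w b) := by
  rw [← preserves_iff]
  intro u v
  obtain ⟨h1, h2, h3⟩ := h
  have h2' := B_zero_symm h2
  rw [sgM_mulVec, sgM_mulVec]
  simp only [map_add, map_sub, map_smul, map_smulₛₗ, LinearMap.add_apply, LinearMap.sub_apply,
    LinearMap.smul_apply, smul_eq_mul, RingHom.id_apply, sym (σ := σ), h1, h2, h2']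
  linear_combination (⟪u, e⟫ * ⟪e, v⟫) * h3

theorem sgM_det {e w : Fin n → F} {b : F} (h : Adm σ e w b) : (sgM σ e w b).det = 1 := by
  obtain ⟨h1, h2, h3⟩ := h
  have h2' := B_zero_symm h2
  unfold sgM
  rw [det_R2]
  simp only [map_add, map_neg, map_smul, h1, h2, h2']
  simp

/-- Siegel elements -/
noncomputable def sg (σ : F →+* F) [UC F q σ] (e w : Fin n → F) (b : F) : Cfsg.SU n F q := mkG σ (sgM σ e w b)

theorem act_sg {e w : Fin n → F} {b : F} (h : Adm σ e w b) (x : Fin n → F) :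
    act (sg σ e w b) x = x + ⟪e, x⟫ • (w + b • e) - ⟪w, x⟫ • e := by
  unfold sg
  rw [act_mkG (sgM_isU h) (sgM_det h), sgM_mulVec]

theorem Adm.mul {e w w' : Fin n → F} {b b' : F} (h : Adm σ e w b) (h' : Adm σ e w' b') :
    Adm σ e (w + w') (b + b' - ⟪w, w'⟫) := by
  obtain ⟨h1, h2, h3⟩ := h
  obtain ⟨-, h2', h3'⟩ := h'
  refine ⟨h1, by rw [map_add, h2, h2', add_zero], ?_⟩
  simp only [map_add, map_sub, LinearMap.add_apply, sym (σ := σ)]
  linear_combination h3 + h3'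

theorem sg_mul {e w w' : Fin n → F} {b b' : F} (h : Adm σ e w b) (h' : Adm σ e w' b') :
    sg σ e w b * sg σ e w' b' = sg σ e (w + w') (b + b' - ⟪w, w'⟫) := by
  apply act_ext
  intro x
  rw [act_mul, act_sg h, act_sg h', act_sg (h.mul h')]
  obtain ⟨h1, h2, h3⟩ := h
  obtain ⟨-, h2', h3'⟩ := h'
  have h4 := B_zero_symm h2
  simp only [map_add, map_sub, map_smul, LinearMap.add_apply, smul_eq_mul, h1, h2, h2', h4]
  module

omit [Fintype F] hc in
theorem Adm.zero {e : Fin n → F} (h : ⟪e, e⟫ = 0) : Adm σ e 0 0 := ⟨h, by simp, by simp⟩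

theorem sg_zero {e : Fin n → F} (h : ⟪e, e⟫ = 0) : sg σ e 0 0 = 1 := by
  apply act_ext
  intro x
  rw [act_sg (Adm.zero h), act_one]
  simp

theorem Adm.inv {e w : Fin n → F} {b : F} (h : Adm σ e w b) : Adm σ e (-w) (σ b) := by
  obtain ⟨h1, h2, h3⟩ := h
  refine ⟨h1, by rw [map_neg, h2, neg_zero], ?_⟩
  simp only [map_neg, LinearMap.neg_apply, ss, neg_neg]
  linear_combination h3

theorem sg_inv {e w : Fin n → F} {b : F} (h : Adm σ e w b) : (sg σ e w b)⁻¹ = sg σ e (-w) (σ b) := by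
  apply inv_eq_of_mul_eq_one_right
  rw [sg_mul h h.inv, ← sg_zero h.1]
  congr 1
  · simp
  · simp only [map_neg]
    linear_combination h.2.2

theorem Adm.act {e w : Fin n → F} {b : F} (h : Adm σ e w b) (g : Cfsg.SU n F q) :
    Adm σ (act g e) (act g w) b := by
  obtain ⟨h1, h2, h3⟩ := h
  exact ⟨by rw [B_act, h1], by rw [B_act, h2], by rw [B_act, h3]⟩

theorem conj_sg {e w : Fin n → F} {b : F} (h : Adm σ e w b) (g : Cfsg.SU n F q) :
    g * sg σ e w b * g⁻¹ = sg σ (act g e) (act g w) b := by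
  apply act_ext
  intro x
  rw [act_mul, act_mul, act_sg h, act_sg (h.act g), act_sub, act_add, act_smul, act_smul, act_add, act_smul,
    act_act_inv, ← B_act_left, ← B_act_left]

theorem Adm.scale {e w : Fin n → F} {b : F} {l : F} (h : Adm σ (l • e) w b) (hl : l ≠ 0) :
    Adm σ e (σ l • w) (σ l * l * b) := by
  obtain ⟨h1, h2, h3⟩ := h
  simp only [map_smul, map_smulₛₗ, LinearMap.smul_apply, smul_eq_mul] at h1 h2
  have hl' : σ l ≠ 0 := (map_ne_zero σ).2 hl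
  have h1' : ⟪e, e⟫ = 0 := by
    rcases mul_eq_zero.1 h1 with h | h
    · exact absurd h hl
    · exact (mul_eq_zero.1 h).resolve_left hl'
  have h2' : ⟪e, w⟫ = 0 := (mul_eq_zero.1 h2).resolve_left hl'
  refine ⟨h1', by rw [map_smul, h2', smul_zero], ?_⟩
  simp only [map_smul, map_smulₛₗ, LinearMap.smul_apply, smul_eq_mul, map_mul, ss]
  linear_combination (σ l * l) * h3

theorem sg_scale {e w : Fin n → F} {b : F} {l : F} (h : Adm σ (l • e) w b) (hl : l ≠ 0) :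
    sg σ (l • e) w b = sg σ e (σ l • w) (σ l * l * b) := by
  apply act_ext
  intro x
  rw [act_sg h, act_sg (h.scale hl)]
  simp only [map_smulₛₗ, LinearMap.smul_apply, smul_eq_mul, ss]
  module

theorem Adm.shift {e w : Fin n → F} {b : F} {a : F} (h : Adm σ e (w + a • e) b) :
    Adm σ e w (b + a - σ a) := by
  obtain ⟨h1, h2, h3⟩ := h
  have h2' : ⟪e, w⟫ = 0 := by
    simpa only [map_add, map_smul, h1, smul_zero, add_zero] using h2
  have h4 := B_zero_symm h2'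
  refine ⟨h1, h2', ?_⟩
  simp only [map_add, map_smul, map_smulₛₗ, LinearMap.add_apply, LinearMap.smul_apply, smul_eq_mul, h1, h2',
    h4] at h3
  simp only [map_add, map_sub, ss]
  linear_combination h3

theorem sg_shift {e w : Fin n → F} {b : F} {a : F} (h : Adm σ e (w + a • e) b) :
    sg σ e (w + a • e) b = sg σ e w (b + a - σ a) := by
  apply act_ext
  intro x
  rw [act_sg h, act_sg h.shift]
  simp only [map_add, map_smulₛₗ, LinearMap.add_apply, LinearMap.smul_apply, smul_eq_mul]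
  module

/-! ### torus matrices -/

/-- hyperbolic rotation: `x ↦ κ x`, `y ↦ κ' y`. -/
def Dm (σ : F →+* F) (x y : Fin n → F) (κ κ' : F) : Matrix (Fin n) (Fin n) F :=
  1 + R σ ((κ - 1) • x) y + R σ ((κ' - 1) • y) x

omit [Fintype F] hc in
theorem Dm_mulVec (x y : Fin n → F) (κ κ' : F) (v : Fin n → F) :
    Dm σ x y κ κ' *ᵥ v = v + (⟪y, v⟫ * (κ - 1)) • x + (⟪x, v⟫ * (κ' - 1)) • y := by
  unfold Dm
  rw [add_mulVec, add_mulVec, one_mulVec, R_mulVec, R_mulVec, smul_smul, smul_smul]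

theorem Dm_isU {x y : Fin n → F} {κ κ' : F} (hx : ⟪x, x⟫ = 0) (hy : ⟪y, y⟫ = 0) (hxy : ⟪x, y⟫ = 1)
    (hκ : σ κ * κ' = 1) : IsU σ (Dm σ x y κ κ') := by
  rw [← preserves_iff]
  intro u v
  have hyx := B_one_symm hxy
  have hκ' : κ * σ κ' = 1 := by
    have := congrArg σ hκ
    rwa [map_mul, ss, map_one] at this
  rw [Dm_mulVec, Dm_mulVec]
  simp only [map_add, map_sub, map_smul, map_smulₛₗ, LinearMap.add_apply, LinearMap.sub_apply,
    LinearMap.smul_apply, smul_eq_mul, RingHom.id_apply, sym (σ := σ), hx, hy, hxy, hyx, map_mul, map_one]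
  linear_combination (⟪u, y⟫ * ⟪x, v⟫) * hκ + (⟪u, x⟫ * ⟪y, v⟫) * hκ'

theorem Dm_det {x y : Fin n → F} {κ κ' : F} (hx : ⟪x, x⟫ = 0) (hy : ⟪y, y⟫ = 0) (hxy : ⟪x, y⟫ = 1) :
    (Dm σ x y κ κ').det = κ * κ' := by
  have hyx := B_one_symm hxy
  unfold Dm
  rw [det_R2]
  simp only [map_smul, hx, hy, hxy, hyx, smul_eq_mul]
  ring

/-- quasi-reflection `w ↦ μ w`. -/
def Rm (σ : F →+* F) (w : Fin n → F) (μ : F) : Matrix (Fin n) (Fin n) F := 1 + R σ ((μ - 1) • w) w

omit [Fintype F] hc in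
theorem Rm_mulVec (w : Fin n → F) (μ : F) (v : Fin n → F) :
    Rm σ w μ *ᵥ v = v + (⟪w, v⟫ * (μ - 1)) • w := by
  unfold Rm
  rw [add_mulVec, one_mulVec, R_mulVec, smul_smul]

theorem Rm_isU {w : Fin n → F} {μ : F} (hw : ⟪w, w⟫ = 1) (hμ : σ μ * μ = 1) : IsU σ (Rm σ w μ) := by
  rw [← preserves_iff]
  intro u v
  rw [Rm_mulVec, Rm_mulVec]
  simp only [map_add, map_sub, map_smul, map_smulₛₗ, LinearMap.add_apply, LinearMap.sub_apply,
    LinearMap.smul_apply, smul_eq_mul, RingHom.id_apply, sym (σ := σ), hw, map_mul, map_one]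
  linear_combination (⟪u, w⟫ * ⟪w, v⟫) * hμ

omit [Fintype F] hc in
theorem Rm_det {w : Fin n → F} {μ : F} (hw : ⟪w, w⟫ = 1) : (Rm σ w μ).det = μ := by
  unfold Rm
  rw [det_R1]
  simp only [map_smul, hw, smul_eq_mul]
  ring

end Cfsg.Agent.Lib.Helper4.PSU
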