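import Mathlib
import Cfsg.Agent.Lib.Helper4.PSUb

set_option linter.unusedSimpArgs false
set_option linter.unusedSectionVars false

namespace Cfsg.Agent.Lib.Helper4.PSU

open Cfsg.Agent.Lib.Helper4.UniCount Cfsg.Agent.Lib.Helper4.UniFrame Cfsg.Agent.Lib.Helper4.UniMat
open Cfsg.Agent.Lib.Helper4.UniSU Cfsg.Agent.Lib.Helper4.UniCenter Cfsg.Agent.Lib.Helper4.UniLines
open Matrix

variable {F : Type*} [Field F] [Fintype F] {q : ℕ} {σ : F →+* F} [hc : UC F q σ] {n m : ℕ}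

include hc

local notation "⟪" u ", " v "⟫" => stdB σ _ u v

/-! ### geometry of the standard hermitian space -/

omit [Fintype F] hc in
theorem B_single_left (i : Fin n) (a : F) (x : Fin n → F) : ⟪Pi.single i a, x⟫ = σ a * x i := by
  classical
  rw [stdB_apply]
  have : σ ∘ (Pi.single i a : Fin n → F) = Pi.single i (σ a) := by
    funext j
    by_cases h : j = i
    · subst h; simp
    · simp [h]
  rw [this, single_dotProduct]

omit [Fintype F] hc in
theorem B_single_right (i : Fin n) (a : F) (x : Fin n → F) : ⟪x, Pi.single i a⟫ = σ (x i) * a := by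
  rw [stdB_apply, dotProduct_single]
  rfl

theorem self_fixed (x : Fin n → F) : σ ⟪x, x⟫ = ⟪x, x⟫ := sym x x

theorem exists_hyp {e : Fin n → F} (he0 : e ≠ 0) (he : ⟪e, e⟫ = 0) : ∃ f, ⟪f, f⟫ = 0 ∧ ⟪e, f⟫ = 1 := by
  obtain ⟨y, hy⟩ : ∃ y, ⟪e, y⟫ ≠ 0 := by
    by_contra hcon
    push Not at hcon
    exact he0 ((stdB_nondeg (σ := σ)).1 e hcon)
  obtain ⟨y', h1⟩ : ∃ y', ⟪e, y'⟫ = 1 :=
    ⟨(⟪e, y⟫)⁻¹ • y, by rw [map_smul, smul_eq_mul, inv_mul_cancel₀ hy]⟩
  have h1' := B_one_symm h1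
  obtain ⟨a, ha⟩ := exists_tr (σ := σ) (-⟪y', y'⟫) (by rw [map_neg, self_fixed])
  refine ⟨y' + a • e, ?_, ?_⟩
  · simp only [map_add, map_smul, map_smulₛₗ, LinearMap.add_apply, LinearMap.smul_apply, smul_eq_mul, he, h1, h1']
    linear_combination ha
  · rw [map_add, map_smul, he, h1]; simp

theorem iso_pair {i j : Fin m} (hij : i ≠ j) {l : F} (hl : σ l * l = -1) :
    ⟪(Pi.single i 1 + Pi.single j l : Fin m → F), Pi.single i 1 + Pi.single j l⟫ = 0 := by
  simp only [map_add, LinearMap.add_apply, B_single_left, Pi.single_apply, hij, hij.symm, if_true, if_false]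
  simp [hl]

theorem exists_iso (hm : 2 ≤ m) : ∃ z : Fin m → F, z ≠ 0 ∧ ⟪z, z⟫ = 0 := by
  obtain ⟨l, hl⟩ := exists_norm_neg_one (σ := σ)
  have hij : (⟨0, by omega⟩ : Fin m) ≠ ⟨1, by omega⟩ := by
    intro h; simpa using congrArg Fin.val h
  refine ⟨_, ?_, iso_pair hij hl⟩
  intro h
  have := congrFun h ⟨0, by omega⟩
  simp [Pi.single_apply] at this

theorem span_iso (hm : 2 ≤ m) (S : Submodule F (Fin m → F)) (h : ∀ z : Fin m → F, ⟪z, z⟫ = 0 → z ∈ S) :
    S = ⊤ := by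
  classical
  obtain ⟨l, hl⟩ := exists_norm_neg_one (σ := σ)
  obtain ⟨k, hk, hk2⟩ := exists_unit2 (σ := σ)
  have hl0 : l ≠ 0 := by
    rintro rfl
    simp at hl
  have hk1 : k ≠ 1 := by
    rintro rfl
    simp at hk2
  have key : ∀ i j : Fin m, i ≠ j → (Pi.single j 1 : Fin m → F) ∈ S := by
    intro i j hij
    have h1 := h _ (iso_pair hij hl)
    have h2 := h _ (iso_pair (l := l * k) hij (by rw [map_mul]; linear_combination (σ k * k) * hl - hk))
    have h3 := S.smul_mem (l * (1 - k))⁻¹ (S.sub_mem h1 h2)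
    have h4 : (l * (1 - k))⁻¹ • ((Pi.single i 1 + Pi.single j l : Fin m → F) - (Pi.single i 1 + Pi.single j (l * k)))
        = Pi.single j 1 := by
      have h5 : l * (1 - k) ≠ 0 := mul_ne_zero hl0 (sub_ne_zero.2 (Ne.symm hk1))
      funext a
      by_cases ha : a = j
      · subst ha
        simp only [Pi.smul_apply, Pi.sub_apply, Pi.add_apply, Pi.single_eq_same, smul_eq_mul]
        field_simp
        ring
      · simp [Pi.single_apply, ha]
    rwa [h4] at h3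
  rw [eq_top_iff]
  intro x _
  rw [pi_eq_sum_univ x]
  apply S.sum_mem
  intro j _
  obtain ⟨i, hij⟩ : ∃ i : Fin m, i ≠ j := by
    by_cases h0 : j = ⟨0, by omega⟩
    · exact ⟨⟨1, by omega⟩, by rw [h0]; intro h; simpa using congrArg Fin.val h⟩
    · exact ⟨⟨0, by omega⟩, Ne.symm h0⟩
  have := S.smul_mem (x j) (key i j hij)
  convert this using 1
  funext a
  simp [Pi.single_apply, eq_comm]

theorem irr (hm : 2 ≤ m) (S : Submodule F (Fin m → F)) (hS0 : S ≠ ⊥)
    (hinv : ∀ (z : Fin m → F) (a : F) (x : Fin m → F), ⟪z, z⟫ = 0 → σ a + a = 0 → x ∈ S →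
      x + (a * ⟪z, x⟫) • z ∈ S) : S = ⊤ := by
  by_contra hne
  obtain ⟨a, ha0, ha⟩ := exists_skew (σ := σ)
  have dich : ∀ z : Fin m → F, ⟪z, z⟫ = 0 → z ∈ S ∨ ∀ x ∈ S, ⟪z, x⟫ = 0 := by
    intro z hz
    by_cases h : ∀ x ∈ S, ⟪z, x⟫ = 0
    · exact Or.inr h
    · left
      push Not at h
      obtain ⟨x, hx, hzx⟩ := h
      have h1 := S.sub_mem (hinv z a x hz ha hx) hx
      rw [add_sub_cancel_left] at h1
      have h2 := S.smul_mem (a * ⟪z, x⟫)⁻¹ h1
      rwa [smul_smul, inv_mul_cancel₀ (mul_ne_zero ha0 hzx), one_smul] at h2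
  obtain ⟨z₂, hz₂, hz₂S⟩ : ∃ z : Fin m → F, ⟪z, z⟫ = 0 ∧ z ∉ S := by
    by_contra hcon
    push Not at hcon
    exact hne (span_iso hm S hcon)
  obtain ⟨z₁, hz₁, x₁, hx₁, hzx₁⟩ : ∃ z : Fin m → F, ⟪z, z⟫ = 0 ∧ ∃ x ∈ S, ⟪z, x⟫ ≠ 0 := by
    by_contra hcon
    push Not at hcon
    apply hS0
    rw [eq_bot_iff]
    intro x hx
    rw [Submodule.mem_bot]
    apply (stdB_nondeg (σ := σ)).1
    intro y
    have h1 : LinearMap.ker (stdB σ m x) = ⊤ := by
      apply span_iso (σ := σ) hm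
      intro z hz
      rw [LinearMap.mem_ker]
      exact B_zero_symm (hcon z hz x hx)
    have : y ∈ LinearMap.ker (stdB σ m x) := by rw [h1]; trivial
    exact LinearMap.mem_ker.1 this
  have h1 : z₁ ∈ S := (dich z₁ hz₁).resolve_right (fun h => hzx₁ (h x₁ hx₁))
  have h2 : ∀ x ∈ S, ⟪z₂, x⟫ = 0 := (dich z₂ hz₂).resolve_left hz₂S
  have h3 : ⟪z₂, z₁⟫ = 0 := h2 z₁ h1
  have h3' := B_zero_symm h3
  have h4 : ⟪z₁ + z₂, z₁ + z₂⟫ = 0 := by
    simp only [map_add, LinearMap.add_apply, hz₁, hz₂, h3, h3', add_zero]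
  rcases dich _ h4 with h5 | h5
  · apply hz₂S
    have := S.sub_mem h5 h1
    rwa [add_sub_cancel_left] at this
  · have := h5 x₁ hx₁
    rw [map_add, LinearMap.add_apply, h2 x₁ hx₁, add_zero] at this
    exact hzx₁ this

/-! ### frames -/

/-- a hyperbolic pair together with an orthonormal basis of its complement. -/
structure Frame (σ : F →+* F) (n m : ℕ) where
  e : Fin n → F
  f : Fin n → F
  w : Fin m → Fin n → F
  ee : stdB σ n e e = 0
  ff : stdB σ n f f = 0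
  ef : stdB σ n e f = 1
  ew : ∀ i, stdB σ n e (w i) = 0
  fw : ∀ i, stdB σ n f (w i) = 0
  ww : ∀ i j, stdB σ n (w i) (w j) = if i = j then 1 else 0
  exp : ∀ x, x = stdB σ n f x • e + stdB σ n e x • f + ∑ i, stdB σ n (w i) x • w i

namespace Frame

variable (A : Frame σ n m)

/-- vectors of the complement from coordinates -/
def wv (c : Fin m → F) : Fin n → F := ∑ i, c i • A.w i

/-- coordinates -/
def co (x : Fin n → F) : Fin m → F := fun i => stdB σ n (A.w i) x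

theorem fe : ⟪A.f, A.e⟫ = 1 := B_one_symm A.ef
theorem we (i : Fin m) : ⟪A.w i, A.e⟫ = 0 := B_zero_symm (A.ew i)
theorem wf (i : Fin m) : ⟪A.w i, A.f⟫ = 0 := B_zero_symm (A.fw i)

omit [Fintype F] hc in
theorem wv_add (c c' : Fin m → F) : A.wv (c + c') = A.wv c + A.wv c' := by
  unfold wv
  simp [add_smul, Finset.sum_add_distrib]

omit [Fintype F] hc in
theorem wv_smul (a : F) (c : Fin m → F) : A.wv (a • c) = a • A.wv c := by
  unfold wv
  simp [Finset.smul_sum, smul_smul]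

omit [Fintype F] hc in
theorem wv_zero : A.wv 0 = 0 := by
  unfold wv
  simp

omit [Fintype F] hc in
theorem wv_neg (c : Fin m → F) : A.wv (-c) = - A.wv c := by
  unfold wv
  simp

omit [Fintype F] hc in
theorem wv_sub (c c' : Fin m → F) : A.wv (c - c') = A.wv c - A.wv c' := by
  rw [sub_eq_add_neg, wv_add, wv_neg, sub_eq_add_neg]

omit [Fintype F] hc in
theorem exp' (x : Fin n → F) : x = ⟪A.f, x⟫ • A.e + ⟪A.e, x⟫ • A.f + A.wv (A.co x) := A.exp x

omit [Fintype F] hc in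
theorem e_wv (c : Fin m → F) : ⟪A.e, A.wv c⟫ = 0 := by
  unfold wv
  simp [A.ew]

omit [Fintype F] hc in
theorem f_wv (c : Fin m → F) : ⟪A.f, A.wv c⟫ = 0 := by
  unfold wv
  simp [A.fw]

theorem wv_e (c : Fin m → F) : ⟪A.wv c, A.e⟫ = 0 := B_zero_symm (A.e_wv c)
theorem wv_f (c : Fin m → F) : ⟪A.wv c, A.f⟫ = 0 := B_zero_symm (A.f_wv c)

omit [Fintype F] hc in
theorem co_wv (c : Fin m → F) : A.co (A.wv c) = c := by
  funext i
  unfold co wv
  simp [A.ww]

omit [Fintype F] hc in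
theorem wv_B (c : Fin m → F) (x : Fin n → F) : ⟪A.wv c, x⟫ = stdB σ m c (A.co x) := by
  unfold wv co
  rw [stdB_apply (σ := σ) (n := m)]
  simp only [map_sum, LinearMap.sum_apply, map_smulₛₗ, LinearMap.smul_apply, smul_eq_mul, dotProduct,
    Function.comp]

theorem B_wv (c : Fin m → F) (x : Fin n → F) : ⟪x, A.wv c⟫ = stdB σ m (A.co x) c := by
  rw [← sym (σ := σ), wv_B, sym (σ := σ)]

omit [Fintype F] hc in
theorem wv_wv (c c' : Fin m → F) : ⟪A.wv c, A.wv c'⟫ = stdB σ m c c' := by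
  rw [wv_B, co_wv]

omit [Fintype F] hc in
theorem wv_inj {c c' : Fin m → F} (h : A.wv c = A.wv c') : c = c' := by
  rw [← A.co_wv c, h, co_wv]

theorem co_e : A.co A.e = 0 := by
  funext i
  exact A.we i

theorem co_f : A.co A.f = 0 := by
  funext i
  exact A.wf i

omit [Fintype F] hc in
theorem co_add (x y : Fin n → F) : A.co (x + y) = A.co x + A.co y := by
  funext i
  simp [co]

omit [Fintype F] hc in
theorem co_smul (a : F) (x : Fin n → F) : A.co (a • x) = a • A.co x := by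
  funext i
  simp [co]

theorem B_exp (x y : Fin n → F) :
    ⟪x, y⟫ = ⟪x, A.f⟫ * ⟪A.e, y⟫ + ⟪x, A.e⟫ * ⟪A.f, y⟫ + stdB σ m (A.co x) (A.co y) := by
  conv_lhs => rw [A.exp' y]
  simp only [map_add, map_smul, smul_eq_mul, B_wv]
  ring

omit [Fintype F] hc in
theorem eq_wv_of {x : Fin n → F} (h1 : ⟪A.e, x⟫ = 0) (h2 : ⟪A.f, x⟫ = 0) : x = A.wv (A.co x) := by
  conv_lhs => rw [A.exp' x, h1, h2]
  simp

omit [Fintype F] hc in
theorem e_ne_zero : A.e ≠ 0 := by
  intro h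
  have := A.ef
  rw [h] at this
  simp at this

omit [Fintype F] hc in
theorem f_ne_zero : A.f ≠ 0 := by
  intro h
  have := A.ef
  rw [h] at this
  simp at this

end Frame

/-- the expansion property follows from the Gram matrix. -/
theorem exp_of_gram (hn : n = m + 2) (e f : Fin n → F) (w : Fin m → Fin n → F)
    (ee : ⟪e, e⟫ = 0) (ff : ⟪f, f⟫ = 0) (ef : ⟪e, f⟫ = 1) (ew : ∀ i, ⟪e, w i⟫ = 0) (fw : ∀ i, ⟪f, w i⟫ = 0)
    (ww : ∀ i j, ⟪w i, w j⟫ = if i = j then 1 else 0) (x : Fin n → F) :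
    x = ⟪f, x⟫ • e + ⟪e, x⟫ • f + ∑ i, ⟪w i, x⟫ • w i := by
  classical
  have fe := B_one_symm ef
  have we : ∀ i, ⟪w i, e⟫ = 0 := fun i => B_zero_symm (ew i)
  have wf : ∀ i, ⟪w i, f⟫ = 0 := fun i => B_zero_symm (fw i)
  let Ψ : (F × F × (Fin m → F)) →ₗ[F] (Fin n → F) :=
    { toFun := fun p => p.1 • e + p.2.1 • f + ∑ i, p.2.2 i • w i
      map_add' := by
        intro p p'
        simp only [Prod.fst_add, Prod.snd_add, Pi.add_apply, add_smul, Finset.sum_add_distrib]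
        abel
      map_smul' := by
        intro a p
        simp only [Prod.smul_fst, Prod.smul_snd, Pi.smul_apply, smul_eq_mul, RingHom.id_apply, smul_add,
          Finset.smul_sum, smul_smul] }
  have hΨ : ∀ p, Ψ p = p.1 • e + p.2.1 • f + ∑ i, p.2.2 i • w i := fun _ => rfl
  have c1 : ∀ p, ⟪f, Ψ p⟫ = p.1 := by
    intro p
    rw [hΨ]
    simp [fe, ff, fw]
  have c2 : ∀ p, ⟪e, Ψ p⟫ = p.2.1 := by
    intro p
    rw [hΨ]
    simp [ee, ef, ew]
  have c3 : ∀ p i, ⟪w i, Ψ p⟫ = p.2.2 i := by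
    intro p i
    rw [hΨ]
    simp [we, wf, ww]
  have hinj : Function.Injective Ψ := by
    intro p p' h
    refine Prod.ext ?_ (Prod.ext ?_ ?_)
    · rw [← c1, h, c1]
    · rw [← c2, h, c2]
    · funext i
      rw [← c3, h, c3]
  have hsurj : Function.Surjective Ψ := by
    apply (LinearMap.injective_iff_surjective_of_finrank_eq_finrank ?_).1 hinj
    simp [hn]
    omega
  obtain ⟨p, rfl⟩ := hsurj x
  rw [c1, c2]
  simp only [c3]
  rfl

/-- build a frame from its Gram matrix -/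
def Frame.ofGram (hn : n = m + 2) (e f : Fin n → F) (w : Fin m → Fin n → F)
    (ee : ⟪e, e⟫ = 0) (ff : ⟪f, f⟫ = 0) (ef : ⟪e, f⟫ = 1) (ew : ∀ i, ⟪e, w i⟫ = 0) (fw : ∀ i, ⟪f, w i⟫ = 0)
    (ww : ∀ i j, ⟪w i, w j⟫ = if i = j then 1 else 0) : Frame σ n m :=
  ⟨e, f, w, ee, ff, ef, ew, fw, ww, exp_of_gram hn e f w ee ff ef ew fw ww⟩

theorem exists_frame (hn : n = m + 2) (e f : Fin n → F) (ee : ⟪e, e⟫ = 0) (ff : ⟪f, f⟫ = 0) (ef : ⟪e, f⟫ = 1) :
    ∃ A : Frame σ n m, A.e = e ∧ A.f = f := by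
  classical
  have fe := B_one_symm ef
  let φ : (Fin n → F) →ₗ[F] F × F := (stdB σ n e).prod (stdB σ n f)
  let W : Submodule F (Fin n → F) := LinearMap.ker φ
  have memW : ∀ x, x ∈ W ↔ ⟪e, x⟫ = 0 ∧ ⟪f, x⟫ = 0 := by
    intro x
    simp [W, φ, LinearMap.mem_ker, Prod.ext_iff]
  have hsurj : Function.Surjective φ := by
    rintro ⟨a, b⟩
    refine ⟨a • f + b • e, ?_⟩
    simp [φ, ee, ff, ef, fe]
  have hrank : Module.finrank F W = m := by
    have := LinearMap.finrank_range_add_finrank_ker φ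
    rw [LinearMap.range_eq_top.2 hsurj, finrank_top] at this
    simp at this
    change 2 + Module.finrank F W = n at this
    omega
  have hS : (stdB σ n).IsSymm := stdB_isSymm (ss (σ := σ))
  have proj : ∀ x, x - ⟪f, x⟫ • e - ⟪e, x⟫ • f ∈ W := by
    intro x
    rw [memW]
    constructor <;> simp [ee, ff, ef, fe]
  have key : ∀ w ∈ W, (∀ w' ∈ W, ⟪w, w'⟫ = 0) → w = 0 := by
    intro w hw h
    apply (stdB_nondeg (σ := σ)).1
    intro x
    have h1 := h _ (proj x)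
    obtain ⟨h2, h3⟩ := (memW w).1 hw
    simp only [map_sub, map_smul, B_zero_symm h2, B_zero_symm h3, smul_zero, sub_zero] at h1
    exact h1
  have hB : ((stdB σ n).domRestrict₁₂ W W).Nondegenerate := by
    constructor
    · intro w hw
      apply Subtype.ext
      exact key w.1 w.2 (fun w' hw' => hw ⟨w', hw'⟩)
    · intro w hw
      apply Subtype.ext
      apply key w.1 w.2
      intro w' hw'
      have := hw ⟨w', hw'⟩
      simp only [LinearMap.domRestrict₁₂_apply] at this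
      exact B_zero_symm this
  have h1 : σ ≠ RingHom.id F := by
    obtain ⟨x, hx⟩ := exists_not_fixed (σ := σ)
    intro h
    apply hx
    rw [h]; rfl
  obtain ⟨b, hb⟩ := Cfsg.Agent.S0755.result σ h1 (ss (σ := σ)) _ (hS.domRestrict W) hB
  let w : Fin m → Fin n → F := fun i => (b (Fin.cast hrank.symm i) : Fin n → F)
  refine ⟨Frame.ofGram hn e f w ee ff ef (fun i => ((memW _).1 (b _).2).1) (fun i => ((memW _).1 (b _).2).2) ?_,
    rfl, rfl⟩
  intro i j
  have := hb (Fin.cast hrank.symm i) (Fin.cast hrank.symm j)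
  simp only [LinearMap.domRestrict₁₂_apply] at this
  rw [this]
  simp [Fin.ext_iff]

end Cfsg.Agent.Lib.Helper4.PSU
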