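import Mathlib
import Cfsg.Agent.Lib.Helper4.PSUc

set_option linter.unusedSimpArgs false
set_option linter.unusedSectionVars false

namespace Cfsg.Agent.Lib.Helper4.PSU

open Cfsg.Agent.Lib.Helper4.UniCount Cfsg.Agent.Lib.Helper4.UniFrame Cfsg.Agent.Lib.Helper4.UniMat
open Cfsg.Agent.Lib.Helper4.UniSU Cfsg.Agent.Lib.Helper4.UniCenter Cfsg.Agent.Lib.Helper4.UniLines
open Matrix

variable {F : Type*} [Field F] [Fintype F] {q : ℕ} {σ : F →+* F} [hc : UC F q σ] {n m : ℕ}

include hc

local notation "⟪" u ", " v "⟫" => stdB σ _ u v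
local notation "G" => Cfsg.SU n F q
local notation "Gb" => Cfsg.PSU n F q

/-! ### the centre -/

theorem center_scalar (g : G) (hg : g ∈ Subgroup.center G) : ∃ c : F, ∀ x, act g x = c • x := by
  classical
  rcases Nat.eq_zero_or_pos n with h0 | h0
  · subst h0
    exact ⟨1, fun x => Subsingleton.elim _ _⟩
  have hoff := central_offdiag (UC.hF (σ := σ)) (UC.hσ (σ := σ)) g hg
  have hdiag := central_diag (σ := σ) (by simp) (UC.hσ (σ := σ)) g hg hoff
  refine ⟨g.1.1 ⟨0, h0⟩ ⟨0, h0⟩, fun x => ?_⟩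
  have : g.1.1 = diagonal (fun _ => g.1.1 ⟨0, h0⟩ ⟨0, h0⟩) := by
    ext i j
    by_cases hij : i = j
    · subst hij
      rw [diagonal_apply_eq]
      by_cases hi : i = ⟨0, h0⟩
      · rw [hi]
      · exact hdiag i _ hi
    · rw [diagonal_apply_ne _ hij, hoff i j hij]
  rw [act_def, this]
  funext i
  rw [mulVec_diagonal]
  rfl

omit [Fintype F] hc in
theorem scalar_center (g : G) (c : F) (h : ∀ x, act g x = c • x) : g ∈ Subgroup.center G := by
  rw [Subgroup.mem_center_iff]
  intro k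
  apply act_ext
  intro x
  rw [act_mul, act_mul, h, h, act_smul]

theorem mk_eq_iff (g h : G) :
    (QuotientGroup.mk g : Gb) = QuotientGroup.mk h ↔ ∃ c : F, ∀ x, act h x = c • act g x := by
  rw [QuotientGroup.eq]
  constructor
  · intro hz
    obtain ⟨c, hc'⟩ := center_scalar (σ := σ) _ hz
    refine ⟨c, fun x => ?_⟩
    have := hc' x
    rw [act_mul] at this
    have h2 := congrArg (act g) this
    rwa [act_act_inv, act_smul] at h2
  · rintro ⟨c, hc'⟩
    apply scalar_center _ c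
    intro x
    rw [act_mul, hc', act_smul, act_inv_act]

omit [Fintype F] hc in
theorem act_pow_scalar (g : G) (c : F) (h : ∀ x, act g x = c • x) (k : ℕ) (x : Fin n → F) :
    act (g ^ k) x = c ^ k • x := by
  induction k with
  | zero => simp [act_one]
  | succ k ih => rw [pow_succ, act_mul, h, act_smul, ih, smul_smul, pow_succ, mul_comm]

variable {p : ℕ} [hp : Fact p.Prime] [hch : CharP F p]

theorem eq_one_of_center (hn : 1 ≤ n) {g : G} (hg : g ∈ Subgroup.center G) {k : ℕ} (hk : g ^ (p ^ k) = 1) :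
    g = 1 := by
  classical
  obtain ⟨c, hc'⟩ := center_scalar (σ := σ) g hg
  have h1 := act_pow_scalar g c hc' (p ^ k) (Pi.single ⟨0, hn⟩ 1)
  rw [hk, act_one] at h1
  have h2 := congrFun h1 ⟨0, hn⟩
  simp only [Pi.single_eq_same, Pi.smul_apply, smul_eq_mul, mul_one] at h2
  have h3 : c = 1 := by
    haveI : ExpChar F p := ExpChar.prime hp.out
    have := (ExpChar.pow_prime_pow_mul_eq_one_iff p k 1 c).1 (by rw [mul_one]; exact h2.symm)
    simpa using this
  apply act_ext
  intro x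
  rw [hc', h3, one_smul, act_one]

theorem eq_of_mk_eq (hn : 1 ≤ n) {g h : G} {k k' : ℕ} (hg : g ^ (p ^ k) = 1) (hh : h ^ (p ^ k') = 1)
    (e : (QuotientGroup.mk g : Gb) = QuotientGroup.mk h) : g = h := by
  have hz : g⁻¹ * h ∈ Subgroup.center G := QuotientGroup.eq.1 e
  have hcomm : Commute g⁻¹ h := by
    have := Subgroup.mem_center_iff.1 hz g
    have h2 : g * g⁻¹ * h = g⁻¹ * h * g := by rw [← this]; group
    rw [mul_inv_cancel, one_mul] at h2
    show g⁻¹ * h = h * g⁻¹
    conv_rhs => rw [h2]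
    group
  have h1 : (g⁻¹ * h) ^ (p ^ (k + k')) = 1 := by
    rw [hcomm.mul_pow, inv_pow, pow_add, pow_mul, hg, one_pow, inv_one, one_mul, mul_comm, pow_mul, hh, one_pow]
  have := eq_one_of_center (σ := σ) (p := p) hn hz h1
  exact (inv_mul_eq_one.1 this)

/-! ### the unipotent radical attached to a frame -/

namespace Frame

variable (A : Frame σ n m)

/-- admissible parameters -/
def adm (_A : Frame σ n m) (c : Fin m → F) (b : F) : Prop := b + σ b + stdB σ m c c = 0

omit [Fintype F] hc hp hch in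
theorem Adm_of {c : Fin m → F} {b : F} (h : A.adm c b) : Adm σ A.e (A.wv c) b :=
  ⟨A.ee, A.e_wv c, by rw [A.wv_wv]; exact h⟩

/-- elements of the unipotent radical -/
noncomputable def u (c : Fin m → F) (b : F) : G := sg σ A.e (A.wv c) b

omit hp hch in
theorem exists_adm (c : Fin m → F) : ∃ b, A.adm c b := by
  obtain ⟨b, hb⟩ := exists_tr (σ := σ) (-stdB σ m c c) (by rw [map_neg, self_fixed])
  exact ⟨b, by unfold adm; rw [hb]; ring⟩

omit hp hch in
theorem act_u {c : Fin m → F} {b : F} (h : A.adm c b) (x : Fin n → F) :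
    act (A.u c b) x = x + ⟪A.e, x⟫ • (A.wv c + b • A.e) - stdB σ m c (A.co x) • A.e := by
  unfold u
  rw [act_sg (A.Adm_of h), A.wv_B]

omit hp hch in
theorem u_e {c : Fin m → F} {b : F} (h : A.adm c b) : act (A.u c b) A.e = A.e := by
  rw [A.act_u h, A.ee, A.co_e]
  simp

omit hp hch in
theorem u_f {c : Fin m → F} {b : F} (h : A.adm c b) : act (A.u c b) A.f = A.f + A.wv c + b • A.e := by
  rw [A.act_u h, A.ef, A.co_f]
  simp [add_assoc]

omit hp hch in
theorem u_wv {c : Fin m → F} {b : F} (h : A.adm c b) (c' : Fin m → F) :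
    act (A.u c b) (A.wv c') = A.wv c' - stdB σ m c c' • A.e := by
  rw [A.act_u h, A.e_wv, A.co_wv]
  simp

omit hp hch in
theorem adm_mul {c c' : Fin m → F} {b b' : F} (h : A.adm c b) (h' : A.adm c' b') :
    A.adm (c + c') (b + b' - stdB σ m c c') := by
  unfold adm at *
  simp only [map_add, map_sub, LinearMap.add_apply, sym (σ := σ)]
  linear_combination h + h'

omit hp hch in
theorem u_mul {c c' : Fin m → F} {b b' : F} (h : A.adm c b) (h' : A.adm c' b') :
    A.u c b * A.u c' b' = A.u (c + c') (b + b' - stdB σ m c c') := by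
  unfold u
  rw [sg_mul (A.Adm_of h) (A.Adm_of h'), A.wv_wv, A.wv_add]

omit hp hch in
theorem adm_zero : A.adm 0 0 := by
  unfold adm; simp

omit hp hch in
theorem u_zero : A.u 0 0 = 1 := by
  unfold u
  rw [A.wv_zero, sg_zero A.ee]

omit hp hch in
theorem adm_inv {c : Fin m → F} {b : F} (h : A.adm c b) : A.adm (-c) (σ b) := by
  unfold adm at *
  simp only [map_neg, LinearMap.neg_apply, ss, neg_neg]
  linear_combination h

omit hp hch in
theorem u_inv {c : Fin m → F} {b : F} (h : A.adm c b) : (A.u c b)⁻¹ = A.u (-c) (σ b) := by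
  unfold u
  rw [sg_inv (A.Adm_of h), A.wv_neg]

omit hp hch in
theorem u_inj {c c' : Fin m → F} {b b' : F} (h : A.adm c b) (h' : A.adm c' b') (e : A.u c b = A.u c' b') :
    c = c' ∧ b = b' := by
  have h1 : act (A.u c b) A.f = act (A.u c' b') A.f := by rw [e]
  rw [A.u_f h, A.u_f h'] at h1
  constructor
  · have := congrArg A.co h1
    simpa only [A.co_add, A.co_smul, A.co_f, A.co_e, A.co_wv, zero_add, smul_zero, add_zero] using this
  · have := congrArg (stdB σ n A.f) h1
    simpa only [map_add, map_smul, A.ff, A.f_wv, A.fe, zero_add, smul_eq_mul, mul_one] using this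

omit hp hch in
theorem u_pow {c : Fin m → F} {b : F} (h : A.adm c b) (k : ℕ) :
    ∃ b', A.adm (k • c) b' ∧ A.u c b ^ k = A.u (k • c) b' := by
  induction k with
  | zero => exact ⟨0, by rw [zero_smul]; exact A.adm_zero, by rw [pow_zero, zero_smul, A.u_zero]⟩
  | succ k ih =>
    obtain ⟨b', h1, h2⟩ := ih
    refine ⟨b' + b - stdB σ m (k • c) c, ?_, ?_⟩
    · rw [succ_nsmul]; exact A.adm_mul h1 h
    · rw [pow_succ, h2, A.u_mul h1 h, ← succ_nsmul]

omit hp hch in
theorem u0_pow {b : F} (h : A.adm 0 b) (k : ℕ) : A.adm 0 (k • b) ∧ A.u 0 b ^ k = A.u 0 (k • b) := by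
  induction k with
  | zero => exact ⟨by rw [zero_smul]; exact A.adm_zero, by rw [pow_zero, zero_smul, A.u_zero]⟩
  | succ k ih =>
    obtain ⟨h1, h2⟩ := ih
    have h3 := A.adm_mul h1 h
    have h4 := A.u_mul h1 h
    simp only [map_zero, LinearMap.zero_apply, sub_zero, add_zero] at h3 h4
    rw [← succ_nsmul] at h3 h4
    exact ⟨h3, by rw [pow_succ, h2, h4]⟩

theorem u_pow_p2 {c : Fin m → F} {b : F} (h : A.adm c b) : A.u c b ^ (p ^ 2) = 1 := by
  obtain ⟨b', h1, h2⟩ := A.u_pow h p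
  have hp0 : (p : ℕ) • c = 0 := by
    funext i
    simp [CharP.cast_eq_zero F p]
  rw [hp0] at h1 h2
  rw [sq, pow_mul, h2, (A.u0_pow h1 p).2]
  have : (p : ℕ) • b' = 0 := by simp [CharP.cast_eq_zero F p]
  rw [this, A.u_zero]

/-- the unipotent radical -/
def Q : Subgroup G where
  carrier := {g | ∃ c b, A.adm c b ∧ g = A.u c b}
  one_mem' := ⟨0, 0, A.adm_zero, A.u_zero.symm⟩
  mul_mem' := by
    rintro _ _ ⟨c, b, h, rfl⟩ ⟨c', b', h', rfl⟩
    exact ⟨_, _, A.adm_mul h h', A.u_mul h h'⟩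
  inv_mem' := by
    rintro _ ⟨c, b, h, rfl⟩
    exact ⟨_, _, A.adm_inv h, A.u_inv h⟩

omit hp hch in
theorem mem_Q {g : G} : g ∈ A.Q ↔ ∃ c b, A.adm c b ∧ g = A.u c b := Iff.rfl

theorem isPGroup_Q : IsPGroup p A.Q := by
  rintro ⟨g, c, b, h, rfl⟩
  refine ⟨2, ?_⟩
  apply Subtype.ext
  exact A.u_pow_p2 h

omit hp hch in
theorem act_eq_of {g h : G} {κ : F} (he : act g A.e = κ • act h A.e) (hf : act g A.f = κ • act h A.f)
    (hw : ∀ c, act g (A.wv c) = κ • act h (A.wv c)) (x : Fin n → F) : act g x = κ • act h x := by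
  rw [A.exp' x]
  simp only [act_add, act_smul, he, hf, hw, smul_add]
  simp only [smul_comm κ]

omit hp hch in
theorem ext_of {g h : G} (he : act g A.e = act h A.e) (hf : act g A.f = act h A.f)
    (hw : ∀ c, act g (A.wv c) = act h (A.wv c)) : g = h := by
  apply act_ext
  intro x
  have := A.act_eq_of (κ := 1) (g := g) (h := h) (by rw [one_smul, he]) (by rw [one_smul, hf])
    (fun c => by rw [one_smul, hw]) x
  rwa [one_smul] at this

omit hp hch in
/-- recognising elements of `Q` up to scalars. -/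
theorem param (hm : 1 ≤ m) {g : G} {κ : F} (hκ : κ ≠ 0) (he : act g A.e = κ • A.e)
    (hw : ∀ c, ∃ a : F, act g (A.wv c) = κ • A.wv c + a • A.e) :
    ∃ c₀ b₀, A.adm c₀ b₀ ∧ ∀ x, act g x = κ • act (A.u c₀ b₀) x := by
  classical
  have hσκ : σ κ ≠ 0 := (map_ne_zero σ).2 hκ
  have hN : σ κ * κ = 1 := by
    obtain ⟨a, ha⟩ := hw (Pi.single ⟨0, hm⟩ 1)
    have h1 := B_act (σ := σ) g (A.wv (Pi.single ⟨0, hm⟩ 1)) (A.wv (Pi.single ⟨0, hm⟩ 1))
    rw [ha] at h1
    simp only [map_add, map_smul, map_smulₛₗ, LinearMap.add_apply, LinearMap.smul_apply, smul_eq_mul,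
      A.wv_wv, A.wv_e, A.e_wv, A.ee, B_single_left, Pi.single_eq_same, map_one] at h1
    linear_combination h1
  set y := κ⁻¹ • act g A.f with hy
  have hgf : act g A.f = κ • y := by rw [hy, smul_smul, mul_inv_cancel₀ hκ, one_smul]
  have h1 : ⟪A.e, y⟫ = 1 := by
    have h2 := B_act (σ := σ) g A.e A.f
    rw [he, hgf, A.ef] at h2
    simp only [map_smul, map_smulₛₗ, LinearMap.smul_apply, smul_eq_mul] at h2
    have : σ κ * κ * ⟪A.e, y⟫ = 1 := by linear_combination h2
    rwa [hN, one_mul] at this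
  have h2 : ⟪y, y⟫ = 0 := by
    have h3 := B_act (σ := σ) g A.f A.f
    rw [hgf, A.ff] at h3
    simp only [map_smul, map_smulₛₗ, LinearMap.smul_apply, smul_eq_mul] at h3
    have : σ κ * κ * ⟪y, y⟫ = 0 := by linear_combination h3
    rwa [hN, one_mul] at this
  have hyexp : y = ⟪A.f, y⟫ • A.e + A.f + A.wv (A.co y) := by
    conv_lhs => rw [A.exp' y, h1, one_smul]
  have hadm : A.adm (A.co y) ⟪A.f, y⟫ := by
    unfold adm
    have := A.B_exp y y
    rw [h2, h1, B_one_symm h1, ← sym (σ := σ) A.f y] at this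
    linear_combination -this
  refine ⟨A.co y, ⟪A.f, y⟫, hadm, ?_⟩
  apply A.act_eq_of
  · rw [he, A.u_e hadm]
  · rw [hgf, A.u_f hadm]
    congr 1
    conv_lhs => rw [hyexp]
    abel
  · intro c
    obtain ⟨a, ha⟩ := hw c
    rw [ha, A.u_wv hadm]
    have h3 := B_act (σ := σ) g A.f (A.wv c)
    rw [hgf, ha, A.f_wv] at h3
    simp only [map_add, map_smul, map_smulₛₗ, LinearMap.add_apply, LinearMap.smul_apply, smul_eq_mul,
      A.B_wv, B_one_symm h1] at h3
    have h4 : κ * stdB σ m (A.co y) c + a = 0 := by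
      have : σ κ * (κ * stdB σ m (A.co y) c + a) = 0 := by linear_combination h3
      exact (mul_eq_zero.1 this).resolve_left hσκ
    have h5 : a = -(κ * stdB σ m (A.co y) c) := by linear_combination h4
    rw [h5]
    module

/-- the action of the parabolic on the radical modulo its centre -/
def rho (l : G) (c : Fin m → F) : Fin m → F := σ ⟪A.f, act l A.e⟫ • A.co (act l (A.wv c))

omit hp hch in
theorem rho_add (l : G) (c c' : Fin m → F) : A.rho l (c + c') = A.rho l c + A.rho l c' := by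
  unfold rho
  rw [A.wv_add, act_add, A.co_add, smul_add]

omit hp hch in
theorem rho_smul (l : G) (a : F) (c : Fin m → F) : A.rho l (a • c) = a • A.rho l c := by
  unfold rho
  rw [A.wv_smul, act_smul, A.co_smul, smul_comm]

omit hp hch in
theorem conj_u {l : G} {κ : F} (hκ : κ ≠ 0) (he : act l A.e = κ • A.e) {c : Fin m → F} {b : F}
    (h : A.adm c b) : ∃ b', A.adm (A.rho l c) b' ∧ l * A.u c b * l⁻¹ = A.u (A.rho l c) b' := by
  have h1 : ⟪A.f, act l A.e⟫ = κ := by rw [he, map_smul, A.fe, smul_eq_mul, mul_one]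
  have h2 : ⟪A.e, act l (A.wv c)⟫ = 0 := by
    have := B_act (σ := σ) l A.e (A.wv c)
    rw [he, A.e_wv, map_smulₛₗ, LinearMap.smul_apply, smul_eq_mul] at this
    exact (mul_eq_zero.1 this).resolve_left ((map_ne_zero σ).2 hκ)
  have h3 : σ κ • act l (A.wv c) = A.wv (A.rho l c) + (σ κ * ⟪A.f, act l (A.wv c)⟫) • A.e := by
    conv_lhs => rw [A.exp' (act l (A.wv c)), h2]
    unfold rho
    rw [h1, A.wv_smul]
    module
  have h4 := (A.Adm_of h).act l
  rw [he] at h4
  have h5 := sg_scale h4 hκ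
  have h6 := h4.scale hκ
  rw [h3] at h5 h6
  refine ⟨_, ?_, by unfold u; rw [conj_sg (A.Adm_of h), he, h5, sg_shift h6]⟩
  have := h6.shift.2.2
  rw [A.wv_wv] at this
  exact this

omit hp hch in
/-- for elements of the Levi factor the conjugation formula is explicit. -/
theorem conj_u_levi {l : G} {κ : F} (hκ : κ ≠ 0) (he : act l A.e = κ • A.e) {κ' : F}
    (hf : act l A.f = κ' • A.f) {c : Fin m → F} {b : F} (h : A.adm c b) :
    A.adm (A.rho l c) (σ κ * κ * b) ∧ l * A.u c b * l⁻¹ = A.u (A.rho l c) (σ κ * κ * b) := by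
  have h1 : ⟪A.f, act l A.e⟫ = κ := by rw [he, map_smul, A.fe, smul_eq_mul, mul_one]
  have h2 : ⟪A.e, act l (A.wv c)⟫ = 0 := by
    have := B_act (σ := σ) l A.e (A.wv c)
    rw [he, A.e_wv, map_smulₛₗ, LinearMap.smul_apply, smul_eq_mul] at this
    exact (mul_eq_zero.1 this).resolve_left ((map_ne_zero σ).2 hκ)
  have hκ' : κ' ≠ 0 := by
    rintro rfl
    rw [zero_smul] at hf
    exact A.f_ne_zero (act_eq_zero l hf)
  have h2' : ⟪A.f, act l (A.wv c)⟫ = 0 := by
    have := B_act (σ := σ) l A.f (A.wv c)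
    rw [hf, A.f_wv, map_smulₛₗ, LinearMap.smul_apply, smul_eq_mul] at this
    exact (mul_eq_zero.1 this).resolve_left ((map_ne_zero σ).2 hκ')
  have h3 : σ κ • act l (A.wv c) = A.wv (A.rho l c) := by
    conv_lhs => rw [A.exp' (act l (A.wv c)), h2, h2']
    unfold rho
    rw [h1, A.wv_smul]
    module
  have h4 := (A.Adm_of h).act l
  rw [he] at h4
  have h5 := sg_scale h4 hκ
  have h6 := h4.scale hκ
  rw [h3] at h5 h6
  constructor
  · have := h6.2.2
    rw [A.wv_wv] at this
    exact this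
  · unfold u
    rw [conj_sg (A.Adm_of h), he, h5]

end Frame

end Cfsg.Agent.Lib.Helper4.PSU
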