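import Mathlib
import Cfsg.Agent.Lib.Helper4.PSUd

set_option linter.unusedSimpArgs false
set_option linter.unusedSectionVars false
set_option linter.style.haveILetI false

namespace Cfsg.Agent.Lib.Helper4.PSU

open Cfsg.Agent.Lib.Helper4.UniCount Cfsg.Agent.Lib.Helper4.UniFrame Cfsg.Agent.Lib.Helper4.UniMat
open Cfsg.Agent.Lib.Helper4.UniSU Cfsg.Agent.Lib.Helper4.UniCenter Cfsg.Agent.Lib.Helper4.UniLines
open Matrix
open scoped Pointwise

variable {F : Type*} [Field F] [Fintype F] {q : ℕ} {σ : F →+* F} [hc : UC F q σ] {n m : ℕ}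

include hc

local notation "⟪" u ", " v "⟫" => stdB σ _ u v
local notation "G" => Cfsg.SU n F q
local notation "Gb" => Cfsg.PSU n F q

/-- nonzero isotropic vectors -/
def Iso (σ : F →+* F) (n : ℕ) := {v : Fin n → F // v ≠ 0 ∧ stdB σ n v v = 0}

/-- the action on isotropic vectors -/
def Iso.mv (g : G) (v : Iso σ n) : Iso σ n :=
  ⟨act g v.1, fun h => v.2.1 (act_eq_zero g h), by rw [B_act]; exact v.2.2⟩

theorem Iso.mv_val (g : G) (v : Iso σ n) : (Iso.mv g v).1 = act g v.1 := rfl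

theorem Iso.mv_mv (g h : G) (v : Iso σ n) : Iso.mv g (Iso.mv h v) = Iso.mv (g * h) v :=
  Subtype.ext (act_mul g h v.1).symm

theorem Iso.mv_one (v : Iso σ n) : Iso.mv (1 : G) v = v := Subtype.ext (act_one v.1)

omit [Fintype F] hc in
theorem Adm_tv {v : Fin n → F} (hv : ⟪v, v⟫ = 0) {b : F} (hb : σ b + b = 0) : Adm σ v 0 b :=
  ⟨hv, by simp, by simp only [map_zero, LinearMap.zero_apply]; linear_combination hb⟩

theorem act_tv {v : Fin n → F} (hv : ⟪v, v⟫ = 0) {b : F} (hb : σ b + b = 0) (x : Fin n → F) :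
    act (sg σ v 0 b) x = x + (b * ⟪v, x⟫) • v := by
  rw [act_sg (Adm_tv hv hb)]
  simp only [map_zero, LinearMap.zero_apply]
  module

theorem tv_mul {v : Fin n → F} (hv : ⟪v, v⟫ = 0) {b b' : F} (hb : σ b + b = 0) (hb' : σ b' + b' = 0) :
    sg σ v 0 b * sg σ v 0 b' = sg σ v 0 (b + b') := by
  rw [sg_mul (Adm_tv hv hb) (Adm_tv hv hb')]
  simp

theorem tv_pow {v : Fin n → F} (hv : ⟪v, v⟫ = 0) {b : F} (hb : σ b + b = 0) (k : ℕ) :
    sg σ v 0 b ^ k = sg σ v 0 (k • b) := by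
  induction k with
  | zero => rw [pow_zero, zero_smul, sg_zero hv]
  | succ k ih =>
    rw [pow_succ, ih, tv_mul hv _ hb, succ_nsmul]
    simp only [nsmul_eq_mul, map_mul, map_natCast]
    linear_combination (k : F) * hb

/-- the transvection group with centre `v`. -/
def X (v : Iso σ n) : Subgroup G where
  carrier := {g | ∃ b, σ b + b = 0 ∧ g = sg σ v.1 0 b}
  one_mem' := ⟨0, by simp, (sg_zero v.2.2).symm⟩
  mul_mem' := by
    rintro _ _ ⟨b, h, rfl⟩ ⟨b', h', rfl⟩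
    exact ⟨b + b', by rw [map_add]; linear_combination h + h', tv_mul v.2.2 h h'⟩
  inv_mem' := by
    rintro _ ⟨b, h, rfl⟩
    refine ⟨σ b, by rw [ss]; linear_combination h, ?_⟩
    rw [sg_inv (Adm_tv v.2.2 h), neg_zero]

theorem mem_X {v : Iso σ n} {g : G} : g ∈ X v ↔ ∃ b, σ b + b = 0 ∧ g = sg σ v.1 0 b := Iff.rfl

/-- its image in `PSU`. -/
def Xb (v : Iso σ n) : Subgroup Gb := (X v).map (QuotientGroup.mk' _)

theorem mem_Xb {v : Iso σ n} {y : Gb} : y ∈ Xb v ↔ ∃ b, σ b + b = 0 ∧ y = QuotientGroup.mk (sg σ v.1 0 b) := by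
  unfold Xb
  rw [Subgroup.mem_map]
  constructor
  · rintro ⟨_, ⟨b, hb, rfl⟩, rfl⟩
    exact ⟨b, hb, rfl⟩
  · rintro ⟨b, hb, rfl⟩
    exact ⟨_, ⟨b, hb, rfl⟩, rfl⟩

theorem conj_mem_X (g : G) (v : Iso σ n) {x : G} (hx : x ∈ X v) : g * x * g⁻¹ ∈ X (Iso.mv g v) := by
  obtain ⟨b, hb, rfl⟩ := hx
  refine ⟨b, hb, ?_⟩
  rw [conj_sg (Adm_tv v.2.2 hb), act_zero]
  rfl

theorem conj_mem_Xb (g : G) (v : Iso σ n) (y : Gb) :
    y ∈ Xb v ↔ QuotientGroup.mk g * y * (QuotientGroup.mk g)⁻¹ ∈ Xb (Iso.mv g v) := by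
  have key : ∀ (g : G) (v : Iso σ n) (y : Gb), y ∈ Xb v →
      QuotientGroup.mk g * y * (QuotientGroup.mk g)⁻¹ ∈ Xb (Iso.mv g v) := by
    rintro g v _ ⟨x, hx, rfl⟩
    exact ⟨_, conj_mem_X g v hx, rfl⟩
  refine ⟨key g v y, fun h => ?_⟩
  have := key g⁻¹ _ _ h
  rw [Iso.mv_mv, inv_mul_cancel, Iso.mv_one] at this
  convert this using 1
  rw [QuotientGroup.mk_inv]
  group

theorem X_smul {v v' : Iso σ n} {c : F} (h : v'.1 = c • v.1) : X v' = X v := by
  have hc0 : c ≠ 0 := by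
    rintro rfl
    rw [zero_smul] at h
    exact v'.2.1 h
  ext g
  rw [mem_X, mem_X]
  have hN : σ (σ c * c) = σ c * c := by rw [map_mul, ss, mul_comm]
  have hN0 : σ c * c ≠ 0 := mul_ne_zero ((map_ne_zero σ).2 hc0) hc0
  have key : ∀ b, σ b + b = 0 → sg σ v'.1 0 b = sg σ v.1 0 (σ c * c * b) := by
    intro b hb
    have h1 := Adm_tv v'.2.2 hb
    rw [h] at h1 ⊢
    rw [sg_scale h1 hc0, smul_zero]
  constructor
  · rintro ⟨b, hb, rfl⟩
    exact ⟨σ c * c * b, by rw [map_mul, hN]; linear_combination (σ c * c) * hb, key b hb⟩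
  · rintro ⟨b, hb, rfl⟩
    have hb' : σ ((σ c * c)⁻¹ * b) + (σ c * c)⁻¹ * b = 0 := by
      rw [map_mul, map_inv₀, hN]; linear_combination (σ c * c)⁻¹ * hb
    exact ⟨(σ c * c)⁻¹ * b, hb', by rw [key _ hb', mul_inv_cancel_left₀ hN0]⟩

theorem Xb_smul {v v' : Iso σ n} {c : F} (h : v'.1 = c • v.1) : Xb v' = Xb v := by
  unfold Xb
  rw [X_smul h]

variable {p : ℕ} [hp : Fact p.Prime] [hch : CharP F p]

include hp hch

theorem tv_pow_p {v : Fin n → F} (hv : ⟪v, v⟫ = 0) {b : F} (hb : σ b + b = 0) : sg σ v 0 b ^ (p ^ 1) = 1 := by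
  rw [pow_one, tv_pow hv hb]
  have : (p : ℕ) • b = 0 := by simp [CharP.cast_eq_zero F p]
  rw [this, sg_zero hv]

theorem par_of_tv_eq (hn : 1 ≤ n) {v v' : Iso σ n} {b b' : F} (hb : σ b + b = 0) (hb' : σ b' + b' = 0) (hb0 : b ≠ 0)
    (h : (QuotientGroup.mk (sg σ v.1 0 b) : Gb) = QuotientGroup.mk (sg σ v'.1 0 b')) :
    ∃ c : F, v.1 = c • v'.1 := by
  have h1 := eq_of_mk_eq (σ := σ) (p := p) hn (tv_pow_p v.2.2 hb) (tv_pow_p v'.2.2 hb') h
  obtain ⟨x, hx⟩ : ∃ x, ⟪v.1, x⟫ ≠ 0 := by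
    by_contra hcon
    push Not at hcon
    exact v.2.1 ((stdB_nondeg (σ := σ)).1 _ hcon)
  have h2 : act (sg σ v.1 0 b) x = act (sg σ v'.1 0 b') x := by rw [h1]
  rw [act_tv v.2.2 hb, act_tv v'.2.2 hb'] at h2
  have h3 := add_left_cancel h2
  refine ⟨(b * ⟪v.1, x⟫)⁻¹ * (b' * ⟪v'.1, x⟫), ?_⟩
  rw [← smul_smul, ← h3, smul_smul, inv_mul_cancel₀ (mul_ne_zero hb0 hx), one_smul]

theorem tv_mk_ne_one (hn : 1 ≤ n) (v : Iso σ n) {b : F} (hb : σ b + b = 0) (hb0 : b ≠ 0) :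
    (QuotientGroup.mk (sg σ v.1 0 b) : Gb) ≠ 1 := by
  intro h
  have h1 := eq_of_mk_eq (σ := σ) (p := p) (k' := 0) hn (tv_pow_p v.2.2 hb) (one_pow _) h
  obtain ⟨x, hx⟩ : ∃ x, ⟪v.1, x⟫ ≠ 0 := by
    by_contra hcon
    push Not at hcon
    exact v.2.1 ((stdB_nondeg (σ := σ)).1 _ hcon)
  have h2 : act (sg σ v.1 0 b) x = act (1 : G) x := by rw [h1]
  rw [act_tv v.2.2 hb, act_one] at h2
  have h3 : (b * ⟪v.1, x⟫) • v.1 = 0 := by simpa using h2
  rcases smul_eq_zero.1 h3 with h | h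
  · exact mul_ne_zero hb0 hx h
  · exact v.2.1 h

/-- equal transvection groups have proportional centres -/
theorem par_of_Xb_le (hn : 1 ≤ n) {v v' : Iso σ n} (h : Xb v ≤ Xb v') : ∃ c : F, v.1 = c • v'.1 := by
  obtain ⟨b, hb0, hb⟩ := exists_skew (σ := σ)
  obtain ⟨b', hb', e⟩ := mem_Xb.1 (h (mem_Xb.2 ⟨b, hb, rfl⟩))
  exact par_of_tv_eq (p := p) hn hb hb' hb0 e

omit hp hch in
theorem commute_of_orth {v w : Iso σ n} (h : ⟪v.1, w.1⟫ = 0) {x y : Gb} (hx : x ∈ Xb v) (hy : y ∈ Xb w) :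
    x * y = y * x := by
  obtain ⟨b, hb, rfl⟩ := mem_Xb.1 hx
  obtain ⟨b', hb', rfl⟩ := mem_Xb.1 hy
  rw [← QuotientGroup.mk_mul, ← QuotientGroup.mk_mul]
  congr 1
  apply act_ext
  intro z
  have h' := B_zero_symm h
  rw [act_mul, act_mul, act_tv v.2.2 hb, act_tv w.2.2 hb', act_tv w.2.2 hb', act_tv v.2.2 hb]
  simp only [map_add, map_smul, h, h', smul_zero, add_zero]
  abel

theorem orth_of_commute (hn : 1 ≤ n) {v w : Iso σ n} (h : ∀ x ∈ Xb v, ∀ y ∈ Xb w, x * y = y * x) :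
    ⟪v.1, w.1⟫ = 0 := by
  by_contra hne
  obtain ⟨b, hb0, hb⟩ := exists_skew (σ := σ)
  have h1 := h _ (mem_Xb.2 ⟨b, hb, rfl⟩) _ (mem_Xb.2 ⟨b, hb, rfl⟩)
  have h2 : (QuotientGroup.mk (sg σ v.1 0 b * sg σ w.1 0 b * (sg σ v.1 0 b)⁻¹) : Gb) =
      QuotientGroup.mk (sg σ w.1 0 b) := by
    rw [QuotientGroup.mk_mul, QuotientGroup.mk_mul, h1, QuotientGroup.mk_inv]
    group
  rw [conj_sg (Adm_tv w.2.2 hb), act_zero] at h2
  obtain ⟨c, hc'⟩ := par_of_tv_eq (p := p) hn (v := Iso.mv (sg σ v.1 0 b) w) (v' := w) hb hb hb0 h2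
  rw [Iso.mv_val, act_tv v.2.2 hb] at hc'
  have h3 : (b * ⟪v.1, w.1⟫) • v.1 = (c - 1) • w.1 := by
    rw [sub_smul, one_smul, ← hc']; abel
  have h4 := congrArg (stdB σ n w.1) h3
  rw [map_smul, map_smul, w.2.2, smul_zero, smul_eq_mul] at h4
  rcases mul_eq_zero.1 h4 with h5 | h5
  · exact mul_ne_zero hb0 hne h5
  · exact hne (B_zero_symm h5)

/-! ### the centre of a Sylow subgroup -/

omit hc [Fintype F] [Field F] hch in
theorem sylow_center_transfer {H : Type*} [Group H] [Finite H] (P : Sylow p H) (β : MulAut H) :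
    ∃ x : H, ∀ y, (y ∈ P ∧ ∀ s ∈ P, s * y = y * s) ↔
      (x * β y * x⁻¹ ∈ P ∧ ∀ s ∈ P, s * (x * β y * x⁻¹) = (x * β y * x⁻¹) * s) := by
  obtain ⟨x, hx⟩ := MulAction.exists_smul_eq H (β • P) P
  have hx' : (MulAut.conj x • (β • (P : Subgroup H)) : Subgroup H) = P := congrArg Sylow.toSubgroup hx
  have hmem : ∀ y : H, x * β y * x⁻¹ ∈ (P : Subgroup H) ↔ y ∈ (P : Subgroup H) := by
    intro y
    have h1 : x * β y * x⁻¹ = MulAut.conj x • (β • y) := rfl
    rw [h1]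
    conv_lhs => rw [← hx']
    rw [Subgroup.smul_mem_pointwise_smul_iff, Subgroup.smul_mem_pointwise_smul_iff]
  let β' : MulAut H := MulAut.conj x * β
  have hβ' : ∀ y, β' y = x * β y * x⁻¹ := fun y => rfl
  refine ⟨x, fun y => ?_⟩
  simp only [← hβ'] at hmem ⊢
  constructor
  · rintro ⟨h1, h2⟩
    refine ⟨(hmem y).2 h1, fun s hs => ?_⟩
    have hs' : β'⁻¹ s ∈ (P : Subgroup H) := by
      rw [← hmem, MulAut.apply_inv_self]; exact hs
    have := congrArg β' (h2 _ hs')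
    rwa [map_mul, map_mul, MulAut.apply_inv_self] at this
  · rintro ⟨h1, h2⟩
    refine ⟨(hmem y).1 h1, fun s hs => ?_⟩
    have := h2 _ ((hmem s).2 hs)
    rw [← map_mul, ← map_mul] at this
    exact β'.injective this

theorem p_dvd_card : p ∣ Fintype.card F := by
  obtain ⟨k, hpp, hk⟩ := FiniteField.card F p
  rw [hk]
  exact dvd_pow_self p k.ne_zero

namespace Frame

variable (A : Frame σ n m)

omit hp hch in
/-- vectors fixed by `Q` are multiples of `e`. -/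
theorem fixed_Q {x : Fin n → F} (h : ∀ g ∈ A.Q, act g x = x) : x = ⟪A.f, x⟫ • A.e := by
  obtain ⟨b, hb0, hb⟩ := exists_skew (σ := σ)
  have hb' : A.adm 0 b := by
    unfold adm; simp only [map_zero, LinearMap.zero_apply]; linear_combination hb
  have h1 := h _ ⟨0, b, hb', rfl⟩
  rw [A.act_u hb'] at h1
  simp only [map_zero, LinearMap.zero_apply, zero_smul, sub_zero, A.wv_zero, zero_add, smul_smul] at h1
  have h2 : ⟪A.e, x⟫ = 0 := by
    have h3 : (⟪A.e, x⟫ * b) • A.e = 0 := by simpa using h1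
    rcases smul_eq_zero.1 h3 with h4 | h4
    · exact (mul_eq_zero.1 h4).resolve_right hb0
    · exact absurd h4 A.e_ne_zero
  have h3 : A.co x = 0 := by
    apply eq_zero_of_B (σ := σ)
    intro c
    obtain ⟨b, hb⟩ := A.exists_adm c
    have h4 := h _ ⟨c, b, hb, rfl⟩
    rw [A.act_u hb, h2, zero_smul, add_zero] at h4
    have h5 : stdB σ m c (A.co x) • A.e = 0 := by simpa using h4
    exact (smul_eq_zero.1 h5).resolve_right A.e_ne_zero
  conv_lhs => rw [A.exp' x, h2, h3, A.wv_zero]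
  simp

theorem fix_e (hn : 1 ≤ n) (U : Subgroup G) (hU : IsPGroup p U) (hQ : A.Q ≤ U) : ∀ g ∈ U, act g A.e = A.e := by
  letI : MulAction G (Fin n → F) :=
    { smul := act
      one_smul := act_one
      mul_smul := act_mul }
  have hsm : ∀ (g : G) (x : Fin n → F), g • x = act g x := fun _ _ => rfl
  have hpα : p ∣ Nat.card (Fin n → F) := by
    rw [Nat.card_eq_fintype_card, Fintype.card_fun, Fintype.card_fin]
    exact (p_dvd_card (σ := σ)).trans (dvd_pow_self _ (by omega))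
  have h0 : (0 : Fin n → F) ∈ MulAction.fixedPoints U (Fin n → F) := by
    intro g
    exact act_zero g.1
  obtain ⟨x, hx, hx0⟩ := hU.exists_fixed_point_of_prime_dvd_card_of_fixed_point _ hpα h0
  have hx' : ∀ g ∈ U, act g x = x := fun g hg => hx ⟨g, hg⟩
  have h1 := A.fixed_Q (fun g hg => hx' g (hQ hg))
  have h2 : ⟪A.f, x⟫ ≠ 0 := by
    intro h
    rw [h, zero_smul] at h1
    exact hx0 h1.symm
  intro g hg
  have h3 := hx' g hg
  rw [h1, act_smul] at h3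
  exact smul_right_injective _ h2 h3

theorem center_sylow (hn : 1 ≤ n) (hm : 1 ≤ m) (U : Subgroup G) (hU : IsPGroup p U) (hQ : A.Q ≤ U) (g : G) :
    (g ∈ U ∧ ∀ s ∈ U, s * g = g * s) ↔ ∃ b, A.adm 0 b ∧ g = A.u 0 b := by
  have hfix := A.fix_e hn U hU hQ
  constructor
  · rintro ⟨hg, hcomm⟩
    have he := hfix g hg
    have hw : ∀ c, ∃ a : F, act g (A.wv c) = (1 : F) • A.wv c + a • A.e := by
      intro c
      obtain ⟨b, hb⟩ := A.exists_adm c
      obtain ⟨b', hb', h1⟩ := A.conj_u (l := g) (κ := 1) one_ne_zero (by rw [he, one_smul]) hb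
      have h2 : g * A.u c b * g⁻¹ = A.u c b := by
        rw [← hcomm _ (hQ ⟨c, b, hb, rfl⟩)]; group
      rw [h2] at h1
      have h3 := (A.u_inj hb hb' h1).1
      have h4 : A.co (act g (A.wv c)) = c := by
        conv_rhs => rw [h3]
        unfold rho
        rw [he, A.fe, map_one, one_smul]
      have h5 : ⟪A.e, act g (A.wv c)⟫ = 0 := by
        have := B_act (σ := σ) g A.e (A.wv c)
        rwa [he, A.e_wv] at this
      refine ⟨⟪A.f, act g (A.wv c)⟫, ?_⟩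
      conv_lhs => rw [A.exp' (act g (A.wv c)), h5, h4]
      module
    obtain ⟨c₀, b₀, h0, h1⟩ := A.param hm (g := g) (κ := 1) one_ne_zero (by rw [he, one_smul]) hw
    have hg' : g = A.u c₀ b₀ := by
      apply act_ext
      intro x
      rw [h1, one_smul]
    have hc0 : c₀ = 0 := by
      apply (stdB_nondeg (σ := σ)).1
      intro c
      obtain ⟨l, hl⟩ := exists_not_fixed (σ := σ)
      have key : ∀ c, stdB σ m c₀ c = stdB σ m c c₀ := by
        intro c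
        obtain ⟨b, hb⟩ := A.exists_adm c
        have h2 := hcomm _ (hQ ⟨c, b, hb, rfl⟩)
        rw [hg', A.u_mul hb h0, A.u_mul h0 hb] at h2
        have h3 := (A.u_inj (A.adm_mul hb h0) (A.adm_mul h0 hb) h2).2
        linear_combination h3
      have h2 := key (l • c)
      rw [map_smul, map_smulₛₗ, LinearMap.smul_apply, ← key c, smul_eq_mul, smul_eq_mul] at h2
      have h3 : (l - σ l) * stdB σ m c₀ c = 0 := by linear_combination h2
      exact (mul_eq_zero.1 h3).resolve_left (sub_ne_zero.2 (Ne.symm hl))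
    subst hc0
    exact ⟨b₀, h0, hg'⟩
  · rintro ⟨b, hb, rfl⟩
    refine ⟨hQ ⟨0, b, hb, rfl⟩, fun s hs => ?_⟩
    have h1 : s * A.u 0 b * s⁻¹ = A.u 0 b := by
      unfold u
      rw [conj_sg (A.Adm_of hb), hfix s hs, A.wv_zero, act_zero]
    have := congrArg (· * s) h1
    simpa using this

end Frame

end Cfsg.Agent.Lib.Helper4.PSU
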