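import Mathlib
import Cfsg.Agent.Lib.Helper4.PSUe

set_option linter.unusedSimpArgs false
set_option linter.unusedSectionVars false
set_option linter.style.haveILetI false

namespace Cfsg.Agent.Lib.Helper4.PSU

open Cfsg.Agent.Lib.Helper4.UniCount Cfsg.Agent.Lib.Helper4.UniFrame Cfsg.Agent.Lib.Helper4.UniMat
open Cfsg.Agent.Lib.Helper4.UniSU Cfsg.Agent.Lib.Helper4.UniCenter Cfsg.Agent.Lib.Helper4.UniLines
open Matrix
open scoped Pointwise

variable {F : Type*} [Field F] [Fintype F] {q : ℕ} {σ : F →+* F} [hc : UC F q σ] {n m : ℕ}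
variable {p : ℕ} [hp : Fact p.Prime] [hch : CharP F p]

include hc hp hch

local notation "⟪" u ", " v "⟫" => stdB σ _ u v
local notation "G" => Cfsg.SU n F q
local notation "Gb" => Cfsg.PSU n F q

omit hp hch in
theorem adm0_iff (A : Frame σ n m) (b : F) : A.adm 0 b ↔ σ b + b = 0 := by
  unfold Frame.adm
  simp only [map_zero, LinearMap.zero_apply, add_zero]
  rw [add_comm]

omit hp hch in
theorem u0_eq (A : Frame σ n m) (b : F) : A.u 0 b = sg σ A.e 0 b := by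
  unfold Frame.u
  rw [A.wv_zero]

/-- automorphisms permute the transvection groups. -/
theorem T1 (hn : n = m + 2) (hm : 1 ≤ m) (β : MulAut Gb) (v : Iso σ n) :
    ∃ v' : Iso σ n, ∀ y, y ∈ Xb v ↔ β y ∈ Xb v' := by
  classical
  obtain ⟨f, hf, hef⟩ := exists_hyp v.2.1 v.2.2
  obtain ⟨A, hAe, -⟩ := exists_frame hn v.1 f v.2.2 hf hef
  obtain ⟨U, hU⟩ := (A.isPGroup_Q (p := p)).exists_le_sylow
  have hsurj : Function.Surjective (QuotientGroup.mk' (Subgroup.center G)) := QuotientGroup.mk'_surjective _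
  let P : Sylow p Gb := U.mapSurjective hsurj
  have hpow : ∀ x ∈ U, ∃ k, x ^ (p ^ k) = 1 := by
    intro x hx
    obtain ⟨k, hk⟩ := U.2 ⟨x, hx⟩
    exact ⟨k, congrArg Subtype.val hk⟩
  have key : ∀ y : Gb, (y ∈ P ∧ ∀ s ∈ P, s * y = y * s) ↔ y ∈ Xb v := by
    intro y
    constructor
    · rintro ⟨⟨g, hg, rfl⟩, hcomm⟩
      have h1 : ∀ s ∈ U, s * g = g * s := by
        intro s hs
        obtain ⟨k, hk⟩ := hpow _ (U.mul_mem hs hg)
        obtain ⟨k', hk'⟩ := hpow _ (U.mul_mem hg hs)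
        exact eq_of_mk_eq (σ := σ) (p := p) (by omega) hk hk' (hcomm _ ⟨s, hs, rfl⟩)
      obtain ⟨b, hb, rfl⟩ := (A.center_sylow (p := p) (by omega) hm U U.2 hU g).1 ⟨hg, h1⟩
      refine mem_Xb.2 ⟨b, (adm0_iff A b).1 hb, ?_⟩
      rw [u0_eq, hAe]
      rfl
    · intro hy
      obtain ⟨b, hb, rfl⟩ := mem_Xb.1 hy
      have h1 := (A.center_sylow (p := p) (by omega) hm U U.2 hU (A.u 0 b)).2 ⟨b, (adm0_iff A b).2 hb, rfl⟩
      rw [u0_eq, hAe] at h1
      refine ⟨⟨_, h1.1, rfl⟩, ?_⟩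
      rintro _ ⟨s, hs, rfl⟩
      exact congrArg (QuotientGroup.mk' (Subgroup.center G)) (h1.2 s hs)
  obtain ⟨x, hx⟩ := sylow_center_transfer P β
  obtain ⟨g, rfl⟩ := QuotientGroup.mk_surjective x
  refine ⟨Iso.mv g⁻¹ v, fun y => ?_⟩
  rw [← key, hx, key, conj_mem_Xb g⁻¹ v]
  have : (QuotientGroup.mk g⁻¹ : Gb) * (QuotientGroup.mk g * β y * (QuotientGroup.mk g)⁻¹) *
      (QuotientGroup.mk g⁻¹ : Gb)⁻¹ = β y := by
    rw [QuotientGroup.mk_inv]; group
  rw [this]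

theorem par_of_normalizes (hn : 1 ≤ n) (l : G) (v : Iso σ n)
    (h : ∀ y, y ∈ Xb v → QuotientGroup.mk l * y * (QuotientGroup.mk l)⁻¹ ∈ Xb v) :
    ∃ κ : F, act l v.1 = κ • v.1 := by
  have h1 : Xb (Iso.mv l v) ≤ Xb v := by
    intro z hz
    have h2 : (QuotientGroup.mk l : Gb)⁻¹ * z * QuotientGroup.mk l ∈ Xb v := by
      rw [conj_mem_Xb l v]
      convert hz using 1
      group
    have := h _ h2
    convert this using 1
    group
  exact par_of_Xb_le (p := p) hn h1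

namespace Frame

variable (A : Frame σ n m)

/-- `e` as an isotropic vector -/
def eI : Iso σ n := ⟨A.e, A.e_ne_zero, A.ee⟩
/-- `f` as an isotropic vector -/
def fI : Iso σ n := ⟨A.f, A.f_ne_zero, A.ff⟩

/-- image of the unipotent radical -/
def Qb : Subgroup Gb := A.Q.map (QuotientGroup.mk' _)

omit hp hch in
theorem mem_Qb {y : Gb} : y ∈ A.Qb ↔ ∃ c b, A.adm c b ∧ y = QuotientGroup.mk (A.u c b) := by
  unfold Qb
  rw [Subgroup.mem_map]
  constructor
  · rintro ⟨_, ⟨c, b, hb, rfl⟩, rfl⟩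
    exact ⟨c, b, hb, rfl⟩
  · rintro ⟨c, b, hb, rfl⟩
    exact ⟨_, ⟨c, b, hb, rfl⟩, rfl⟩

theorem mk_u_inj (hn : 1 ≤ n) {c c' : Fin m → F} {b b' : F} (h : A.adm c b) (h' : A.adm c' b')
    (e : (QuotientGroup.mk (A.u c b) : Gb) = QuotientGroup.mk (A.u c' b')) : c = c' ∧ b = b' :=
  A.u_inj h h' (eq_of_mk_eq (σ := σ) (p := p) hn (A.u_pow_p2 h) (A.u_pow_p2 h') e)

/-- the stabiliser of the point `e`. -/
def InP (l : G) : Prop := ∃ κ : F, act l A.e = κ • A.e

omit hp hch in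
theorem InP.ne_zero {l : G} {κ : F} (h : act l A.e = κ • A.e) : κ ≠ 0 := by
  rintro rfl
  rw [zero_smul] at h
  exact A.e_ne_zero (act_eq_zero l h)

omit hp hch in
theorem InP.mul {l l' : G} (h : A.InP l) (h' : A.InP l') : A.InP (l * l') := by
  obtain ⟨κ, h⟩ := h
  obtain ⟨κ', h'⟩ := h'
  exact ⟨κ' * κ, by rw [act_mul, h', act_smul, h, smul_smul]⟩

omit hp hch in
theorem InP.inv {l : G} (h : A.InP l) : A.InP l⁻¹ := by
  obtain ⟨κ, h⟩ := h
  have hκ := InP.ne_zero A h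
  refine ⟨κ⁻¹, ?_⟩
  have := congrArg (act l⁻¹) h
  rw [act_inv_act, act_smul] at this
  conv_rhs => rw [this]
  rw [smul_smul, inv_mul_cancel₀ hκ, one_smul]

omit hp hch in
theorem InP.one : A.InP (1 : G) := ⟨1, by rw [act_one, one_smul]⟩

/-- normalising the transvection group of `e`. -/
def InN (y : Gb) : Prop := ∀ z, z ∈ Xb A.eI ↔ y * z * y⁻¹ ∈ Xb A.eI

theorem InN_iff (hn : 1 ≤ n) (l : G) : A.InN (QuotientGroup.mk l) ↔ A.InP l := by
  constructor
  · intro h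
    exact par_of_normalizes (p := p) hn l A.eI (fun y hy => (h y).1 hy)
  · rintro ⟨κ, hκ⟩ z
    rw [conj_mem_Xb l A.eI z, Xb_smul (v := A.eI) (v' := Iso.mv l A.eI) (c := κ) hκ]

omit hp hch in
theorem InN_map (β : MulAut Gb) (hβ : ∀ y, y ∈ Xb A.eI ↔ β y ∈ Xb A.eI) (y : Gb) :
    A.InN y ↔ A.InN (β y) := by
  unfold InN
  constructor
  · intro h z
    have h1 := h (β⁻¹ z)
    rw [hβ, hβ (y * _ * _), MulAut.apply_inv_self, map_mul, map_mul, MulAut.apply_inv_self, map_inv] at h1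
    exact h1
  · intro h z
    have h1 := h (β z)
    rw [← map_inv, ← map_mul, ← map_mul, ← hβ, ← hβ] at h1
    exact h1

omit hp hch in
theorem rho_spec {l : G} (hl : A.InP l) {c : Fin m → F} {b : F} (h : A.adm c b) :
    ∃ b', A.adm (A.rho l c) b' ∧
      (QuotientGroup.mk l : Gb) * QuotientGroup.mk (A.u c b) * (QuotientGroup.mk l)⁻¹ =
        QuotientGroup.mk (A.u (A.rho l c) b') := by
  obtain ⟨κ, hκ⟩ := hl
  obtain ⟨b', h1, h2⟩ := A.conj_u (InP.ne_zero A hκ) hκ h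
  exact ⟨b', h1, by rw [← h2]; rfl⟩

theorem rho_unique (hn : 1 ≤ n) {l : G} (hl : A.InP l) {c c' : Fin m → F} {b b' : F} (h : A.adm c b)
    (h' : A.adm c' b')
    (e : (QuotientGroup.mk l : Gb) * QuotientGroup.mk (A.u c b) * (QuotientGroup.mk l)⁻¹ =
        QuotientGroup.mk (A.u c' b')) : c' = A.rho l c := by
  obtain ⟨b'', h1, h2⟩ := A.rho_spec hl h
  rw [e] at h2
  exact (A.mk_u_inj (p := p) hn h' h1 h2).1

theorem rho_congr (hn : 1 ≤ n) {l l' : G} (hl : A.InP l) (hl' : A.InP l')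
    (e : (QuotientGroup.mk l : Gb) = QuotientGroup.mk l') (c : Fin m → F) : A.rho l c = A.rho l' c := by
  obtain ⟨b, hb⟩ := A.exists_adm c
  obtain ⟨b', h1, h2⟩ := A.rho_spec hl hb
  rw [e] at h2
  exact A.rho_unique (p := p) hn hl' hb h1 h2

theorem rho_mul (hn : 1 ≤ n) {l l' : G} (hl : A.InP l) (hl' : A.InP l') (c : Fin m → F) :
    A.rho (l * l') c = A.rho l (A.rho l' c) := by
  obtain ⟨b, hb⟩ := A.exists_adm c
  obtain ⟨b', h1, h2⟩ := A.rho_spec hl' hb
  obtain ⟨b'', h3, h4⟩ := A.rho_spec hl h1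
  symm
  apply A.rho_unique (p := p) hn (hl.mul A hl') hb h3
  rw [← h4, ← h2, QuotientGroup.mk_mul]
  group

omit hp hch in
theorem rho_one (c : Fin m → F) : A.rho (1 : G) c = c := by
  unfold rho
  rw [act_one, act_one, A.fe, map_one, one_smul, A.co_wv]

omit hp hch in
theorem rho_tv {z : Fin m → F} (hz : stdB σ m z z = 0) {a : F} (ha : σ a + a = 0) (c : Fin m → F) :
    A.InP (sg σ (A.wv z) 0 a) ∧ A.rho (sg σ (A.wv z) 0 a) c = c + (a * stdB σ m z c) • z := by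
  have hz' : ⟪A.wv z, A.wv z⟫ = 0 := by rw [A.wv_wv, hz]
  have h1 : act (sg σ (A.wv z) 0 a) A.e = A.e := by
    rw [act_tv hz' ha, A.wv_e]; simp
  refine ⟨⟨1, by rw [h1, one_smul]⟩, ?_⟩
  unfold rho
  rw [h1, A.fe, map_one, one_smul, act_tv hz' ha, A.wv_wv, A.co_add, A.co_smul, A.co_wv, A.co_wv]

omit hp hch in
/-- elements acting trivially on the radical modulo its centre. -/
theorem param' (hm : 1 ≤ m) {g : G} {κ : F} (he : act g A.e = κ • A.e) (hρ : ∀ c, A.rho g c = c) :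
    ∃ c₀ b₀, A.adm c₀ b₀ ∧ ∀ x, act g x = κ • act (A.u c₀ b₀) x := by
  classical
  have hκ := InP.ne_zero A he
  have hσκ : σ κ ≠ 0 := (map_ne_zero σ).2 hκ
  have h1 : ⟪A.f, act g A.e⟫ = κ := by rw [he, map_smul, A.fe, smul_eq_mul, mul_one]
  have h2 : ∀ c, ⟪A.e, act g (A.wv c)⟫ = 0 := by
    intro c
    have := B_act (σ := σ) g A.e (A.wv c)
    rw [he, A.e_wv, map_smulₛₗ, LinearMap.smul_apply, smul_eq_mul] at this
    exact (mul_eq_zero.1 this).resolve_left hσκ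
  have h3 : ∀ c, A.co (act g (A.wv c)) = (σ κ)⁻¹ • c := by
    intro c
    have := hρ c
    unfold rho at this
    rw [h1] at this
    conv_rhs => rw [← this]
    rw [smul_smul, inv_mul_cancel₀ hσκ, one_smul]
  have h4 : ∀ c, act g (A.wv c) = (σ κ)⁻¹ • A.wv c + ⟪A.f, act g (A.wv c)⟫ • A.e := by
    intro c
    conv_lhs => rw [A.exp' (act g (A.wv c)), h2, h3, A.wv_smul]
    module
  have hN : σ κ * κ = 1 := by
    have h5 := B_act (σ := σ) g (A.wv (Pi.single ⟨0, hm⟩ 1)) (A.wv (Pi.single ⟨0, hm⟩ 1))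
    rw [h4] at h5
    simp only [map_add, map_smul, map_smulₛₗ, LinearMap.add_apply, LinearMap.smul_apply, smul_eq_mul,
      A.wv_wv, A.wv_e, A.e_wv, A.ee, B_single_left, Pi.single_eq_same, map_one, map_inv₀, ss] at h5
    field_simp at h5
    linear_combination -h5
  have h5 : (σ κ)⁻¹ = κ := by
    field_simp
    linear_combination -hN
  apply A.param hm hκ he
  intro c
  exact ⟨_, by rw [h4 c, h5]⟩

/-- normal `p`-subgroups of the point stabiliser lie in the radical. -/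
theorem Op (hn : 1 ≤ n) (hm : 1 ≤ m) (R : Subgroup Gb) (hR : IsPGroup p R)
    (hRN : ∀ l : G, (QuotientGroup.mk l : Gb) ∈ R → A.InP l)
    (hnorm : ∀ l : G, A.InP l → ∀ y ∈ R, (QuotientGroup.mk l : Gb) * y * (QuotientGroup.mk l)⁻¹ ∈ R) :
    R ≤ A.Qb := by
  classical
  have hout : ∀ y : R, A.InP (Quotient.out y.1 : G) := by
    intro y
    apply hRN
    rw [show (QuotientGroup.mk (Quotient.out y.1) : Gb) = y.1 from QuotientGroup.out_eq' y.1]
    exact y.2
  have hmk : ∀ y : Gb, (QuotientGroup.mk (Quotient.out y : G) : Gb) = y := fun y => QuotientGroup.out_eq' y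
  letI : MulAction R (Fin m → F) :=
    { smul := fun y c => A.rho (Quotient.out y.1 : G) c
      one_smul := by
        intro c
        change A.rho _ c = c
        rw [A.rho_congr (p := p) hn (hout 1) (InP.one A) (by rw [hmk]; rfl), A.rho_one]
      mul_smul := by
        intro y y' c
        change A.rho _ c = A.rho _ (A.rho _ c)
        rw [← A.rho_mul (p := p) hn (hout y) (hout y')]
        apply A.rho_congr (p := p) hn (hout _) ((hout y).mul A (hout y'))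
        rw [hmk, QuotientGroup.mk_mul, hmk, hmk]
        rfl }
  have hpα : p ∣ Nat.card (Fin m → F) := by
    rw [Nat.card_eq_fintype_card, Fintype.card_fun, Fintype.card_fin]
    exact (p_dvd_card (σ := σ)).trans (dvd_pow_self _ (by omega))
  have h0 : (0 : Fin m → F) ∈ MulAction.fixedPoints R (Fin m → F) := by
    intro y
    change A.rho _ 0 = 0
    have := A.rho_smul (Quotient.out y.1 : G) 0 0
    simpa using this
  obtain ⟨c₁, hc₁, hc₁0⟩ := hR.exists_fixed_point_of_prime_dvd_card_of_fixed_point _ hpα h0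
  let S : Submodule F (Fin m → F) :=
    { carrier := {c | ∀ l : G, (QuotientGroup.mk l : Gb) ∈ R → A.rho l c = c}
      add_mem' := by
        intro c c' h h' l hl
        rw [A.rho_add, h l hl, h' l hl]
      zero_mem' := by
        intro l _
        have := A.rho_smul l 0 0
        simpa using this
      smul_mem' := by
        intro a c h l hl
        rw [A.rho_smul, h l hl] }
  have hS : ∀ c, c ∈ S ↔ ∀ l : G, (QuotientGroup.mk l : Gb) ∈ R → A.rho l c = c := fun _ => Iff.rfl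
  have hc₁S : c₁ ∈ S := by
    intro l hl
    have := hc₁ ⟨_, hl⟩
    change A.rho _ c₁ = c₁ at this
    rw [← A.rho_congr (p := p) hn (hout ⟨_, hl⟩) (hRN l hl) (hmk _)]
    exact this
  have hinv : ∀ l₀ : G, A.InP l₀ → ∀ c ∈ S, A.rho l₀ c ∈ S := by
    intro l₀ hl₀ c hcS l hl
    have h1 : (QuotientGroup.mk (l₀⁻¹ * l * l₀) : Gb) ∈ R := by
      have := hnorm l₀⁻¹ (hl₀.inv A) _ hl
      convert this using 1
      rw [QuotientGroup.mk_mul, QuotientGroup.mk_mul, QuotientGroup.mk_inv, inv_inv]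
    have h2 := hcS _ h1
    rw [← A.rho_mul (p := p) hn (hRN l hl) hl₀]
    have h3 : l * l₀ = l₀ * (l₀⁻¹ * l * l₀) := by group
    rw [h3, A.rho_mul (p := p) hn hl₀ (hRN _ h1), h2]
  have hStop : S = ⊤ := by
    rcases Nat.lt_or_ge m 2 with hm2 | hm2
    · obtain rfl : m = 1 := by omega
      rw [eq_top_iff]
      intro c _
      have h1 : c₁ 0 ≠ 0 := by
        intro h
        apply hc₁0
        funext i
        rw [Subsingleton.elim i 0, h]; rfl
      have h2 : c = (c 0 / c₁ 0) • c₁ := by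
        funext i
        rw [Subsingleton.elim i 0, Pi.smul_apply, smul_eq_mul, div_mul_cancel₀ _ h1]
      rw [h2]
      exact S.smul_mem _ hc₁S
    · apply irr (σ := σ) hm2 S
      · intro h
        rw [h] at hc₁S
        exact hc₁0 ((Submodule.mem_bot F).1 hc₁S).symm
      · intro z a x hz ha hx
        obtain ⟨h1, h2⟩ := A.rho_tv hz ha x
        rw [← h2]
        exact hinv _ h1 x hx
  intro y hy
  obtain ⟨l, rfl⟩ := QuotientGroup.mk_surjective y
  obtain ⟨κ, hκ⟩ := hRN l hy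
  have hρ : ∀ c, A.rho l c = c := by
    intro c
    have : c ∈ S := by rw [hStop]; trivial
    exact this l hy
  obtain ⟨c₀, b₀, h0, h1⟩ := A.param' hm hκ hρ
  exact A.mem_Qb.2 ⟨c₀, b₀, h0, ((mk_eq_iff (σ := σ) _ _).2 ⟨κ, h1⟩).symm⟩

theorem Qb_map_le (hn : 1 ≤ n) (hm : 1 ≤ m) (β : MulAut Gb) (hβ : ∀ y, y ∈ Xb A.eI ↔ β y ∈ Xb A.eI) :
    ∀ y ∈ A.Qb, β y ∈ A.Qb := by
  have hQN : ∀ y ∈ A.Qb, A.InN y := by
    intro y hy
    obtain ⟨c, b, hb, rfl⟩ := A.mem_Qb.1 hy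
    exact (A.InN_iff (p := p) hn _).2 ⟨1, by rw [A.u_e hb, one_smul]⟩
  have key : A.Qb.map β.toMonoidHom ≤ A.Qb := by
    apply A.Op (p := p) hn hm
    · exact ((A.isPGroup_Q (p := p)).map _).map _
    · rintro l ⟨y, hy, e⟩
      rw [← A.InN_iff (p := p) hn, ← e]
      exact (A.InN_map β hβ y).1 (hQN y hy)
    · rintro l hl _ ⟨y, hy, rfl⟩
      obtain ⟨l', hl'⟩ := QuotientGroup.mk_surjective (β⁻¹ (QuotientGroup.mk l))
      have h1 : β (QuotientGroup.mk l') = QuotientGroup.mk l := by rw [hl', MulAut.apply_inv_self]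
      have h2 : A.InP l' := by
        rw [← A.InN_iff (p := p) hn, A.InN_map β hβ, h1, A.InN_iff (p := p) hn]
        exact hl
      obtain ⟨c, b, hb, rfl⟩ := A.mem_Qb.1 hy
      obtain ⟨b', h3, h4⟩ := A.rho_spec h2 hb
      refine ⟨_, A.mem_Qb.2 ⟨_, b', h3, h4⟩, ?_⟩
      rw [← h1]
      simp
  intro y hy
  exact key ⟨y, hy, rfl⟩

theorem Qb_map (hn : 1 ≤ n) (hm : 1 ≤ m) (β : MulAut Gb) (hβ : ∀ y, y ∈ Xb A.eI ↔ β y ∈ Xb A.eI) (y : Gb) :
    y ∈ A.Qb ↔ β y ∈ A.Qb := by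
  refine ⟨A.Qb_map_le (p := p) hn hm β hβ y, fun h => ?_⟩
  have := A.Qb_map_le (p := p) hn hm β⁻¹ (fun y => by rw [hβ (β⁻¹ y), MulAut.apply_inv_self]) _ h
  rwa [MulAut.inv_apply_self] at this

end Frame

end Cfsg.Agent.Lib.Helper4.PSU
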