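import Mathlib
import Cfsg.Agent.Lib.Helper4.PSUf
import Cfsg.Agent.Lib.Helper4.PSLnDefs

set_option linter.unusedSimpArgs false
set_option linter.unusedSectionVars false
set_option linter.style.haveILetI false

namespace Cfsg.Agent.Lib.Helper4.PSU

open Cfsg.Agent.Lib.Helper4.UniCount Cfsg.Agent.Lib.Helper4.UniFrame Cfsg.Agent.Lib.Helper4.UniMat
open Cfsg.Agent.Lib.Helper4.UniSU Cfsg.Agent.Lib.Helper4.UniCenter Cfsg.Agent.Lib.Helper4.UniLines
open Cfsg.Agent.Lib.Helper4.PSL2Aut (liftAut liftAut_mk)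
open Matrix

/-- restriction of an automorphism to an invariant subgroup -/
def resAut {S : Type*} [Group S] (H : Subgroup S) (φ : MulAut S) (h : ∀ s, s ∈ H ↔ φ s ∈ H) : MulAut H where
  toFun s := ⟨φ s.1, (h s.1).1 s.2⟩
  invFun s := ⟨φ⁻¹ s.1, (h _).2 (by rw [MulAut.apply_inv_self]; exact s.2)⟩
  left_inv s := Subtype.ext (MulAut.inv_apply_self _ _ _)
  right_inv s := Subtype.ext (MulAut.apply_inv_self _ _ _)
  map_mul' a b := Subtype.ext (map_mul φ _ _)

theorem resAut_val {S : Type*} [Group S] (H : Subgroup S) (φ : MulAut S) (h : ∀ s, s ∈ H ↔ φ s ∈ H) (s : H) :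
    (resAut H φ h s).1 = φ s.1 := rfl

variable {F : Type*} [Field F] [Fintype F] {q : ℕ} {σ : F →+* F} [hc : UC F q σ] {n m : ℕ}

include hc

local notation "⟪" u ", " v "⟫" => stdB σ _ u v
local notation "G" => Cfsg.SU n F q
local notation "Gb" => Cfsg.PSU n F q
local notation "GU'" => Cfsg.GU n F q

theorem isU_gu (g : GU') : IsU σ g.1.1 := (mem_GU_iff (UC.hσ (σ := σ)) g.1).1 g.2

theorem conj_mem_aux (g : GU') (s : SpecialLinearGroup (Fin n) F) (hs : s ∈ G) :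
    PSLn.conjSL g.1 s ∈ G := by
  rw [mem_SU_iff (UC.hσ (σ := σ))] at hs ⊢
  rw [PSLn.conjSL_val]
  exact IsU.mul (IsU.mul (isU_gu (σ := σ) g) hs) (isU_gu (σ := σ) g⁻¹)

theorem conj_mem_iff (g : GU') (s : SpecialLinearGroup (Fin n) F) : s ∈ G ↔ PSLn.conjSL g.1 s ∈ G := by
  refine ⟨conj_mem_aux (σ := σ) g s, fun h => ?_⟩
  have := conj_mem_aux (σ := σ) g⁻¹ _ h
  have h2 : PSLn.conjSL (g⁻¹ : GU').1 (PSLn.conjSL g.1 s) = s := by
    rw [← MulAut.mul_apply, ← map_mul]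
    simp
  rwa [h2] at this

omit hc in
theorem isU_map (hσ : ∀ x, σ x = x ^ q) (τ : F ≃+* F) {M : Matrix (Fin n) (Fin n) F} (h : IsU σ M) :
    IsU σ (M.map τ) := by
  unfold IsU at *
  have h1 : (M.map τ).map σ = (M.map σ).map τ := by
    ext i j
    simp only [Matrix.map_apply, hσ, map_pow]
  have h2 : ((M.map σ)ᵀ * M).map τ = (1 : Matrix (Fin n) (Fin n) F).map τ := by rw [h]
  rw [Matrix.map_mul] at h2
  rw [h1, ← Matrix.transpose_map, h2]
  ext i j
  simp [Matrix.one_apply, apply_ite τ]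

theorem map_mem_aux (τ : F ≃+* F) (s : SpecialLinearGroup (Fin n) F) (hs : s ∈ G) : PSLn.mapSL τ s ∈ G := by
  rw [mem_SU_iff (UC.hσ (σ := σ))] at hs ⊢
  rw [PSLn.mapSL_val]
  exact isU_map (UC.hσ (σ := σ)) τ hs

theorem map_mem_iff (τ : F ≃+* F) (s : SpecialLinearGroup (Fin n) F) : s ∈ G ↔ PSLn.mapSL τ s ∈ G := by
  refine ⟨map_mem_aux (σ := σ) τ s, fun h => ?_⟩
  have := map_mem_aux (σ := σ) τ.symm _ h
  have h2 : PSLn.mapSL τ.symm (PSLn.mapSL τ s) = s := by
    apply Subtype.ext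
    ext i j
    rw [PSLn.mapSL_apply, PSLn.mapSL_apply, RingEquiv.symm_apply_apply]
  rwa [h2] at this

/-- conjugation by `GU` on `SU` -/
def conjSU (σ : F →+* F) [UC F q σ] : GU' →* MulAut G where
  toFun g := resAut _ (PSLn.conjSL g.1) (conj_mem_iff (σ := σ) g)
  map_one' := by
    ext s : 1
    apply Subtype.ext
    rw [resAut_val]
    simp
  map_mul' g h := by
    ext s : 1
    apply Subtype.ext
    rw [resAut_val, MulAut.mul_apply, resAut_val, resAut_val]
    simp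

/-- field automorphisms of `SU` -/
def fSU (σ : F →+* F) [UC F q σ] (τ : F ≃+* F) : MulAut G := resAut _ (PSLn.mapSL τ) (map_mem_iff (σ := σ) τ)

theorem conjSU_val (g : GU') (s : G) : (conjSU σ g s).1.1 = g.1.1 * s.1.1 * (g⁻¹).1.1 := rfl
theorem fSU_val (τ : F ≃+* F) (s : G) : (fSU σ τ s).1.1 = s.1.1.map τ := rfl

/-- induced automorphisms of `PSU` -/
noncomputable def cbar (σ : F →+* F) [UC F q σ] : GU' →* MulAut Gb := liftAut.comp (conjSU σ)
noncomputable def fbar (σ : F →+* F) [UC F q σ] (τ : F ≃+* F) : MulAut Gb := liftAut (fSU σ τ)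

theorem cbar_mk (g : GU') (s : G) : cbar σ g (QuotientGroup.mk s) = QuotientGroup.mk (conjSU σ g s) := rfl
theorem fbar_mk (τ : F ≃+* F) (s : G) : fbar σ τ (QuotientGroup.mk s) = QuotientGroup.mk (fSU σ τ s) := rfl

/-- action of `GU` on vectors -/
def gact (g : GU') (x : Fin n → F) : Fin n → F := g.1.1 *ᵥ x

omit [Fintype F] hc in
theorem gact_inv_gact (g : GU') (x : Fin n → F) : gact g⁻¹ (gact g x) = x := by
  unfold gact
  rw [mulVec_mulVec]
  have : (g⁻¹ : GU').1.1 * g.1.1 = 1 := by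
    have := congrArg (fun h : GU' => h.1.1) (inv_mul_cancel g)
    exact this
  rw [this, one_mulVec]

omit [Fintype F] hc in
theorem gact_gact_inv (g : GU') (x : Fin n → F) : gact g (gact g⁻¹ x) = x := by
  have := gact_inv_gact g⁻¹ x
  rwa [inv_inv] at this

theorem B_gact (g : GU') (x y : Fin n → F) : ⟪gact g x, gact g y⟫ = ⟪x, y⟫ :=
  (preserves_iff _).2 (isU_gu g) x y

theorem B_gact_left (g : GU') (x y : Fin n → F) : ⟪gact g x, y⟫ = ⟪x, gact g⁻¹ y⟫ := by
  rw [← B_gact (σ := σ) g x, gact_gact_inv]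

omit [Fintype F] hc in
theorem gact_add (g : GU') (x y : Fin n → F) : gact g (x + y) = gact g x + gact g y := mulVec_add _ _ _
omit [Fintype F] hc in
theorem gact_sub (g : GU') (x y : Fin n → F) : gact g (x - y) = gact g x - gact g y := mulVec_sub _ _ _
omit [Fintype F] hc in
theorem gact_smul (g : GU') (a : F) (x : Fin n → F) : gact g (a • x) = a • gact g x := mulVec_smul _ _ _
omit [Fintype F] hc in
theorem gact_zero (g : GU') : gact g (0 : Fin n → F) = 0 := mulVec_zero _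

omit [Fintype F] hc in
theorem gact_eq_zero (g : GU') {x : Fin n → F} (h : gact g x = 0) : x = 0 := by
  rw [← gact_inv_gact g x, h, gact_zero]

theorem act_conjSU (g : GU') (s : G) (x : Fin n → F) : act (conjSU σ g s) x = gact g (act s (gact g⁻¹ x)) := by
  rw [act_def, conjSU_val]
  unfold gact
  rw [act_def, mulVec_mulVec, mulVec_mulVec]

theorem Adm.gact {e w : Fin n → F} {b : F} (h : Adm σ e w b) (g : GU') :
    Adm σ (gact g e) (gact g w) b := by
  obtain ⟨h1, h2, h3⟩ := h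
  exact ⟨by rw [B_gact, h1], by rw [B_gact, h2], by rw [B_gact, h3]⟩

theorem conjSU_sg {e w : Fin n → F} {b : F} (h : Adm σ e w b) (g : GU') :
    conjSU σ g (sg σ e w b) = sg σ (gact g e) (gact g w) b := by
  apply act_ext
  intro x
  rw [act_conjSU, act_sg h, act_sg (h.gact g), gact_sub, gact_add, gact_smul, gact_smul, gact_add, gact_smul,
    gact_gact_inv, ← B_gact_left, ← B_gact_left]

theorem B_tau (τ : F ≃+* F) (x y : Fin n → F) : ⟪τ ∘ x, τ ∘ y⟫ = τ ⟪x, y⟫ := by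
  simp only [stdB_apply, dotProduct, map_sum, map_mul, Function.comp, UC.hσ (σ := σ), map_pow]

theorem sig_tau (τ : F ≃+* F) (a : F) : σ (τ a) = τ (σ a) := by
  simp only [UC.hσ (σ := σ), map_pow]

theorem act_fSU (τ : F ≃+* F) (s : G) (x : Fin n → F) : act (fSU σ τ s) x = τ ∘ (act s (τ.symm ∘ x)) := by
  rw [act_def, fSU_val, act_def]
  funext i
  have := RingHom.map_mulVec (τ : F →+* F) s.1.1 (τ.symm ∘ x) i
  have h2 : (⇑(τ : F →+* F) ∘ ⇑τ.symm ∘ x) = x := by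
    funext j
    simp
  rw [h2] at this
  exact this.symm

theorem Adm.tau {e w : Fin n → F} {b : F} (h : Adm σ e w b) (τ : F ≃+* F) :
    Adm σ (τ ∘ e) (τ ∘ w) (τ b) := by
  obtain ⟨h1, h2, h3⟩ := h
  refine ⟨by rw [B_tau, h1, map_zero], by rw [B_tau, h2, map_zero], ?_⟩
  rw [B_tau, sig_tau, ← map_add, ← map_add, h3, map_zero]

theorem fSU_sg {e w : Fin n → F} {b : F} (h : Adm σ e w b) (τ : F ≃+* F) :
    fSU σ τ (sg σ e w b) = sg σ (τ ∘ e) (τ ∘ w) (τ b) := by
  apply act_ext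
  intro x
  rw [act_fSU, act_sg h, act_sg (h.tau τ)]
  have h1 : ∀ y : Fin n → F, ⟪τ ∘ y, x⟫ = τ ⟪y, τ.symm ∘ x⟫ := by
    intro y
    rw [← B_tau]
    congr 1
    funext i
    simp
  rw [h1, h1]
  funext i
  simp

/-! ### Witt's lemma for frames -/

/-- the matrix carrying one frame to another -/
def wittM (A A' : Frame σ n m) : Matrix (Fin n) (Fin n) F :=
  R σ A'.e A.f + R σ A'.f A.e + ∑ i, R σ (A'.w i) (A.w i)

omit [Fintype F] hc in
theorem wittM_mulVec (A A' : Frame σ n m) (x : Fin n → F) :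
    wittM A A' *ᵥ x = ⟪A.f, x⟫ • A'.e + ⟪A.e, x⟫ • A'.f + A'.wv (A.co x) := by
  unfold wittM
  rw [add_mulVec, add_mulVec, R_mulVec, R_mulVec, Matrix.sum_mulVec]
  simp only [R_mulVec]
  rfl

theorem wittM_isU (A A' : Frame σ n m) : IsU σ (wittM A A') := by
  rw [← preserves_iff]
  intro u v
  rw [wittM_mulVec, wittM_mulVec, A.B_exp u v]
  simp only [map_add, map_smul, map_smulₛₗ, LinearMap.add_apply, LinearMap.smul_apply, smul_eq_mul,
    A'.ee, A'.ff, A'.ef, A'.fe, A'.e_wv, A'.f_wv, A'.wv_e, A'.wv_f, A'.wv_wv, sym (σ := σ)]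
  ring

/-- the element of `GU` carrying one frame to another -/
def witt (A A' : Frame σ n m) : GU' := mkGU (UC.hσ (σ := σ)) (wittM A A') (wittM_isU A A')

theorem gact_witt (A A' : Frame σ n m) (x : Fin n → F) :
    gact (witt A A') x = ⟪A.f, x⟫ • A'.e + ⟪A.e, x⟫ • A'.f + A'.wv (A.co x) := wittM_mulVec A A' x

theorem witt_e (A A' : Frame σ n m) : gact (witt A A') A.e = A'.e := by
  rw [gact_witt, A.fe, A.ee, A.co_e, A'.wv_zero]; simp

theorem witt_f (A A' : Frame σ n m) : gact (witt A A') A.f = A'.f := by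
  rw [gact_witt, A.ff, A.ef, A.co_f, A'.wv_zero]; simp

theorem witt_wv (A A' : Frame σ n m) (c : Fin m → F) : gact (witt A A') (A.wv c) = A'.wv c := by
  rw [gact_witt, A.f_wv, A.e_wv, A.co_wv]; simp

/-! ### action on transvection groups -/

/-- action of `GU` on isotropic vectors -/
def Iso.gmv (g : GU') (v : Iso σ n) : Iso σ n :=
  ⟨gact g v.1, fun h => v.2.1 (gact_eq_zero g h), by rw [B_gact]; exact v.2.2⟩

/-- action of field automorphisms on isotropic vectors -/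
def Iso.tmv (τ : F ≃+* F) (v : Iso σ n) : Iso σ n :=
  ⟨τ ∘ v.1, fun h => v.2.1 (by
    funext i
    have := congrFun h i
    simpa using this), by rw [B_tau, v.2.2, map_zero]⟩

theorem cbar_mem_Xb (g : GU') (v : Iso σ n) (y : Gb) : y ∈ Xb v ↔ cbar σ g y ∈ Xb (Iso.gmv g v) := by
  have key : ∀ (g : GU') (v : Iso σ n) (y : Gb), y ∈ Xb v → cbar σ g y ∈ Xb (Iso.gmv g v) := by
    intro g v y hy
    obtain ⟨b, hb, rfl⟩ := mem_Xb.1 hy
    refine mem_Xb.2 ⟨b, hb, ?_⟩
    rw [cbar_mk, conjSU_sg (Adm_tv v.2.2 hb), gact_zero]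
    rfl
  refine ⟨key g v y, fun h => ?_⟩
  have := key g⁻¹ _ _ h
  rw [← MulAut.mul_apply, ← map_mul, inv_mul_cancel, map_one, MulAut.one_apply] at this
  convert this using 2
  exact Subtype.ext (gact_inv_gact g v.1).symm

theorem fbar_mem_Xb_aux (τ : F ≃+* F) (v : Iso σ n) (y : Gb) (hy : y ∈ Xb v) :
    fbar σ τ y ∈ Xb (Iso.tmv τ v) := by
  obtain ⟨b, hb, rfl⟩ := mem_Xb.1 hy
  refine mem_Xb.2 ⟨τ b, by rw [sig_tau, ← map_add, hb, map_zero], ?_⟩
  rw [fbar_mk, fSU_sg (Adm_tv v.2.2 hb)]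
  congr 2
  funext i
  simp

theorem fbar_symm (τ : F ≃+* F) (y : Gb) : fbar σ τ.symm (fbar σ τ y) = y := by
  obtain ⟨s, rfl⟩ := QuotientGroup.mk_surjective y
  rw [fbar_mk, fbar_mk]
  congr 1
  apply Subtype.ext
  apply Subtype.ext
  rw [fSU_val, fSU_val]
  ext i j
  simp

theorem fbar_mem_Xb (τ : F ≃+* F) (v : Iso σ n) (y : Gb) : y ∈ Xb v ↔ fbar σ τ y ∈ Xb (Iso.tmv τ v) := by
  refine ⟨fbar_mem_Xb_aux τ v y, fun h => ?_⟩
  have := fbar_mem_Xb_aux τ.symm _ _ h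
  rw [fbar_symm] at this
  convert this using 2
  apply Subtype.ext
  funext i
  simp [Iso.tmv]

end Cfsg.Agent.Lib.Helper4.PSU
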