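import Mathlib
import Cfsg.Agent.Lib.Helper4.PSUg

set_option linter.unusedSimpArgs false
set_option linter.unusedSectionVars false
set_option linter.style.haveILetI false

namespace Cfsg.Agent.Lib.Helper4.PSU

open Cfsg.Agent.Lib.Helper4.UniCount Cfsg.Agent.Lib.Helper4.UniFrame Cfsg.Agent.Lib.Helper4.UniMat
open Cfsg.Agent.Lib.Helper4.UniSU Cfsg.Agent.Lib.Helper4.UniCenter Cfsg.Agent.Lib.Helper4.UniLines
open Matrix

variable {F : Type*} [Field F] [Fintype F] {q : ℕ} {σ : F →+* F} [hc : UC F q σ] {n m : ℕ}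
variable {p : ℕ} [hp : Fact p.Prime] [hch : CharP F p]

include hc hp hch

local notation "⟪" u ", " v "⟫" => stdB σ _ u v
local notation "G" => Cfsg.SU n F q
local notation "Gb" => Cfsg.PSU n F q
local notation "GU'" => Cfsg.GU n F q

namespace Frame

variable (A : Frame σ n m)

/-- automorphisms fixing the two standard transvection groups -/
def Std (β : MulAut Gb) : Prop :=
  (∀ y, y ∈ Xb A.eI ↔ β y ∈ Xb A.eI) ∧ (∀ y, y ∈ Xb A.fI ↔ β y ∈ Xb A.fI)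

omit hp hch in
theorem Std.mul {β β' : MulAut Gb} (h : A.Std β) (h' : A.Std β') : A.Std (β * β') :=
  ⟨fun y => by rw [MulAut.mul_apply, ← h.1, ← h'.1], fun y => by rw [MulAut.mul_apply, ← h.2, ← h'.2]⟩

omit hp hch in
theorem Std.inv {β : MulAut Gb} (h : A.Std β) : A.Std β⁻¹ :=
  ⟨fun y => by rw [h.1 (β⁻¹ y), MulAut.apply_inv_self], fun y => by rw [h.2 (β⁻¹ y), MulAut.apply_inv_self]⟩

omit hp hch in
theorem Std.one : A.Std (1 : MulAut Gb) := ⟨fun _ => Iff.rfl, fun _ => Iff.rfl⟩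

theorem normalize (hn : n = m + 2) (hm : 1 ≤ m) (β : MulAut Gb) : ∃ g : GU', A.Std (cbar σ g * β) := by
  obtain ⟨e', he'⟩ := T1 (p := p) hn hm β A.eI
  obtain ⟨f', hf'⟩ := T1 (p := p) hn hm β A.fI
  have hne : ⟪e'.1, f'.1⟫ ≠ 0 := by
    intro h
    have h1 : ⟪A.eI.1, A.fI.1⟫ = 0 := by
      apply orth_of_commute (p := p) (by omega)
      intro x hx y hy
      apply β.injective
      rw [map_mul, map_mul]
      exact commute_of_orth h ((he' x).1 hx) ((hf' y).1 hy)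
    have h2 : ⟪A.eI.1, A.fI.1⟫ = 1 := A.ef
    rw [h1] at h2
    exact zero_ne_one h2
  obtain ⟨A', hA'e, hA'f⟩ := exists_frame hn e'.1 ((⟪e'.1, f'.1⟫)⁻¹ • f'.1) e'.2.2
    (by simp only [map_smul, map_smulₛₗ, LinearMap.smul_apply, f'.2.2, smul_zero])
    (by rw [map_smul, smul_eq_mul, inv_mul_cancel₀ hne])
  refine ⟨witt A' A, fun y => ?_, fun y => ?_⟩
  · rw [MulAut.mul_apply, he', cbar_mem_Xb (witt A' A)]
    have : Iso.gmv (witt A' A) e' = A.eI := by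
      apply Subtype.ext
      change gact _ e'.1 = A.e
      rw [← hA'e, witt_e]
    rw [this]
  · rw [MulAut.mul_apply, hf', ← Xb_smul (v := f') (v' := A'.fI) hA'f, cbar_mem_Xb (witt A' A)]
    have : Iso.gmv (witt A' A) A'.fI = A.fI := by
      apply Subtype.ext
      change gact _ A'.f = A.f
      rw [witt_f]
    rw [this]

omit hp hch in
theorem Std.X0 {β : MulAut Gb} (h : A.Std β) {d : F} (hd : A.adm 0 d) :
    ∃ d', A.adm 0 d' ∧ β (QuotientGroup.mk (A.u 0 d)) = QuotientGroup.mk (A.u 0 d') := by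
  have h1 : (QuotientGroup.mk (A.u 0 d) : Gb) ∈ Xb A.eI :=
    mem_Xb.2 ⟨d, (adm0_iff A d).1 hd, by rw [u0_eq]; rfl⟩
  obtain ⟨d', hd', e⟩ := mem_Xb.1 ((h.1 _).1 h1)
  exact ⟨d', (adm0_iff A d').2 hd', by rw [e, u0_eq]; rfl⟩

omit hp hch in
theorem u_split {c : Fin m → F} {b b₀ : F} (h : A.adm c b) (h₀ : A.adm c b₀) :
    A.adm 0 (b - b₀) ∧ A.u c b = A.u c b₀ * A.u 0 (b - b₀) := by
  have h1 : A.adm 0 (b - b₀) := by
    rw [adm0_iff, map_sub]
    unfold adm at h h₀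
    linear_combination h - h₀
  refine ⟨h1, ?_⟩
  rw [A.u_mul h₀ h1]
  simp

theorem exA (hn : 1 ≤ n) (hm : 1 ≤ m) {β : MulAut Gb} (hβ : A.Std β) (c : Fin m → F) :
    ∃ c', ∀ b, A.adm c b → ∃ b', A.adm c' b' ∧
      β (QuotientGroup.mk (A.u c b)) = QuotientGroup.mk (A.u c' b') := by
  obtain ⟨b₀, hb₀⟩ := A.exists_adm c
  obtain ⟨c', b₀', hb₀', e⟩ := A.mem_Qb.1 ((A.Qb_map (p := p) hn hm β hβ.1 _).1 (A.mem_Qb.2 ⟨c, b₀, hb₀, rfl⟩))
  refine ⟨c', fun b hb => ?_⟩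
  obtain ⟨h1, h2⟩ := A.u_split hb hb₀
  obtain ⟨d', hd', e'⟩ := hβ.X0 A h1
  refine ⟨b₀' + d' - stdB σ m c' 0, ?_, ?_⟩
  · have := A.adm_mul hb₀' hd'
    rwa [add_zero] at this
  · rw [h2, QuotientGroup.mk_mul, map_mul, e, e', ← QuotientGroup.mk_mul, A.u_mul hb₀' hd', add_zero]

/-- the induced map on the radical modulo its centre -/
noncomputable def Am (β : MulAut Gb) (c : Fin m → F) : Fin m → F :=
  Classical.epsilon (fun c' => ∀ b, A.adm c b → ∃ b', A.adm c' b' ∧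
      β (QuotientGroup.mk (A.u c b)) = QuotientGroup.mk (A.u c' b'))

theorem Am_spec (hn : 1 ≤ n) (hm : 1 ≤ m) {β : MulAut Gb} (hβ : A.Std β) {c : Fin m → F} {b : F}
    (h : A.adm c b) : ∃ b', A.adm (A.Am β c) b' ∧
      β (QuotientGroup.mk (A.u c b)) = QuotientGroup.mk (A.u (A.Am β c) b') :=
  Classical.epsilon_spec (A.exA (p := p) hn hm hβ c) b h

theorem Am_unique (hn : 1 ≤ n) (hm : 1 ≤ m) {β : MulAut Gb} (hβ : A.Std β) {c c' : Fin m → F} {b b' : F}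
    (h : A.adm c b) (h' : A.adm c' b')
    (e : β (QuotientGroup.mk (A.u c b)) = QuotientGroup.mk (A.u c' b')) : A.Am β c = c' := by
  obtain ⟨b'', h1, h2⟩ := A.Am_spec (p := p) hn hm hβ h
  rw [e] at h2
  exact (A.mk_u_inj (p := p) hn h' h1 h2).1.symm

theorem Am_add (hn : 1 ≤ n) (hm : 1 ≤ m) {β : MulAut Gb} (hβ : A.Std β) (c c' : Fin m → F) :
    A.Am β (c + c') = A.Am β c + A.Am β c' := by
  obtain ⟨b, hb⟩ := A.exists_adm c
  obtain ⟨b', hb'⟩ := A.exists_adm c'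
  obtain ⟨b₁, h1, e1⟩ := A.Am_spec (p := p) hn hm hβ hb
  obtain ⟨b₂, h2, e2⟩ := A.Am_spec (p := p) hn hm hβ hb'
  apply A.Am_unique (p := p) hn hm hβ (A.adm_mul hb hb') (A.adm_mul h1 h2)
  rw [← A.u_mul hb hb', ← A.u_mul h1 h2, QuotientGroup.mk_mul, map_mul, e1, e2, QuotientGroup.mk_mul]

theorem Am_mul (hn : 1 ≤ n) (hm : 1 ≤ m) {β β' : MulAut Gb} (hβ : A.Std β) (hβ' : A.Std β') (c : Fin m → F) :
    A.Am (β * β') c = A.Am β (A.Am β' c) := by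
  obtain ⟨b, hb⟩ := A.exists_adm c
  obtain ⟨b₁, h1, e1⟩ := A.Am_spec (p := p) hn hm hβ' hb
  obtain ⟨b₂, h2, e2⟩ := A.Am_spec (p := p) hn hm hβ h1
  apply A.Am_unique (p := p) hn hm (hβ.mul A hβ') hb h2
  rw [MulAut.mul_apply, e1, e2]

theorem Am_one (hn : 1 ≤ n) (hm : 1 ≤ m) (c : Fin m → F) : A.Am (1 : MulAut Gb) c = c := by
  obtain ⟨b, hb⟩ := A.exists_adm c
  exact A.Am_unique (p := p) hn hm (Std.one A) hb hb rfl

theorem Am_inv_left (hn : 1 ≤ n) (hm : 1 ≤ m) {β : MulAut Gb} (hβ : A.Std β) (c : Fin m → F) :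
    A.Am β⁻¹ (A.Am β c) = c := by
  rw [← A.Am_mul (p := p) hn hm (hβ.inv A) hβ, inv_mul_cancel, A.Am_one (p := p) hn hm]

theorem Am_inv_right (hn : 1 ≤ n) (hm : 1 ≤ m) {β : MulAut Gb} (hβ : A.Std β) (c : Fin m → F) :
    A.Am β (A.Am β⁻¹ c) = c := by
  rw [← A.Am_mul (p := p) hn hm hβ (hβ.inv A), mul_inv_cancel, A.Am_one (p := p) hn hm]

theorem Am_zero (hn : 1 ≤ n) (hm : 1 ≤ m) {β : MulAut Gb} (hβ : A.Std β) : A.Am β 0 = 0 := by
  have := A.Am_add (p := p) hn hm hβ 0 0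
  rw [add_zero] at this
  exact left_eq_add.1 this

theorem Am_neg (hn : 1 ≤ n) (hm : 1 ≤ m) {β : MulAut Gb} (hβ : A.Std β) (c : Fin m → F) :
    A.Am β (-c) = - A.Am β c := by
  have := A.Am_add (p := p) hn hm hβ c (-c)
  rw [add_neg_cancel, A.Am_zero (p := p) hn hm hβ] at this
  exact (neg_eq_of_add_eq_zero_right this.symm).symm

theorem Am_sub (hn : 1 ≤ n) (hm : 1 ≤ m) {β : MulAut Gb} (hβ : A.Std β) (c c' : Fin m → F) :
    A.Am β (c - c') = A.Am β c - A.Am β c' := by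
  rw [sub_eq_add_neg, A.Am_add (p := p) hn hm hβ, A.Am_neg (p := p) hn hm hβ, sub_eq_add_neg]

theorem Am_sum (hn : 1 ≤ n) (hm : 1 ≤ m) {β : MulAut Gb} (hβ : A.Std β) {ι : Type*} (s : Finset ι)
    (f : ι → Fin m → F) : A.Am β (∑ i ∈ s, f i) = ∑ i ∈ s, A.Am β (f i) := by
  classical
  induction s using Finset.induction_on with
  | empty => simp [A.Am_zero (p := p) hn hm hβ]
  | insert a s ha ih => rw [Finset.sum_insert ha, Finset.sum_insert ha, A.Am_add (p := p) hn hm hβ, ih]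

theorem Am_inj (hn : 1 ≤ n) (hm : 1 ≤ m) {β : MulAut Gb} (hβ : A.Std β) {c c' : Fin m → F}
    (h : A.Am β c = A.Am β c') : c = c' := by
  rw [← A.Am_inv_left (p := p) hn hm hβ c, h, A.Am_inv_left (p := p) hn hm hβ]

theorem InP_map (hn : 1 ≤ n) {β : MulAut Gb} (hβ : A.Std β) {l l' : G}
    (e : β (QuotientGroup.mk l) = QuotientGroup.mk l') : A.InP l ↔ A.InP l' := by
  rw [← A.InN_iff (p := p) hn, ← A.InN_iff (p := p) hn, ← e]
  exact A.InN_map β hβ.1 _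

theorem Am_rho (hn : 1 ≤ n) (hm : 1 ≤ m) {β : MulAut Gb} (hβ : A.Std β) {l l' : G} (hl : A.InP l)
    (e : β (QuotientGroup.mk l) = QuotientGroup.mk l') (c : Fin m → F) :
    A.Am β (A.rho l c) = A.rho l' (A.Am β c) := by
  have hl' := (A.InP_map (p := p) hn hβ e).1 hl
  obtain ⟨b, hb⟩ := A.exists_adm c
  obtain ⟨b₁, h1, e1⟩ := A.rho_spec hl hb
  obtain ⟨b₂, h2, e2⟩ := A.Am_spec (p := p) hn hm hβ hb
  obtain ⟨b₃, h3, e3⟩ := A.rho_spec hl' h2
  apply A.Am_unique (p := p) hn hm hβ h1 h3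
  rw [← e1, ← e3, map_mul, map_mul, map_inv, e, e2]

omit hp hch in
theorem comm_u {c c' : Fin m → F} {b b' : F} (h : A.adm c b) (h' : A.adm c' b') :
    A.adm 0 (stdB σ m c' c - stdB σ m c c') ∧
      A.u c b * A.u c' b' = A.u 0 (stdB σ m c' c - stdB σ m c c') * (A.u c' b' * A.u c b) := by
  have h1 : A.adm 0 (stdB σ m c' c - stdB σ m c c') := by
    rw [adm0_iff, map_sub, sym (σ := σ), sym (σ := σ)]; ring
  refine ⟨h1, ?_⟩
  rw [A.u_mul h h', A.u_mul h' h, A.u_mul h1 (A.adm_mul h' h)]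
  congr 1
  · rw [zero_add, add_comm]
  · simp only [map_zero, LinearMap.zero_apply]; ring

theorem Am_comm (hn : 1 ≤ n) (hm : 1 ≤ m) {β : MulAut Gb} (hβ : A.Std β) (c c' : Fin m → F) :
    β (QuotientGroup.mk (A.u 0 (stdB σ m c' c - stdB σ m c c'))) =
      QuotientGroup.mk (A.u 0 (stdB σ m (A.Am β c') (A.Am β c) - stdB σ m (A.Am β c) (A.Am β c'))) := by
  obtain ⟨b, hb⟩ := A.exists_adm c
  obtain ⟨b', hb'⟩ := A.exists_adm c'
  obtain ⟨b₁, h1, e1⟩ := A.Am_spec (p := p) hn hm hβ hb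
  obtain ⟨b₂, h2, e2⟩ := A.Am_spec (p := p) hn hm hβ hb'
  obtain ⟨-, k1⟩ := A.comm_u hb hb'
  obtain ⟨-, k2⟩ := A.comm_u h1 h2
  have k1' := congrArg (fun g : G => β (QuotientGroup.mk g)) k1
  have k2' := congrArg (fun g : G => (QuotientGroup.mk g : Gb)) k2
  simp only [QuotientGroup.mk_mul, map_mul, e1, e2] at k1' k2'
  rw [k2'] at k1'
  exact (mul_right_cancel k1').symm

end Frame

end Cfsg.Agent.Lib.Helper4.PSU
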