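import Mathlib
import Cfsg.Agent.Lib.Helper4.PSUh

set_option linter.unusedSimpArgs false
set_option linter.unusedSectionVars false
set_option linter.style.haveILetI false

namespace Cfsg.Agent.Lib.Helper4.PSU

open Cfsg.Agent.Lib.Helper4.UniCount Cfsg.Agent.Lib.Helper4.UniFrame Cfsg.Agent.Lib.Helper4.UniMat
open Cfsg.Agent.Lib.Helper4.UniSU Cfsg.Agent.Lib.Helper4.UniCenter Cfsg.Agent.Lib.Helper4.UniLines
open Matrix

variable {F : Type*} [Field F] [Fintype F] {q : ℕ} {σ : F →+* F} [hc : UC F q σ] {n m : ℕ}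

include hc

local notation "⟪" u ", " v "⟫" => stdB σ _ u v
local notation "G" => Cfsg.SU n F q
local notation "Gb" => Cfsg.PSU n F q
local notation "GU'" => Cfsg.GU n F q

theorem act_mkG_mul {M N : Matrix (Fin n) (Fin n) F} (hM : IsU σ M) (hN : IsU σ N) (hd : (M * N).det = 1)
    (x : Fin n → F) : act (mkG σ (M * N)) x = M *ᵥ (N *ᵥ x) := by
  rw [act_mkG (IsU.mul hM hN) hd, mulVec_mulVec]

namespace Frame

variable (A : Frame σ n m)

/-- torus element used for `m ≥ 2`. -/
noncomputable def tor2 (z z' : Fin m → F) (κ : F) : G :=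
  mkG σ (Dm σ A.e A.f κ (σ κ)⁻¹ * Dm σ (A.wv z) (A.wv z') κ⁻¹ (σ κ))

theorem act_tor2 {z z' : Fin m → F} (hz : stdB σ m z z = 0) (hz' : stdB σ m z' z' = 0)
    (hzz' : stdB σ m z z' = 1) {κ : F} (hκ : κ ≠ 0) (x : Fin n → F) :
    act (A.tor2 z z' κ) x =
      Dm σ A.e A.f κ (σ κ)⁻¹ *ᵥ (Dm σ (A.wv z) (A.wv z') κ⁻¹ (σ κ) *ᵥ x) := by
  have hσκ : σ κ ≠ 0 := (map_ne_zero σ).2 hκ
  unfold tor2
  apply act_mkG_mul
  · exact Dm_isU A.ee A.ff A.ef (mul_inv_cancel₀ hσκ)
  · exact Dm_isU (by rw [A.wv_wv, hz]) (by rw [A.wv_wv, hz']) (by rw [A.wv_wv, hzz'])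
      (by rw [map_inv₀, inv_mul_cancel₀ hσκ])
  · rw [det_mul, Dm_det A.ee A.ff A.ef,
      Dm_det (by rw [A.wv_wv, hz]) (by rw [A.wv_wv, hz']) (by rw [A.wv_wv, hzz'])]
    field_simp

theorem tor2_e {z z' : Fin m → F} (hz : stdB σ m z z = 0) (hz' : stdB σ m z' z' = 0)
    (hzz' : stdB σ m z z' = 1) {κ : F} (hκ : κ ≠ 0) : act (A.tor2 z z' κ) A.e = κ • A.e := by
  rw [A.act_tor2 hz hz' hzz' hκ]
  simp only [Dm_mulVec, A.wv_e, zero_mul, zero_smul, add_zero, A.fe, A.ee]
  module

theorem tor2_rho {z z' : Fin m → F} (hz : stdB σ m z z = 0) (hz' : stdB σ m z' z' = 0)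
    (hzz' : stdB σ m z z' = 1) {κ : F} (hκ : κ ≠ 0) (s : F) :
    A.rho (A.tor2 z z' κ) (s • z) = (σ κ * κ⁻¹ * s) • z := by
  have hz'z := B_one_symm hzz'
  unfold rho
  rw [A.tor2_e hz hz' hzz' hκ, map_smul, A.fe, A.act_tor2 hz hz' hzz' hκ]
  simp only [Dm_mulVec, A.wv_wv, map_add, map_smul, A.f_wv, A.e_wv, hz, hz'z, smul_eq_mul, mul_zero, zero_mul,
    zero_smul, add_zero, mul_one, A.co_add, A.co_smul, A.co_wv, zero_add]
  module

/-- torus element with one quasi-reflection -/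
noncomputable def tor1 (i : Fin m) (κ : F) : G :=
  mkG σ (Dm σ A.e A.f κ (σ κ)⁻¹ * Rm σ (A.w i) (σ κ * κ⁻¹))

theorem act_tor1 (i : Fin m) {κ : F} (hκ : κ ≠ 0) (x : Fin n → F) :
    act (A.tor1 i κ) x = Dm σ A.e A.f κ (σ κ)⁻¹ *ᵥ (Rm σ (A.w i) (σ κ * κ⁻¹) *ᵥ x) := by
  have hσκ : σ κ ≠ 0 := (map_ne_zero σ).2 hκ
  have hww : ⟪A.w i, A.w i⟫ = 1 := by rw [A.ww]; simp
  unfold tor1
  apply act_mkG_mul
  · exact Dm_isU A.ee A.ff A.ef (mul_inv_cancel₀ hσκ)
  · apply Rm_isU hww
    rw [map_mul, map_inv₀, ss]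
    field_simp
  · rw [det_mul, Dm_det A.ee A.ff A.ef, Rm_det hww]
    field_simp

theorem tor1_e (i : Fin m) {κ : F} (hκ : κ ≠ 0) : act (A.tor1 i κ) A.e = κ • A.e := by
  rw [A.act_tor1 i hκ]
  simp only [Rm_mulVec, Dm_mulVec, A.we, zero_mul, zero_smul, add_zero, A.fe, A.ee]
  module

theorem tor1_f (i : Fin m) {κ : F} (hκ : κ ≠ 0) : act (A.tor1 i κ) A.f = (σ κ)⁻¹ • A.f := by
  rw [A.act_tor1 i hκ]
  simp only [Rm_mulVec, Dm_mulVec, A.wf, zero_mul, zero_smul, add_zero, A.ff, A.ef]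
  module

omit [Fintype F] hc in
theorem w_eq_wv (i : Fin m) : A.w i = A.wv (Pi.single i 1) := by
  classical
  unfold wv
  simp [Pi.single_apply]

theorem tor1_rho (i : Fin m) {κ : F} (hκ : κ ≠ 0) (c : Fin m → F) :
    A.rho (A.tor1 i κ) c = σ κ • (c + (c i * (σ κ * κ⁻¹ - 1)) • Pi.single i 1) := by
  have h1 : ⟪A.w i, A.wv c⟫ = c i := congrFun (A.co_wv c) i
  unfold rho
  rw [A.tor1_e i hκ, map_smul, A.fe, A.act_tor1 i hκ]
  simp only [Rm_mulVec, Dm_mulVec, h1, map_add, map_smul, A.f_wv, A.e_wv, A.fw, A.ew, smul_eq_mul, mul_zero,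
    zero_mul, zero_smul, add_zero, mul_one, A.co_add, A.co_smul, A.co_wv]
  rw [A.w_eq_wv i, A.co_wv]

/-- torus element with two quasi-reflections -/
noncomputable def tor3 (i j : Fin m) (κ : F) : G :=
  mkG σ (Dm σ A.e A.f κ κ * (Rm σ (A.w i) κ⁻¹ * Rm σ (A.w j) κ⁻¹))

theorem act_tor3 (i j : Fin m) {κ : F} (hκ : σ κ * κ = 1) (x : Fin n → F) :
    act (A.tor3 i j κ) x = Dm σ A.e A.f κ κ *ᵥ (Rm σ (A.w i) κ⁻¹ *ᵥ (Rm σ (A.w j) κ⁻¹ *ᵥ x)) := by
  have hκ0 : κ ≠ 0 := by
    rintro rfl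
    simp at hκ
  have hww : ∀ i, ⟪A.w i, A.w i⟫ = 1 := fun i => by rw [A.ww]; simp
  have hinv : σ κ⁻¹ * κ⁻¹ = 1 := by rw [map_inv₀, ← mul_inv, hκ, inv_one]
  have hd : (Dm σ A.e A.f κ κ * (Rm σ (A.w i) κ⁻¹ * Rm σ (A.w j) κ⁻¹)).det = 1 := by
    rw [det_mul, det_mul, Dm_det A.ee A.ff A.ef, Rm_det (hww i), Rm_det (hww j)]
    field_simp
  unfold tor3
  rw [act_mkG_mul (Dm_isU A.ee A.ff A.ef hκ) (IsU.mul (Rm_isU (hww i) hinv) (Rm_isU (hww j) hinv)) hd,
    ← mulVec_mulVec]

theorem tor3_e (i j : Fin m) {κ : F} (hκ : σ κ * κ = 1) : act (A.tor3 i j κ) A.e = κ • A.e := by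
  rw [A.act_tor3 i j hκ]
  simp only [Rm_mulVec, Dm_mulVec, A.we, zero_mul, zero_smul, add_zero, A.fe, A.ee]
  module

theorem tor3_f (i j : Fin m) {κ : F} (hκ : σ κ * κ = 1) : act (A.tor3 i j κ) A.f = κ • A.f := by
  rw [A.act_tor3 i j hκ]
  simp only [Rm_mulVec, Dm_mulVec, A.wf, zero_mul, zero_smul, add_zero, A.ff, A.ef]
  module

theorem tor3_rho {i j : Fin m} (hij : i ≠ j) {κ : F} (hκ : σ κ * κ = 1) (c : Fin m → F) :
    A.rho (A.tor3 i j κ) c =
      σ κ • (c + (c j * (κ⁻¹ - 1)) • Pi.single j 1 + (c i * (κ⁻¹ - 1)) • Pi.single i 1) := by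
  have h1 : ∀ i, ⟪A.w i, A.wv c⟫ = c i := fun i => congrFun (A.co_wv c) i
  have h2 : ⟪A.w i, A.w j⟫ = 0 := by rw [A.ww]; simp [hij]
  unfold rho
  rw [A.tor3_e i j hκ, map_smul, A.fe, A.act_tor3 i j hκ]
  simp only [Rm_mulVec, Dm_mulVec, map_add, map_smul, A.f_wv, A.e_wv, A.fw, A.ew, smul_eq_mul, mul_zero, zero_mul,
    zero_smul, add_zero, mul_one, A.co_add, A.co_smul, A.co_wv, h1, h2]
  rw [A.w_eq_wv i, A.w_eq_wv j, A.co_wv, A.co_wv]

/-- the centraliser of the parabolic action consists of scalars -/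
theorem cent (hm : 1 ≤ m) (hq : ¬ (m = 1 ∧ q = 2)) (T : (Fin m → F) → (Fin m → F))
    (hadd : ∀ c c', T (c + c') = T c + T c')
    (hcomm : ∀ l : G, A.InP l → ∀ c, T (A.rho l c) = A.rho l (T c)) : ∃ t : F, ∀ c, T c = t • c := by
  classical
  have hq2 := two_le (σ := σ)
  have T0 : T 0 = 0 := by
    have := hadd 0 0
    rw [add_zero] at this
    exact left_eq_add.1 this
  rcases Nat.lt_or_ge m 2 with hm2 | hm2
  · obtain rfl : m = 1 := by omega
    have hq' : q ≠ 2 := fun h => hq ⟨rfl, h⟩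
    have hconst : ∀ c : Fin 1 → F, c = fun _ => c 0 := by
      intro c
      funext i
      rw [Subsingleton.elim i 0]
    have key := lin_of_comm (σ := σ) (2 * q - 1) (gcd_cond3 (σ := σ) hq') (fun s => T (fun _ => s) 0)
      (by
        intro x y
        have := hadd (fun _ => x) (fun _ => y)
        have h2 : ((fun _ => x) + (fun _ => y) : Fin 1 → F) = fun _ => x + y := rfl
        rw [h2] at this
        rw [this]; rfl)
      (by
        intro x s hx
        have h1 := hcomm (A.tor1 0 x) ⟨x, A.tor1_e 0 hx⟩ (fun _ => s)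
        have h2 : ∀ c : Fin 1 → F, A.rho (A.tor1 0 x) c = fun _ => x ^ (2 * q - 1) * c 0 := by
          intro c
          rw [A.tor1_rho 0 hx]
          funext i
          rw [Subsingleton.elim i 0]
          simp only [Pi.smul_apply, Pi.add_apply, Pi.single_eq_same, smul_eq_mul, UC.hσ (σ := σ)]
          have h3 : x ^ (2 * q - 1) * x = x ^ q * x ^ q := by
            rw [← pow_succ, ← pow_add]; congr 1; omega
          field_simp
          linear_combination (-(c 0)) * h3
        rw [h2, h2] at h1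
        exact congrFun h1 0)
    refine ⟨T (fun _ => 1) 0, fun c => ?_⟩
    rw [hconst (T c)]
    funext i
    have := key (c 0) 1
    rw [mul_one] at this
    rw [Pi.smul_apply, smul_eq_mul, Subsingleton.elim i 0, mul_comm, ← this]
    conv_lhs => rw [hconst c]
  · obtain ⟨a, ha0, ha⟩ := exists_skew (σ := σ)
    have htv : ∀ z : Fin m → F, stdB σ m z z = 0 → ∀ c, T ((a * stdB σ m z c) • z) = (a * stdB σ m z (T c)) • z := by
      intro z hz c
      obtain ⟨h1, h2⟩ := A.rho_tv hz ha c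
      obtain ⟨-, h3⟩ := A.rho_tv hz ha (T c)
      have h4 := hcomm _ h1 c
      rw [h2, h3, hadd] at h4
      exact add_left_cancel h4
    have step1 : ∀ z : Fin m → F, stdB σ m z z = 0 → ∀ s : F, T (s • z) = s • T z := by
      intro z hz s
      by_cases hz0 : z = 0
      · subst hz0; simp [T0]
      obtain ⟨z', hz', hzz'⟩ := exists_hyp hz0 hz
      have hφ : ∀ s, T (s • z) = (a * stdB σ m z (T ((a⁻¹ * s) • z'))) • z := by
        intro s
        have := htv z hz ((a⁻¹ * s) • z')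
        rwa [map_smul, hzz', smul_eq_mul, mul_one, mul_inv_cancel_left₀ ha0] at this
      have hinj : ∀ x y : F, x • z = y • z → x = y := fun x y h => smul_left_injective F hz0 h
      have key := lin_of_comm (σ := σ) (q - 1) (gcd_cond1 (σ := σ))
        (fun s => a * stdB σ m z (T ((a⁻¹ * s) • z')))
        (by
          intro x y
          apply hinj
          rw [← hφ, add_smul, hadd, hφ, hφ, add_smul])
        (by
          intro x s hx
          apply hinj
          rw [← hφ]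
          have h1 := hcomm _ ⟨x, A.tor2_e hz hz' hzz' hx⟩ (s • z)
          rw [A.tor2_rho hz hz' hzz' hx, hφ s, A.tor2_rho hz hz' hzz' hx] at h1
          have h3 : σ x * x⁻¹ = x ^ (q - 1) := by
            rw [UC.hσ (σ := σ)]
            have : x ^ (q - 1) * x = x ^ q := by rw [← pow_succ]; congr 1; omega
            field_simp
            rw [mul_comm]
            exact this.symm
          rw [h3] at h1
          exact h1)
      have h1 := key s 1
      rw [mul_one] at h1
      rw [hφ s, h1, ← smul_smul]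
      congr 1
      have := hφ 1
      rw [one_smul] at this
      exact this.symm
    have lin : ∀ (s : F) (c : Fin m → F), T (s • c) = s • T c := by
      let S : Submodule F (Fin m → F) :=
        { carrier := {c | ∀ s : F, T (s • c) = s • T c}
          add_mem' := by
            intro c c' h h' s
            rw [smul_add, hadd, h, h', hadd, smul_add]
          zero_mem' := by
            intro s
            simp [T0]
          smul_mem' := by
            intro b c h s
            rw [smul_smul, h, h, smul_smul] }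
      have hS : S = ⊤ := span_iso (σ := σ) hm2 S (fun z hz => step1 z hz)
      intro s c
      have : c ∈ S := by rw [hS]; trivial
      exact this s
    obtain ⟨z₀, hz₀0, hz₀⟩ := exists_iso (σ := σ) hm2
    obtain ⟨z', hz', hzz'⟩ := exists_hyp hz₀0 hz₀
    have hTz : T z₀ = (stdB σ m z₀ (T z')) • z₀ := by
      have := htv z₀ hz₀ z'
      rw [hzz', mul_one, lin, ← smul_smul] at this
      exact smul_right_injective _ ha0 this
    refine ⟨stdB σ m z₀ (T z'), ?_⟩
    set t₀ := stdB σ m z₀ (T z') with ht₀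
    let K : Submodule F (Fin m → F) :=
      { carrier := {c | T c = t₀ • c}
        add_mem' := by
          intro c c' h h'
          change T (c + c') = t₀ • (c + c')
          rw [hadd, h, h', smul_add]
        zero_mem' := by
          change T 0 = t₀ • 0
          rw [T0, smul_zero]
        smul_mem' := by
          intro b c h
          change T (b • c) = t₀ • (b • c)
          rw [lin, h, smul_comm] }
    have hK : K = ⊤ := by
      apply irr (σ := σ) hm2 K
      · intro h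
        have : z₀ ∈ K := hTz
        rw [h] at this
        exact hz₀0 ((Submodule.mem_bot F).1 this)
      · intro z b x hz hb hx
        change T (x + (b * stdB σ m z x) • z) = t₀ • (x + (b * stdB σ m z x) • z)
        have hx' : T x = t₀ • x := hx
        obtain ⟨h1, h2⟩ := A.rho_tv hz hb x
        obtain ⟨-, h3⟩ := A.rho_tv hz hb (T x)
        have h4 := hcomm _ h1 x
        rw [h2, h3, hx', map_smul, smul_eq_mul] at h4
        rw [h4]
        module
    intro c
    have : c ∈ K := by rw [hK]; trivial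
    exact this

end Frame

end Cfsg.Agent.Lib.Helper4.PSU
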