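import Mathlib
import Cfsg.Agent.Lib.Helper4.PSUi

set_option linter.unusedSimpArgs false
set_option linter.unusedSectionVars false
set_option linter.style.haveILetI false

namespace Cfsg.Agent.Lib.Helper4.PSU

open Cfsg.Agent.Lib.Helper4.UniCount Cfsg.Agent.Lib.Helper4.UniFrame Cfsg.Agent.Lib.Helper4.UniMat
open Cfsg.Agent.Lib.Helper4.UniSU Cfsg.Agent.Lib.Helper4.UniCenter Cfsg.Agent.Lib.Helper4.UniLines
open Matrix

variable {F : Type*} [Field F] [Fintype F] {q : ℕ} {σ : F →+* F} [hc : UC F q σ] {n m : ℕ}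
variable {p : ℕ} [hp : Fact p.Prime] [hch : CharP F p]

include hc hp hch

local notation "⟪" u ", " v "⟫" => stdB σ _ u v
local notation "G" => Cfsg.SU n F q
local notation "Gb" => Cfsg.PSU n F q
local notation "GU'" => Cfsg.GU n F q

namespace Frame

variable (A : Frame σ n m)

theorem semilin (hn : 1 ≤ n) (hm : 1 ≤ m) (hq : ¬ (m = 1 ∧ q = 2)) {β : MulAut Gb} (hβ : A.Std β) :
    ∃ τ : F ≃+* F, ∀ (a : F) (c : Fin m → F), A.Am β (a • c) = τ a • A.Am β c := by
  classical
  have h1 : ∀ a : F, ∃ t : F, ∀ c, A.Am β (a • A.Am β⁻¹ c) = t • c := by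
    intro a
    apply A.cent hm hq
    · intro c c'
      rw [A.Am_add (p := p) hn hm (hβ.inv A), smul_add, A.Am_add (p := p) hn hm hβ]
    · intro l' hl' c
      obtain ⟨l, hl⟩ := QuotientGroup.mk_surjective (β⁻¹ (QuotientGroup.mk l'))
      have e1 : β⁻¹ (QuotientGroup.mk l') = QuotientGroup.mk l := hl.symm
      have e2 : β (QuotientGroup.mk l) = QuotientGroup.mk l' := by rw [hl, MulAut.apply_inv_self]
      have hlP : A.InP l := (A.InP_map (p := p) hn (hβ.inv A) e1).1 hl'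
      rw [A.Am_rho (p := p) hn hm (hβ.inv A) hl' e1, ← A.rho_smul, A.Am_rho (p := p) hn hm hβ hlP e2]
  choose t ht using h1
  have h2 : ∀ a c, A.Am β (a • c) = t a • A.Am β c := by
    intro a c
    have := ht a (A.Am β c)
    rwa [A.Am_inv_left (p := p) hn hm hβ] at this
  let c₀ : Fin m → F := Pi.single ⟨0, hm⟩ 1
  have hc₀ : c₀ ≠ 0 := by
    intro h
    have := congrFun h ⟨0, hm⟩
    simp [c₀] at this
  have hc₁ : A.Am β c₀ ≠ 0 := by
    intro h
    apply hc₀
    apply A.Am_inj (p := p) hn hm hβ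
    rw [h, A.Am_zero (p := p) hn hm hβ]
  have hinj : ∀ x y : F, x • A.Am β c₀ = y • A.Am β c₀ → x = y := fun x y h => smul_left_injective F hc₁ h
  let τ₀ : F →+* F :=
    { toFun := t
      map_one' := by
        apply hinj
        rw [← h2, one_smul, one_smul]
      map_mul' := by
        intro x y
        apply hinj
        rw [← h2, ← smul_smul, h2, h2, smul_smul]
      map_zero' := by
        apply hinj
        rw [← h2, zero_smul, zero_smul, A.Am_zero (p := p) hn hm hβ]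
      map_add' := by
        intro x y
        apply hinj
        rw [← h2, add_smul, A.Am_add (p := p) hn hm hβ, h2, h2, add_smul] }
  exact ⟨RingEquiv.ofBijective τ₀ ⟨τ₀.injective, Finite.injective_iff_surjective.1 τ₀.injective⟩, h2⟩

theorem herm_iff (hn : 1 ≤ n) (hm : 1 ≤ m) {β : MulAut Gb} (hβ : A.Std β) (c c' : Fin m → F) :
    stdB σ m c' c = stdB σ m c c' ↔
      stdB σ m (A.Am β c') (A.Am β c) = stdB σ m (A.Am β c) (A.Am β c') := by
  have h1 := A.Am_comm (p := p) hn hm hβ c c'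
  obtain ⟨b, hb⟩ := A.exists_adm c
  obtain ⟨b', hb'⟩ := A.exists_adm c'
  obtain ⟨b₁, k1, -⟩ := A.Am_spec (p := p) hn hm hβ hb
  obtain ⟨b₂, k2, -⟩ := A.Am_spec (p := p) hn hm hβ hb'
  have a1 := (A.comm_u hb hb').1
  have a2 := (A.comm_u k1 k2).1
  constructor
  · intro h
    rw [h, sub_self, A.u_zero, QuotientGroup.mk_one, map_one, ← QuotientGroup.mk_one, ← A.u_zero] at h1
    exact sub_eq_zero.1 (A.mk_u_inj (p := p) hn A.adm_zero a2 h1).2.symm
  · intro h
    rw [h, sub_self, A.u_zero, QuotientGroup.mk_one] at h1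
    have h2 := (map_eq_one_iff β β.injective).1 h1
    rw [← QuotientGroup.mk_one, ← A.u_zero] at h2
    exact sub_eq_zero.1 (A.mk_u_inj (p := p) hn a1 A.adm_zero h2).2

theorem orth (hn : 1 ≤ n) (hm : 1 ≤ m) {β : MulAut Gb} (hβ : A.Std β) {τ : F ≃+* F}
    (hτ : ∀ (a : F) (c : Fin m → F), A.Am β (a • c) = τ a • A.Am β c) {c c' : Fin m → F}
    (h : stdB σ m c c' = 0) : stdB σ m (A.Am β c) (A.Am β c') = 0 := by
  have h' := B_zero_symm h
  have key : ∀ a : F, σ a * stdB σ m (A.Am β c') (A.Am β c) = a * stdB σ m (A.Am β c) (A.Am β c') := by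
    intro a
    have h1 := (A.herm_iff (p := p) hn hm hβ c (τ.symm a • c')).1
      (by simp only [map_smul, map_smulₛₗ, LinearMap.smul_apply, h, h', smul_zero])
    rw [hτ, RingEquiv.apply_symm_apply] at h1
    simpa only [map_smul, map_smulₛₗ, LinearMap.smul_apply, smul_eq_mul] using h1
  obtain ⟨a, ha⟩ := exists_not_fixed (σ := σ)
  have k1 := key 1
  have k2 := key a
  rw [map_one, one_mul, one_mul] at k1
  rw [k1] at k2
  have : (σ a - a) * stdB σ m (A.Am β c) (A.Am β c') = 0 := by linear_combination k2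
  exact (mul_eq_zero.1 this).resolve_left (sub_ne_zero.2 ha)

theorem gram (hn : 1 ≤ n) (hm : 1 ≤ m) {β : MulAut Gb} (hβ : A.Std β) {τ : F ≃+* F}
    (hτ : ∀ (a : F) (c : Fin m → F), A.Am β (a • c) = τ a • A.Am β c) :
    ∃ h : F, h ≠ 0 ∧ σ h = h ∧ ∀ i j : Fin m,
      stdB σ m (A.Am β (Pi.single i 1)) (A.Am β (Pi.single j 1)) = if i = j then h else 0 := by
  classical
  let i₀ : Fin m := ⟨0, hm⟩
  have hoff : ∀ i j : Fin m, i ≠ j →
      stdB σ m (A.Am β (Pi.single i 1)) (A.Am β (Pi.single j 1)) = 0 := by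
    intro i j hij
    apply A.orth (p := p) hn hm hβ hτ
    rw [B_single_left]
    simp [hij]
  have hdiag : ∀ i j : Fin m, i ≠ j → stdB σ m (A.Am β (Pi.single i 1)) (A.Am β (Pi.single i 1)) =
      stdB σ m (A.Am β (Pi.single j 1)) (A.Am β (Pi.single j 1)) := by
    intro i j hij
    have h1 : stdB σ m (Pi.single i 1 + Pi.single j 1 : Fin m → F) (Pi.single i 1 - Pi.single j 1) = 0 := by
      simp only [map_add, map_sub, LinearMap.add_apply, B_single_left, Pi.single_apply, hij, hij.symm, if_true,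
        if_false]
      simp
    have h2 := A.orth (p := p) hn hm hβ hτ h1
    rw [A.Am_add (p := p) hn hm hβ, A.Am_sub (p := p) hn hm hβ] at h2
    simp only [map_add, map_sub, LinearMap.add_apply, hoff i j hij, hoff j i hij.symm] at h2
    linear_combination h2
  refine ⟨stdB σ m (A.Am β (Pi.single i₀ 1)) (A.Am β (Pi.single i₀ 1)), ?_, self_fixed _, ?_⟩
  · intro h0
    obtain ⟨a, ha⟩ := exists_not_fixed (σ := σ)
    have h1 := (A.herm_iff (p := p) hn hm hβ (Pi.single i₀ 1) (a • Pi.single i₀ 1)).2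
      (by rw [hτ]; simp only [map_smul, map_smulₛₗ, LinearMap.smul_apply, h0, smul_zero])
    simp only [map_smul, map_smulₛₗ, LinearMap.smul_apply, B_single_left, Pi.single_eq_same, map_one, mul_one,
      smul_eq_mul] at h1
    exact ha h1
  · intro i j
    by_cases hij : i = j
    · subst hij
      rw [if_pos rfl]
      by_cases hi : i = i₀
      · rw [hi]
      · exact hdiag i i₀ hi
    · rw [if_neg hij, hoff i j hij]

omit hp hch in
/-- the frame obtained by applying a field automorphism -/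
def tau (hn : n = m + 2) (τ : F ≃+* F) : Frame σ n m :=
  Frame.ofGram hn (τ ∘ A.e) (τ ∘ A.f) (fun i => τ ∘ A.w i)
    (by rw [B_tau, A.ee, map_zero]) (by rw [B_tau, A.ff, map_zero]) (by rw [B_tau, A.ef, map_one])
    (fun i => by rw [B_tau, A.ew, map_zero]) (fun i => by rw [B_tau, A.fw, map_zero])
    (fun i j => by rw [B_tau, A.ww, apply_ite τ, map_one, map_zero])

omit hp hch in
theorem tau_wv (hn : n = m + 2) (τ : F ≃+* F) (c : Fin m → F) : τ ∘ A.wv c = (A.tau hn τ).wv (τ ∘ c) := by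
  unfold wv
  funext k
  simp [tau, Frame.ofGram]

theorem semi_final (hn : n = m + 2) (hm : 1 ≤ m) (hq : ¬ (m = 1 ∧ q = 2)) {β : MulAut Gb} (hβ : A.Std β) :
    ∃ (g : GU') (τ : F ≃+* F), A.Std ((cbar σ g * fbar σ τ)⁻¹ * β) ∧
      ∀ c, A.Am ((cbar σ g * fbar σ τ)⁻¹ * β) c = c := by
  classical
  have hn1 : 1 ≤ n := by omega
  obtain ⟨τ, hτ⟩ := A.semilin (p := p) hn1 hm hq hβ
  obtain ⟨h, h0, hfix, hgram⟩ := A.gram (p := p) hn1 hm hβ hτ
  obtain ⟨ν, hν⟩ := exists_norm (σ := σ) h hfix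
  have hν0 : ν ≠ 0 := by
    rintro rfl
    simp at hν
    exact h0 hν.symm
  have hσν : σ ν ≠ 0 := (map_ne_zero σ).2 hν0
  let A'' : Frame σ n m := Frame.ofGram hn (ν • A.e) ((σ ν)⁻¹ • A.f)
    (fun i => (σ ν)⁻¹ • A.wv (A.Am β (Pi.single i 1)))
    (by simp only [map_smul, map_smulₛₗ, LinearMap.smul_apply, A.ee, smul_zero])
    (by simp only [map_smul, map_smulₛₗ, LinearMap.smul_apply, A.ff, smul_zero])
    (by simp only [map_smul, map_smulₛₗ, LinearMap.smul_apply, A.ef, smul_eq_mul, mul_one]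
        exact inv_mul_cancel₀ hσν)
    (fun i => by simp only [map_smul, map_smulₛₗ, LinearMap.smul_apply, A.e_wv, smul_zero])
    (fun i => by simp only [map_smul, map_smulₛₗ, LinearMap.smul_apply, A.f_wv, smul_zero])
    (fun i j => by
      simp only [map_smul, map_smulₛₗ, LinearMap.smul_apply, A.wv_wv, hgram, smul_eq_mul, map_inv₀, ss]
      split_ifs
      · rw [← hν]; field_simp
      · simp)
  have hA''e : A''.e = ν • A.e := rfl
  have hA''f : A''.f = (σ ν)⁻¹ • A.f := rfl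
  have hA''w : ∀ c, A''.wv (τ ∘ c) = (σ ν)⁻¹ • A.wv (A.Am β c) := by
    intro c
    have h1 : A.Am β c = ∑ i, τ (c i) • A.Am β (Pi.single i 1) := by
      conv_lhs => rw [pi_eq_sum_univ c]
      rw [A.Am_sum (p := p) hn1 hm hβ]
      apply Finset.sum_congr rfl
      intro i _
      rw [← hτ]
      congr 1
      funext k
      simp [Pi.single_apply, eq_comm]
    rw [h1]
    have h2 : A.wv (∑ i, τ (c i) • A.Am β (Pi.single i 1)) = ∑ i, τ (c i) • A.wv (A.Am β (Pi.single i 1)) := by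
      have : ∀ (s : Finset (Fin m)) (f : Fin m → Fin m → F), A.wv (∑ i ∈ s, f i) = ∑ i ∈ s, A.wv (f i) := by
        intro s f
        induction s using Finset.induction_on with
        | empty => simp [A.wv_zero]
        | insert a s ha ih => rw [Finset.sum_insert ha, Finset.sum_insert ha, A.wv_add, ih]
      rw [this]
      simp only [A.wv_smul]
    rw [h2, Finset.smul_sum]
    unfold wv
    apply Finset.sum_congr rfl
    intro i _
    change τ (c i) • ((σ ν)⁻¹ • A.wv (A.Am β (Pi.single i 1))) = _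
    rw [smul_comm]
    rfl
  let g : GU' := witt (A.tau hn τ) A''
  have hge : gact g (τ ∘ A.e) = ν • A.e := witt_e (A.tau hn τ) A''
  have hgf : gact g (τ ∘ A.f) = (σ ν)⁻¹ • A.f := witt_f (A.tau hn τ) A''
  let α₁ : MulAut Gb := cbar σ g * fbar σ τ
  have hα₁ : A.Std α₁ := by
    constructor
    · intro y
      rw [MulAut.mul_apply, fbar_mem_Xb τ, cbar_mem_Xb g]
      rw [Xb_smul (v := A.eI) (v' := Iso.gmv g (Iso.tmv τ A.eI)) hge]
    · intro y
      rw [MulAut.mul_apply, fbar_mem_Xb τ, cbar_mem_Xb g]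
      rw [Xb_smul (v := A.fI) (v' := Iso.gmv g (Iso.tmv τ A.fI)) hgf]
  have hAm : ∀ c, A.Am α₁ c = A.Am β c := by
    intro c
    obtain ⟨b, hb⟩ := A.exists_adm c
    have h1 := ((A.Adm_of hb).tau τ).gact g
    rw [hge, A.tau_wv hn, witt_wv, hA''w] at h1
    have h2 := h1.scale hν0
    have h3 := sg_scale h1 hν0
    rw [smul_smul, mul_inv_cancel₀ hσν, one_smul] at h2 h3
    apply A.Am_unique (p := p) hn1 hm hα₁ hb (b' := σ ν * ν * τ b)
    · have := h2.2.2
      rwa [A.wv_wv] at this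
    · rw [MulAut.mul_apply]
      unfold u
      rw [fbar_mk, fSU_sg (A.Adm_of hb), cbar_mk, conjSU_sg ((A.Adm_of hb).tau τ), hge, A.tau_wv hn, witt_wv,
        hA''w, h3]
  refine ⟨g, τ, (hα₁.inv A).mul A hβ, fun c => ?_⟩
  rw [A.Am_mul (p := p) hn1 hm (hα₁.inv A) hβ, ← hAm, A.Am_inv_left (p := p) hn1 hm hα₁]

end Frame

end Cfsg.Agent.Lib.Helper4.PSU
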