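import Mathlib
import Cfsg.Agent.Lib.Helper4.PSUj

set_option linter.unusedSimpArgs false
set_option linter.unusedSectionVars false
set_option linter.style.haveILetI false

namespace Cfsg.Agent.Lib.Helper4.PSU

open Cfsg.Agent.Lib.Helper4.UniCount Cfsg.Agent.Lib.Helper4.UniFrame Cfsg.Agent.Lib.Helper4.UniMat
open Cfsg.Agent.Lib.Helper4.UniSU Cfsg.Agent.Lib.Helper4.UniCenter Cfsg.Agent.Lib.Helper4.UniLines
open Matrix

variable {F : Type*} [Field F] [Fintype F] {q : ℕ} {σ : F →+* F} [hc : UC F q σ] {n m : ℕ}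
variable {p : ℕ} [hp : Fact p.Prime] [hch : CharP F p]

include hc hp hch

local notation "⟪" u ", " v "⟫" => stdB σ _ u v
local notation "G" => Cfsg.SU n F q
local notation "Gb" => Cfsg.PSU n F q
local notation "GU'" => Cfsg.GU n F q

omit hp hch in
theorem conj_transfer (β : MulAut Gb) {v v' w w' : Iso σ n} (h1 : ∀ y, y ∈ Xb v ↔ β y ∈ Xb v')
    (h2 : ∀ y, y ∈ Xb w ↔ β y ∈ Xb w') {g g' : G} (e : β (QuotientGroup.mk g) = QuotientGroup.mk g')
    (hgw : Xb (Iso.mv g v) = Xb w) : Xb (Iso.mv g' v') ≤ Xb w' := by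
  intro z hz
  have hy : (QuotientGroup.mk g' : Gb)⁻¹ * z * QuotientGroup.mk g' ∈ Xb v' := by
    rw [conj_mem_Xb g' v']
    convert hz using 1
    group
  have hy₀ : β⁻¹ ((QuotientGroup.mk g' : Gb)⁻¹ * z * QuotientGroup.mk g') ∈ Xb v := by
    rw [h1, MulAut.apply_inv_self]; exact hy
  have h3 := (conj_mem_Xb g v _).1 hy₀
  rw [hgw, h2, map_mul, map_mul, MulAut.apply_inv_self, map_inv, e] at h3
  convert h3 using 1
  group

namespace Frame

variable (A : Frame σ n m)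

omit hp hch in
/-- the frame with `e` and `f` exchanged -/
def swap : Frame σ n m :=
  ⟨A.f, A.e, A.w, A.ff, A.ee, A.fe, A.fw, A.ew, A.ww, fun x => by
    conv_lhs => rw [A.exp x]
    rw [add_comm (_ • A.e)]⟩

omit hp hch in
theorem Std.swap {β : MulAut Gb} (h : A.Std β) : A.swap.Std β := ⟨h.2, h.1⟩

theorem R1 (hn : 1 ≤ n) (hm : 1 ≤ m) {β : MulAut Gb} (hβ : A.Std β) (hid : ∀ c, A.Am β c = c) {d : F}
    (hd : A.adm 0 d) : β (QuotientGroup.mk (A.u 0 d)) = QuotientGroup.mk (A.u 0 d) := by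
  classical
  obtain ⟨l, hl⟩ := skew_eq (σ := σ) d ((adm0_iff A d).1 hd)
  have h1 := A.Am_comm (p := p) hn hm hβ (Pi.single ⟨0, hm⟩ 1) (l • Pi.single ⟨0, hm⟩ 1)
  rw [hid, hid] at h1
  simp only [map_smul, map_smulₛₗ, LinearMap.smul_apply, B_single_left, Pi.single_eq_same, map_one, mul_one,
    smul_eq_mul] at h1
  rw [hl]
  exact h1

theorem levi_fix (hn : 1 ≤ n) (hm : 1 ≤ m) {β : MulAut Gb} (hβ : A.Std β) (hid : ∀ c, A.Am β c = c) {l : G}
    (he : A.InP l) (hf : A.swap.InP l) : β (QuotientGroup.mk l) = QuotientGroup.mk l := by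
  obtain ⟨l', hl'⟩ := QuotientGroup.mk_surjective (β (QuotientGroup.mk l))
  have e : β (QuotientGroup.mk l) = QuotientGroup.mk l' := hl'.symm
  have he' : A.InP l' := (A.InP_map (p := p) hn hβ e).1 he
  have hf' : A.swap.InP l' := (A.swap.InP_map (p := p) hn (hβ.swap A) e).1 hf
  have hρ : ∀ c, A.rho l c = A.rho l' c := by
    intro c
    have := A.Am_rho (p := p) hn hm hβ he e c
    rwa [hid, hid] at this
  have hρt : ∀ c, A.rho (l⁻¹ * l') c = c := by
    intro c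
    rw [A.rho_mul (p := p) hn (he.inv A) he', ← hρ, ← A.rho_mul (p := p) hn (he.inv A) he, inv_mul_cancel,
      A.rho_one]
  obtain ⟨κ, hκ⟩ := (he.inv A).mul A he'
  obtain ⟨κ', hκ'⟩ := (hf.inv A.swap).mul A.swap hf'
  change act (l⁻¹ * l') A.f = κ' • A.f at hκ'
  have hκ0 := InP.ne_zero A hκ
  obtain ⟨c₀, b₀, h0, h1⟩ := A.param' hm hκ hρt
  have h2 := h1 A.f
  rw [hκ', A.u_f h0] at h2
  have h3 : c₀ = 0 := by
    have := congrArg A.co h2
    simp only [A.co_add, A.co_smul, A.co_f, A.co_e, A.co_wv, smul_zero, zero_add, add_zero] at this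
    exact (smul_eq_zero.1 this.symm).resolve_left hκ0
  have h4 : b₀ = 0 := by
    have := congrArg (stdB σ n A.f) h2
    simp only [map_add, map_smul, A.ff, A.f_wv, A.fe, smul_eq_mul, mul_zero, zero_add, mul_one] at this
    exact (mul_eq_zero.1 this.symm).resolve_left hκ0
  subst h3 h4
  rw [e]
  symm
  rw [QuotientGroup.eq]
  apply scalar_center _ κ
  intro x
  rw [h1, A.u_zero, act_one]

theorem R3_aux (hn : 1 ≤ n) (hm : 1 ≤ m) {β : MulAut Gb} (hβ : A.Std β) (hid : ∀ c, A.Am β c = c) {l : G}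
    {κ κ' : F} (he : act l A.e = κ • A.e) (hf : act l A.f = κ' • A.f) (hN : σ κ * κ = 1) (d : Fin m → F)
    (hd : ∀ k, d k ≠ 1) (hρ : ∀ c, A.rho l c = fun k => d k * c k) {c'' : Fin m → F} {b'' : F}
    (h'' : A.adm c'' b'') : β (QuotientGroup.mk (A.u c'' b'')) = QuotientGroup.mk (A.u c'' b'') := by
  have hκ0 := InP.ne_zero A he
  have hl := A.levi_fix (p := p) hn hm hβ hid (l := l) ⟨κ, he⟩ ⟨κ', hf⟩
  let c : Fin m → F := fun k => c'' k / (d k - 1)
  have hc : A.rho l c + -c = c'' := by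
    rw [hρ]
    funext k
    have : d k - 1 ≠ 0 := sub_ne_zero.2 (hd k)
    simp only [c, Pi.add_apply, Pi.neg_apply]
    field_simp
    ring
  obtain ⟨b, hb⟩ := A.exists_adm c
  obtain ⟨b₁, hb₁, e1⟩ := A.Am_spec (p := p) hn hm hβ hb
  rw [hid] at hb₁ e1
  obtain ⟨k1, k2⟩ := A.conj_u_levi hκ0 he hf hb
  obtain ⟨k3, k4⟩ := A.conj_u_levi hκ0 he hf hb₁
  rw [hN, one_mul] at k1 k2 k3 k4
  have e2 : β (QuotientGroup.mk (A.u (A.rho l c) b)) = QuotientGroup.mk (A.u (A.rho l c) b₁) := by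
    rw [← k2, ← k4, QuotientGroup.mk_mul, QuotientGroup.mk_mul, QuotientGroup.mk_inv, map_mul, map_mul, map_inv,
      hl, e1]
    rfl
  have e3 : A.u (A.rho l c) b * (A.u c b)⁻¹ = A.u (A.rho l c) b₁ * (A.u c b₁)⁻¹ := by
    rw [A.u_inv hb, A.u_inv hb₁, A.u_mul k1 (A.adm_inv hb), A.u_mul k3 (A.adm_inv hb₁)]
    congr 1
    unfold adm at hb hb₁
    linear_combination hb - hb₁
  have e4 : β (QuotientGroup.mk (A.u (A.rho l c) b * (A.u c b)⁻¹)) =
      QuotientGroup.mk (A.u (A.rho l c) b * (A.u c b)⁻¹) := by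
    conv_rhs => rw [e3]
    rw [QuotientGroup.mk_mul, QuotientGroup.mk_inv, map_mul, map_inv, e1, e2]
    rfl
  rw [A.u_inv hb, A.u_mul k1 (A.adm_inv hb), hc] at e4
  have k5 := A.adm_mul k1 (A.adm_inv hb)
  rw [hc] at k5
  obtain ⟨k6, k7⟩ := A.u_split h'' k5
  rw [k7, QuotientGroup.mk_mul, map_mul, e4, A.R1 (p := p) hn hm hβ hid k6]

theorem R3 (hn : 1 ≤ n) (hm : 1 ≤ m) (hq : ¬ (m = 1 ∧ q = 2)) {β : MulAut Gb} (hβ : A.Std β)
    (hid : ∀ c, A.Am β c = c) {c : Fin m → F} {b : F} (h : A.adm c b) :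
    β (QuotientGroup.mk (A.u c b)) = QuotientGroup.mk (A.u c b) := by
  classical
  rcases Nat.lt_or_ge m 2 with hm2 | hm2
  · obtain rfl : m = 1 := by omega
    have hq' : q ≠ 2 := fun h => hq ⟨rfl, h⟩
    obtain ⟨κ, hN, hκ3⟩ := exists_unit3 (σ := σ) hq'
    have hκ0 : κ ≠ 0 := by
      rintro rfl
      simp at hN
    have hσκ : σ κ = κ⁻¹ := by
      field_simp
      exact hN
    apply A.R3_aux (p := p) hn hm hβ hid (A.tor1_e 0 hκ0) (A.tor1_f 0 hκ0) hN (fun _ => κ⁻¹ ^ 3) ?_ ?_ h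
    · intro _ h1
      apply hκ3
      rw [inv_pow] at h1
      exact inv_eq_one.1 h1
    · intro c
      rw [A.tor1_rho 0 hκ0, hσκ]
      funext k
      rw [Subsingleton.elim k 0]
      simp only [Pi.smul_apply, Pi.add_apply, Pi.single_eq_same, smul_eq_mul]
      ring
  · obtain ⟨κ, hN, hκ2⟩ := exists_unit2 (σ := σ)
    have hκ0 : κ ≠ 0 := by
      rintro rfl
      simp at hN
    have hσκ : σ κ = κ⁻¹ := by
      field_simp
      exact hN
    have hκ1 : κ ≠ 1 := by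
      rintro rfl
      simp at hκ2
    let i : Fin m := ⟨0, by omega⟩
    let j : Fin m := ⟨1, by omega⟩
    have hij : i ≠ j := by
      intro h
      simpa [i, j] using congrArg Fin.val h
    apply A.R3_aux (p := p) hn hm hβ hid (A.tor3_e i j hN) (A.tor3_f i j hN) hN
      (fun k => if k = i ∨ k = j then κ⁻¹ ^ 2 else κ⁻¹) ?_ ?_ h
    · intro k
      split_ifs
      · intro h1
        apply hκ2
        rw [inv_pow] at h1
        exact inv_eq_one.1 h1
      · intro h1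
        exact hκ1 (inv_eq_one.1 h1)
    · intro c
      rw [A.tor3_rho hij hN, hσκ]
      funext k
      simp only [Pi.smul_apply, Pi.add_apply, Pi.single_apply, smul_eq_mul]
      by_cases hki : k = i
      · subst hki
        simp [hij]
        ring
      · by_cases hkj : k = j
        · subst hkj
          simp [hki]
          ring
        · simp [hki, hkj]

end Frame

end Cfsg.Agent.Lib.Helper4.PSU
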