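import Mathlib
import Cfsg.Agent.Lib.Helper4.PSUk

set_option linter.unusedSimpArgs false
set_option linter.unusedSectionVars false
set_option linter.style.haveILetI false

namespace Cfsg.Agent.Lib.Helper4.PSU

open Cfsg.Agent.Lib.Helper4.UniCount Cfsg.Agent.Lib.Helper4.UniFrame Cfsg.Agent.Lib.Helper4.UniMat
open Cfsg.Agent.Lib.Helper4.UniSU Cfsg.Agent.Lib.Helper4.UniCenter Cfsg.Agent.Lib.Helper4.UniLines
open Matrix

variable {F : Type*} [Field F] [Fintype F] {q : ℕ} {σ : F →+* F} [hc : UC F q σ] {n m : ℕ}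
variable {p : ℕ} [hp : Fact p.Prime] [hch : CharP F p]

include hc hp hch

local notation "⟪" u ", " v "⟫" => stdB σ _ u v
local notation "G" => Cfsg.SU n F q
local notation "Gb" => Cfsg.PSU n F q
local notation "GU'" => Cfsg.GU n F q

namespace Frame

variable (A : Frame σ n m)

omit hp hch in
include A in
theorem scalar_of_fix_iso {t : G} (h : ∀ v : Iso σ n, ∃ c : F, act t v.1 = c • v.1) :
    ∃ μ : F, ∀ x, act t x = μ • x := by
  obtain ⟨l, hl⟩ := h A.eI
  obtain ⟨μ, hμ⟩ := h A.fI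
  change act t A.e = l • A.e at hl
  change act t A.f = μ • A.f at hμ
  have hl0 := InP.ne_zero A hl
  have key : ∀ (c : Fin m → F) (b : F), A.adm c b →
      ∃ ν : F, μ • A.f + act t (A.wv c) + (b * l) • A.e = ν • (A.f + A.wv c + b • A.e) := by
    intro c b hb
    have hv : act (A.u c b) A.f = A.f + A.wv c + b • A.e := A.u_f hb
    obtain ⟨ν, hν⟩ := h (Iso.mv (A.u c b) A.fI)
    change act t (act (A.u c b) A.f) = ν • act (A.u c b) A.f at hν
    rw [hv, act_add, act_add, act_smul, hl, hμ, smul_smul] at hν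
    exact ⟨ν, hν⟩
  have hew : ∀ c, ⟪A.e, act t (A.wv c)⟫ = 0 := by
    intro c
    have := B_act (σ := σ) t A.e (A.wv c)
    rw [hl, A.e_wv, map_smulₛₗ, LinearMap.smul_apply, smul_eq_mul] at this
    exact (mul_eq_zero.1 this).resolve_left ((map_ne_zero σ).2 hl0)
  have hlμ : l = μ := by
    obtain ⟨b, hb0, hb⟩ := exists_skew (σ := σ)
    obtain ⟨ν, hν⟩ := key 0 b ((adm0_iff A b).2 hb)
    rw [A.wv_zero, act_zero, add_zero, add_zero] at hν
    have h1 := congrArg (stdB σ n A.e) hν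
    have h2 := congrArg (stdB σ n A.f) hν
    simp only [map_add, map_smul, A.ee, A.ef, A.ff, A.fe, smul_eq_mul, mul_zero, mul_one, add_zero, zero_add]
      at h1 h2
    rw [← h1] at h2
    have : b * (l - μ) = 0 := by linear_combination h2
    exact sub_eq_zero.1 ((mul_eq_zero.1 this).resolve_left hb0)
  subst hlμ
  refine ⟨l, fun x => ?_⟩
  have := A.act_eq_of (g := t) (h := 1) (κ := l) (by rw [act_one, hl]) (by rw [act_one, hμ]) (fun c => ?_) x
  · rwa [act_one] at this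
  · rw [act_one]
    obtain ⟨b, hb⟩ := A.exists_adm c
    obtain ⟨ν, hν⟩ := key c b hb
    have h1 := congrArg (stdB σ n A.e) hν
    simp only [map_add, map_smul, A.ee, A.ef, A.e_wv, hew, smul_eq_mul, mul_zero, mul_one, add_zero] at h1
    rw [← h1] at hν
    have h2 : act t (A.wv c) = l • (A.f + A.wv c + b • A.e) - l • A.f - (b * l) • A.e := by
      rw [← hν]; abel
    rw [h2]
    module

/-- the Weyl element -/
noncomputable def nn (a b : F) : G := sg σ A.e 0 a * sg σ A.f 0 b * sg σ A.e 0 a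

omit hp hch in
theorem nn_e {a b : F} (ha : σ a + a = 0) (hb : σ b + b = 0) :
    act (A.nn a b) A.e = (1 + a * b) • A.e + b • A.f := by
  unfold nn
  have s1 : act (sg σ A.e 0 a) A.e = A.e := by rw [act_tv A.ee ha, A.ee]; simp
  have s2 : act (sg σ A.f 0 b) A.e = A.e + b • A.f := by rw [act_tv A.ff hb, A.fe, mul_one]
  rw [act_mul, act_mul, s1, s2, act_tv A.ee ha]
  simp only [map_add, map_smul, A.ee, A.ef, smul_eq_mul, mul_one, zero_add]
  module

omit hp hch in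
theorem nn_f {a b : F} (ha : σ a + a = 0) (hb : σ b + b = 0) (hab : a * b = -1) :
    act (A.nn a b) A.f = a • A.e := by
  unfold nn
  have h1 : b * a = -1 := by rw [mul_comm]; exact hab
  have s0 : act (sg σ A.e 0 a) A.e = A.e := by rw [act_tv A.ee ha, A.ee]; simp
  have s1 : act (sg σ A.e 0 a) A.f = A.f + a • A.e := by rw [act_tv A.ee ha, A.ef, mul_one]
  have s2 : act (sg σ A.f 0 b) (A.f + a • A.e) = a • A.e := by
    rw [act_tv A.ff hb]
    simp only [map_add, map_smul, A.ff, A.fe, smul_eq_mul, mul_one, zero_add, h1]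
    module
  rw [act_mul, act_mul, s1, s2, act_smul, s0]

theorem R4 (hn : 1 ≤ n) (hm : 1 ≤ m) {β : MulAut Gb} (hβ : A.Std β) (hid : ∀ c, A.Am β c = c) {a b : F}
    (ha : σ a + a = 0) (hb : σ b + b = 0) (hab : a * b = -1) :
    β (QuotientGroup.mk (A.nn a b)) = QuotientGroup.mk (A.nn a b) := by
  have ha0 : a ≠ 0 := by
    rintro rfl
    simp at hab
  have h1 : β (QuotientGroup.mk (sg σ A.e 0 a)) = QuotientGroup.mk (sg σ A.e 0 a) := by
    have := A.R1 (p := p) hn hm hβ hid ((adm0_iff A a).2 ha)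
    rwa [u0_eq] at this
  obtain ⟨b', hb', e⟩ := mem_Xb.1 ((hβ.2 _).1 (mem_Xb.2 ⟨b, hb, rfl⟩))
  change β (QuotientGroup.mk (sg σ A.f 0 b)) = QuotientGroup.mk (sg σ A.f 0 b') at e
  have e2 : β (QuotientGroup.mk (A.nn a b)) = QuotientGroup.mk (A.nn a b') := by
    unfold nn
    rw [QuotientGroup.mk_mul, QuotientGroup.mk_mul, map_mul, map_mul, h1, e]
    rfl
  have h2 : Xb (Iso.mv (A.nn a b) A.eI) = Xb A.fI := by
    apply Xb_smul (c := b)
    change act (A.nn a b) A.e = b • A.f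
    rw [A.nn_e ha hb, hab]
    simp
  obtain ⟨c, hc'⟩ := par_of_Xb_le (p := p) hn (conj_transfer β hβ.1 hβ.2 e2 h2)
  change act (A.nn a b') A.e = c • A.f at hc'
  rw [A.nn_e ha hb'] at hc'
  have h3 := congrArg (stdB σ n A.f) hc'
  simp only [map_add, map_smul, A.ff, A.fe, smul_eq_mul, mul_one, mul_zero, add_zero] at h3
  have h4 : b' = b := by
    have : a * (b' - b) = 0 := by linear_combination h3 - hab
    exact sub_eq_zero.1 ((mul_eq_zero.1 this).resolve_left ha0)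
  rw [e2, h4]

theorem reach (hn : 1 ≤ n) (hm : 1 ≤ m) (hq : ¬ (m = 1 ∧ q = 2)) {β : MulAut Gb} (hβ : A.Std β)
    (hid : ∀ c, A.Am β c = c) (v : Iso σ n) :
    ∃ h : G, β (QuotientGroup.mk h) = QuotientGroup.mk h ∧ ∃ c : F, v.1 = c • act h A.e := by
  obtain ⟨a, ha0, ha⟩ := exists_skew (σ := σ)
  have hb : σ (-a⁻¹) + -a⁻¹ = 0 := by
    have h1 : σ a = -a := by linear_combination ha
    rw [map_neg, map_inv₀, h1]
    field_simp
    ring
  have hab : a * -a⁻¹ = -1 := by field_simp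
  have hb0 : -a⁻¹ ≠ 0 := neg_ne_zero.2 (inv_ne_zero ha0)
  set b := -a⁻¹ with hbdef
  have hn0 := A.R4 (p := p) hn hm hβ hid ha hb hab
  have hne : act (A.nn a b) A.e = b • A.f := by
    rw [A.nn_e ha hb, hab]; simp
  have hnf := A.nn_f ha hb hab
  have fixmul : ∀ h h' : G, β (QuotientGroup.mk h) = QuotientGroup.mk h →
      β (QuotientGroup.mk h') = QuotientGroup.mk h' → β (QuotientGroup.mk (h * h')) = QuotientGroup.mk (h * h') := by
    intro h h' e e'
    rw [QuotientGroup.mk_mul, map_mul, e, e']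
  have fixinv : ∀ h : G, β (QuotientGroup.mk h) = QuotientGroup.mk h →
      β (QuotientGroup.mk h⁻¹) = QuotientGroup.mk h⁻¹ := by
    intro h e
    rw [QuotientGroup.mk_inv, map_inv, e]
  -- case 1
  have case1 : ∀ v : Fin n → F, ⟪v, v⟫ = 0 → ⟪A.e, v⟫ ≠ 0 →
      ∃ h : G, β (QuotientGroup.mk h) = QuotientGroup.mk h ∧ ∃ c : F, v = c • act h A.e := by
    intro v hv hev
    set v' := (⟪A.e, v⟫)⁻¹ • v with hv'
    have h1 : ⟪A.e, v'⟫ = 1 := by rw [hv', map_smul, smul_eq_mul, inv_mul_cancel₀ hev]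
    have h2 : ⟪v', v'⟫ = 0 := by
      rw [hv']; simp only [map_smul, map_smulₛₗ, LinearMap.smul_apply, hv, smul_zero]
    have hadm : A.adm (A.co v') ⟪A.f, v'⟫ := by
      unfold adm
      have := A.B_exp v' v'
      rw [h2, h1, B_one_symm h1, ← sym (σ := σ) A.f v'] at this
      linear_combination -this
    have h3 : v' = act (A.u (A.co v') ⟪A.f, v'⟫) A.f := by
      rw [A.u_f hadm]
      conv_lhs => rw [A.exp' v', h1, one_smul]
      abel
    refine ⟨A.u (A.co v') ⟪A.f, v'⟫ * A.nn a b, fixmul _ _ (A.R3 (p := p) hn hm hq hβ hid hadm) hn0,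
      ⟪A.e, v⟫ * b⁻¹, ?_⟩
    rw [act_mul, hne, act_smul, ← h3, smul_smul, mul_assoc, inv_mul_cancel₀ hb0, mul_one, hv', smul_smul,
      mul_inv_cancel₀ hev, one_smul]
  -- case 2
  have case2 : ∀ v : Fin n → F, ⟪v, v⟫ = 0 → ⟪A.f, v⟫ ≠ 0 →
      ∃ h : G, β (QuotientGroup.mk h) = QuotientGroup.mk h ∧ ∃ c : F, v = c • act h A.e := by
    intro v hv hfv
    have h1 : ⟪A.e, act (A.nn a b) v⟫ ≠ 0 := by
      have h2 := B_act (σ := σ) (A.nn a b) A.f v
      rw [hnf, map_smulₛₗ, LinearMap.smul_apply, smul_eq_mul] at h2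
      intro h3
      rw [h3, mul_zero] at h2
      exact hfv h2.symm
    obtain ⟨h, hh, c, hc'⟩ := case1 (act (A.nn a b) v) (by rw [B_act, hv]) h1
    refine ⟨(A.nn a b)⁻¹ * h, fixmul _ _ (fixinv _ hn0) hh, c, ?_⟩
    rw [act_mul, ← act_smul, ← hc', act_inv_act]
  by_cases h1 : ⟪A.e, v.1⟫ = 0
  · by_cases h2 : ⟪A.f, v.1⟫ = 0
    · have h3 := A.eq_wv_of h1 h2
      have h4 : A.co v.1 ≠ 0 := by
        intro h
        rw [h, A.wv_zero] at h3
        exact v.2.1 h3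
      obtain ⟨c, hc'⟩ : ∃ c, stdB σ m c (A.co v.1) ≠ 0 := by
        by_contra hcon
        push Not at hcon
        exact h4 (eq_zero_of_B (σ := σ) _ hcon)
      obtain ⟨b', hb'⟩ := A.exists_adm c
      have h5 : act (A.u c b') v.1 = v.1 - stdB σ m c (A.co v.1) • A.e := by
        conv_lhs => rw [h3]
        rw [A.u_wv hb', ← h3]
      obtain ⟨h, hh, c', hc''⟩ := case2 (act (A.u c b') v.1) (by rw [B_act, v.2.2]) (by
        rw [h5, map_sub, map_smul, h2, A.fe, smul_eq_mul, mul_one, zero_sub]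
        exact neg_ne_zero.2 hc')
      refine ⟨(A.u c b')⁻¹ * h, fixmul _ _ (fixinv _ (A.R3 (p := p) hn hm hq hβ hid hb')) hh, c', ?_⟩
      rw [act_mul, ← act_smul, ← hc'', act_inv_act]
    · exact case2 v.1 v.2.2 h2
  · exact case1 v.1 v.2.2 h1

theorem rigid (hn : 1 ≤ n) (hm : 1 ≤ m) (hq : ¬ (m = 1 ∧ q = 2)) {β : MulAut Gb} (hβ : A.Std β)
    (hid : ∀ c, A.Am β c = c) : β = 1 := by
  have R6 : ∀ (v : Iso σ n) (y : Gb), y ∈ Xb v ↔ β y ∈ Xb v := by
    intro v y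
    obtain ⟨h, hh, c, hc'⟩ := A.reach (p := p) hn hm hq hβ hid v
    have h1 : Xb v = Xb (Iso.mv h A.eI) := Xb_smul (v := Iso.mv h A.eI) (v' := v) hc'
    rw [h1, conj_mem_Xb h⁻¹, conj_mem_Xb h⁻¹ _ (β y), Iso.mv_mv, inv_mul_cancel, Iso.mv_one, hβ.1, map_mul,
      map_mul, map_inv, QuotientGroup.mk_inv, map_inv, hh]
  ext y
  obtain ⟨g, rfl⟩ := QuotientGroup.mk_surjective y
  obtain ⟨g', hg'⟩ := QuotientGroup.mk_surjective (β (QuotientGroup.mk g))
  have e : β (QuotientGroup.mk g) = QuotientGroup.mk g' := hg'.symm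
  have h1 : ∀ v : Iso σ n, ∃ c : F, act (g⁻¹ * g') v.1 = c • v.1 := by
    intro v
    obtain ⟨c, hc'⟩ := par_of_Xb_le (p := p) hn (conj_transfer β (R6 v) (R6 (Iso.mv g v)) e rfl)
    change act g' v.1 = c • act g v.1 at hc'
    exact ⟨c, by rw [act_mul, hc', act_smul, act_inv_act]⟩
  obtain ⟨μ, hμ⟩ := A.scalar_of_fix_iso h1
  rw [MulAut.one_apply, e]
  symm
  rw [QuotientGroup.eq]
  exact scalar_center _ μ hμ

end Frame

/-- every automorphism of `PSU_n(q)` is induced by a semilinear unitary map. -/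
theorem aut_eq (hn : 3 ≤ n) (hq : ¬ (n = 3 ∧ q = 2)) (α : MulAut Gb) :
    ∃ (g : GU') (τ : F ≃+* F), α = cbar σ g * fbar σ τ := by
  obtain ⟨m, rfl⟩ : ∃ m, n = m + 2 := ⟨n - 2, by omega⟩
  have hm : 1 ≤ m := by omega
  have hq' : ¬ (m = 1 ∧ q = 2) := fun h => hq ⟨by omega, h.2⟩
  obtain ⟨z, hz0, hz⟩ := exists_iso (σ := σ) (m := m + 2) (by omega)
  obtain ⟨f, hf, hef⟩ := exists_hyp hz0 hz
  obtain ⟨A, -, -⟩ := exists_frame (m := m) rfl z f hz hf hef
  obtain ⟨g₀, hg₀⟩ := A.normalize (p := p) rfl hm α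
  obtain ⟨g, τ, h1, h2⟩ := A.semi_final (p := p) rfl hm hq' hg₀
  have h3 := A.rigid (p := p) (by omega) hm hq' h1 h2
  refine ⟨g₀⁻¹ * g, τ, ?_⟩
  rw [map_mul, map_inv]
  have h4 : cbar σ g₀ * α = cbar σ g * fbar σ τ := by
    have := congrArg (fun x => (cbar σ g * fbar σ τ) * x) h3
    simpa [mul_assoc] using this
  rw [mul_assoc, ← h4]
  group

end Cfsg.Agent.Lib.Helper4.PSU
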