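import Mathlib
import Cfsg.Agent.Lib.Helper4.PSUl

set_option linter.unusedSimpArgs false
set_option linter.unusedSectionVars false
set_option linter.style.haveILetI false

namespace Cfsg.Agent.Lib.Helper4.PSU

open Cfsg.Agent.Lib.Helper4.UniCount Cfsg.Agent.Lib.Helper4.UniFrame Cfsg.Agent.Lib.Helper4.UniMat
open Cfsg.Agent.Lib.Helper4.UniSU Cfsg.Agent.Lib.Helper4.UniCenter Cfsg.Agent.Lib.Helper4.UniLines
open Matrix

theorem charP_of {F : Type*} [Field F] [Fintype F] {p f q : ℕ} [hp : Fact p.Prime] (hq : q = p ^ f)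
    (hF : Fintype.card F = q ^ 2) : CharP F p := by
  obtain ⟨p', hp'⟩ := CharP.exists F
  obtain ⟨k, hpp, hk⟩ := FiniteField.card F p'
  have h1 : p' ∣ p ^ (f * 2) := by
    rw [pow_mul, ← hq, ← hF, hk]
    exact dvd_pow_self p' k.ne_zero
  have h2 : p' = p := (Nat.prime_dvd_prime_iff_eq hpp hp.out).1 (hpp.dvd_of_dvd_pow h1)
  rw [← h2]
  exact hp'

variable {F : Type*} [Field F] [Fintype F] {q : ℕ} {σ : F →+* F} [hc : UC F q σ] {n m : ℕ}

include hc

local notation "G" => Cfsg.SU n F q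
local notation "Gb" => Cfsg.PSU n F q
local notation "GU'" => Cfsg.GU n F q

theorem isInnerDiag_cbar (g : GU') : Cfsg.IsInnerDiagonalAutPSU (cbar σ g) := by
  refine ⟨g.1, g.2, fun s s' h => ?_⟩
  rw [cbar_mk]
  congr 1
  apply Subtype.ext
  apply Subtype.ext
  rw [conjSU_val]
  exact h.symm

theorem isFieldAut_fbar (τ : F ≃+* F) : Cfsg.IsFieldAutPSUOf τ (fbar σ τ : MulAut Gb) := by
  intro s s' h
  rw [fbar_mk]
  congr 1
  apply Subtype.ext
  apply Subtype.ext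
  rw [fSU_val]
  exact h.symm

theorem isInduced (g : GU') (τ : F ≃+* F) : Cfsg.IsInducedBySemilinearPSU g.1 τ (cbar σ g * fbar σ τ) := by
  intro s s' h
  rw [MulAut.mul_apply, fbar_mk, cbar_mk]
  congr 1
  apply Subtype.ext
  apply Subtype.ext
  rw [conjSU_val, fSU_val]
  exact h.symm

/-- uniqueness: an inner-diagonal automorphism is a `cbar`. -/
theorem eq_cbar_of {β : MulAut Gb} (h : Cfsg.IsInnerDiagonalAutPSU β) : ∃ g : GU', β = cbar σ g := by
  obtain ⟨g, hg, h⟩ := h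
  refine ⟨⟨g, hg⟩, ?_⟩
  ext y
  obtain ⟨s, rfl⟩ := QuotientGroup.mk_surjective y
  rw [cbar_mk]
  exact h s _ (conjSU_val (σ := σ) ⟨g, hg⟩ s)

theorem eq_fbar_of {β : MulAut Gb} {τ : F ≃+* F} (h : Cfsg.IsFieldAutPSUOf τ β) : β = fbar σ τ := by
  ext y
  obtain ⟨s, rfl⟩ := QuotientGroup.mk_surjective y
  rw [fbar_mk]
  exact h s _ (fSU_val (σ := σ) τ s)

end Cfsg.Agent.Lib.Helper4.PSU
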