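import Mathlib
import Cfsg.Agent.Lib.Helper4.PSUm

set_option linter.unusedSimpArgs false
set_option linter.unusedSectionVars false
set_option linter.style.haveILetI false

namespace Cfsg.Agent.Lib.Helper4.PSU

open Cfsg.Agent.Lib.Helper4.UniCount Cfsg.Agent.Lib.Helper4.UniFrame Cfsg.Agent.Lib.Helper4.UniMat
open Cfsg.Agent.Lib.Helper4.UniSU Cfsg.Agent.Lib.Helper4.UniCenter Cfsg.Agent.Lib.Helper4.UniLines
open Matrix

variable {F : Type*} [Field F] [Fintype F] {q : ℕ} {σ : F →+* F} [hc : UC F q σ] {n m : ℕ}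

include hc

local notation "⟪" u ", " v "⟫" => stdB σ _ u v
local notation "G" => Cfsg.SU n F q
local notation "Gb" => Cfsg.PSU n F q
local notation "GU'" => Cfsg.GU n F q

theorem fbar_mul (τ τ' : RingAut F) : (fbar σ (τ * τ') : MulAut Gb) = fbar σ τ * fbar σ τ' := by
  ext x
  obtain ⟨g, rfl⟩ := QuotientGroup.mk_surjective x
  rfl

theorem fbar_one : (fbar σ (1 : RingAut F) : MulAut Gb) = 1 := by
  ext x
  obtain ⟨g, rfl⟩ := QuotientGroup.mk_surjective x
  rfl

theorem fbar_inv (τ : RingAut F) : (fbar σ (τ⁻¹) : MulAut Gb) = (fbar σ τ)⁻¹ := by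
  rw [eq_inv_iff_mul_eq_one, ← fbar_mul, inv_mul_cancel, fbar_one]

/-- field automorphisms act on `GU` -/
def mapGU (σ : F →+* F) [UC F q σ] (τ : F ≃+* F) (g : GU') : GU' :=
  ⟨Matrix.GeneralLinearGroup.map (τ : F →+* F) g.1, by
    rw [mem_GU_iff (UC.hσ (σ := σ))]
    exact isU_map (UC.hσ (σ := σ)) τ (isU_gu g)⟩

theorem mapGU_val (τ : F ≃+* F) (g : GU') : (mapGU σ τ g).1.1 = g.1.1.map τ := rfl

theorem fbar_cbar (τ : F ≃+* F) (g : GU') : fbar σ τ * cbar σ g = cbar σ (mapGU σ τ g) * fbar σ τ := by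
  ext x
  obtain ⟨s, rfl⟩ := QuotientGroup.mk_surjective x
  rw [MulAut.mul_apply, MulAut.mul_apply, cbar_mk, fbar_mk, fbar_mk, cbar_mk]
  congr 1
  apply Subtype.ext
  apply Subtype.ext
  rw [fSU_val, conjSU_val, conjSU_val, fSU_val, Matrix.map_mul, Matrix.map_mul]
  rfl

omit hc in
theorem gact_ext {g h : GU'} (H : ∀ x, gact g x = gact h x) : g = h := by
  apply Subtype.ext
  apply Units.ext
  apply Matrix.ext_of_mulVec_single
  intro i
  exact H _

theorem cbar_of_scalar {g : GU'} {μ : F} (h : ∀ x, gact g x = μ • x) : cbar σ g = 1 := by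
  ext y
  obtain ⟨s, rfl⟩ := QuotientGroup.mk_surjective y
  rw [cbar_mk, MulAut.one_apply]
  congr 1
  apply act_ext
  intro x
  rw [act_conjSU, h, ← act_smul, ← h, gact_gact_inv]

variable {p : ℕ} [hp : Fact p.Prime] [hch : CharP F p]

include hp hch

namespace Frame

variable (A : Frame σ n m)

omit hp hch in
include A in
theorem scalar_of_fix_iso_gu {t : GU'} (h : ∀ v : Iso σ n, ∃ c : F, gact t v.1 = c • v.1) :
    ∃ μ : F, ∀ x, gact t x = μ • x := by
  obtain ⟨l, hl⟩ := h A.eI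
  obtain ⟨μ, hμ⟩ := h A.fI
  change gact t A.e = l • A.e at hl
  change gact t A.f = μ • A.f at hμ
  have hl0 : l ≠ 0 := by
    rintro rfl
    rw [zero_smul] at hl
    exact A.e_ne_zero (gact_eq_zero t hl)
  have key : ∀ (c : Fin m → F) (b : F), A.adm c b →
      ∃ ν : F, μ • A.f + gact t (A.wv c) + (b * l) • A.e = ν • (A.f + A.wv c + b • A.e) := by
    intro c b hb
    have hv : act (A.u c b) A.f = A.f + A.wv c + b • A.e := A.u_f hb
    obtain ⟨ν, hν⟩ := h (Iso.mv (A.u c b) A.fI)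
    change gact t (act (A.u c b) A.f) = ν • act (A.u c b) A.f at hν
    rw [hv, gact_add, gact_add, gact_smul, hl, hμ, smul_smul] at hν
    exact ⟨ν, hν⟩
  have hew : ∀ c, ⟪A.e, gact t (A.wv c)⟫ = 0 := by
    intro c
    have := B_gact (σ := σ) t A.e (A.wv c)
    rw [hl, A.e_wv, map_smulₛₗ, LinearMap.smul_apply, smul_eq_mul] at this
    exact (mul_eq_zero.1 this).resolve_left ((map_ne_zero σ).2 hl0)
  have hlμ : l = μ := by
    obtain ⟨b, hb0, hb⟩ := exists_skew (σ := σ)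
    obtain ⟨ν, hν⟩ := key 0 b ((adm0_iff A b).2 hb)
    rw [A.wv_zero, gact_zero, add_zero, add_zero] at hν
    have h1 := congrArg (stdB σ n A.e) hν
    have h2 := congrArg (stdB σ n A.f) hν
    simp only [map_add, map_smul, A.ee, A.ef, A.ff, A.fe, smul_eq_mul, mul_zero, mul_one, add_zero, zero_add]
      at h1 h2
    rw [← h1] at h2
    have : b * (l - μ) = 0 := by linear_combination h2
    exact sub_eq_zero.1 ((mul_eq_zero.1 this).resolve_left hb0)
  subst hlμ
  have hw : ∀ c, gact t (A.wv c) = l • A.wv c := by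
    intro c
    obtain ⟨b, hb⟩ := A.exists_adm c
    obtain ⟨ν, hν⟩ := key c b hb
    have h1 := congrArg (stdB σ n A.e) hν
    simp only [map_add, map_smul, A.ee, A.ef, A.e_wv, hew, smul_eq_mul, mul_zero, mul_one, add_zero] at h1
    rw [← h1] at hν
    have h2 : gact t (A.wv c) = l • (A.f + A.wv c + b • A.e) - l • A.f - (b * l) • A.e := by
      rw [← hν]; abel
    rw [h2]
    module
  refine ⟨l, fun x => ?_⟩
  conv_lhs => rw [A.exp' x]
  conv_rhs => rw [A.exp' x]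
  simp only [gact_add, gact_smul, hl, hμ, hw]
  module

include A in
theorem scalar_of_cbar (hn : 1 ≤ n) {g : GU'} (h : cbar σ g = 1) : ∃ μ : F, ∀ x, gact g x = μ • x := by
  apply A.scalar_of_fix_iso_gu
  intro v
  apply par_of_Xb_le (p := p) hn (v := Iso.gmv g v) (v' := v)
  intro y hy
  rw [cbar_mem_Xb g v, h]
  exact hy

include A in
theorem tau_eq_one (hn : 1 ≤ n) (hm : 1 ≤ m) {g : GU'} {τ : F ≃+* F} (h : cbar σ g * fbar σ τ = 1) (a : F) :
    τ a = a := by
  classical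
  obtain ⟨k, hk⟩ : ∃ k : F, gact g (τ ∘ A.e) = k • A.e := by
    apply par_of_Xb_le (p := p) hn (v := Iso.gmv g (Iso.tmv τ A.eI)) (v' := A.eI)
    intro y hy
    rw [fbar_mem_Xb τ, cbar_mem_Xb g, ← MulAut.mul_apply, h]
    exact hy
  have hk0 : k ≠ 0 := by
    rintro rfl
    rw [zero_smul] at hk
    have := gact_eq_zero g hk
    apply A.e_ne_zero
    funext i
    have h2 := congrFun this i
    simpa using h2
  have key : ∀ c : Fin m → F, σ k • A.co (gact g (τ ∘ A.wv c)) = c := by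
    intro c
    obtain ⟨b, hb⟩ := A.exists_adm c
    have h1 : (QuotientGroup.mk (conjSU σ g (fSU σ τ (A.u c b))) : Gb) = QuotientGroup.mk (A.u c b) := by
      have := congrArg (fun β : MulAut Gb => β (QuotientGroup.mk (A.u c b))) h
      exact this
    have h2 : conjSU σ g (fSU σ τ (A.u c b)) = A.u c b := by
      apply eq_of_mk_eq (σ := σ) (p := p) (k := 2) (k' := 2) hn _ (A.u_pow_p2 hb) h1
      rw [← map_pow, ← map_pow, A.u_pow_p2 hb, map_one, map_one]
    have h3 := ((A.Adm_of hb).tau τ).gact g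
    rw [hk] at h3
    have h4 := sg_scale h3 hk0
    have h5 := h3.scale hk0
    have h6 : σ k • gact g (τ ∘ A.wv c) = A.wv (σ k • A.co (gact g (τ ∘ A.wv c))) +
        ⟪A.f, σ k • gact g (τ ∘ A.wv c)⟫ • A.e := by
      conv_lhs => rw [A.exp' (σ k • gact g (τ ∘ A.wv c)), h5.2.1, A.co_smul]
      module
    rw [h6] at h4 h5
    have h7 := sg_shift h5
    have h9 := h5.shift.2.2
    rw [A.wv_wv] at h9
    refine (A.u_inj hb h9 ?_).1.symm
    conv_lhs => rw [← h2]
    unfold u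
    rw [fSU_sg (A.Adm_of hb), conjSU_sg ((A.Adm_of hb).tau τ), hk, h4, h7]
  have h1 := key (a • Pi.single ⟨0, hm⟩ 1)
  have h2 : τ ∘ A.wv (a • Pi.single ⟨0, hm⟩ 1) = τ a • (τ ∘ A.wv (Pi.single ⟨0, hm⟩ 1)) := by
    rw [A.wv_smul]
    funext i
    simp
  rw [h2, gact_smul, A.co_smul, smul_comm, key] at h1
  have h3 := congrFun h1 ⟨0, hm⟩
  simpa using h3

end Frame

theorem exists_frame' (hn : 3 ≤ n) : ∃ m, n = m + 2 ∧ 1 ≤ m ∧ Nonempty (Frame σ n m) := by
  obtain ⟨m, rfl⟩ : ∃ m, n = m + 2 := ⟨n - 2, by omega⟩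
  obtain ⟨z, hz0, hz⟩ := exists_iso (σ := σ) (m := m + 2) (by omega)
  obtain ⟨f, hf, hef⟩ := exists_hyp hz0 hz
  obtain ⟨A, -, -⟩ := exists_frame (m := m) rfl z f hz hf hef
  exact ⟨m, rfl, by omega, ⟨A⟩⟩

theorem cbar_fbar_eq_one (hn : 3 ≤ n) {g : GU'} {τ : RingAut F} (h : cbar σ g * fbar σ τ = 1) : τ = 1 := by
  obtain ⟨m, rfl, hm, ⟨A⟩⟩ := exists_frame' (σ := σ) (p := p) hn
  ext a
  exact A.tau_eq_one (p := p) (by omega) hm h a

theorem cbar_eq_one_iff (hn : 3 ≤ n) (g : GU') : cbar σ g = 1 ↔ ∃ μ : F, ∀ x, gact g x = μ • x := by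
  obtain ⟨m, rfl, hm, ⟨A⟩⟩ := exists_frame' (σ := σ) (p := p) hn
  exact ⟨A.scalar_of_cbar (p := p) (by omega), fun ⟨μ, h⟩ => cbar_of_scalar h⟩

/-- the field component -/
def Compat (σ : F →+* F) [UC F q σ] (α : MulAut Gb) (τ : RingAut F) : Prop := ∃ g : GU', α = cbar σ g * fbar σ τ

omit hp hch in
theorem compat_mul {α β : MulAut Gb} {τ τ' : RingAut F} (h1 : Compat σ α τ) (h2 : Compat σ β τ') :
    Compat σ (α * β) (τ * τ') := by
  obtain ⟨g, rfl⟩ := h1
  obtain ⟨g', rfl⟩ := h2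
  refine ⟨g * mapGU σ τ g', ?_⟩
  calc cbar σ g * fbar σ τ * (cbar σ g' * fbar σ τ') = cbar σ g * (fbar σ τ * cbar σ g') * fbar σ τ' := by
        simp only [mul_assoc]
    _ = cbar σ g * cbar σ (mapGU σ τ g') * (fbar σ τ * fbar σ τ') := by
        rw [fbar_cbar]; simp only [mul_assoc]
    _ = _ := by rw [map_mul, fbar_mul]

theorem compat_unique (hn : 3 ≤ n) {α : MulAut Gb} {τ τ' : RingAut F} (h1 : Compat σ α τ) (h2 : Compat σ α τ') :
    τ = τ' := by
  obtain ⟨g, e1⟩ := h1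
  obtain ⟨g', e2⟩ := h2
  rw [e1] at e2
  have e4 : cbar σ (g'⁻¹ * g) * fbar σ (τ * τ'⁻¹ : RingAut F) = 1 := by
    rw [map_mul, map_inv, fbar_mul, fbar_inv, mul_assoc, ← mul_assoc (cbar σ g), e2]
    group
  exact mul_inv_eq_one.1 (cbar_fbar_eq_one (p := p) hn e4)

theorem exists_compat (hn : 3 ≤ n) (hq : ¬ (n = 3 ∧ q = 2)) (α : MulAut Gb) : ∃ τ : RingAut F, Compat σ α τ := by
  obtain ⟨g, τ, h⟩ := aut_eq (σ := σ) (p := p) hn hq α
  exact ⟨τ, g, h⟩

/-- the field component of an automorphism of `PSU_n(q)`. -/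
noncomputable def Phi (σ : F →+* F) [UC F q σ] (p : ℕ) [Fact p.Prime] [CharP F p] (hn : 3 ≤ n)
    (hq : ¬ (n = 3 ∧ q = 2)) : MulAut Gb →* RingAut F :=
  MonoidHom.mk' (fun α => Classical.choose (exists_compat (σ := σ) (p := p) hn hq α)) (by
    intro α β
    exact compat_unique (σ := σ) (p := p) hn (Classical.choose_spec (exists_compat (σ := σ) (p := p) hn hq (α * β)))
      (compat_mul (Classical.choose_spec (exists_compat (σ := σ) (p := p) hn hq α))
        (Classical.choose_spec (exists_compat (σ := σ) (p := p) hn hq β))))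

theorem Phi_spec (hn : 3 ≤ n) (hq : ¬ (n = 3 ∧ q = 2)) (α : MulAut Gb) : Compat σ α (Phi σ p hn hq α) :=
  Classical.choose_spec (exists_compat (σ := σ) (p := p) hn hq α)

theorem Phi_eq (hn : 3 ≤ n) (hq : ¬ (n = 3 ∧ q = 2)) (g : GU') (τ : RingAut F) :
    Phi σ p hn hq (cbar σ g * fbar σ τ) = τ :=
  compat_unique (p := p) hn (Phi_spec hn hq _) ⟨g, rfl⟩

theorem Phi_surjective (hn : 3 ≤ n) (hq : ¬ (n = 3 ∧ q = 2)) : Function.Surjective (Phi (n := n) σ p hn hq) :=
  fun τ => ⟨_, Phi_eq hn hq 1 τ⟩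

theorem Phi_ker (hn : 3 ≤ n) (hq : ¬ (n = 3 ∧ q = 2)) :
    (Phi (n := n) σ p hn hq).ker = (cbar σ : GU' →* MulAut Gb).range := by
  ext α
  rw [MonoidHom.mem_ker, MonoidHom.mem_range]
  constructor
  · intro h
    obtain ⟨g, hg⟩ := Phi_spec (σ := σ) (p := p) hn hq α
    rw [h, fbar_one, mul_one] at hg
    exact ⟨g, hg.symm⟩
  · rintro ⟨g, rfl⟩
    have := Phi_eq (σ := σ) (p := p) hn hq g 1
    rwa [fbar_one, mul_one] at this

/-- scalar unitary matrices -/
def scGU (σ : F →+* F) [UC F q σ] (n : ℕ) : (powMonoidHom (q + 1) : Fˣ →* Fˣ).ker →* Cfsg.GU n F q :=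
  MonoidHom.mk' (fun μ => mkGU (UC.hσ (σ := σ)) (diagonal fun _ => ((μ : Fˣ) : F)) (isU_diagonal _ (fun _ => by
    have := congrArg Units.val (MonoidHom.mem_ker.1 μ.2)
    rw [UC.hσ (σ := σ), ← pow_succ]
    simpa using this))) (by
    intro a b
    apply Subtype.ext
    apply Units.ext
    change diagonal _ = diagonal _ * diagonal _
    rw [diagonal_mul_diagonal]
    rfl)

omit hp hch in
theorem gact_scGU (μ : (powMonoidHom (q + 1) : Fˣ →* Fˣ).ker) (x : Fin n → F) :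
    gact (scGU σ n μ) x = ((μ : Fˣ) : F) • x := by
  change (diagonal fun _ => ((μ : Fˣ) : F)) *ᵥ x = _
  funext i
  rw [mulVec_diagonal]
  rfl

theorem cbar_ker (hn : 3 ≤ n) : (cbar σ : GU' →* MulAut Gb).ker = (scGU σ n).range := by
  classical
  ext g
  rw [MonoidHom.mem_ker, cbar_eq_one_iff (p := p) hn, MonoidHom.mem_range]
  constructor
  · rintro ⟨μ, hμ⟩
    have hN : σ μ * μ = 1 := by
      have h1 := B_gact (σ := σ) g (Pi.single ⟨0, by omega⟩ 1) (Pi.single ⟨0, by omega⟩ 1)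
      rw [hμ] at h1
      simp only [map_smul, map_smulₛₗ, LinearMap.smul_apply, B_single_left, Pi.single_eq_same, map_one, mul_one,
        smul_eq_mul] at h1
      linear_combination h1
    have hμ0 : μ ≠ 0 := by
      rintro rfl
      simp at hN
    refine ⟨⟨Units.mk0 μ hμ0, ?_⟩, ?_⟩
    · rw [MonoidHom.mem_ker]
      apply Units.ext
      rw [UC.hσ (σ := σ), ← pow_succ] at hN
      simpa using hN
    · apply gact_ext
      intro x
      rw [gact_scGU, hμ]
      rfl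
  · rintro ⟨μ, rfl⟩
    exact ⟨_, gact_scGU μ⟩

omit hp hch in
theorem scGU_injective (hn : 1 ≤ n) : Function.Injective (scGU σ n) := by
  classical
  intro a b h
  have h1 : gact (scGU σ n a) (Pi.single ⟨0, hn⟩ 1) = gact (scGU σ n b) (Pi.single ⟨0, hn⟩ 1) := by rw [h]
  rw [gact_scGU, gact_scGU] at h1
  have h2 := congrFun h1 ⟨0, hn⟩
  simp only [Pi.smul_apply, Pi.single_eq_same, smul_eq_mul, mul_one] at h2
  exact Subtype.ext (Units.ext h2)

theorem card_range_cbar (hn : 3 ≤ n) :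
    Nat.card (cbar σ : GU' →* MulAut Gb).range = Nat.card G := by
  have h1 := (cbar σ : GU' →* MulAut Gb).ker.card_mul_index
  rw [Subgroup.index_ker, cbar_ker (p := p) hn, card_GU_eq (UC.hF (σ := σ)) (by omega),
    ← Nat.card_congr (MonoidHom.ofInjective (scGU_injective (σ := σ) (n := n) (by omega))).toEquiv,
    card_norm_ker (UC.hF (σ := σ))] at h1
  exact Nat.eq_of_mul_eq_mul_left (by omega) h1

theorem card_aut (hn : 3 ≤ n) (hq : ¬ (n = 3 ∧ q = 2)) :
    Nat.card (MulAut Gb) = Nat.gcd n (q + 1) * Nat.card (RingAut F) * Nat.card Gb := by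
  have h1 := (Phi (n := n) σ p hn hq).ker.card_mul_index
  rw [Subgroup.index_ker, MonoidHom.range_eq_top.2 (Phi_surjective hn hq), Phi_ker hn hq,
    card_range_cbar (p := p) hn, Subgroup.card_top,
    Subgroup.card_eq_card_quotient_mul_card_subgroup (Subgroup.center G),
    card_center (UC.hF (σ := σ)) (by omega)] at h1
  rw [← h1]
  ring

end Cfsg.Agent.Lib.Helper4.PSU
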