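import Mathlib
import Cfsg.Agent.Lib.Helper4.PSUn

set_option linter.unusedSimpArgs false
set_option linter.unusedSectionVars false
set_option linter.style.haveILetI false

namespace Cfsg.Agent.Lib.Helper4.PSU

open Cfsg.Agent.Lib.Helper4.UniCount Cfsg.Agent.Lib.Helper4.UniFrame Cfsg.Agent.Lib.Helper4.UniMat
open Cfsg.Agent.Lib.Helper4.UniSU Cfsg.Agent.Lib.Helper4.UniCenter Cfsg.Agent.Lib.Helper4.UniLines
open Matrix

variable {F : Type*} [Field F] [Fintype F] {q : ℕ} {σ : F →+* F} [hc : UC F q σ] {n m : ℕ}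

include hc

local notation "G" => Cfsg.SU n F q
local notation "Gb" => Cfsg.PSU n F q
local notation "GU'" => Cfsg.GU n F q
local notation "N1" => MonoidHom.ker (powMonoidHom (q + 1) : Fˣ →* Fˣ)

/-- `SU → GU` -/
def toGU (σ : F →+* F) [UC F q σ] (s : G) : GU' := mkGU (UC.hσ (σ := σ)) s.1.1 (isU_of s)

theorem toGU_val (s : G) : (toGU σ s).1.1 = s.1.1 := rfl

theorem gact_toGU (s : G) (x : Fin n → F) : gact (toGU σ s) x = act s x := rfl

theorem toGU_inv (s : G) : toGU σ s⁻¹ = (toGU σ s)⁻¹ := by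
  apply eq_inv_of_mul_eq_one_left
  apply gact_ext
  intro x
  change ((toGU σ s⁻¹).1.1 * (toGU σ s).1.1) *ᵥ x = (1 : Matrix (Fin n) (Fin n) F) *ᵥ x
  rw [← mulVec_mulVec]
  change act s⁻¹ (act s x) = _
  rw [act_inv_act, one_mulVec]

theorem cbar_toGU (s : G) : cbar σ (toGU σ s) = MulAut.conj (QuotientGroup.mk s) := by
  ext y
  obtain ⟨t, rfl⟩ := QuotientGroup.mk_surjective y
  rw [cbar_mk, MulAut.conj_apply, ← QuotientGroup.mk_inv, ← QuotientGroup.mk_mul, ← QuotientGroup.mk_mul]
  congr 1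
  apply act_ext
  intro x
  rw [act_conjSU, ← toGU_inv, gact_toGU, gact_toGU, act_mul, act_mul]

theorem exists_toGU (g : GU') (h : g.1.1.det = 1) : ∃ s : G, toGU σ s = g :=
  ⟨mkSU (UC.hσ (σ := σ)) g.1.1 (isU_gu g) h, by
    apply Subtype.ext
    apply Units.ext
    rfl⟩

theorem det_mem (g : GU') : detGU n F q g ∈ N1 := by
  rw [MonoidHom.mem_ker]
  apply Units.ext
  have := IsU.det (isU_gu (σ := σ) g)
  rw [UC.hσ (σ := σ), ← pow_succ] at this
  simpa [detGU_val] using this

theorem det_scGU (c : N1) : detGU n F q (scGU σ n c) = (c : Fˣ) ^ n := by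
  apply Units.ext
  rw [detGU_val]
  change (diagonal fun _ => ((c : Fˣ) : F)).det = _
  rw [det_diagonal, Finset.prod_const, Finset.card_univ, Fintype.card_fin]
  simp

/-- `diag(u, 1, …, 1)` -/
def DGU (σ : F →+* F) [UC F q σ] (z : Fin n) : N1 →* GU' :=
  MonoidHom.mk' (fun μ => mkGU (UC.hσ (σ := σ)) (diagonal fun i => if i = z then ((μ : Fˣ) : F) else 1)
    (isU_diagonal _ (fun i => by
      have := congrArg Units.val (MonoidHom.mem_ker.1 μ.2)
      split_ifs
      · rw [UC.hσ (σ := σ), ← pow_succ]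
        simpa using this
      · simp))) (by
    intro a b
    apply Subtype.ext
    apply Units.ext
    change diagonal _ = diagonal _ * diagonal _
    rw [diagonal_mul_diagonal]
    congr 1
    funext i
    by_cases h : i = z
    · simp [h]
    · simp [h])

theorem det_DGU (z : Fin n) (u : N1) : detGU n F q (DGU σ z u) = u := by
  apply Units.ext
  rw [detGU_val]
  change (diagonal fun i => if i = z then ((u : Fˣ) : F) else 1).det = _
  rw [det_diagonal]
  simp [Finset.prod_ite_eq']

theorem cbar_scGU (c : N1) : cbar σ (scGU σ n c) = 1 := cbar_of_scalar (gact_scGU c)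

/-- conjugation by a unitary matrix whose determinant is an `n`-th power of a norm one element is inner -/
theorem cbar_inner (g : GU') (c : N1) (h : detGU n F q g = (c : Fˣ) ^ n) :
    ∃ y : Gb, cbar σ g = MulAut.conj y := by
  have h1 : ((scGU σ n c)⁻¹ * g).1.1.det = 1 := by
    rw [← detGU_val, map_mul, map_inv, det_scGU, h]
    simp
  obtain ⟨s, hs⟩ := exists_toGU (σ := σ) _ h1
  refine ⟨QuotientGroup.mk s, ?_⟩
  rw [← cbar_toGU (σ := σ), hs, map_mul, map_inv, cbar_scGU]
  simp

end Cfsg.Agent.Lib.Helper4.PSU
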