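import Mathlib
import Cfsg.Agent.Lib.Helper4.PSUo
import Cfsg.Agent.Lib.Helper4.PSLnCent2

set_option linter.unusedSimpArgs false
set_option linter.unusedSectionVars false
set_option linter.style.haveILetI false

namespace Cfsg.Agent.Lib.Helper4.PSU

open Cfsg.Agent.Lib.Helper4.UniCount Cfsg.Agent.Lib.Helper4.UniFrame Cfsg.Agent.Lib.Helper4.UniMat
open Cfsg.Agent.Lib.Helper4.UniSU Cfsg.Agent.Lib.Helper4.UniCenter Cfsg.Agent.Lib.Helper4.UniLines
open Cfsg.Agent.Lib.Helper4.H90 Cfsg.Agent.Lib.Helper4.Fix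
open Matrix

variable {F : Type*} [Field F] [Fintype F] {q : ℕ} {σ : F →+* F} [hc : UC F q σ] {n m : ℕ}

include hc

local notation "G" => Cfsg.SU n F q
local notation "Gb" => Cfsg.PSU n F q
local notation "GU'" => Cfsg.GU n F q
local notation "N1" => MonoidHom.ker (powMonoidHom (q + 1) : Fˣ →* Fˣ)

theorem inndiag_eq : Cfsg.inndiagPSU n F q = (cbar σ : GU' →* MulAut Gb).range := by
  apply le_antisymm
  · unfold Cfsg.inndiagPSU Cfsg.autSubgroupOf
    rw [Subgroup.closure_le]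
    intro β hβ
    obtain ⟨g, rfl⟩ := eq_cbar_of (σ := σ) hβ
    exact ⟨g, rfl⟩
  · rintro _ ⟨g, rfl⟩
    exact Subgroup.subset_closure (isInnerDiag_cbar g)

theorem fbar_comm (τ τ' : RingAut F) : (fbar σ τ * fbar σ τ' : MulAut Gb) = fbar σ τ' * fbar σ τ := by
  rw [← fbar_mul, ← fbar_mul, PSLn.ringAut_comm]

theorem mem_N1_iff (u : Fˣ) : u ∈ N1 ↔ σ (u : F) * u = 1 := by
  rw [MonoidHom.mem_ker, UC.hσ (σ := σ), ← pow_succ, Units.ext_iff]
  simp

theorem cbar_eq_of_smul {P Q : GU'} {c : F} (h : P.1.1 = c • Q.1.1) : cbar σ P = cbar σ Q := by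
  have h1 : ∀ x, gact (P * Q⁻¹) x = c • x := by
    intro x
    change (P.1.1 * (Q⁻¹ : GU').1.1) *ᵥ x = _
    have h2 : Q.1.1 * (Q⁻¹ : GU').1.1 = 1 := congrArg (fun h : GU' => h.1.1) (mul_inv_cancel Q)
    rw [h, smul_mul_assoc, h2, smul_mulVec, one_mulVec]
  have h2 := cbar_of_scalar (σ := σ) h1
  rw [map_mul, map_inv, mul_inv_eq_one] at h2
  exact h2

theorem isU_smul {c : F} (hc' : σ c * c = 1) {M : Matrix (Fin n) (Fin n) F} (hM : IsU σ M) : IsU σ (c • M) := by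
  unfold IsU at *
  have h1 : (c • M).map σ = σ c • M.map σ := by ext i j; simp
  rw [h1, transpose_smul, smul_mul_smul_comm, hc', hM, one_smul]

/-- twisted partial norms in `GU_n` -/
noncomputable def twGU (σ : F →+* F) [UC F q σ] (τ : RingAut F) (A : GU') : ℕ → GU'
  | 0 => 1
  | k + 1 => A * mapGU σ τ (twGU σ τ A k)

theorem twGU_val (τ : RingAut F) (A : GU') (k : ℕ) : (twGU σ τ A k).1.1 = tw τ A.1.1 k := by
  induction k with
  | zero => rfl
  | succ k ih =>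
    change A.1.1 * (twGU σ τ A k).1.1.map τ = _
    rw [ih]; rfl

theorem pow_cbar_fbar (τ : RingAut F) (A : GU') (k : ℕ) :
    (cbar σ A * fbar σ τ) ^ k = cbar σ (twGU σ τ A k) * fbar σ (τ ^ k) := by
  induction k with
  | zero =>
    rw [pow_zero, pow_zero, fbar_one, mul_one]
    exact (map_one (cbar σ)).symm
  | succ k ih =>
    rw [pow_succ', ih, pow_succ', fbar_mul]
    change _ = cbar σ (A * mapGU σ τ (twGU σ τ A k)) * _
    rw [map_mul]
    calc cbar σ A * fbar σ τ * (cbar σ (twGU σ τ A k) * fbar σ (τ ^ k))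
        = cbar σ A * (fbar σ τ * cbar σ (twGU σ τ A k)) * fbar σ (τ ^ k) := by simp only [mul_assoc]
      _ = _ := by rw [fbar_cbar]; simp only [mul_assoc]

/-! ### norms -/

omit [Fintype F] hc in
theorem nrm_one' (τ : RingAut F) (k : ℕ) : nrm τ k (1 : F) = 1 := by unfold nrm; simp

omit [Fintype F] hc in
theorem nrm_inv' (τ : RingAut F) (k : ℕ) (c : F) : nrm τ k c⁻¹ = (nrm τ k c)⁻¹ := by
  unfold nrm
  rw [← Finset.prod_inv_distrib]
  apply Finset.prod_congr rfl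
  intro i _
  rw [map_inv₀]

omit [Fintype F] hc in
theorem nrm_pow' (τ : RingAut F) (k j : ℕ) (c : F) : nrm τ k (c ^ j) = (nrm τ k c) ^ j := by
  unfold nrm
  rw [← Finset.prod_pow]
  apply Finset.prod_congr rfl
  intro i _
  rw [map_pow]

omit [Fintype F] hc in
theorem nrm_fixed (τ : RingAut F) (k : ℕ) {c : F} (h : τ c = c) : nrm τ k c = c ^ k := by
  induction k with
  | zero => rw [nrm_zero, pow_zero]
  | succ k ih => rw [nrm_succ, ih, map_pow, h, pow_succ']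

theorem nrm_sig (τ : RingAut F) (k : ℕ) (c : F) : nrm τ k (σ c) = σ (nrm τ k c) := by
  unfold nrm
  rw [map_prod]
  apply Finset.prod_congr rfl
  intro i _
  exact (sig_tau (σ := σ) (τ ^ i : RingAut F) c).symm

/-- norm one elements of the fixed field are norms of norm one elements (odd degree). -/
theorem exists_unit_norm (τ : RingAut F) {r : ℕ} (hr : orderOf τ = r) (hodd : Odd r) {μ : F}
    (h1 : σ μ * μ = 1) (h2 : τ μ = μ) : ∃ c : F, σ c * c = 1 ∧ nrm τ r c = μ := by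
  obtain ⟨k, hk⟩ := hodd
  have hμ0 : μ ≠ 0 := by
    rintro rfl
    simp at h1
  obtain ⟨d, hd0, hd⟩ := nrm_surj τ hr (by omega) μ hμ0 h2
  have hsd0 : σ d ≠ 0 := (map_ne_zero σ).2 hd0
  refine ⟨μ * (σ d * d⁻¹) ^ k, ?_, ?_⟩
  · rw [map_mul, map_pow, map_mul, map_inv₀, ss]
    have h3 : d * (σ d)⁻¹ * (σ d * d⁻¹) = 1 := by field_simp
    calc σ μ * (d * (σ d)⁻¹) ^ k * (μ * (σ d * d⁻¹) ^ k)
        = (σ μ * μ) * (d * (σ d)⁻¹ * (σ d * d⁻¹)) ^ k := by rw [mul_pow (d * (σ d)⁻¹)]; ring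
      _ = 1 := by rw [h1, h3, one_pow, one_mul]
  · rw [nrm_mul, nrm_pow', nrm_mul, nrm_inv', nrm_sig, hd, nrm_fixed τ r h2, hk]
    have h3 : σ μ = μ⁻¹ := eq_inv_of_mul_eq_one_left h1
    rw [h3]
    have h4 : μ * μ * (μ⁻¹ * μ⁻¹) = 1 := by field_simp
    calc μ ^ (2 * k + 1) * (μ⁻¹ * μ⁻¹) ^ k = μ * (μ * μ * (μ⁻¹ * μ⁻¹)) ^ k := by
          rw [mul_pow (μ * μ)]; ring
      _ = μ := by rw [h4, one_pow, mul_one]

/-! ### subfield data -/

variable {F₀ : Type*} [Field F₀] {σ₀ : F₀ →+* F₀} {τ : RingAut F}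

/-- an embedding of a field onto the fixed field of `τ`, compatible with the involutions -/
structure SubF (σ : F →+* F) (τ : RingAut F) (σ₀ : F₀ →+* F₀) where
  ι : F₀ →+* F
  fix : ∀ y : F, τ y = y ↔ ∃ t, ι t = y
  comm : ∀ t, ι (σ₀ t) = σ (ι t)

namespace SubF

omit [Fintype F] hc

variable (S : SubF σ τ σ₀)

theorem descend {M : Matrix (Fin n) (Fin n) F} (h : M.map τ = M) :
    ∃ M₀ : Matrix (Fin n) (Fin n) F₀, M₀.map S.ι = M := by
  have hent : ∀ i j, ∃ t, S.ι t = M i j := fun i j => (S.fix _).1 (congrFun (congrFun h i) j)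
  choose P hP using hent
  exact ⟨Matrix.of P, by ext i j; exact hP i j⟩

theorem map_fix (M₀ : Matrix (Fin n) (Fin n) F₀) : (M₀.map S.ι).map τ = M₀.map S.ι := by
  ext i j
  exact (S.fix _).2 ⟨_, rfl⟩

theorem map_sig (M₀ : Matrix (Fin n) (Fin n) F₀) : (M₀.map σ₀).map S.ι = (M₀.map S.ι).map σ := by
  ext i j
  exact S.comm _

theorem map_one' : (1 : Matrix (Fin n) (Fin n) F₀).map S.ι = 1 :=
  Matrix.map_one _ (map_zero _) (map_one _)

theorem isU_iff (M₀ : Matrix (Fin n) (Fin n) F₀) : IsU σ₀ M₀ ↔ IsU σ (M₀.map S.ι) := by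
  unfold IsU
  rw [← S.map_sig, ← Matrix.transpose_map (M := M₀.map σ₀) (f := S.ι), ← Matrix.map_mul]
  constructor
  · intro h
    rw [h, S.map_one']
  · intro h
    apply PSLn.map_inj S.ι
    rw [h, S.map_one']

end SubF

/-- Hilbert 90 for the unitary group. -/
theorem h90U [Finite F₀] (S : SubF σ τ σ₀) (hs0 : ∀ t, σ₀ (σ₀ t) = t) (hs1 : ∃ t, σ₀ t ≠ t) {r : ℕ}
    (hr : orderOf τ = r) (hr0 : 0 < r) {A : Matrix (Fin n) (Fin n) F} (hA : IsU σ A) (htw : tw τ A r = 1) :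
    ∃ B : Matrix (Fin n) (Fin n) F, IsU σ B ∧ A * B.map τ = B := by
  obtain ⟨B, hB⟩ := h90 τ A hr hr0 htw
  set H := (B.1.map σ)ᵀ * B.1 with hH
  have hcomm : ∀ M : Matrix (Fin n) (Fin n) F, (M.map τ).map σ = (M.map σ).map τ := by
    intro M
    ext i j
    exact sig_tau (σ := σ) τ _
  have hHfix : H.map τ = H := by
    have e1 : H.map τ = ((B.1.map τ).map σ)ᵀ * B.1.map τ := by
      rw [hH, Matrix.map_mul, Matrix.transpose_map, hcomm]
    have e2 : H = ((B.1.map τ).map σ)ᵀ * B.1.map τ := by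
      conv_lhs => rw [hH, ← hB]
      rw [Matrix.map_mul, transpose_mul, Matrix.mul_assoc, ← Matrix.mul_assoc _ A, hA, Matrix.one_mul]
    rw [e1, ← e2]
  have hHherm : (H.map σ)ᵀ = H := by
    have e3 : (B.1.map σ).map σ = B.1 := by
      ext i j
      exact ss (σ := σ) _
    rw [hH, Matrix.map_mul, transpose_mul, Matrix.transpose_map, transpose_transpose, e3]
  obtain ⟨H₀, hH₀⟩ := S.descend hHfix
  have hdet : H₀.det ≠ 0 := by
    intro h0
    have h1 : (H₀.map S.ι).det = 0 := by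
      have := RingHom.map_det S.ι H₀
      rw [h0, map_zero] at this
      exact this.symm
    rw [hH₀, hH, det_mul, det_transpose] at h1
    have h2 : IsUnit B.1.det := (Matrix.isUnit_iff_isUnit_det _).1 B.isUnit
    have h3 : (B.1.map σ).det = σ B.1.det := (RingHom.map_det σ B.1).symm
    rw [h3] at h1
    rcases mul_eq_zero.1 h1 with h4 | h4
    · exact h2.ne_zero ((map_eq_zero σ).1 h4)
    · exact h2.ne_zero h4
  let s₀ : RingAut F₀ := RingEquiv.ofRingHom σ₀ σ₀ (by ext t; exact hs0 t) (by ext t; exact hs0 t)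
  have hs₀ : ∀ t, s₀ t = σ₀ t := fun t => rfl
  obtain ⟨P₀, hP₀⟩ := PSLn.exists_herm_frame s₀ (by
      intro h
      obtain ⟨t, ht⟩ := hs1
      apply ht
      rw [← hs₀, h]
      rfl) hs0 H₀ H₀⁻¹ (Matrix.mul_nonsing_inv H₀ (isUnit_iff_ne_zero.2 hdet)) (by
      intro i j
      apply S.ι.injective
      rw [hs₀, S.comm]
      have e4 : ∀ a b, S.ι (H₀ a b) = H a b := fun a b => congrFun (congrFun hH₀ a) b
      rw [e4, e4]
      exact congrFun (congrFun hHherm i) j)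
  set P := P₀.map S.ι with hP
  have hPP : (P.map σ)ᵀ * (H * P) = 1 := by
    have e5 := congrArg (fun M => M.map S.ι) hP₀
    rw [Matrix.map_mul, Matrix.map_mul, S.map_one', hH₀] at e5
    have e6 : ((P₀ᵀ).map ⇑s₀).map S.ι = (P.map σ)ᵀ := by
      ext i j
      exact S.comm _
    rw [e6] at e5
    exact e5
  refine ⟨B.1 * P, ?_, ?_⟩
  · unfold IsU
    rw [Matrix.map_mul, transpose_mul, Matrix.mul_assoc, ← Matrix.mul_assoc _ B.1, ← hH]
    exact hPP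
  · rw [Matrix.map_mul, hP, S.map_fix, ← Matrix.mul_assoc, hB]

variable {p : ℕ} [hp : Fact p.Prime] [hch : CharP F p]

include hp hch

theorem swap_cbar (hn : 3 ≤ n) (hq : ¬ (n = 3 ∧ q = 2)) (α : MulAut Gb) (P : GU') :
    ∃ P' : GU', α * cbar σ P = cbar σ P' * α := by
  obtain ⟨Q, τ, h⟩ := aut_eq (σ := σ) (p := p) hn hq α
  refine ⟨Q * mapGU σ τ P * Q⁻¹, ?_⟩
  rw [h, mul_assoc, fbar_cbar, map_mul, map_mul, map_inv]
  group

theorem conj_cbar (hn : 3 ≤ n) (hq : ¬ (n = 3 ∧ q = 2)) (α : MulAut Gb) (P : GU') :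
    ∃ P' : GU', α * cbar σ P * α⁻¹ = cbar σ P' := by
  obtain ⟨P', h⟩ := swap_cbar (σ := σ) (p := p) hn hq α P
  exact ⟨P', by rw [h, mul_assoc, mul_inv_cancel, mul_one]⟩

/-- an `Aut`-conjugate of a standard field automorphism is an `Inndiag`-conjugate. -/
theorem conj_fbar (hn : 3 ≤ n) (hq : ¬ (n = 3 ∧ q = 2)) (α x : MulAut Gb) (τ : RingAut F)
    (h : α * x * α⁻¹ = fbar σ τ) : ∃ c : GU', x = cbar σ c * fbar σ τ * (cbar σ c)⁻¹ := by
  obtain ⟨Q, τ', rfl⟩ := aut_eq (σ := σ) (p := p) hn hq α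
  obtain ⟨c, hc⟩ := conj_cbar (σ := σ) (p := p) hn hq (fbar σ τ')⁻¹ Q⁻¹
  refine ⟨c, ?_⟩
  rw [← hc]
  have h1 : x = (cbar σ Q * fbar σ τ')⁻¹ * fbar σ τ * (cbar σ Q * fbar σ τ') := by
    rw [← h]; group
  have h2 : (fbar σ τ' : MulAut Gb)⁻¹ * fbar σ τ * fbar σ τ' = fbar σ τ := by
    rw [mul_assoc, fbar_comm τ τ', ← mul_assoc, inv_mul_cancel, one_mul]
  rw [h1, map_inv]
  conv_rhs => rw [← h2]
  group

theorem fbar_injective (hn : 3 ≤ n) {τ τ' : RingAut F} (h : (fbar σ τ : MulAut Gb) = fbar σ τ') : τ = τ' :=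
  compat_unique (σ := σ) (p := p) hn (α := fbar σ τ) ⟨1, by rw [map_one, one_mul]⟩
    ⟨1, by rw [map_one, one_mul, h]⟩

omit hp hch in
/-- `fbar` as a homomorphism -/
noncomputable def fbarHom (σ : F →+* F) [UC F q σ] (n : ℕ) : RingAut F →* MulAut (Cfsg.PSU n F q) :=
  MonoidHom.mk' (fbar σ) fbar_mul

theorem orderOf_fbar (hn : 3 ≤ n) (τ : RingAut F) : orderOf (fbar σ τ : MulAut Gb) = orderOf τ :=
  orderOf_injective (fbarHom σ n) (fun _ _ h => fbar_injective (σ := σ) (p := p) hn h) τ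

theorem smul_of_cbar_eq (hn : 3 ≤ n) {P Q : GU'} (h : cbar σ P = cbar σ Q) :
    ∃ c : F, σ c * c = 1 ∧ P.1.1 = c • Q.1.1 := by
  have h1 : P * Q⁻¹ ∈ (cbar σ : GU' →* MulAut Gb).ker := by
    rw [MonoidHom.mem_ker, map_mul, map_inv, h, mul_inv_cancel]
  rw [cbar_ker (p := p) hn] at h1
  obtain ⟨μ, hμ⟩ := h1
  refine ⟨((μ : Fˣ) : F), (mem_N1_iff (σ := σ) _).1 μ.2, ?_⟩
  have h2 : P = scGU σ n μ * Q := by rw [hμ]; group
  rw [h2]
  change (diagonal fun _ => ((μ : Fˣ) : F)) * Q.1.1 = _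
  ext i j
  rw [diagonal_mul]
  rfl

/-- an element of order dividing `r` in the coset `Inndiag · fbar τ` is conjugate to `fbar τ` (`r` odd). -/
theorem field_conj_U [Finite F₀] (S : SubF σ τ σ₀) (hs0 : ∀ t, σ₀ (σ₀ t) = t) (hs1 : ∃ t, σ₀ t ≠ t)
    (hn : 3 ≤ n) {r : ℕ} (hr : orderOf τ = r) (hodd : Odd r) (A : GU') (h : (cbar σ A * fbar σ τ) ^ r = 1) :
    ∃ B : GU', cbar σ A * fbar σ τ = cbar σ B * fbar σ τ * (cbar σ B)⁻¹ := by
  have hr0 : 0 < r := hodd.pos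
  have hτ : τ ^ r = 1 := by rw [← hr]; exact pow_orderOf_eq_one τ
  rw [pow_cbar_fbar, hτ, fbar_one, mul_one] at h
  obtain ⟨lam, hN, hlam⟩ := smul_of_cbar_eq (σ := σ) (p := p) hn (P := twGU σ τ A r) (Q := 1) (by rw [h, map_one])
  rw [twGU_val] at hlam
  replace hlam : tw τ A.1.1 r = lam • 1 := hlam
  have hA0 := PSLn.GL_ne_zero (by omega) A.1
  have hfix : τ lam = lam := by
    have h1 := tw_succ τ A.1.1 r
    rw [PSLn.tw_succ', hlam, hτ, PSLn.smul_map, PSLn.one_map, mul_smul_comm, mul_one, smul_mul_assoc, one_mul] at h1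
    have h2 : A.1.1.map ⇑(1 : RingAut F) = A.1.1 := by ext i j; rfl
    rw [h2] at h1
    have h3 : (lam - τ lam) • A.1.1 = 0 := by rw [sub_smul, h1, sub_self]
    rcases smul_eq_zero.1 h3 with h4 | h4
    · linear_combination -h4
    · exact absurd h4 hA0
  obtain ⟨c, hc1, hc2⟩ := exists_unit_norm (σ := σ) τ hr hodd hN hfix
  have hc0 : c ≠ 0 := by
    rintro rfl
    simp at hc1
  have hlam0 : lam ≠ 0 := by
    rintro rfl
    simp at hN
  have hc1' : σ c⁻¹ * c⁻¹ = 1 := by rw [map_inv₀, ← mul_inv, hc1, inv_one]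
  have hA' : IsU σ (c⁻¹ • A.1.1) := isU_smul hc1' (isU_gu A)
  have htw : tw τ (c⁻¹ • A.1.1) r = 1 := by
    rw [tw_smul, hlam, smul_smul, nrm_inv', hc2, inv_mul_cancel₀ hlam0, one_smul]
  obtain ⟨B, hBU, hB⟩ := h90U S hs0 hs1 hr hr0 hA' htw
  refine ⟨mkGU (UC.hσ (σ := σ)) B hBU, ?_⟩
  rw [eq_mul_inv_iff_mul_eq, mul_assoc, fbar_cbar, ← mul_assoc, ← map_mul]
  congr 1
  apply cbar_eq_of_smul (c := c)
  change A.1.1 * B.map τ = c • B
  conv_rhs => rw [← hB, smul_mul_assoc, smul_smul, mul_inv_cancel₀ hc0, one_smul]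

/-- the coset statement for an arbitrary conjugate of a standard field automorphism. -/
theorem coset_conj_gen_U [Finite F₀] (S : SubF σ τ σ₀) (hs0 : ∀ t, σ₀ (σ₀ t) = t) (hs1 : ∃ t, σ₀ t ≠ t)
    (hn : 3 ≤ n) {r : ℕ} (hr : orderOf τ = r) (hodd : Odd r) (x : MulAut Gb) (c : GU')
    (hc : x = cbar σ c * fbar σ τ * (cbar σ c)⁻¹) (D : GU') (h : orderOf (cbar σ D * x) = r) :
    ∃ B : GU', cbar σ D * x = cbar σ B * x * (cbar σ B)⁻¹ := by
  have e1 : cbar σ (c⁻¹ * D * c) * fbar σ τ = (cbar σ c)⁻¹ * (cbar σ D * x) * (cbar σ c)⁻¹⁻¹ := by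
    rw [hc, map_mul, map_mul, map_inv]
    group
  have h1 : (cbar σ (c⁻¹ * D * c) * fbar σ τ) ^ r = 1 := by
    rw [← h, e1, ← PSLn.orderOf_conj' (cbar σ c)⁻¹ (cbar σ D * x)]
    exact pow_orderOf_eq_one _
  obtain ⟨B, hB⟩ := field_conj_U (σ := σ) (p := p) S hs0 hs1 hn hr hodd _ h1
  refine ⟨c * B * c⁻¹, ?_⟩
  have e2 : cbar σ D * x = cbar σ c * (cbar σ (c⁻¹ * D * c) * fbar σ τ) * (cbar σ c)⁻¹ := by
    rw [e1]; group
  rw [e2, hB]
  conv_rhs => rw [hc]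
  rw [map_mul, map_mul, map_inv]
  group

/-- existence of subfield data -/
theorem exists_subF {f r : ℕ} (hq : q = p ^ f) (τ : RingAut F) (hr : orderOf τ = r) (hodd : Odd r)
    (F₀ : Type*) [Field F₀] [Fintype F₀] (hF₀ : Fintype.card F₀ = p ^ (2 * (f / r))) :
    r ∣ f ∧ ∃ σ₀ : F₀ →+* F₀, UC F₀ (p ^ (f / r)) σ₀ ∧ Nonempty (SubF σ τ σ₀) := by
  classical
  have hF : Fintype.card F = p ^ (2 * f) := by rw [UC.hF (σ := σ), hq, ← pow_mul, mul_comm]
  obtain ⟨hdvd, hcard⟩ := card_fixF hF τ hr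
  have hrf : r ∣ f := (Nat.Coprime.dvd_of_dvd_mul_left (Nat.coprime_two_right.2 hodd)) hdvd
  have h2 : 2 * f / r = 2 * (f / r) := Nat.mul_div_assoc 2 hrf
  have hF₀' : Fintype.card F₀ = (p ^ (f / r)) ^ 2 := by rw [hF₀, ← pow_mul, mul_comm]
  obtain ⟨σ₀, hσ₀⟩ := exists_sig hF₀'
  refine ⟨hrf, σ₀, ⟨hF₀', hσ₀⟩, ?_⟩
  have : Fintype (fixF τ) := Fintype.ofFinite _
  have hcc : Fintype.card F₀ = Fintype.card (fixF τ) := by
    rw [hF₀, ← h2, ← hcard, Nat.card_eq_fintype_card]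
  let e : F₀ ≃+* fixF τ := FiniteField.ringEquivOfCardEq hcc
  let ι : F₀ →+* F := (fixF τ).subtype.comp (e : F₀ →+* fixF τ)
  refine ⟨⟨ι, ?_, ?_⟩⟩
  · intro y
    constructor
    · intro hy
      refine ⟨e.symm ⟨y, (mem_fixF _ _).2 hy⟩, ?_⟩
      change ((e (e.symm ⟨y, _⟩) : fixF τ) : F) = y
      rw [RingEquiv.apply_symm_apply]
    · rintro ⟨t, rfl⟩
      exact (mem_fixF _ _).1 (e t).2
  · intro t
    rw [UC.hσ (σ := σ), ← map_pow, hσ₀]
    congr 1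
    obtain ⟨k, hk⟩ := hodd
    have h3 : q = (p ^ (f / r)) ^ r := by rw [← pow_mul, Nat.div_mul_cancel hrf, hq]
    have h4 : (p ^ (f / r)) ^ r = (Fintype.card F₀) ^ k * p ^ (f / r) := by
      rw [hF₀']
      generalize p ^ (f / r) = Q
      rw [hk, ← pow_mul, pow_succ]
    rw [h3, h4, pow_mul, FiniteField.pow_card_pow]

end Cfsg.Agent.Lib.Helper4.PSU
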