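import Mathlib
import Cfsg.Agent.Lib.Helper4.PSUp

set_option linter.unusedSimpArgs false
set_option linter.unusedSectionVars false
set_option linter.style.haveILetI false

namespace Cfsg.Agent.Lib.Helper4.PSU

open Cfsg.Agent.Lib.Helper4.UniCount Cfsg.Agent.Lib.Helper4.UniFrame Cfsg.Agent.Lib.Helper4.UniMat
open Cfsg.Agent.Lib.Helper4.UniSU Cfsg.Agent.Lib.Helper4.UniCenter Cfsg.Agent.Lib.Helper4.UniLines
open Cfsg.Agent.Lib.Helper4.H90 Cfsg.Agent.Lib.Helper4.Fix Cfsg.Agent.Lib.Helper4.Split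
open Matrix

variable {F : Type*} [Field F] [Fintype F] {q : ℕ} {σ : F →+* F} [hc : UC F q σ] {n m : ℕ}
variable {F₀ : Type*} [Field F₀] [Fintype F₀] {q₀ : ℕ} {σ₀ : F₀ →+* F₀} [hc₀ : UC F₀ q₀ σ₀] {τ : RingAut F}

include hc

local notation "G" => Cfsg.SU n F q
local notation "Gb" => Cfsg.PSU n F q
local notation "GU'" => Cfsg.GU n F q
local notation "N1" => MonoidHom.ker (powMonoidHom (q + 1) : Fˣ →* Fˣ)

/-- the stabiliser in `GU_n` of a conjugate of `y` -/
theorem mem_stab_iff (c a : GU') (y : MulAut Gb) :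
    a ∈ (Subgroup.centralizer {cbar σ c * y * (cbar σ c)⁻¹}).comap (cbar σ : GU' →* MulAut Gb) ↔
      cbar σ (c⁻¹ * a * c) * y = y * cbar σ (c⁻¹ * a * c) := by
  rw [Subgroup.mem_comap, Subgroup.mem_centralizer_singleton_iff, map_mul, map_mul, map_inv]
  constructor
  · intro h
    calc (cbar σ c)⁻¹ * cbar σ a * cbar σ c * y
        = (cbar σ c)⁻¹ * (cbar σ a * (cbar σ c * y * (cbar σ c)⁻¹)) * cbar σ c := by group
      _ = _ := by rw [h]; group
  · intro h
    calc cbar σ a * (cbar σ c * y * (cbar σ c)⁻¹)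
        = cbar σ c * ((cbar σ c)⁻¹ * cbar σ a * cbar σ c * y) * (cbar σ c)⁻¹ := by group
      _ = _ := by rw [h]; group

/-- determinant `GU → N1` -/
noncomputable def detN (σ : F →+* F) [UC F q σ] (n : ℕ) : Cfsg.GU n F q →* N1 :=
  (detGU n F q).codRestrict N1 (det_mem (σ := σ))

theorem detN_val (g : GU') : (((detN σ n g : N1) : Fˣ) : F) = g.1.1.det := rfl

theorem detN_surj (hn : 1 ≤ n) : Function.Surjective (detN σ n) :=
  fun u => ⟨DGU σ ⟨0, hn⟩ u, Subtype.ext (det_DGU _ u)⟩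

theorem detN_conj (c a : GU') : detN σ n (c⁻¹ * a * c) = detN σ n a := by
  rw [map_mul, map_mul, map_inv, mul_comm, ← mul_assoc, mul_inv_cancel, one_mul]

theorem inn_eq : Cfsg.Inn Gb = (detN σ n).ker.map (cbar σ : GU' →* MulAut Gb) := by
  ext α
  constructor
  · rintro ⟨y, rfl⟩
    obtain ⟨s, rfl⟩ := QuotientGroup.mk_surjective y
    refine ⟨toGU σ s, ?_, cbar_toGU s⟩
    change toGU σ s ∈ (detN σ n).ker
    rw [MonoidHom.mem_ker]
    exact Subtype.ext (Units.ext s.1.2)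
  · rintro ⟨g, hg, rfl⟩
    have hg' : detN σ n g = 1 := hg
    have hdet : g.1.1.det = 1 := congrArg (fun u : N1 => ((u : Fˣ) : F)) hg'
    obtain ⟨s, rfl⟩ := exists_toGU (σ := σ) g hdet
    rw [cbar_toGU]
    exact ⟨_, rfl⟩

include hc₀

/-- `GU_n(F₀) → GU_n(F)` -/
def SubF.mapU (S : SubF σ τ σ₀) : Cfsg.GU n F₀ q₀ →* Cfsg.GU n F q :=
  ((Matrix.GeneralLinearGroup.map S.ι).comp (Cfsg.GU n F₀ q₀).subtype).codRestrict (Cfsg.GU n F q) (fun P => by
    rw [mem_GU_iff (UC.hσ (σ := σ))]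
    exact (S.isU_iff _).1 (isU_gu (σ := σ₀) P))

theorem SubF.mapU_val (S : SubF σ τ σ₀) (P : Cfsg.GU n F₀ q₀) : (S.mapU P).1.1 = P.1.1.map S.ι := rfl

/-- the homomorphism `GU_n(F₀) → Aut(PSU_n(F))` -/
noncomputable def ThetaU (S : SubF σ τ σ₀) (c : GU') : Cfsg.GU n F₀ q₀ →* MulAut Gb :=
  (MulAut.conj (cbar σ c)).toMonoidHom.comp ((cbar σ).comp S.mapU)

theorem ThetaU_apply (S : SubF σ τ σ₀) (c : GU') (P : Cfsg.GU n F₀ q₀) :
    ThetaU S c P = cbar σ c * cbar σ (S.mapU P) * (cbar σ c)⁻¹ := rfl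

/-- a unitary matrix that is `τ`-fixed up to a scalar is a norm one scalar times a `τ`-fixed unitary matrix -/
theorem descentU (S : SubF σ τ σ₀) (hn : 1 ≤ n) {r : ℕ} (hr : orderOf τ = r) (hr0 : 0 < r) (a : GU') {lam : F}
    (h : a.1.1 = lam • a.1.1.map τ) :
    ∃ (s : F) (P : Cfsg.GU n F₀ q₀), σ s * s = 1 ∧ a.1.1 = s • P.1.1.map S.ι := by
  obtain ⟨b, hb0, hb⟩ := PSLn.descent hn τ hr hr0 a.1 h
  set M := b • a.1.1 with hM
  have hMU : (M.map σ)ᵀ * M = (σ b * b) • 1 := by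
    have h1 : (b • a.1.1).map σ = σ b • a.1.1.map σ := by ext i j; simp
    rw [hM, h1, transpose_smul, smul_mul_smul_comm, isU_gu (σ := σ) a]
  let z : Fin n := ⟨0, hn⟩
  have hν : τ (σ b * b) = σ b * b := by
    have e : σ b * b = ∑ k, σ (M k z) * M k z := by
      have := congrFun (congrFun hMU z) z
      simp only [Matrix.mul_apply, transpose_apply, Matrix.map_apply, Matrix.smul_apply, Matrix.one_apply_eq,
        smul_eq_mul, mul_one] at this
      exact this.symm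
    rw [e, map_sum]
    apply Finset.sum_congr rfl
    intro k _
    have hk : τ (M k z) = M k z := congrFun (congrFun hb k) z
    rw [map_mul, ← sig_tau (σ := σ), hk]
  have hν0 : σ b * b ≠ 0 := mul_ne_zero ((map_ne_zero σ).2 hb0) hb0
  obtain ⟨ν₀, hν₀⟩ := (S.fix _).1 hν
  have hν₀' : σ₀ ν₀ = ν₀ := by
    apply S.ι.injective
    rw [S.comm, hν₀, map_mul, ss, mul_comm]
  obtain ⟨t₀, ht₀⟩ := exists_norm (σ := σ₀) ν₀ hν₀'
  set t := S.ι t₀ with ht
  have htN : σ t * t = σ b * b := by rw [ht, ← S.comm, ← map_mul, ht₀, hν₀]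
  have ht0 : t ≠ 0 := by
    intro h0
    rw [h0, mul_zero] at htN
    exact hν0 htN.symm
  have htfix : τ t = t := (S.fix _).2 ⟨t₀, rfl⟩
  have hst0 : σ t ≠ 0 := (map_ne_zero σ).2 ht0
  have hsb0 : σ b ≠ 0 := (map_ne_zero σ).2 hb0
  have hN1 : σ (t⁻¹ * b) * (t⁻¹ * b) = 1 := by
    rw [map_mul, map_inv₀]
    calc (σ t)⁻¹ * σ b * (t⁻¹ * b) = (σ t * t)⁻¹ * (σ b * b) := by rw [mul_inv]; ring
      _ = 1 := by rw [htN, inv_mul_cancel₀ hν0]
  have hN2 : σ (t * b⁻¹) * (t * b⁻¹) = 1 := by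
    rw [map_mul, map_inv₀]
    calc σ t * (σ b)⁻¹ * (t * b⁻¹) = (σ t * t) * (σ b * b)⁻¹ := by rw [mul_inv]; ring
      _ = 1 := by rw [htN, mul_inv_cancel₀ hν0]
  have hfix : (t⁻¹ • M).map τ = t⁻¹ • M := by
    rw [PSLn.smul_map, hb, map_inv₀, htfix]
  obtain ⟨P₀, hP₀⟩ := S.descend hfix
  have hU : IsU σ (t⁻¹ • M) := by
    rw [hM, smul_smul]
    exact isU_smul hN1 (isU_gu a)
  have hU₀ : IsU σ₀ P₀ := by
    rw [S.isU_iff, hP₀]
    exact hU
  refine ⟨t * b⁻¹, mkGU (UC.hσ (σ := σ₀)) P₀ hU₀, hN2, ?_⟩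
  change a.1.1 = (t * b⁻¹) • P₀.map S.ι
  rw [hP₀, hM, smul_smul, smul_smul]
  have : t * b⁻¹ * t⁻¹ * b = 1 := by field_simp
  rw [this, one_smul]

theorem card_fixN1 (S : SubF σ τ σ₀) : Nat.card (((Dh τ).ker).subgroupOf N1) = q₀ + 1 := by
  rw [← card_norm_ker (UC.hF (σ := σ₀))]
  let g : (powMonoidHom (q₀ + 1) : F₀ˣ →* F₀ˣ).ker →* N1 :=
    ((Units.map (S.ι : F₀ →* F)).comp (powMonoidHom (q₀ + 1) : F₀ˣ →* F₀ˣ).ker.subtype).codRestrict N1 (by
      intro u
      rw [mem_N1_iff (σ := σ)]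
      have h1 := (mem_N1_iff (σ := σ₀) _).1 u.2
      change σ (S.ι ((u : F₀ˣ) : F₀)) * S.ι ((u : F₀ˣ) : F₀) = 1
      rw [← S.comm, ← map_mul, h1, map_one])
  have hgv : ∀ u, (((g u : N1) : Fˣ) : F) = S.ι ((u : F₀ˣ) : F₀) := fun u => rfl
  have hg : Function.Injective g := by
    intro a b hab
    apply Subtype.ext
    apply Units.ext
    apply S.ι.injective
    rw [← hgv, ← hgv, hab]
  have hr : g.range = ((Dh τ).ker).subgroupOf N1 := by
    ext u
    rw [Subgroup.mem_subgroupOf, mem_ker_Dh]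
    constructor
    · rintro ⟨a, rfl⟩
      exact (S.fix _).2 ⟨_, rfl⟩
    · intro hu
      obtain ⟨t, ht⟩ := (S.fix _).1 hu
      have ht0 : t ≠ 0 := by
        rintro rfl
        rw [map_zero] at ht
        exact (u : Fˣ).ne_zero ht.symm
      have h1 := (mem_N1_iff (σ := σ) _).1 u.2
      refine ⟨⟨Units.mk0 t ht0, ?_⟩, ?_⟩
      · rw [mem_N1_iff (σ := σ₀)]
        apply S.ι.injective
        change S.ι (σ₀ t * t) = S.ι 1
        rw [map_mul, S.comm, ht, h1, map_one]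
      · apply Subtype.ext
        apply Units.ext
        exact ht
  rw [← hr]
  exact (Nat.card_congr (MonoidHom.ofInjective hg).toEquiv).symm

theorem index_fixN1 (S : SubF σ τ σ₀) : (((Dh τ).ker).subgroupOf N1).index = (q + 1) / (q₀ + 1) := by
  have h1 := (((Dh τ).ker).subgroupOf N1).card_mul_index
  rw [card_fixN1 S, card_norm_ker (UC.hF (σ := σ))] at h1
  exact (Nat.div_eq_of_eq_mul_right (by omega) h1.symm).symm

variable {p : ℕ} [hp : Fact p.Prime] [hch : CharP F p]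

include hp hch

omit hc₀ [Fintype F₀] in
/-- commuting with `fbar τ` -/
theorem comm_fbar_iff (hn : 3 ≤ n) (τ : RingAut F) (a : GU') :
    cbar σ a * fbar σ τ = fbar σ τ * cbar σ a ↔ ∃ lam : F, a.1.1 = lam • a.1.1.map τ := by
  rw [fbar_cbar]
  constructor
  · intro h
    obtain ⟨c, -, hc⟩ := smul_of_cbar_eq (σ := σ) (p := p) hn (mul_right_cancel h)
    exact ⟨c, hc⟩
  · rintro ⟨lam, h⟩
    rw [cbar_eq_of_smul (P := a) (Q := mapGU σ τ a) h]

theorem ThetaU_ker (hn : 3 ≤ n) (S : SubF σ τ σ₀) (c : GU') :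
    (ThetaU S c).ker = (Cfsg.Geo.scalars (Fin n) F₀).subgroupOf (Cfsg.GU n F₀ q₀) := by
  ext P
  rw [MonoidHom.mem_ker, ThetaU_apply, Subgroup.mem_subgroupOf, Cfsg.Geo.mem_scalars_iff]
  have h0 : cbar σ c * cbar σ (S.mapU P) * (cbar σ c)⁻¹ = 1 ↔ cbar σ (S.mapU P) = 1 := by
    constructor
    · intro h
      calc cbar σ (S.mapU P)
          = (cbar σ c)⁻¹ * (cbar σ c * cbar σ (S.mapU P) * (cbar σ c)⁻¹) * cbar σ c := by group
        _ = 1 := by rw [h]; group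
    · intro h
      rw [h]; group
  rw [h0]
  constructor
  · intro h
    obtain ⟨μ, hN, hμ⟩ := smul_of_cbar_eq (σ := σ) (p := p) hn (P := S.mapU P) (Q := 1) (by rw [h, map_one])
    have hμ' : P.1.1.map S.ι = μ • 1 := hμ
    let z : Fin n := ⟨0, by omega⟩
    have hz : S.ι (P.1.1 z z) = μ := by
      have := congrFun (congrFun hμ' z) z
      simpa using this
    have hP : P.1.1 = (P.1.1 z z) • 1 := by
      apply PSLn.map_inj S.ι
      rw [hμ']
      ext i j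
      by_cases hij : i = j
      · subst hij; simp [hz]
      · simp [hij]
    have h00 : P.1.1 z z ≠ 0 := by
      intro h0
      rw [h0, map_zero] at hz
      rw [← hz] at hN
      simp at hN
    exact ⟨Units.mk0 _ h00, hP⟩
  · rintro ⟨u, hu⟩
    have h1 : cbar σ (S.mapU P) = cbar σ 1 := by
      apply cbar_eq_of_smul (c := S.ι u)
      change P.1.1.map S.ι = S.ι u • 1
      have hu' : P.1.1 = (u : F₀) • 1 := hu
      rw [hu']
      ext i j
      by_cases hij : i = j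
      · subst hij; simp
      · simp [hij]
    rw [h1, map_one]

theorem ThetaU_range (hn : 3 ≤ n) (S : SubF σ τ σ₀) {r : ℕ} (hr : orderOf τ = r) (hr0 : 0 < r) (c : GU') :
    (ThetaU S c).range =
      Cfsg.inndiagPSU n F q ⊓ Subgroup.centralizer {cbar σ c * fbar σ τ * (cbar σ c)⁻¹} := by
  rw [inndiag_eq (σ := σ)]
  ext y
  rw [Subgroup.mem_inf]
  constructor
  · rintro ⟨P, rfl⟩
    rw [ThetaU_apply]
    refine ⟨⟨c * S.mapU P * c⁻¹, by rw [map_mul, map_mul, map_inv]⟩, ?_⟩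
    have h1 : c * S.mapU P * c⁻¹ ∈
        (Subgroup.centralizer {cbar σ c * fbar σ τ * (cbar σ c)⁻¹}).comap (cbar σ : GU' →* MulAut Gb) := by
      rw [mem_stab_iff, comm_fbar_iff (p := p) hn]
      refine ⟨1, ?_⟩
      have e : c⁻¹ * (c * S.mapU P * c⁻¹) * c = S.mapU P := by group
      rw [e, one_smul]
      exact (S.map_fix _).symm
    rw [Subgroup.mem_comap, map_mul, map_mul, map_inv] at h1
    exact h1
  · rintro ⟨⟨a, rfl⟩, ha⟩
    have ha' : a ∈ (Subgroup.centralizer {cbar σ c * fbar σ τ * (cbar σ c)⁻¹}).comap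
        (cbar σ : GU' →* MulAut Gb) := ha
    rw [mem_stab_iff, comm_fbar_iff (p := p) hn] at ha'
    obtain ⟨lam, hlam⟩ := ha'
    obtain ⟨s, P, hs, hP⟩ := descentU S (by omega) hr hr0 _ hlam
    refine ⟨P, ?_⟩
    rw [ThetaU_apply]
    have h4 : cbar σ (c⁻¹ * a * c) = cbar σ (S.mapU P) := cbar_eq_of_smul (c := s) hP
    rw [← h4, map_mul, map_mul, map_inv]
    group

/-- the centraliser of a field automorphism in `Inndiag` is `PGU_n` of the fixed field. -/
theorem cent_field_U (hn : 3 ≤ n) (S : SubF σ τ σ₀) {r : ℕ} (hr : orderOf τ = r) (hr0 : 0 < r) (c : GU') :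
    Nonempty (↥(Cfsg.inndiagPSU n F q ⊓ Subgroup.centralizer {cbar σ c * fbar σ τ * (cbar σ c)⁻¹}) ≃*
      Cfsg.PGU n F₀ q₀) := by
  have e1 : Cfsg.GU n F₀ q₀ ⧸ (ThetaU S c).ker ≃* (ThetaU S c).range :=
    QuotientGroup.quotientKerEquivRange _
  have e2 : (ThetaU S c).range ≃*
      ↥(Cfsg.inndiagPSU n F q ⊓ Subgroup.centralizer {cbar σ c * fbar σ τ * (cbar σ c)⁻¹}) :=
    MulEquiv.subgroupCongr (ThetaU_range (p := p) hn S hr hr0 c)
  have e3 : Cfsg.GU n F₀ q₀ ⧸ (ThetaU S c).ker ≃* Cfsg.PGU n F₀ q₀ :=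
    QuotientGroup.quotientMulEquivOfEq (ThetaU_ker (p := p) hn S c)
  exact ⟨(e2.symm.trans e1.symm).trans e3⟩

/-- determinants of the stabiliser of a field automorphism -/
theorem det_stab_U (S : SubF σ τ σ₀) (hn : 3 ≤ n) {r : ℕ} (hr : orderOf τ = r) (hr0 : 0 < r) (c : GU') :
    ((Subgroup.centralizer {cbar σ c * fbar σ τ * (cbar σ c)⁻¹}).comap (cbar σ : GU' →* MulAut Gb)).map
      (detN σ n) = (powMonoidHom n : N1 →* N1).range ⊔ ((Dh τ).ker).subgroupOf N1 := by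
  apply le_antisymm
  · rintro _ ⟨a, ha, rfl⟩
    have ha' := (mem_stab_iff c a (fbar σ τ)).1 ha
    obtain ⟨lam, hlam⟩ := (comm_fbar_iff (p := p) hn τ _).1 ha'
    obtain ⟨s, P, hs, hP⟩ := descentU S (by omega) hr hr0 _ hlam
    have hs0 : s ≠ 0 := by
      rintro rfl
      simp at hs
    let su : N1 := ⟨Units.mk0 s hs0, (mem_N1_iff (σ := σ) _).2 hs⟩
    have e : detN σ n a = su ^ n * detN σ n (S.mapU P) := by
      rw [← detN_conj c a]
      apply Subtype.ext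
      apply Units.ext
      change (c⁻¹ * a * c).1.1.det = s ^ n * (P.1.1.map S.ι).det
      rw [hP, det_smul, Fintype.card_fin]
    rw [e]
    refine Subgroup.mul_mem_sup ⟨su, rfl⟩ ?_
    rw [Subgroup.mem_subgroupOf, mem_ker_Dh]
    change τ (P.1.1.map S.ι).det = (P.1.1.map S.ι).det
    rw [← PSLn.det_map, S.map_fix]
  · rw [sup_le_iff]
    constructor
    · rintro _ ⟨u, rfl⟩
      refine ⟨scGU σ n u, ?_, Subtype.ext (det_scGU u)⟩
      change scGU σ n u ∈ Subgroup.comap _ _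
      rw [Subgroup.mem_comap, cbar_scGU]
      exact Subgroup.one_mem _
    · intro t ht
      rw [Subgroup.mem_subgroupOf, mem_ker_Dh] at ht
      refine ⟨c * DGU σ ⟨0, by omega⟩ t * c⁻¹, ?_, ?_⟩
      · change _ ∈ Subgroup.comap _ _
        rw [mem_stab_iff, comm_fbar_iff (p := p) hn]
        refine ⟨1, ?_⟩
        have e : c⁻¹ * (c * DGU σ ⟨0, by omega⟩ t * c⁻¹) * c = DGU σ ⟨0, by omega⟩ t := by group
        rw [e, one_smul]
        change diagonal _ = (diagonal _).map τ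
        ext i j
        by_cases hij : i = j
        · subst hij
          by_cases hi : i = ⟨0, by omega⟩
          · simp [hi, ht]
          · simp [hi]
        · simp [hij]
      · have := detN_conj (σ := σ) c⁻¹ (DGU σ ⟨0, by omega⟩ t)
        rw [inv_inv] at this
        rw [this]
        exact Subtype.ext (det_DGU _ t)

/-- the number of `Inn`-classes in the `Inndiag`-class of a field automorphism -/
theorem split_field_U (S : SubF σ τ σ₀) (hn : 3 ≤ n) {r : ℕ} (hr : orderOf τ = r) (hr0 : 0 < r) (c : GU') :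
    Cfsg.splitClassCount (Cfsg.inndiagPSU n F q) (Cfsg.Inn Gb) (cbar σ c * fbar σ τ * (cbar σ c)⁻¹) =
      Nat.gcd n ((q + 1) / (q₀ + 1)) := by
  rw [inndiag_eq (σ := σ), inn_eq (σ := σ), split_count (cbar σ : GU' →* MulAut Gb) (detN σ n)
    (detN_surj (by omega)), det_stab_U (p := p) S hn hr hr0, index_pow_sup, index_fixN1 S]

end Cfsg.Agent.Lib.Helper4.PSU
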