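import Mathlib
import Cfsg.Agent.Lib.Helper4.PSUq

set_option linter.unusedSimpArgs false
set_option linter.unusedSectionVars false
set_option linter.style.haveILetI false

namespace Cfsg.Agent.Lib.Helper4.FixCountU

open Cfsg.Agent.Lib.Helper4.UniCount Cfsg.Agent.Lib.Helper4.UniFrame Cfsg.Agent.Lib.Helper4.UniMat
open Cfsg.Agent.Lib.Helper4.UniSU Cfsg.Agent.Lib.Helper4.UniCenter Cfsg.Agent.Lib.Helper4.UniLines
open Cfsg.Agent.Lib.Helper4.H90 Cfsg.Agent.Lib.Helper4.Fix Cfsg.Agent.Lib.Helper4.Split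
open Cfsg.Agent.Lib.Helper4.PSU
open Matrix

variable {F : Type*} [Field F] [Fintype F] {q : ℕ} {σ : F →+* F} [hc : UC F q σ] {n m : ℕ}
variable {F₀ : Type*} [Field F₀] [Fintype F₀] {q₀ : ℕ} {σ₀ : F₀ →+* F₀} [hc₀ : UC F₀ q₀ σ₀] {τ : RingAut F}

local notation "GU'" => Cfsg.GU n F q
local notation "N1" => MonoidHom.ker (powMonoidHom (q + 1) : Fˣ →* Fˣ)

include hc

theorem scGU_val (μ : N1) : (scGU σ n μ).1.1 = ((μ : Fˣ) : F) • 1 := by
  change (diagonal fun _ => ((μ : Fˣ) : F)) = _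
  ext i j
  by_cases hij : i = j
  · subst hij; simp
  · simp [hij]

include hc₀

/-- `(s, P) ↦ s • P` -/
noncomputable def PhiU (S : SubF σ τ σ₀) (n : ℕ) : N1 × Cfsg.GU n F₀ q₀ →* Cfsg.GU n F q :=
  MonoidHom.mk' (fun x => scGU σ n x.1 * S.mapU x.2) (by
    intro a b
    apply Subtype.ext
    apply Units.ext
    change (scGU σ n (a.1 * b.1)).1.1 * (a.2.1.1 * b.2.1.1).map S.ι =
      ((scGU σ n a.1).1.1 * a.2.1.1.map S.ι) * ((scGU σ n b.1).1.1 * b.2.1.1.map S.ι)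
    rw [scGU_val, scGU_val, scGU_val, Matrix.map_mul]
    simp only [smul_mul_assoc, one_mul, mul_smul_comm, smul_smul]
    rw [mul_comm]
    rfl)

theorem PhiU_val (S : SubF σ τ σ₀) (x : N1 × Cfsg.GU n F₀ q₀) :
    (PhiU S n x).1.1 = ((x.1 : Fˣ) : F) • x.2.1.1.map S.ι := by
  change (scGU σ n x.1).1.1 * x.2.1.1.map S.ι = _
  rw [scGU_val, smul_mul_assoc, one_mul]

theorem mem_range_PhiU (S : SubF σ τ σ₀) (hn : 1 ≤ n) {r : ℕ} (hr : orderOf τ = r) (hr0 : 0 < r) (g : GU') :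
    g ∈ (PhiU S n).range ↔ ∃ c : F, c ≠ 0 ∧ g.1.1.map τ = c • g.1.1 := by
  constructor
  · rintro ⟨x, rfl⟩
    have hx0 : ((x.1 : Fˣ) : F) ≠ 0 := (x.1 : Fˣ).ne_zero
    refine ⟨τ ((x.1 : Fˣ) : F) * ((x.1 : Fˣ) : F)⁻¹, mul_ne_zero ((map_ne_zero τ).2 hx0) (inv_ne_zero hx0), ?_⟩
    rw [PhiU_val, PSLn.smul_map, S.map_fix, smul_smul, mul_assoc, inv_mul_cancel₀ hx0, mul_one]
  · rintro ⟨c, hc0, hc'⟩
    have h1 : g.1.1 = c⁻¹ • g.1.1.map τ := by rw [hc', smul_smul, inv_mul_cancel₀ hc0, one_smul]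
    obtain ⟨s, P, hs, hP⟩ := descentU S hn hr hr0 g h1
    have hs0 : s ≠ 0 := by
      rintro rfl
      simp at hs
    refine ⟨(⟨Units.mk0 s hs0, (mem_N1_iff (σ := σ) _).2 hs⟩, P), ?_⟩
    apply Subtype.ext
    apply Units.ext
    rw [PhiU_val]
    exact hP.symm

theorem card_ker_PhiU (S : SubF σ τ σ₀) (hn : 1 ≤ n) : Nat.card (PhiU S n).ker = q₀ + 1 := by
  rw [← card_fixN1 S]
  let π : (PhiU S n).ker →* N1 := (MonoidHom.fst N1 (Cfsg.GU n F₀ q₀)).comp (PhiU S n).ker.subtype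
  have hker : ∀ x : (PhiU S n).ker, ((x.1.1 : Fˣ) : F) • x.1.2.1.1.map S.ι = 1 := by
    intro x
    rw [← PhiU_val, MonoidHom.mem_ker.1 x.2]
    rfl
  have hinj : Function.Injective π := by
    intro x y hxy
    have hxy' : x.1.1 = y.1.1 := hxy
    apply Subtype.ext
    apply Prod.ext hxy'
    apply Subtype.ext
    apply Units.ext
    apply PSLn.map_inj S.ι
    have h1 := hker x
    have h2 := hker y
    rw [← hxy'] at h2
    have hx0 : ((x.1.1 : Fˣ) : F) ≠ 0 := (x.1.1 : Fˣ).ne_zero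
    calc x.1.2.1.1.map S.ι = ((x.1.1 : Fˣ) : F)⁻¹ • (((x.1.1 : Fˣ) : F) • x.1.2.1.1.map S.ι) := by
          rw [smul_smul, inv_mul_cancel₀ hx0, one_smul]
      _ = ((x.1.1 : Fˣ) : F)⁻¹ • (((x.1.1 : Fˣ) : F) • y.1.2.1.1.map S.ι) := by rw [h1, h2]
      _ = _ := by rw [smul_smul, inv_mul_cancel₀ hx0, one_smul]
  have hrange : π.range = ((Dh τ).ker).subgroupOf N1 := by
    ext u
    rw [Subgroup.mem_subgroupOf, mem_ker_Dh]
    constructor
    · rintro ⟨x, rfl⟩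
      let z : Fin n := ⟨0, hn⟩
      have hz : ((x.1.1 : Fˣ) : F) * S.ι (x.1.2.1.1 z z) = 1 := by
        have := congrFun (congrFun (hker x) z) z
        simpa using this
      change τ ((x.1.1 : Fˣ) : F) = ((x.1.1 : Fˣ) : F)
      rw [eq_inv_of_mul_eq_one_left hz, map_inv₀, (S.fix _).2 ⟨_, rfl⟩]
    · intro hu
      obtain ⟨t, ht⟩ := (S.fix _).1 hu
      have ht0 : t ≠ 0 := by
        rintro rfl
        rw [map_zero] at ht
        exact (u : Fˣ).ne_zero ht.symm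
      have h1 := (mem_N1_iff (σ := σ) _).1 u.2
      have ht1 : σ₀ t * t = 1 := by
        apply S.ι.injective
        rw [map_mul, S.comm, ht, h1, map_one]
      let tu : (powMonoidHom (q₀ + 1) : F₀ˣ →* F₀ˣ).ker := ⟨Units.mk0 t ht0, (mem_N1_iff (σ := σ₀) _).2 ht1⟩
      refine ⟨⟨(u, scGU σ₀ n tu⁻¹), ?_⟩, rfl⟩
      rw [MonoidHom.mem_ker]
      apply Subtype.ext
      apply Units.ext
      rw [PhiU_val]
      change ((u : Fˣ) : F) • (scGU σ₀ n tu⁻¹).1.1.map S.ι = 1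
      rw [scGU_val (σ := σ₀)]
      have h5 : (((tu⁻¹ : (powMonoidHom (q₀ + 1) : F₀ˣ →* F₀ˣ).ker) : F₀ˣ) : F₀) = t⁻¹ := by
        change (((Units.mk0 t ht0)⁻¹ : F₀ˣ) : F₀) = t⁻¹
        simp
      rw [h5, ← ht]
      have hι0 : S.ι t ≠ 0 := (map_ne_zero S.ι).2 ht0
      ext i j
      by_cases hij : i = j
      · subst hij; simp [hι0]
      · simp [hij]
  rw [← hrange]
  exact Nat.card_congr (MonoidHom.ofInjective hinj).toEquiv

theorem card_eqU (S : SubF σ τ σ₀) (hn : 1 ≤ n) {r : ℕ} (hr : orderOf τ = r) (hr0 : 0 < r) :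
    (q₀ + 1) * Nat.card {g : GU' // ∃ c : F, c ≠ 0 ∧ g.1.1.map τ = c • g.1.1} =
      (q + 1) * Nat.card (Cfsg.GU n F₀ q₀) := by
  have h1 := (PhiU S n).ker.card_mul_index
  rw [Subgroup.index_ker, card_ker_PhiU S hn, Nat.card_prod, card_norm_ker (UC.hF (σ := σ))] at h1
  rw [← h1]
  congr 1
  apply Nat.card_congr
  exact (Equiv.subtypeEquivRight (fun g => mem_range_PhiU S hn hr hr0 g)).symm

end Cfsg.Agent.Lib.Helper4.FixCountU
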