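import Mathlib
import Cfsg.Agent.S0263
import Cfsg.Agent.S0771

set_option autoImplicit false

namespace Cfsg.Agent.Lib.Helper4.GL2Syl

open Matrix

variable {F : Type*} [Field F]

theorem mul_entries (a b : GL (Fin 2) F) (i j : Fin 2) :
    (a * b).1 i j = a.1 i 0 * b.1 0 j + a.1 i 1 * b.1 1 j := by
  rw [Units.val_mul, Matrix.mul_apply, Fin.sum_univ_two]

theorem inv_mul_entries (a : GL (Fin 2) F) (i j : Fin 2) :
    a⁻¹.1 i 0 * a.1 0 j + a⁻¹.1 i 1 * a.1 1 j = (1 : Matrix (Fin 2) (Fin 2) F) i j := by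
  rw [← mul_entries, inv_mul_cancel]; rfl

theorem diag_ne_zero (a : GL (Fin 2) F) (h : a.1 1 0 = 0) : a.1 0 0 ≠ 0 ∧ a.1 1 1 ≠ 0 := by
  have := GeneralLinearGroup.det_ne_zero a
  rw [det_fin_two, h, mul_zero, sub_zero] at this
  exact ⟨left_ne_zero_of_mul this, right_ne_zero_of_mul this⟩

/-- upper triangular subgroup -/
def B (F : Type*) [Field F] : Subgroup (GL (Fin 2) F) where
  carrier := {g | g.1 1 0 = 0}
  mul_mem' := by
    intro a b ha hb
    simp only [Set.mem_ofPred_eq] at ha hb ⊢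
    rw [mul_entries, ha, hb]; simp
  one_mem' := by simp
  inv_mem' := by
    intro a ha
    simp only [Set.mem_ofPred_eq] at ha ⊢
    have h1 := inv_mul_entries a 1 0
    rw [ha] at h1
    simp [-Matrix.coe_units_inv] at h1
    exact h1.resolve_right (diag_ne_zero a ha).1

theorem mem_B (g : GL (Fin 2) F) : g ∈ B F ↔ g.1 1 0 = 0 := Iff.rfl

/-- upper unitriangular subgroup -/
def U (F : Type*) [Field F] : Subgroup (GL (Fin 2) F) where
  carrier := {g | g.1 0 0 = 1 ∧ g.1 1 0 = 0 ∧ g.1 1 1 = 1}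
  mul_mem' := by
    rintro a b ⟨ha, ha', ha''⟩ ⟨hb, hb', hb''⟩
    simp only [Set.mem_ofPred_eq]
    rw [mul_entries, mul_entries, mul_entries, ha, hb, ha', hb', ha'', hb'']; simp
  one_mem' := by simp
  inv_mem' := by
    rintro a ⟨ha, ha', ha''⟩
    simp only [Set.mem_ofPred_eq]
    have h1 := inv_mul_entries a 1 0
    have h2 := inv_mul_entries a 0 0
    have h3 := inv_mul_entries a 1 1
    rw [ha, ha'] at h1 h2
    rw [ha''] at h3
    simp [-Matrix.coe_units_inv] at h1 h2 h3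
    rw [h1] at h3
    simp [-Matrix.coe_units_inv] at h3
    exact ⟨h2, h1, h3⟩

theorem mem_U (g : GL (Fin 2) F) : g ∈ U F ↔ g.1 0 0 = 1 ∧ g.1 1 0 = 0 ∧ g.1 1 1 = 1 := Iff.rfl

/-- the elementary matrix -/
noncomputable def u (b : F) : GL (Fin 2) F :=
  GeneralLinearGroup.mkOfDetNeZero !![1, b; 0, 1] (by simp [det_fin_two])

theorem u_val (b : F) : (u b).1 = !![1, b; 0, 1] := rfl

theorem u_mem (b : F) : u b ∈ U F := by
  rw [mem_U, u_val]; simp

theorem eq_u (g : GL (Fin 2) F) (hg : g ∈ U F) : g = u (g.1 0 1) := by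
  obtain ⟨h1, h2, h3⟩ := hg
  apply Units.ext
  rw [u_val]
  ext i j
  fin_cases i <;> fin_cases j <;> simp [h1, h2, h3]

theorem card_U [Fintype F] : Nat.card (U F) = Fintype.card F := by
  rw [← Nat.card_eq_fintype_card]
  refine Nat.card_congr ⟨fun g => g.1.1 0 1, fun b => ⟨u b, u_mem b⟩, ?_, ?_⟩
  · intro g
    exact Subtype.ext (eq_u g.1 g.2).symm
  · intro b
    simp [u_val]

theorem B_eq_stab : (B F : Subgroup (GL (Fin 2) F)) =
    Cfsg.stabilizing (Cfsg.glToMat (Fin 2) F)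
      {v : Fin 2 → F | ∀ i : Fin 2, 1 ≤ (i : ℕ) → v i = 0} := by
  have hS : ∀ v : Fin 2 → F, v ∈ {v : Fin 2 → F | ∀ i : Fin 2, 1 ≤ (i : ℕ) → v i = 0} ↔
      v 1 = 0 := by
    intro v
    constructor
    · intro h; exact h 1 (by simp)
    · intro h i hi
      fin_cases i
      · simp at hi
      · exact h
  ext g
  constructor
  · intro hg v
    rw [hS, hS]
    change _ ↔ (g.1 *ᵥ v) 1 = 0
    rw [mulVec, dotProduct, Fin.sum_univ_two, (mem_B g).1 hg, zero_mul, zero_add]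
    constructor
    · intro h; rw [h, mul_zero]
    · intro h; exact (mul_eq_zero.1 h).resolve_left (diag_ne_zero g hg).2
  · intro hg
    have h1 := (hg (Pi.single 0 1)).1 ((hS _).2 (by simp))
    rw [hS] at h1
    change (g.1 *ᵥ _) 1 = 0 at h1
    rw [mulVec_single_one] at h1
    exact h1

theorem card_B [Fintype F] {q : ℕ} (hF : Fintype.card F = q) :
    Nat.card (B F) = q * (q - 1) ^ 2 := by
  rw [B_eq_stab, Cfsg.Agent.S0771.result hF 2 1 (by norm_num)]
  simp
  ring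

theorem conj_mem_U (g : GL (Fin 2) F) (hg : g ∈ B F) (h : GL (Fin 2) F) (hh : h ∈ U F) :
    g * h * g⁻¹ ∈ U F := by
  set k := g * h * g⁻¹ with hk
  have hkg : k * g = g * h := by rw [hk]; group
  obtain ⟨h1, h2, h3⟩ := hh
  have hg0 := (mem_B g).1 hg
  obtain ⟨ha, hd⟩ := diag_ne_zero g hg
  have e00 := congr_arg (fun m : GL (Fin 2) F => m.1 0 0) hkg
  have e10 := congr_arg (fun m : GL (Fin 2) F => m.1 1 0) hkg
  have e11 := congr_arg (fun m : GL (Fin 2) F => m.1 1 1) hkg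
  simp only [mul_entries, hg0, h1, h2, h3, mul_zero, add_zero, zero_mul, mul_one, zero_add]
    at e00 e10 e11
  have k10 : k.1 1 0 = 0 := (mul_eq_zero.1 e10).resolve_right ha
  rw [k10, zero_mul, zero_add] at e11
  refine ⟨?_, k10, ?_⟩
  · exact mul_right_cancel₀ ha (by rw [e00, one_mul])
  · exact mul_right_cancel₀ hd (by rw [e11, one_mul])

theorem normalizer_U : Subgroup.normalizer (U F : Set (GL (Fin 2) F)) = B F := by
  ext g
  rw [Subgroup.mem_normalizer_iff]
  constructor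
  · intro h
    have h1 := (h (u 1)).1 (u_mem 1)
    set k := g * u 1 * g⁻¹ with hk
    have hkg : k * g = g * u 1 := by rw [hk]; group
    obtain ⟨k1, k2, k3⟩ := h1
    have e11 := congr_arg (fun m : GL (Fin 2) F => m.1 1 1) hkg
    simp only [mul_entries, k1, k2, k3, u_val] at e11
    simp at e11
    exact e11
  · intro hg h
    constructor
    · exact conj_mem_U g hg h
    · intro hh
      have := conj_mem_U g⁻¹ ((B F).inv_mem hg) _ hh
      have e : g⁻¹ * (g * h * g⁻¹) * g⁻¹⁻¹ = h := by group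
      rwa [e] at this

section sylow

variable [Fintype F] (p : ℕ) [Fact p.Prime] [CharP F p]

theorem card_sylow (P : Sylow p (GL (Fin 2) F)) : Nat.card P = Fintype.card F := by
  have := Cfsg.Agent.S0263.result (F := F) rfl p 2 P
  simpa using this

theorem card_U_eq : Nat.card (U F) = p ^ (Nat.card (GL (Fin 2) F)).factorization p := by
  obtain ⟨P⟩ : Nonempty (Sylow p (GL (Fin 2) F)) := inferInstance
  rw [card_U, ← card_sylow p P, Sylow.card_eq_multiplicity]

/-- `U` as a Sylow subgroup -/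
noncomputable def SU : Sylow p (GL (Fin 2) F) := Sylow.ofCard (U F) (card_U_eq p)

theorem coe_SU : ((SU p : Sylow p (GL (Fin 2) F)) : Subgroup (GL (Fin 2) F)) = U F := rfl

theorem exists_conj (P : Sylow p (GL (Fin 2) F)) :
    ∃ g : GL (Fin 2) F, ∀ x, x ∈ P ↔ g⁻¹ * x * g ∈ U F := by
  obtain ⟨g, hg⟩ := MulAction.exists_smul_eq (GL (Fin 2) F) (SU p : Sylow p (GL (Fin 2) F)) P
  refine ⟨g, fun x => ?_⟩
  rw [← hg]
  change x ∈ ((g • SU p : Sylow p (GL (Fin 2) F)) : Subgroup (GL (Fin 2) F)) ↔ _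
  rw [Sylow.coe_subgroup_smul, Subgroup.mem_pointwise_smul_iff_inv_smul_mem,
    coe_SU, MulAut.smul_def, ← map_inv, MulAut.conj_apply, inv_inv]

theorem card_normalizer {q : ℕ} (hF : Fintype.card F = q) (P : Sylow p (GL (Fin 2) F)) :
    Nat.card (Subgroup.normalizer ((P : Subgroup (GL (Fin 2) F)) : Set (GL (Fin 2) F))) =
      q * (q - 1) ^ 2 := by
  have h1 : Nat.card (Sylow p (GL (Fin 2) F)) = (Subgroup.normalizer
    ((P : Subgroup (GL (Fin 2) F)) : Set (GL (Fin 2) F))).index :=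
    Sylow.card_eq_index_normalizer P
  have h2 : Nat.card (Sylow p (GL (Fin 2) F)) = (Subgroup.normalizer
    (((SU p : Sylow p (GL (Fin 2) F)) : Subgroup (GL (Fin 2) F)) : Set (GL (Fin 2) F))).index :=
    Sylow.card_eq_index_normalizer (SU p : Sylow p (GL (Fin 2) F))
  have h3 := Subgroup.card_mul_index
    (Subgroup.normalizer ((P : Subgroup (GL (Fin 2) F)) : Set (GL (Fin 2) F)))
  have h4 := Subgroup.card_mul_index (Subgroup.normalizer
    (((SU p : Sylow p (GL (Fin 2) F)) : Subgroup (GL (Fin 2) F)) : Set (GL (Fin 2) F)))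
  rw [← h1] at h3
  rw [← h2, coe_SU, normalizer_U, card_B hF, ← h3] at h4
  have hpos : 0 < Nat.card (Sylow p (GL (Fin 2) F)) := Nat.card_pos
  exact (Nat.eq_of_mul_eq_mul_right hpos h4).symm

theorem card_sylows {q : ℕ} (hF : Fintype.card F = q) :
    Nat.card (Sylow p (GL (Fin 2) F)) = q + 1 := by
  have h2 : Nat.card (Sylow p (GL (Fin 2) F)) = (Subgroup.normalizer
    (((SU p : Sylow p (GL (Fin 2) F)) : Subgroup (GL (Fin 2) F)) : Set (GL (Fin 2) F))).index :=
    Sylow.card_eq_index_normalizer (SU p : Sylow p (GL (Fin 2) F))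
  have h4 := Subgroup.card_mul_index (Subgroup.normalizer
    (((SU p : Sylow p (GL (Fin 2) F)) : Subgroup (GL (Fin 2) F)) : Set (GL (Fin 2) F)))
  rw [← h2, coe_SU, normalizer_U, card_B hF, Matrix.card_GL_field, hF, Fin.prod_univ_two] at h4
  have hq : 2 ≤ q := by rw [← hF]; exact Fintype.one_lt_card
  obtain ⟨t, rfl⟩ : ∃ t, q = t + 2 := ⟨q - 2, by omega⟩
  have e1 : (t + 2) ^ 2 - (t + 2) ^ ((0 : Fin 2) : ℕ) = (t + 1) * (t + 3) := by
    apply Nat.sub_eq_of_eq_add; simp; ring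
  have e2 : (t + 2) ^ 2 - (t + 2) ^ ((1 : Fin 2) : ℕ) = (t + 2) * (t + 1) := by
    apply Nat.sub_eq_of_eq_add; simp; ring
  rw [e1, e2] at h4
  have e3 : t + 2 - 1 = t + 1 := by omega
  rw [e3] at h4
  have hpos : 0 < (t + 2) * (t + 1) ^ 2 := by positivity
  apply Nat.eq_of_mul_eq_mul_left hpos
  rw [h4]; ring

end sylow

end Cfsg.Agent.Lib.Helper4.GL2Syl
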