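import Mathlib
import Cfsg.Agent.S2579
import Cfsg.Agent.Lib.Helper4.GL2Conj
import Cfsg.Agent.Lib.Helper4.LineCount
import Cfsg.Agent.Lib.Helper4.SL2Class

set_option linter.unusedSimpArgs false
set_option linter.unusedSectionVars false
set_option linter.style.haveILetI false

namespace Cfsg.Agent.Lib.Helper4.GLTv

open Matrix Cfsg.Agent.Lib.Helper4.SLnTv Cfsg.Agent.Lib.Helper4.PSLn

variable {F : Type*} [Field F] {n : ℕ}

/-- the pairs (centre vector, axis covector) -/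
def PP (F : Type*) [Field F] (n : ℕ) : Set ((Fin n → F) × (Fin n → F)) :=
  {x | x.1 ≠ 0 ∧ x.2 ≠ 0 ∧ x.2 ⬝ᵥ x.1 = 0}

theorem exists_pair {M : Matrix (Fin n) (Fin n) F} (ht : Cfsg.IsTransvection M) :
    ∃ x ∈ PP F n, M = 1 + vecMulVec x.1 x.2 := by
  obtain ⟨h1, h2⟩ := ht
  obtain ⟨v, φ, h⟩ := Cfsg.Agent.S2579.exists_vecMulVec _ h1
  have hne : vecMulVec v φ ≠ 0 := by
    intro h0
    rw [h, h0, Matrix.rank_zero] at h1
    exact zero_ne_one h1
  have hv : v ≠ 0 := by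
    rintro rfl
    exact hne (by simp)
  have hφ : φ ≠ 0 := by
    rintro rfl
    exact hne (by simp)
  have h0 : φ ⬝ᵥ v = 0 := by
    rw [h, vecMulVec_mul_vecMulVec] at h2
    by_contra hc
    apply hne
    have h3 : vecMulVec v ((φ ⬝ᵥ v) • φ) = (φ ⬝ᵥ v) • vecMulVec v φ := by
      ext i j; simp [vecMulVec_apply]; ring
    rw [h3] at h2
    exact (smul_eq_zero.1 h2).resolve_left hc
  exact ⟨(v, φ), ⟨hv, hφ, h0⟩, by rw [← h]; abel⟩

theorem vecMulVec_ne_zero {v φ : Fin n → F} (hv : v ≠ 0) (hφ : φ ≠ 0) : vecMulVec v φ ≠ 0 := by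
  obtain ⟨i, hi⟩ := Function.ne_iff.mp hv
  obtain ⟨j, hj⟩ := Function.ne_iff.mp hφ
  intro h
  have := congrFun (congrFun h i) j
  rw [vecMulVec_apply] at this
  exact mul_ne_zero hi hj this

theorem isTv_of_pair {x : (Fin n → F) × (Fin n → F)} (hx : x ∈ PP F n) :
    Cfsg.IsTransvection (1 + vecMulVec x.1 x.2) := by
  obtain ⟨hv, hφ, h0⟩ := hx
  rw [Cfsg.IsTransvection, add_sub_cancel_left]
  constructor
  · apply le_antisymm (rank_vecMulVec_le _ _)
    rw [Nat.one_le_iff_ne_zero]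
    intro h
    rw [Matrix.rank, Submodule.finrank_eq_zero, LinearMap.range_eq_bot] at h
    apply vecMulVec_ne_zero hv hφ
    ext i j
    have h2 := congrFun (congrArg (fun f => f (Pi.single j 1)) h) i
    simpa using h2
  · rw [vecMulVec_mul_vecMulVec, h0, zero_smul]
    simp

/-- the transvection in `GL` attached to a pair -/
noncomputable def glT (x : PP F n) : GL (Fin n) F := Matrix.SpecialLinearGroup.toGL (tv x.1.1 x.1.2)

theorem glT_val (x : PP F n) : (glT x).1 = 1 + vecMulVec x.1.1 x.1.2 := tv_val x.2.2.2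

theorem isConj_tv [Finite F] (hn : 2 ≤ n) (s t : GL (Fin n) F) (hs : Cfsg.IsTransvection s.1) (ht : Cfsg.IsTransvection t.1) :
    IsConj s t := by
  obtain rfl | h3 : n = 2 ∨ 3 ≤ n := by omega
  · have key : ∀ t : GL (Fin 2) F, Cfsg.IsTransvection t.1 → IsConj t (GL2Conj.compGL 2 1) := by
      intro t ht
      obtain ⟨x, ⟨hv, hφ, h0⟩, hx⟩ := exists_pair ht
      have hns : ∀ c : F, t.1 ≠ c • (1 : Matrix (Fin 2) (Fin 2) F) := by
        intro c hc
        have h1 : vecMulVec x.1 x.2 = (c - 1) • (1 : Matrix (Fin 2) (Fin 2) F) := by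
          rw [sub_smul, one_smul, ← hc, hx]; abel
        have h2 : vecMulVec x.1 x.2 * vecMulVec x.1 x.2 = 0 := by
          rw [vecMulVec_mul_vecMulVec, h0, zero_smul]; simp
        rw [h1, smul_mul_smul_comm, mul_one] at h2
        have h4 := congrFun (congrFun h2 0) 0
        simp at h4
        apply vecMulVec_ne_zero hv hφ
        rw [h1, h4, zero_smul]
      have h5 := GL2Conj.isConj_compGL t hns
      have htr : t.1.trace = 2 := by
        rw [hx, trace_add, trace_one, trace_vecMulVec, dotProduct_comm, h0, add_zero]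
        simp
      have hdet : GeneralLinearGroup.det t = 1 := by
        apply Units.ext
        change t.1.det = 1
        have := det_tvM x.1 x.2
        rw [tvM, h0, add_zero] at this
        rw [hx, this]
      rwa [htr, hdet] at h5
    exact (key s hs).trans (key t ht).symm
  · obtain ⟨x, hx, hsx⟩ := exists_pair hs
    obtain ⟨y, hy, hty⟩ := exists_pair ht
    have e1 : s = glT ⟨x, hx⟩ := Units.ext (by rw [glT_val, hsx])
    have e2 : t = glT ⟨y, hy⟩ := Units.ext (by rw [glT_val, hty])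
    rw [e1, e2]
    apply MonoidHom.map_isConj
    apply Cfsg.Agent.S2579.result h3
    · rw [tv_val hx.2.2]; exact isTv_of_pair hx
    · rw [tv_val hy.2.2]; exact isTv_of_pair hy

theorem isTv_conj {s t : GL (Fin n) F} (hs : Cfsg.IsTransvection s.1) (h : IsConj s t) : Cfsg.IsTransvection t.1 := by
  obtain ⟨g, hg⟩ := isConj_iff.1 h
  obtain ⟨x, ⟨hv, hφ, h0⟩, hx⟩ := exists_pair hs
  have hinv : (g⁻¹).1 * g.1 = 1 := by rw [← Units.val_mul, inv_mul_cancel]; rfl
  have hinv' : g.1 * (g⁻¹).1 = 1 := by rw [← Units.val_mul, mul_inv_cancel]; rfl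
  have e : t.1 = 1 + vecMulVec (g.1 *ᵥ x.1) (x.2 ᵥ* (g⁻¹).1) := by
    rw [← hg]
    change g.1 * s.1 * (g⁻¹).1 = _
    rw [hx, mul_add, add_mul, mul_one, hinv', mul_vecMulVec, vecMulVec_mul]
  rw [e]
  apply isTv_of_pair (x := (g.1 *ᵥ x.1, x.2 ᵥ* (g⁻¹).1))
  refine ⟨?_, ?_, ?_⟩
  · intro h1
    apply hv
    have : (g⁻¹).1 *ᵥ (g.1 *ᵥ x.1) = 0 := by
      change g.1 *ᵥ x.1 = 0 at h1
      rw [h1, mulVec_zero]
    rwa [mulVec_mulVec, hinv, one_mulVec] at this
  · intro h1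
    apply hφ
    have : (x.2 ᵥ* (g⁻¹).1) ᵥ* g.1 = 0 := by
      change x.2 ᵥ* (g⁻¹).1 = 0 at h1
      rw [h1, zero_vecMul]
    rwa [vecMul_vecMul, hinv, vecMul_one] at this
  · change (x.2 ᵥ* (g⁻¹).1) ⬝ᵥ (g.1 *ᵥ x.1) = 0
    rw [← dotProduct_mulVec, mulVec_mulVec, hinv, one_mulVec, h0]

end Cfsg.Agent.Lib.Helper4.GLTv
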