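import Mathlib
import Cfsg.Agent.Lib.Helper4.GLTv

set_option linter.unusedSimpArgs false
set_option linter.unusedSectionVars false
set_option linter.style.haveILetI false

namespace Cfsg.Agent.Lib.Helper4.GLTv

open Matrix Cfsg.Agent.Lib.Helper4.SLnTv Cfsg.Agent.Lib.Helper4.PSLn

variable {F : Type*} [Field F] [Fintype F] {n : ℕ}

/-- the set of transvections of `GL` -/
def TT (F : Type*) [Field F] (n : ℕ) : Set (GL (Fin n) F) := {y | Cfsg.IsTransvection y.1}

/-- pair to transvection -/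
noncomputable def piT (x : PP F n) : TT F n := ⟨glT x, by
  change Cfsg.IsTransvection (glT x).1
  rw [glT_val]; exact isTv_of_pair x.2⟩

omit [Fintype F] in
theorem scale_mem (x : PP F n) (c : Fˣ) : ((c : F) • x.1.1, (c : F)⁻¹ • x.1.2) ∈ PP F n := by
  obtain ⟨hv, hφ, h0⟩ := x.2
  refine ⟨smul_ne_zero c.ne_zero hv, smul_ne_zero (inv_ne_zero c.ne_zero) hφ, ?_⟩
  change ((c : F)⁻¹ • x.1.2) ⬝ᵥ ((c : F) • x.1.1) = 0
  rw [smul_dotProduct, dotProduct_smul, h0, smul_zero, smul_zero]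

theorem card_fiber (y : TT F n) : Nat.card {x : PP F n // piT x = y} = Fintype.card F - 1 := by
  classical
  obtain ⟨x₀, hx₀, hy⟩ := exists_pair y.2
  rw [← Nat.card_eq_fintype_card, ← Nat.card_units]
  symm
  let f : Fˣ → {x : PP F n // piT x = y} := fun c => ⟨⟨_, scale_mem ⟨x₀, hx₀⟩ c⟩, by
    apply Subtype.ext
    apply Units.ext
    change (glT _).1 = y.1.1
    rw [glT_val, hy]
    congr 1
    change vecMulVec ((c : F) • x₀.1) ((c : F)⁻¹ • x₀.2) = _
    rw [smul_vecMulVec, vecMulVec_smul, smul_smul, mul_inv_cancel₀ c.ne_zero, one_smul]⟩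
  apply Nat.card_congr (Equiv.ofBijective f ⟨?_, ?_⟩)
  · intro c c' h
    have h1 : (c : F) • x₀.1 = (c' : F) • x₀.1 := congrArg (fun z => z.1.1.1) h
    have h2 : ((c : F) - c') • x₀.1 = 0 := by rw [sub_smul, h1, sub_self]
    apply Units.ext
    have := (smul_eq_zero.1 h2).resolve_right hx₀.1
    linear_combination this
  · rintro ⟨x, hx⟩
    have h1 : (glT x).1 = y.1.1 := congrArg (fun z => z.1.1) hx
    rw [glT_val, hy] at h1
    have h2 := add_left_cancel h1
    obtain ⟨c, hc0, hc1, hc2⟩ := vecMulVec_eq hx₀.1 hx₀.2.1 h2.symm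
    refine ⟨Units.mk0 c hc0, ?_⟩
    apply Subtype.ext
    apply Subtype.ext
    apply Prod.ext
    · exact hc1.symm
    · change c⁻¹ • x₀.2 = x.1.2
      rw [hc2, smul_smul, inv_mul_cancel₀ hc0, one_smul]

theorem card_PP_eq : Nat.card (PP F n) = Nat.card (TT F n) * (Fintype.card F - 1) := by
  classical
  have : Fintype (TT F n) := Fintype.ofFinite _
  rw [Nat.card_congr (Equiv.sigmaFiberEquiv (piT (F := F) (n := n))).symm, Nat.card_sigma]
  simp only [card_fiber]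
  rw [Finset.sum_const, Finset.card_univ, smul_eq_mul, Nat.card_eq_fintype_card]

theorem card_axes {v : Fin n → F} (hv : v ≠ 0) :
    Nat.card {φ : Fin n → F // v ≠ 0 ∧ φ ≠ 0 ∧ φ ⬝ᵥ v = 0} = Fintype.card F ^ (n - 1) - 1 := by
  classical
  let L : (Fin n → F) →ₗ[F] F :=
    { toFun := fun φ => φ ⬝ᵥ v
      map_add' := fun a b => add_dotProduct a b v
      map_smul' := fun c a => smul_dotProduct c a v }
  have hL : L ≠ 0 := by
    obtain ⟨i, hi⟩ := Function.ne_iff.mp hv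
    intro h
    have := congrArg (fun f => f (Pi.single i 1)) h
    simp [L] at this
    exact hi this
  have h1 := LineCount.card_fiber_functional L hL 0
  rw [Module.finrank_fin_fun] at h1
  rw [← h1]
  have h2 : Nat.card {φ : Fin n → F // v ≠ 0 ∧ φ ≠ 0 ∧ φ ⬝ᵥ v = 0} =
      ({φ : Fin n → F | L φ = 0} \ {0}).ncard := by
    rw [← Nat.card_coe_set_eq]
    apply Nat.card_congr
    apply Equiv.subtypeEquivRight
    intro φ
    simp only [Set.mem_diff, Set.mem_setOf_eq, Set.mem_singleton_iff]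
    constructor
    · rintro ⟨-, h3, h4⟩
      exact ⟨h4, h3⟩
    · rintro ⟨h4, h3⟩
      exact ⟨hv, h3, h4⟩
  rw [h2, Set.ncard_sdiff_singleton_of_mem (by simp), ← Nat.card_coe_set_eq]
  rfl

theorem card_PP : Nat.card (PP F n) = (Fintype.card F ^ n - 1) * (Fintype.card F ^ (n - 1) - 1) := by
  classical
  have e : PP F n ≃ Σ v : Fin n → F, {φ : Fin n → F // v ≠ 0 ∧ φ ≠ 0 ∧ φ ⬝ᵥ v = 0} :=
    Equiv.subtypeProdEquivSigmaSubtype (fun v φ => v ≠ 0 ∧ φ ≠ 0 ∧ φ ⬝ᵥ v = 0)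
  rw [Nat.card_congr e, Nat.card_sigma]
  have h1 : ∀ v : Fin n → F, Nat.card {φ : Fin n → F // v ≠ 0 ∧ φ ≠ 0 ∧ φ ⬝ᵥ v = 0} =
      if v ≠ 0 then Fintype.card F ^ (n - 1) - 1 else 0 := by
    intro v
    split_ifs with hv
    · exact card_axes hv
    · have : IsEmpty {φ : Fin n → F // v ≠ 0 ∧ φ ≠ 0 ∧ φ ⬝ᵥ v = 0} := ⟨fun φ => hv φ.2.1⟩
      exact Nat.card_of_isEmpty
  simp only [h1]
  rw [← Finset.sum_filter, Finset.sum_const, smul_eq_mul, Finset.filter_ne', Finset.card_erase_of_mem (Finset.mem_univ _),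
    Finset.card_univ, Fintype.card_fun, Fintype.card_fin]

theorem prod_identity (q k : ℕ) : ∏ i : Fin (k + 2), (q ^ (k + 2) - q ^ (i : ℕ)) =
    q ^ (2 * k + 1) * (∏ i : Fin k, (q ^ k - q ^ (i : ℕ))) * ((q ^ (k + 2) - 1) * (q ^ (k + 1) - 1)) := by
  rw [Fin.prod_univ_succ, Fin.prod_univ_succ]
  have h1 : ∀ i : Fin k, q ^ (k + 2) - q ^ ((i.succ.succ : Fin (k + 2)) : ℕ) = q ^ 2 * (q ^ k - q ^ (i : ℕ)) := by
    intro i
    rw [Nat.mul_sub]
    simp only [Fin.val_succ]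
    congr 1 <;> ring
  simp only [h1]
  rw [Finset.prod_mul_distrib, Finset.prod_const, Finset.card_univ, Fintype.card_fin]
  have h2 : q ^ (k + 2) - q ^ (((0 : Fin (k + 1)).succ : Fin (k + 2)) : ℕ) = q * (q ^ (k + 1) - 1) := by
    rw [Nat.mul_sub]
    simp only [Fin.val_succ, Fin.val_zero]
    congr 1 <;> ring
  rw [h2]
  simp only [Fin.val_zero, pow_zero]
  have h3 : q ^ (2 * k + 1) = q * (q ^ 2) ^ k := by rw [← pow_mul]; ring
  rw [h3]
  ring

/-- the order of the centraliser of a transvection in `GL_n(q)` -/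
theorem card_centralizer (hn : 2 ≤ n) (t : GL (Fin n) F) (ht : Cfsg.IsTransvection t.1) :
    Nat.card (Subgroup.centralizer ({t} : Set (GL (Fin n) F))) =
      Fintype.card F ^ (2 * n - 3) * (Fintype.card F - 1) *
        ∏ i : Fin (n - 2), (Fintype.card F ^ (n - 2) - Fintype.card F ^ (i : ℕ)) := by
  classical
  set q := Fintype.card F with hq
  have hq2 : 2 ≤ q := Fintype.one_lt_card
  have h1 := (Subgroup.centralizer ({t} : Set (GL (Fin n) F))).card_mul_index
  rw [SL2Class.index_centralizer, Matrix.card_GL_field] at h1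
  have h2 : Nat.card {y : GL (Fin n) F // IsConj t y} = Nat.card (TT F n) := by
    apply Nat.card_congr
    apply Equiv.subtypeEquivRight
    intro y
    exact ⟨fun h => isTv_conj ht h, fun h => isConj_tv hn t y ht h⟩
  rw [h2] at h1
  have h3 := card_PP_eq (F := F) (n := n)
  rw [card_PP] at h3
  have hpos : 0 < Nat.card (TT F n) := by
    have : Nonempty (TT F n) := ⟨⟨t, ht⟩⟩
    exact Nat.card_pos
  apply Nat.eq_of_mul_eq_mul_right hpos
  rw [h1]
  obtain ⟨k, rfl⟩ : ∃ k, n = k + 2 := ⟨n - 2, by omega⟩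
  rw [← hq, prod_identity]
  have e1 : k + 2 - 2 = k := by omega
  have e2 : 2 * (k + 2) - 3 = 2 * k + 1 := by omega
  have e3 : k + 2 - 1 = k + 1 := by omega
  rw [e3, ← hq] at h3
  have e4 : ∏ i : Fin (k + 2 - 2), (q ^ (k + 2 - 2) - q ^ (i : ℕ)) = ∏ i : Fin k, (q ^ k - q ^ (i : ℕ)) := rfl
  rw [e2, h3, e4]
  ring

end Cfsg.Agent.Lib.Helper4.GLTv
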