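import Mathlib
import Cfsg.Agent.Lib.Helper4.PSLnH90

set_option autoImplicit false
set_option linter.unusedSectionVars false

namespace Cfsg.Agent.Lib.Helper4.H90g

open Matrix

open Cfsg.Agent.Lib.Helper4.H90 (nrm nrm_zero nrm_succ nrm_succ' nrm_mul nrm_ne_zero nrm_fix h90_scalar nrm_surj indep)

variable {ι : Type*} [Fintype ι] [DecidableEq ι] {F : Type*} [Field F]

/-- twisted partial norms `A σ(A) ⋯ σ^{k-1}(A)` -/
def tw (σ : RingAut F) (A : Matrix (ι) (ι) F) : ℕ → Matrix (ι) (ι) F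
  | 0 => 1
  | k + 1 => A * (tw σ A k).map σ

theorem tw_zero (σ : RingAut F) (A : Matrix (ι) (ι) F) : tw σ A 0 = 1 := rfl
theorem tw_succ (σ : RingAut F) (A : Matrix (ι) (ι) F) (k : ℕ) :
    tw σ A (k + 1) = A * (tw σ A k).map σ := rfl

theorem comp_mulVec (σ : RingAut F) (M : Matrix (ι) (ι) F) (v : ι → F) :
    σ ∘ (M *ᵥ v) = (M.map σ) *ᵥ (σ ∘ v) := by
  funext i
  exact RingHom.map_mulVec (σ : F →+* F) M v i

theorem comp_smul (σ : RingAut F) (h : F) (v : ι → F) : σ ∘ (h • v) = σ h • (σ ∘ v) := by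
  funext i
  simp

theorem comp_sum (σ : RingAut F) {κ : Type*} (s : Finset κ) (f : κ → ι → F) :
    σ ∘ (∑ i ∈ s, f i) = ∑ i ∈ s, σ ∘ f i := by
  funext j
  simp [Finset.sum_apply]

theorem pow_succ_comp (σ : RingAut F) (k : ℕ) (v : ι → F) :
    σ ∘ (⇑(σ ^ k) ∘ v) = ⇑(σ ^ (k + 1)) ∘ v := by
  funext i
  rw [pow_succ']
  rfl

/-- the averaging operator -/
def bb (σ : RingAut F) (A : Matrix (ι) (ι) F) (r : ℕ) (x : ι → F) : ι → F :=
  ∑ i ∈ Finset.range r, tw σ A i *ᵥ (⇑(σ ^ i) ∘ x)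

theorem bb_fix (σ : RingAut F) (A : Matrix (ι) (ι) F) {r : ℕ} (hσ : σ ^ r = 1) (hA : tw σ A r = 1)
    (x : ι → F) : A *ᵥ (σ ∘ bb σ A r x) = bb σ A r x := by
  unfold bb
  rw [comp_sum, mulVec_sum]
  have h1 : ∀ i ∈ Finset.range r, A *ᵥ (σ ∘ (tw σ A i *ᵥ (⇑(σ ^ i) ∘ x))) =
      tw σ A (i + 1) *ᵥ (⇑(σ ^ (i + 1)) ∘ x) := by
    intro i _
    rw [comp_mulVec, mulVec_mulVec, pow_succ_comp, tw_succ]
  rw [Finset.sum_congr rfl h1]
  have h2 := Finset.sum_range_succ (fun i => tw σ A i *ᵥ (⇑(σ ^ i) ∘ x)) r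
  have h3 := Finset.sum_range_succ' (fun i => tw σ A i *ᵥ (⇑(σ ^ i) ∘ x)) r
  rw [h2] at h3
  simp only [hσ, hA, tw_zero, pow_zero] at h3
  exact (add_right_cancel h3).symm

theorem bb_smul (σ : RingAut F) (A : Matrix (ι) (ι) F) (r : ℕ) (h : F) (x : ι → F) :
    bb σ A r (h • x) = ∑ i ∈ Finset.range r, (σ ^ i) h • (tw σ A i *ᵥ (⇑(σ ^ i) ∘ x)) := by
  unfold bb
  apply Finset.sum_congr rfl
  intro i _
  rw [comp_smul, mulVec_smul]

theorem span_bb (σ : RingAut F) (A : Matrix (ι) (ι) F) {r : ℕ} (hr : orderOf σ = r) (hr0 : 0 < r) :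
    Submodule.span F (Set.range (bb σ A r)) = ⊤ := by
  by_contra hne
  obtain ⟨f, hf0, hf⟩ := Submodule.exists_le_ker_of_lt_top _ (lt_top_iff_ne_top.2 hne)
  apply hf0
  apply LinearMap.ext
  intro x
  have h1 : ∀ t : F, ∑ i : Fin r, (σ ^ (i : ℕ)) t * f (tw σ A i *ᵥ (⇑(σ ^ (i : ℕ)) ∘ x)) = 0 := by
    intro t
    have h2 : f (bb σ A r (t • x)) = 0 := hf (Submodule.subset_span ⟨_, rfl⟩)
    rw [bb_smul, map_sum, Finset.sum_range] at h2
    rw [← h2]
    apply Finset.sum_congr rfl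
    intro i _
    rw [map_smul, smul_eq_mul]
  have h3 := indep σ hr _ h1 ⟨0, hr0⟩
  simp only [tw_zero, pow_zero, one_mulVec] at h3
  exact h3

/-- Hilbert 90 for `GL_n` and a cyclic group of field automorphisms. -/
theorem h90 (σ : RingAut F) (A : Matrix (ι) (ι) F) {r : ℕ} (hr : orderOf σ = r) (hr0 : 0 < r)
    (hA : tw σ A r = 1) : ∃ B : GL (ι) F, A * B.1.map σ = B.1 := by
  classical
  have hσ : σ ^ r = 1 := by rw [← hr]; exact pow_orderOf_eq_one σ
  obtain ⟨s, hs1, hs2, hs3⟩ := exists_linearIndependent F (Set.range (bb σ A r))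
  rw [span_bb σ A hr hr0] at hs2
  let bs : Module.Basis s F (ι → F) := Module.Basis.mk hs3 (by
    rw [Subtype.range_coe_subtype]
    simp only [Set.ofPred_mem_eq]
    rw [hs2])
  have : Fintype s := FiniteDimensional.fintypeBasisIndex bs
  have hcard : Fintype.card s = Fintype.card ι := by
    rw [← Module.finrank_eq_card_basis bs]
    simp
  let e : s ≃ ι := Fintype.equivOfCardEq hcard
  let y : ι → ι → F := fun j => (e.symm j : ι → F)
  have hy : ∀ j, A *ᵥ (σ ∘ y j) = y j := by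
    intro j
    obtain ⟨x, hx⟩ := hs1 (e.symm j).2
    change A *ᵥ (σ ∘ ((e.symm j : s) : ι → F)) = ((e.symm j : s) : ι → F)
    rw [← hx]
    exact bb_fix σ A hσ hA x
  have hli : LinearIndependent F y := hs3.comp e.symm e.symm.injective
  let B : Matrix (ι) (ι) F := Matrix.of (fun i j => y j i)
  have hB : IsUnit B := by
    rw [← Matrix.linearIndependent_cols_iff_isUnit]
    exact hli
  refine ⟨hB.unit, ?_⟩
  change A * B.map σ = B
  ext i j
  have := congrFun (hy j) i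
  exact this


theorem smul_map (σ : RingAut F) (c : F) (M : Matrix ι ι F) : (c • M).map σ = σ c • M.map σ := by
  ext i j; simp

theorem one_map (σ : RingAut F) : (1 : Matrix ι ι F).map σ = 1 := by
  ext i j
  by_cases h : i = j
  · subst h; simp
  · simp [Matrix.one_apply_ne h]

theorem tw_smul (σ : RingAut F) (c : F) (A : Matrix ι ι F) (k : ℕ) :
    tw σ (c • A) k = nrm σ k c • tw σ A k := by
  induction k with
  | zero => simp [tw_zero, nrm_zero]
  | succ k ih =>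
    rw [tw_succ, tw_succ, ih, nrm_succ, smul_map, smul_mul_assoc, mul_smul_comm, smul_smul]

theorem map_map_pow (σ : RingAut F) (k : ℕ) (M : Matrix ι ι F) :
    (M.map ⇑(σ ^ k)).map σ = M.map ⇑(σ ^ (k + 1)) := by
  ext i j
  rw [pow_succ']
  rfl

theorem tw_succ' (σ : RingAut F) (A : Matrix ι ι F) (k : ℕ) :
    tw σ A (k + 1) = tw σ A k * A.map ⇑(σ ^ k) := by
  induction k with
  | zero =>
    rw [tw_succ, tw_zero, one_mul, pow_zero, one_map, mul_one]
    ext i j; rfl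
  | succ k ih =>
    conv_lhs => rw [tw_succ, ih, Matrix.map_mul, map_map_pow, ← mul_assoc, ← tw_succ]

/-- iterating `M = λ σ(M)` -/
theorem iter_smul (σ : RingAut F) {M : Matrix ι ι F} {lam : F} (h : M = lam • M.map σ) (k : ℕ) :
    M = nrm σ k lam • M.map ⇑(σ ^ k) := by
  induction k with
  | zero =>
    rw [nrm_zero, one_smul, pow_zero]
    ext i j; rfl
  | succ k ih =>
    conv_lhs => rw [h, ih, smul_map, map_map_pow, smul_smul, ← nrm_succ]

/-- descent: a matrix that is `σ`-fixed up to a scalar is proportional to a `σ`-fixed one. -/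
theorem descent (σ : RingAut F) {r : ℕ} (hr : orderOf σ = r) (hr0 : 0 < r) (a : Matrix ι ι F) (ha0 : a ≠ 0)
    {lam : F} (h : a = lam • a.map σ) : ∃ b : F, b ≠ 0 ∧ (b • a).map σ = b • a := by
  have hσ : σ ^ r = 1 := by rw [← hr]; exact pow_orderOf_eq_one σ
  have h1 := iter_smul σ h r
  rw [hσ] at h1
  have h2 : a.map ⇑(1 : RingAut F) = a := by ext i j; rfl
  rw [h2] at h1
  have h3 : nrm σ r lam = 1 := by
    have h4 : (nrm σ r lam - 1) • a = 0 := by rw [sub_smul, one_smul, ← h1, sub_self]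
    rcases smul_eq_zero.1 h4 with h5 | h5
    · linear_combination h5
    · exact absurd h5 ha0
  have hlam0 : lam ≠ 0 := by
    rintro rfl
    rw [zero_smul] at h
    exact ha0 h
  have h5 : nrm σ r lam⁻¹ = 1 := by
    have h6 := nrm_mul σ r lam lam⁻¹
    rw [mul_inv_cancel₀ hlam0, h3, one_mul] at h6
    rw [← h6]; unfold nrm; simp
  obtain ⟨b, hb0, hb⟩ := h90_scalar σ hr hr0 lam⁻¹ h5
  refine ⟨b, hb0, ?_⟩
  have hb' : σ b = lam * b := by
    conv_rhs => rw [← hb, ← mul_assoc, mul_inv_cancel₀ hlam0, one_mul]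
  rw [smul_map, hb', mul_comm, mul_smul, ← h]

theorem det_map (σ : RingAut F) (M : Matrix ι ι F) : (M.map σ).det = σ M.det := by
  have := RingHom.map_det ((σ : F ≃+* F) : F →+* F) M
  exact this.symm

theorem map_inj {F₀ : Type*} [Field F₀] (j : F₀ →+* F) {M N : Matrix ι ι F₀} (h : M.map j = N.map j) : M = N := by
  ext a b
  exact j.injective (congrFun (congrFun h a) b)

end Cfsg.Agent.Lib.Helper4.H90g
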