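import Mathlib
import Cfsg.Agent.Lib.Helper4.PSLnCent2

set_option autoImplicit false

namespace Cfsg.Agent.Lib.Helper4.PSLn

open Matrix Cfsg.Agent.Lib.Helper4.SLnTv Cfsg.Agent.Lib.Helper4.H90 Cfsg.Agent.Lib.Helper4.Split
  Cfsg.Agent.Lib.Helper4.Fix

variable {n : ℕ} {F : Type*} [Field F]

local notation "SL" => SpecialLinearGroup (Fin n) F
local notation "PSL" => ProjectiveSpecialLinearGroup (Fin n) F

/-- uniqueness of the involution of `Aut(F)` -/
theorem involution_unique [Finite F] {σ τ : RingAut F} (hσ : orderOf σ = 2) (hτ : orderOf τ = 2) : σ = τ := by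
  classical
  have : Fintype F := Fintype.ofFinite F
  obtain ⟨p, hchar⟩ := CharP.exists F
  obtain ⟨k, hp, hk⟩ := FiniteField.card F p
  have : Fact p.Prime := ⟨hp⟩
  obtain ⟨hcyc, -⟩ := Cfsg.Agent.S2602.ringAut_cyclic hk
  have : Finite (RingAut F) := Finite.of_injective (fun τ : RingAut F => (τ : F → F)) DFunLike.coe_injective
  have : Fintype (RingAut F) := Fintype.ofFinite _
  have hd : 2 ∣ Fintype.card (RingAut F) := by rw [← hσ]; exact orderOf_dvd_card
  have h1 := IsCyclic.card_orderOf_eq_totient hd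
  rw [Nat.totient_two, Finset.card_eq_one] at h1
  obtain ⟨a, ha⟩ := h1
  have h2 : σ ∈ ({a} : Finset (RingAut F)) := by rw [← ha]; simp [hσ]
  have h3 : τ ∈ ({a} : Finset (RingAut F)) := by rw [← ha]; simp [hτ]
  rw [Finset.mem_singleton] at h2 h3
  rw [h2, h3]

/-- commuting with `fbar σ * gbar` -/
theorem comm_xg_iff (hn : 2 ≤ n) (σ : RingAut F) (a : GL (Fin n) F) :
    cbar a * (fbar σ * gbar) = (fbar σ * gbar) * cbar a ↔ ∃ lam : F, a.1 * (a.1ᵀ).map σ = lam • 1 := by
  rw [xg_cbar]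
  have hinv : (st σ a).1 * (a.1ᵀ).map σ = 1 := by
    rw [← st_inv_val]; exact Units.mul_inv _
  constructor
  · intro h
    obtain ⟨lam, hlam⟩ := smul_of_cbar_eq hn (mul_right_cancel h)
    refine ⟨lam, ?_⟩
    calc a.1 * (a.1ᵀ).map σ = (lam • (st σ a).1) * (a.1ᵀ).map σ := by rw [← hlam]
      _ = lam • 1 := by rw [smul_mul_assoc, hinv]
  · rintro ⟨lam, h⟩
    have h2 : a.1 = lam • (st σ a).1 := by
      have hinv' : (a.1ᵀ).map σ * (st σ a).1 = 1 := by
        rw [← st_inv_val]; exact Units.inv_mul _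
      calc a.1 = a.1 * ((a.1ᵀ).map σ * (st σ a).1) := by rw [hinv', mul_one]
        _ = _ := by rw [← mul_assoc, h, smul_mul_assoc, one_mul]
    rw [cbar_eq_of_smul h2]

theorem nrm_two (σ : RingAut F) (c : F) : nrm σ 2 c = c * σ c := by
  unfold nrm
  rw [Finset.prod_range_succ, Finset.prod_range_one, pow_zero, pow_one]
  rfl

/-- normalising a similitude to an isometry -/
theorem unitary_normalise [Finite F] (hn : 1 ≤ n) (σ : RingAut F) (hσ : orderOf σ = 2) (a : GL (Fin n) F)
    {lam : F} (h : a.1 * (a.1ᵀ).map σ = lam • 1) :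
    ∃ μ : F, μ ≠ 0 ∧ μ * σ μ = lam ∧ (μ⁻¹ • a.1) * ((μ⁻¹ • a.1)ᵀ).map σ = 1 := by
  have hσ2 : σ * σ = 1 := by
    have := pow_orderOf_eq_one σ
    rwa [hσ, sq] at this
  have hσσ : ∀ a, σ (σ a) = a := fun a => DFunLike.congr_fun hσ2 a
  have hlam0 : lam ≠ 0 := by
    rintro rfl
    rw [zero_smul] at h
    have h1 : (a * (st σ a)⁻¹).1 = 0 := h
    exact GL_ne_zero hn _ h1
  have hfix : σ lam = lam := by
    have h1 : ((a.1 * (a.1ᵀ).map σ)ᵀ).map σ = a.1 * (a.1ᵀ).map σ := by
      rw [transpose_mul, Matrix.map_mul]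
      congr 1
      ext i j
      exact hσσ _
    rw [h, transpose_smul, transpose_one, smul_map, one_map] at h1
    have := congrFun (congrFun h1 ⟨0, by omega⟩) ⟨0, by omega⟩
    simpa using this
  obtain ⟨μ, hμ0, hμ⟩ := nrm_surj σ hσ (by norm_num) lam hlam0 hfix
  rw [nrm_two] at hμ
  refine ⟨μ, hμ0, hμ, ?_⟩
  rw [transpose_smul, smul_map, smul_mul_smul_comm, h, smul_smul, map_inv₀, ← mul_inv, hμ,
    inv_mul_cancel₀ hlam0, one_smul]

theorem det_star (σ : RingAut F) (M : Matrix (Fin n) (Fin n) F) : ((Mᵀ).map σ).det = σ M.det := by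
  rw [det_map, det_transpose]

/-- determinants of the stabiliser of a graph-field involution -/
theorem det_stab_gf [Finite F] (hn : 2 ≤ n) (σ : RingAut F) (hσ : orderOf σ = 2) (c : GL (Fin n) F) :
    ((Subgroup.centralizer {cbar c * (fbar σ * gbar) * (cbar c)⁻¹}).comap
      (cbar : GL (Fin n) F →* MulAut PSL)).map
      Matrix.GeneralLinearGroup.det = (powMonoidHom n : Fˣ →* Fˣ).range ⊔ (Nh σ 2).ker := by
  apply le_antisymm
  · rintro _ ⟨a, ha, rfl⟩
    have ha' := (mem_stab_iff c a (fbar σ * gbar)).1 ha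
    obtain ⟨lam, hlam⟩ := (comm_xg_iff hn σ _).1 ha'
    obtain ⟨μ, hμ0, -, hμ⟩ := unitary_normalise (by omega) σ hσ _ hlam
    rw [← det_conj c a]
    set a' := c⁻¹ * a * c with ha'def
    have h1 := congrArg Matrix.det hμ
    rw [det_mul, det_star, det_one, det_smul, Fintype.card_fin] at h1
    let t : Fˣ := ((Units.mk0 μ hμ0)⁻¹) ^ n * Matrix.GeneralLinearGroup.det a'
    have ht : t ∈ (Nh σ 2).ker := by
      rw [MonoidHom.mem_ker]
      apply Units.ext
      rw [Nh_val, nrm_two]
      have e : (t : F) = μ⁻¹ ^ n * a'.1.det := by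
        simp only [t]
        rw [Units.val_mul, Units.val_pow_eq_pow_val, Units.val_inv_eq_inv_val]
        rfl
      rw [e]
      exact h1
    have e : Matrix.GeneralLinearGroup.det a' = (Units.mk0 μ hμ0) ^ n * t := by
      simp only [t]
      rw [← mul_assoc, ← mul_pow, mul_inv_cancel, one_pow, one_mul]
    rw [e]
    exact Subgroup.mul_mem_sup ⟨_, rfl⟩ ht
  · rw [sup_le_iff]
    constructor
    · rintro _ ⟨u, rfl⟩
      refine ⟨scl u, ?_, det_scl u⟩
      change scl u ∈ Subgroup.comap _ _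
      rw [Subgroup.mem_comap, cbar_of_scalar (scl_val u)]
      exact Subgroup.one_mem _
    · intro t ht
      have ht' : (t : F) * σ t = 1 := by
        have := congrArg Units.val (MonoidHom.mem_ker.1 ht)
        rw [Nh_val, nrm_two] at this
        exact this
      refine ⟨c * dg1 ⟨0, by omega⟩ t * c⁻¹, ?_, ?_⟩
      · change _ ∈ Subgroup.comap _ _
        rw [mem_stab_iff, comm_xg_iff hn]
        refine ⟨1, ?_⟩
        have e : c⁻¹ * (c * dg1 ⟨0, by omega⟩ t * c⁻¹) * c = dg1 ⟨0, by omega⟩ t := by group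
        rw [e, one_smul, dg1_val, diagonal_transpose]
        have e2 : (diagonal (fun i : Fin n => if i = ⟨0, by omega⟩ then (t : F) else 1)).map σ =
            diagonal (fun i : Fin n => if i = ⟨0, by omega⟩ then σ (t : F) else 1) := by
          ext i j
          by_cases hij : i = j
          · subst hij
            by_cases hi : i = ⟨0, by omega⟩
            · simp [hi]
            · simp [hi]
          · simp [hij]
        rw [e2, diagonal_mul_diagonal, ← diagonal_one]
        congr 1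
        funext i
        by_cases hi : i = ⟨0, by omega⟩
        · simp [hi, ht']
        · simp [hi]
      · have := det_conj c⁻¹ (dg1 ⟨0, by omega⟩ t)
        rw [inv_inv] at this
        rw [this, det_dg1]

theorem split_gf [Fintype F] {p f : ℕ} [Fact p.Prime] (hF : Fintype.card F = p ^ f) (hn : 2 ≤ n)
    (σ : RingAut F) (hσ : orderOf σ = 2) (c : GL (Fin n) F) :
    Cfsg.splitClassCount (Cfsg.inndiagPSL n F) (Cfsg.Inn PSL) (cbar c * (fbar σ * gbar) * (cbar c)⁻¹) =
      Nat.gcd n (p ^ (f / 2) - 1) := by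
  rw [inndiag_eq, inn_eq, split_count (cbar : GL (Fin n) F →* MulAut PSL)
    (Matrix.GeneralLinearGroup.det : GL (Fin n) F →* Fˣ) (det_surj (by omega)),
    det_stab_gf hn σ hσ, index_pow_sup, index_ker_Nh hF σ hσ]

end Cfsg.Agent.Lib.Helper4.PSLn
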