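import Mathlib
import Cfsg.Agent.Lib.Helper4.PSLnCentU

set_option autoImplicit false

namespace Cfsg.Agent.Lib.Helper4.PSLn

open Matrix Cfsg.Agent.Lib.Helper4.SLnTv Cfsg.Agent.Lib.Helper4.H90 Cfsg.Agent.Lib.Helper4.Split
  Cfsg.Agent.Lib.Helper4.Fix

variable {n : ℕ} {F : Type*} [Field F]

local notation "SL" => SpecialLinearGroup (Fin n) F
local notation "PSL" => ProjectiveSpecialLinearGroup (Fin n) F

/-- the involution of `Aut(F)` is the `q₀`-power map -/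
theorem sigma_eq_pow [Fintype F] {q₀ : ℕ} (hF : Fintype.card F = q₀ ^ 2) (σ : RingAut F)
    (hσ : orderOf σ = 2) : ∀ y, σ y = y ^ q₀ := by
  obtain ⟨σ₀, h₀⟩ := UniCount.exists_sig hF
  have hinv : σ₀.comp σ₀ = RingHom.id F := by
    ext y
    change σ₀ (σ₀ y) = y
    rw [h₀, h₀, UniCount.pow_q_q hF]
  let φ₀ : RingAut F := RingEquiv.ofRingHom σ₀ σ₀ hinv hinv
  have hφ : ∀ y, φ₀ y = y ^ q₀ := h₀
  have ho : orderOf φ₀ = 2 := by
    apply orderOf_eq_prime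
    · ext y
      rw [sq]
      change φ₀ (φ₀ y) = y
      rw [hφ, hφ, UniCount.pow_q_q hF]
    · intro h1
      obtain ⟨y, hy⟩ := UniCount.sig_ne_id hF
      apply hy
      rw [← hφ, h1]
      rfl
  rw [involution_unique hσ ho]
  exact hφ

/-- the homomorphism `GU_n → Aut(PSL_n(F))` -/
noncomputable def ThetaU (q₀ : ℕ) (c : GL (Fin n) F) : Cfsg.GU n F q₀ →* MulAut PSL :=
  (MulAut.conj (cbar c)).toMonoidHom.comp (cbar.comp (Cfsg.GU n F q₀).subtype)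

theorem ThetaU_apply (q₀ : ℕ) (c : GL (Fin n) F) (g : Cfsg.GU n F q₀) :
    ThetaU q₀ c g = cbar c * cbar g.1 * (cbar c)⁻¹ := rfl

theorem ThetaU_ker (hn : 2 ≤ n) (q₀ : ℕ) (c : GL (Fin n) F) :
    (ThetaU q₀ c).ker = (Cfsg.Geo.scalars (Fin n) F).subgroupOf (Cfsg.GU n F q₀) := by
  ext g
  rw [MonoidHom.mem_ker, ThetaU_apply, Subgroup.mem_subgroupOf, Cfsg.Geo.mem_scalars_iff]
  have h0 : cbar c * cbar g.1 * (cbar c)⁻¹ = 1 ↔ cbar g.1 = 1 := by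
    constructor
    · intro h
      calc cbar g.1 = (cbar c)⁻¹ * (cbar c * cbar g.1 * (cbar c)⁻¹) * cbar c := by group
        _ = 1 := by rw [h]; group
    · intro h
      rw [h]; group
  rw [h0]
  constructor
  · intro h
    have h' : cbar g.1 = fbar (RingEquiv.refl F) := by rw [h]; exact fbar_one.symm
    obtain ⟨-, t, ht⟩ := cbar_eq_fbar hn h'
    have ht0 : t ≠ 0 := by
      rintro rfl
      rw [zero_smul] at ht
      exact GL_ne_zero (by omega) _ ht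
    exact ⟨Units.mk0 t ht0, ht⟩
  · rintro ⟨t, ht⟩
    exact cbar_of_scalar ht

theorem ThetaU_range [Fintype F] (hn : 2 ≤ n) {q₀ : ℕ} (hF : Fintype.card F = q₀ ^ 2) (σ : RingAut F)
    (hσ : orderOf σ = 2) (c : GL (Fin n) F) :
    (ThetaU q₀ c).range =
      Cfsg.inndiagPSL n F ⊓ Subgroup.centralizer {cbar c * (fbar σ * gbar) * (cbar c)⁻¹} := by
  have hpow := sigma_eq_pow hF σ hσ
  let σ' : F →+* F := ((σ : F ≃+* F) : F →+* F)
  have hpow' : ∀ y, σ' y = y ^ q₀ := hpow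
  rw [inndiag_eq]
  ext y
  rw [Subgroup.mem_inf]
  constructor
  · rintro ⟨g, rfl⟩
    rw [ThetaU_apply]
    refine ⟨⟨c * g.1 * c⁻¹, by rw [map_mul, map_mul, map_inv]⟩, ?_⟩
    have h1 : c * g.1 * c⁻¹ ∈
        (Subgroup.centralizer {cbar c * (fbar σ * gbar) * (cbar c)⁻¹}).comap
          (cbar : GL (Fin n) F →* MulAut PSL) := by
      rw [mem_stab_iff, comm_xg_iff hn]
      refine ⟨1, ?_⟩
      have e : c⁻¹ * (c * g.1 * c⁻¹) * c = g.1 := by group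
      rw [e, one_smul]
      have hU : UniMat.IsU σ' g.1.1 := (UniMat.mem_GU_iff hpow' g.1).1 g.2
      exact hU.mul_conj
    rw [Subgroup.mem_comap, map_mul, map_mul, map_inv] at h1
    exact h1
  · rintro ⟨⟨a, rfl⟩, ha⟩
    have ha' : a ∈ (Subgroup.centralizer {cbar c * (fbar σ * gbar) * (cbar c)⁻¹}).comap
        (cbar : GL (Fin n) F →* MulAut PSL) := ha
    rw [mem_stab_iff, comm_xg_iff hn] at ha'
    obtain ⟨lam, hlam⟩ := ha'
    obtain ⟨μ, hμ0, -, hμ⟩ := unitary_normalise (by omega) σ hσ _ hlam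
    set a' := c⁻¹ * a * c with ha'def
    let a₁ : GL (Fin n) F := ⟨μ⁻¹ • a'.1, ((μ⁻¹ • a'.1)ᵀ).map σ, hμ, mul_eq_one_comm.1 hμ⟩
    have hU : UniMat.IsU σ' a₁.1 := mul_eq_one_comm.1 hμ
    refine ⟨⟨a₁, (UniMat.mem_GU_iff hpow' a₁).2 hU⟩, ?_⟩
    rw [ThetaU_apply]
    have h4 : cbar a₁ = cbar a' := cbar_eq_of_smul (c := μ⁻¹) rfl
    rw [h4, ha'def, map_mul, map_mul, map_inv]
    group

theorem cent_gf [Fintype F] (hn : 2 ≤ n) {q₀ : ℕ} (hF : Fintype.card F = q₀ ^ 2) (σ : RingAut F)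
    (hσ : orderOf σ = 2) (c : GL (Fin n) F) :
    Nonempty (↥(Cfsg.inndiagPSL n F ⊓ Subgroup.centralizer {cbar c * (fbar σ * gbar) * (cbar c)⁻¹}) ≃*
      Cfsg.PGU n F q₀) := by
  have e1 : Cfsg.GU n F q₀ ⧸ (ThetaU q₀ c).ker ≃* (ThetaU q₀ c).range :=
    QuotientGroup.quotientKerEquivRange _
  have e2 : (ThetaU q₀ c).range ≃*
      ↥(Cfsg.inndiagPSL n F ⊓ Subgroup.centralizer {cbar c * (fbar σ * gbar) * (cbar c)⁻¹}) :=
    MulEquiv.subgroupCongr (ThetaU_range hn hF σ hσ c)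
  have e3 : Cfsg.GU n F q₀ ⧸ (ThetaU q₀ c).ker ≃*
      Cfsg.GU n F q₀ ⧸ (Cfsg.Geo.scalars (Fin n) F).subgroupOf (Cfsg.GU n F q₀) :=
    QuotientGroup.quotientMulEquivOfEq (ThetaU_ker hn q₀ c)
  exact ⟨(e2.symm.trans e1.symm).trans e3⟩

end Cfsg.Agent.Lib.Helper4.PSLn
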