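import Mathlib
import Cfsg.Agent.Lib.Helper4.PSUq
import Cfsg.Agent.Lib.Helper4.UniTrans

set_option linter.unusedSimpArgs false
set_option linter.unusedSectionVars false
set_option linter.style.haveILetI false

namespace Cfsg.Agent.Lib.Helper4.PSU

open Cfsg.Agent.Lib.Helper4.UniCount Cfsg.Agent.Lib.Helper4.UniFrame Cfsg.Agent.Lib.Helper4.UniMat
open Cfsg.Agent.Lib.Helper4.UniSU Cfsg.Agent.Lib.Helper4.UniCenter Cfsg.Agent.Lib.Helper4.UniLines
open Cfsg.Agent.Lib.Helper4.UniTrans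
open Matrix
open scoped commutatorElement

variable {F : Type*} [Field F] [Fintype F] {q : ℕ} {σ : F →+* F} [hc : UC F q σ] {n m : ℕ}

include hc

local notation "⟪" u ", " v "⟫" => stdB σ _ u v
local notation "G" => Cfsg.SU n F q
local notation "GU'" => Cfsg.GU n F q

/-- commutator of two Siegel elements -/
theorem sg_comm {e w w' : Fin n → F} {b b' : F} (h : Adm σ e w b) (h' : Adm σ e w' b') :
    ⁅sg σ e w b, sg σ e w' b'⁆ = sg σ e 0 (⟪w', w⟫ - ⟪w, w'⟫) := by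
  rw [commutatorElement_def, sg_inv h, sg_inv h', sg_mul h h', sg_mul (h.mul h') h.inv,
    sg_mul ((h.mul h').mul h.inv) h'.inv]
  congr 1
  · simp
  · obtain ⟨h1, h2, h3⟩ := h
    obtain ⟨-, h2', h3'⟩ := h'
    simp only [map_add, map_neg, LinearMap.add_apply, LinearMap.neg_apply]
    linear_combination h3 + h3'

/-- every unitary transvection is a commutator -/
theorem tv_mem_comm (hn : 3 ≤ n) {v : Fin n → F} (hv : v ≠ 0) (hv0 : ⟪v, v⟫ = 0) {c : F} (hc' : σ c + c = 0) :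
    sg σ v 0 c ∈ commutatorSet G := by
  obtain ⟨f, hff, hef⟩ := exists_hyp hv hv0
  obtain ⟨A, hAe, -⟩ := exists_frame (m := n - 2) (by omega) v f hv0 hff hef
  let w0 := A.w ⟨0, by omega⟩
  have hw0 : ⟪w0, w0⟫ = 1 := by
    have := A.ww ⟨0, by omega⟩ ⟨0, by omega⟩
    simpa using this
  have hew0 : ⟪v, w0⟫ = 0 := by rw [← hAe]; exact A.ew _
  obtain ⟨l, hl⟩ := skew_eq (σ := σ) c hc'
  obtain ⟨b, hb⟩ := exists_tr (σ := σ) (-⟪w0, w0⟫) (by rw [map_neg, self_fixed])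
  obtain ⟨b', hb'⟩ := exists_tr (σ := σ) (-⟪l • w0, l • w0⟫) (by rw [map_neg, self_fixed])
  have h1 : Adm σ v w0 b := ⟨hv0, hew0, by rw [hb]; ring⟩
  have h2 : Adm σ v (l • w0) b' := ⟨hv0, by rw [map_smul, hew0, smul_zero], by rw [hb']; ring⟩
  refine ⟨sg σ v w0 b, sg σ v (l • w0) b', ?_⟩
  rw [sg_comm h1 h2]
  congr 1
  rw [hl]
  simp only [map_smul, map_smulₛₗ, LinearMap.smul_apply, smul_eq_mul, hw0, mul_one]

/-- an element of `SU` whose matrix is a unitary transvection matrix -/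
theorem eq_sg_of_trans {A : G} {v : Fin n → F} {c : F} (hv : v ≠ 0) (hv0 : ⟪v, v⟫ = 0)
    (hA : A.1.1 = Cfsg.unitaryTransvection n q v c) : σ c + c = 0 ∧ A = sg σ v 0 c := by
  have h1 : σ c + c = 0 := by
    rw [← trans_isU_iff (UC.hσ (σ := σ)) ss v hv hv0 c, ← hA]
    exact isU_of A
  refine ⟨h1, ?_⟩
  apply act_ext
  intro x
  rw [act_tv hv0 h1, act_def, hA, trans_mulVec (UC.hσ (σ := σ))]

end Cfsg.Agent.Lib.Helper4.PSU
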