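import Mathlib
import Cfsg.Agent.Lib.Helper4.PSUtv
import Cfsg.Agent.S2579

set_option linter.unusedSimpArgs false
set_option linter.unusedSectionVars false
set_option linter.style.haveILetI false

namespace Cfsg.Agent.Lib.Helper4.PSU

open Cfsg.Agent.Lib.Helper4.UniCount Cfsg.Agent.Lib.Helper4.UniFrame Cfsg.Agent.Lib.Helper4.UniMat
open Cfsg.Agent.Lib.Helper4.UniSU Cfsg.Agent.Lib.Helper4.UniCenter Cfsg.Agent.Lib.Helper4.UniLines
open Cfsg.Agent.Lib.Helper4.UniTrans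
open Matrix

variable {F : Type*} [Field F] [Fintype F] {q : ℕ} {σ : F →+* F} [hc : UC F q σ] {n m : ℕ}

include hc

local notation "⟪" u ", " v "⟫" => stdB σ _ u v
local notation "G" => Cfsg.SU n F q
local notation "GU'" => Cfsg.GU n F q

/-- the shape of a transvection in `SU` -/
theorem exists_sg_of_transvection (s : G) (hs : Cfsg.IsTransvection s.1.1) :
    ∃ (v : Fin n → F) (c : F), v ≠ 0 ∧ ⟪v, v⟫ = 0 ∧ c ≠ 0 ∧ σ c + c = 0 ∧ s = sg σ v 0 c := by
  classical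
  obtain ⟨h1, h2⟩ := hs
  obtain ⟨u, φ, h⟩ := Cfsg.Agent.S2579.exists_vecMulVec _ h1
  have hne : vecMulVec u φ ≠ 0 := by
    intro h0
    rw [h, h0, Matrix.rank_zero] at h1
    exact zero_ne_one h1
  have hu : u ≠ 0 := by
    rintro rfl
    exact hne (by simp)
  have hφ : φ ≠ 0 := by
    rintro rfl
    exact hne (by simp)
  have h0 : φ ⬝ᵥ u = 0 := by
    rw [h, vecMulVec_mul_vecMulVec] at h2
    by_contra hc
    apply hne
    have h3 : vecMulVec u ((φ ⬝ᵥ u) • φ) = (φ ⬝ᵥ u) • vecMulVec u φ := by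
      ext i j; simp [vecMulVec_apply]; ring
    rw [h3] at h2
    exact (smul_eq_zero.1 h2).resolve_left hc
  have hs1 : s.1.1 = 1 + vecMulVec u φ := by rw [← h]; abel
  have hact : ∀ x, act s x = x + (φ ⬝ᵥ x) • u := by
    intro x
    rw [act_def, hs1, add_mulVec, one_mulVec, vecMulVec_mulVec, op_smul_eq_smul]
  have key : ∀ x y, ⟪x, u⟫ * (φ ⬝ᵥ y) + σ (φ ⬝ᵥ x) * ⟪u, y⟫ + σ (φ ⬝ᵥ x) * (φ ⬝ᵥ y) * ⟪u, u⟫ = 0 := by
    intro x y
    have := B_act (σ := σ) s x y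
    rw [hact, hact] at this
    simp only [map_add, map_smul, map_smulₛₗ, LinearMap.add_apply, LinearMap.smul_apply, smul_eq_mul] at this
    linear_combination this
  obtain ⟨j, hj⟩ : ∃ j, φ j ≠ 0 := by
    by_contra hcon
    push Not at hcon
    exact hφ (funext hcon)
  have huu : ⟪u, u⟫ = 0 := by
    have := key u (Pi.single j 1)
    rw [h0, map_zero, zero_mul, zero_mul, zero_mul, add_zero, add_zero, dotProduct_single, mul_one] at this
    exact (mul_eq_zero.1 this).resolve_right hj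
  obtain ⟨i, hi⟩ : ∃ i, u i ≠ 0 := by
    by_contra hcon
    push Not at hcon
    exact hu (funext hcon)
  set x₀ : Fin n → F := Pi.single i (σ (u i)⁻¹) with hx₀
  have hx₀u : ⟪x₀, u⟫ = 1 := by
    rw [hx₀, B_single_left, ss, inv_mul_cancel₀ hi]
  set a : F := - σ (φ ⬝ᵥ x₀) with ha
  have hψ : ∀ y, φ ⬝ᵥ y = a * ⟪u, y⟫ := by
    intro y
    have := key x₀ y
    rw [hx₀u, huu, mul_zero, add_zero, one_mul] at this
    rw [ha]
    linear_combination this
  have hφa : ∀ k, φ k = a * σ (u k) := by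
    intro k
    have := hψ (Pi.single k 1)
    rw [dotProduct_single, mul_one, B_single_right, mul_one] at this
    exact this
  have ha0 : a ≠ 0 := by
    intro h00
    apply hj
    rw [hφa, h00, zero_mul]
  have hmat : s.1.1 = Cfsg.unitaryTransvection n q u a := by
    rw [hs1]
    unfold Cfsg.unitaryTransvection
    congr 1
    ext k l
    rw [Matrix.smul_apply, vecMulVec_apply, vecMulVec_apply, hφa, UC.hσ (σ := σ), smul_eq_mul]
    ring
  obtain ⟨h5, h6⟩ := eq_sg_of_trans (σ := σ) hu huu hmat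
  exact ⟨u, a, hu, huu, ha0, h5, h6⟩

/-- `SU` is transitive on nonzero isotropic vectors (`n ≥ 3`) -/
theorem exists_su_map (hn : 3 ≤ n) {v v' : Fin n → F} (hv : v ≠ 0) (hv0 : ⟪v, v⟫ = 0) (hv' : v' ≠ 0)
    (hv0' : ⟪v', v'⟫ = 0) : ∃ g : G, act g v = v' := by
  obtain ⟨f, hff, hef⟩ := exists_hyp hv hv0
  obtain ⟨A, hAe, -⟩ := exists_frame (m := n - 2) (by omega) v f hv0 hff hef
  obtain ⟨f', hff', hef'⟩ := exists_hyp hv' hv0'
  obtain ⟨A', hAe', -⟩ := exists_frame (m := n - 2) (by omega) v' f' hv0' hff' hef'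
  let w0 := A'.w ⟨0, by omega⟩
  have hw0 : ⟪w0, w0⟫ = 1 := by
    have := A'.ww ⟨0, by omega⟩ ⟨0, by omega⟩
    simpa using this
  have hw0e : ⟪w0, v'⟫ = 0 := by rw [← hAe']; exact A'.we _
  have hU := wittM_isU A A'
  have hdet := IsU.det hU
  set δ := (wittM A A').det with hδ
  have hδ0 : δ ≠ 0 := by
    rintro h0
    rw [h0, mul_zero] at hdet
    exact zero_ne_one hdet
  have hμ : σ δ⁻¹ * δ⁻¹ = 1 := by
    rw [map_inv₀, ← mul_inv, hdet, inv_one]
  have hU2 : IsU σ (Rm σ w0 δ⁻¹ * wittM A A') := IsU.mul (Rm_isU hw0 hμ) hU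
  have hd2 : (Rm σ w0 δ⁻¹ * wittM A A').det = 1 := by
    rw [det_mul, Rm_det hw0, ← hδ, inv_mul_cancel₀ hδ0]
  refine ⟨mkG σ (Rm σ w0 δ⁻¹ * wittM A A'), ?_⟩
  rw [act_mkG hU2 hd2, ← mulVec_mulVec]
  have h1 : wittM A A' *ᵥ v = v' := by
    rw [← hAe, ← hAe']
    exact witt_e A A'
  rw [h1, Rm_mulVec, hw0e, zero_mul, zero_smul, add_zero]

/-- any two transvections of `SU_n`, `n ≥ 3`, are conjugate -/
theorem tv_conj (hn : 3 ≤ n) {v v' : Fin n → F} (hv : v ≠ 0) (hv0 : ⟪v, v⟫ = 0) (hv' : v' ≠ 0)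
    (hv0' : ⟪v', v'⟫ = 0) {c c' : F} (hc0 : c ≠ 0) (hcs : σ c + c = 0) (hc0' : c' ≠ 0) (hcs' : σ c' + c' = 0) :
    IsConj (sg σ v 0 c) (sg σ v' 0 c') := by
  have hfix : σ (c' * c⁻¹) = c' * c⁻¹ := by
    have h1 : σ c = -c := by linear_combination hcs
    have h2 : σ c' = -c' := by linear_combination hcs'
    rw [map_mul, map_inv₀, h1, h2]
    field_simp
  obtain ⟨ν, hν⟩ := exists_norm (σ := σ) _ hfix
  have hν0 : ν ≠ 0 := by
    rintro rfl
    rw [mul_zero] at hν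
    exact mul_ne_zero hc0' (inv_ne_zero hc0) hν.symm
  have hv2 : ν • v' ≠ 0 := smul_ne_zero hν0 hv'
  have hv20 : ⟪ν • v', ν • v'⟫ = 0 := by
    simp only [map_smul, map_smulₛₗ, LinearMap.smul_apply, hv0', smul_zero]
  obtain ⟨g, hg⟩ := exists_su_map hn hv hv0 hv2 hv20
  rw [isConj_iff]
  refine ⟨g, ?_⟩
  rw [conj_sg (Adm_tv hv0 hcs), hg, act_zero, sg_scale (Adm_tv hv20 hcs) hν0, smul_zero, hν,
    mul_assoc, inv_mul_cancel₀ hc0, mul_one]

end Cfsg.Agent.Lib.Helper4.PSU
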