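import Mathlib
import Cfsg.Prelude.Def_LieTypeDatum
import Cfsg.Agent.Lib.Helper5.SympSimple
import Cfsg.Agent.Lib.Helper5.SympCard
import Cfsg.Agent.Lib.Helper5.SympTrans
import Cfsg.Agent.Lib.Helper4.PSUq

set_option linter.unusedSimpArgs false
set_option linter.unusedSectionVars false
set_option linter.style.haveILetI false

namespace Cfsg.Agent.Lib.Helper4.PSp

open Matrix
open Cfsg.Agent.Lib.Helper5.Symp Cfsg.Agent.Lib.Helper5.SympGen Cfsg.Agent.Lib.Helper5.SympBridge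
  Cfsg.Agent.Lib.Helper5.SympPerfect
open scoped Pointwise

variable {F : Type*} [Field F] {m : ℕ}

local notation "V" => (Fin m ⊕ Fin m → F)
local notation "G" => Matrix.symplecticGroup (Fin m) F
local notation "Gb" => Cfsg.PSp m F
local notation "⟪" u ", " v "⟫" => sympB m F u v

/-- the action on vectors -/
def act (g : G) (x : V) : V := g.1 *ᵥ x

theorem act_mul (g h : G) (x : V) : act (g * h) x = act g (act h x) := coe_mul_mulVec g h x
theorem act_one (x : V) : act (1 : G) x = x := coe_one_mulVec x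
theorem act_inv_act (g : G) (x : V) : act g⁻¹ (act g x) = x := inv_mul_mulVec g x
theorem act_act_inv (g : G) (x : V) : act g (act g⁻¹ x) = x := mul_inv_mulVec g x
theorem act_add (g : G) (x y : V) : act g (x + y) = act g x + act g y := mulVec_add _ _ _
theorem act_sub (g : G) (x y : V) : act g (x - y) = act g x - act g y := mulVec_sub _ _ _
theorem act_smul (g : G) (a : F) (x : V) : act g (a • x) = a • act g x := mulVec_smul _ _ _
theorem act_zero (g : G) : act g (0 : V) = 0 := mulVec_zero _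
theorem act_neg (g : G) (x : V) : act g (-x) = -act g x := mulVec_neg _ _
theorem act_ext {g h : G} (H : ∀ x, act g x = act h x) : g = h := ext_mulVec H
theorem act_eq_zero (g : G) {x : V} (h : act g x = 0) : x = 0 := by
  rw [← act_inv_act g x, h, act_zero]
theorem B_act (g : G) (u v : V) : ⟪act g u, act g v⟫ = ⟪u, v⟫ := preserves g u v
theorem B_self (v : V) : ⟪v, v⟫ = 0 := sympForm_self v
theorem B_swap (u v : V) : ⟪u, v⟫ = -⟪v, u⟫ := sympForm_swap u v
theorem B_zero_symm {u v : V} (h : ⟪u, v⟫ = 0) : ⟪v, u⟫ = 0 := by rw [B_swap, h, neg_zero]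
theorem eq_zero_of_B {x : V} (h : ∀ y, ⟪x, y⟫ = 0) : x = 0 := eq_zero_of_forall x h
theorem exists_one {v : V} (hv : v ≠ 0) : ∃ x, ⟪v, x⟫ = 1 := exists_partner_one v hv
theorem act_tv (w : V) (c : F) (x : V) : act (tv w c) x = x + (c * ⟪x, w⟫) • w := tv_mulVec w c x
theorem conj_tv' (g : G) (w : V) (c : F) : g * tv w c * g⁻¹ = tv (act g w) c := conj_tv g w c

theorem tv_pow (w : V) (c : F) (k : ℕ) : tv w c ^ k = tv w (k • c) := by
  induction k with
  | zero => rw [pow_zero, zero_smul, tv_zero_right]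
  | succ k ih => rw [pow_succ, ih, tv_mul, succ_nsmul]

theorem act_pow_scalar (g : G) (c : F) (h : ∀ x, act g x = c • x) (k : ℕ) (x : V) :
    act (g ^ k) x = c ^ k • x := by
  induction k with
  | zero => rw [pow_zero, act_one, pow_zero, one_smul]
  | succ k ih => rw [pow_succ, act_mul, h, act_smul, ih, smul_smul, pow_succ']

/-! ### linear algebra -/

theorem par_of_perp {v v' : V} (h : ∀ x, ⟪v, x⟫ = 0 → ⟪v', x⟫ = 0) : ∃ c : F, v' = c • v := by
  by_cases hv : v = 0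
  · refine ⟨0, ?_⟩
    rw [zero_smul]
    apply eq_zero_of_B
    intro y
    apply h
    rw [hv]; simp
  obtain ⟨x₁, hx₁⟩ := exists_one hv
  refine ⟨⟪v', x₁⟫, ?_⟩
  rw [← sub_eq_zero]
  apply eq_zero_of_B
  intro x
  have h1 := h (x - ⟪v, x⟫ • x₁) (by
    simp only [map_sub, map_smul, smul_eq_mul, hx₁]; ring)
  simp only [map_sub, map_smul, smul_eq_mul, LinearMap.sub_apply, LinearMap.smul_apply] at h1 ⊢
  linear_combination h1

theorem span2_of_perp {a b x : V} (h : ∀ z, ⟪a, z⟫ = 0 → ⟪b, z⟫ = 0 → ⟪x, z⟫ = 0) :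
    ∃ c₁ c₂ : F, x = c₁ • a + c₂ • b := by
  by_cases hb : ∀ z, ⟪a, z⟫ = 0 → ⟪b, z⟫ = 0
  · obtain ⟨c, hc⟩ := par_of_perp (v := a) (v' := x) (fun z hz => h z hz (hb z hz))
    exact ⟨c, 0, by rw [hc]; simp⟩
  push Not at hb
  obtain ⟨z₀, h1, h2⟩ := hb
  obtain ⟨c, hc⟩ := par_of_perp (v := a) (v' := x - (⟪x, z₀⟫ / ⟪b, z₀⟫) • b) (by
    intro z hz
    have h3 := h (z - (⟪b, z⟫ / ⟪b, z₀⟫) • z₀) (by
      simp only [map_sub, map_smul, smul_eq_mul, hz, h1]; ring) (by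
      simp only [map_sub, map_smul, smul_eq_mul]; field_simp; ring)
    simp only [map_sub, map_smul, smul_eq_mul, LinearMap.sub_apply, LinearMap.smul_apply] at h3 ⊢
    rw [sub_eq_zero] at h3
    rw [h3]
    field_simp
    ring)
  exact ⟨c, ⟪x, z₀⟫ / ⟪b, z₀⟫, by rw [← hc]; abel⟩

/-! ### the centre -/

theorem par_of_tv_eq' {v v' : V} {a a' : F} (hv : v ≠ 0) (ha : a ≠ 0) (h : tv v a = tv v' a') :
    ∃ c : F, v = c • v' := by
  obtain ⟨x, hx⟩ := exists_one hv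
  have h2 : act (tv v a) x = act (tv v' a') x := by rw [h]
  rw [act_tv, act_tv] at h2
  have h3 := add_left_cancel h2
  have hx' : ⟪x, v⟫ ≠ 0 := by rw [B_swap, hx]; simp
  refine ⟨(a * ⟪x, v⟫)⁻¹ * (a' * ⟪x, v'⟫), ?_⟩
  rw [← smul_smul, ← h3, smul_smul, inv_mul_cancel₀ (mul_ne_zero ha hx'), one_smul]

theorem center_scalar (g : G) (hg : g ∈ Subgroup.center G) : ∃ c : F, ∀ x, act g x = c • x := by
  apply Cfsg.Agent.Lib.Helper5.SympSimple.scalar_of_fix_lines
  intro v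
  by_cases hv : v = 0
  · exact ⟨0, by rw [hv]; simp⟩
  have h1 : g * tv v 1 * g⁻¹ = tv v 1 := by
    rw [← Subgroup.mem_center_iff.1 hg]; group
  rw [conj_tv'] at h1
  exact par_of_tv_eq' (fun h => hv (act_eq_zero g h)) one_ne_zero h1

theorem scalar_center (g : G) (c : F) (h : ∀ x, act g x = c • x) : g ∈ Subgroup.center G :=
  Cfsg.Agent.Lib.Helper5.SympSimple.mem_center_of_scalar g c h

theorem exists_ne_zero (hm : 1 ≤ m) : ∃ v : V, v ≠ 0 := by
  classical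
  refine ⟨Pi.single (Sum.inl ⟨0, hm⟩) 1, fun h => ?_⟩
  have := congrFun h (Sum.inl ⟨0, hm⟩)
  simp at this

theorem center_sq (hm : 1 ≤ m) (g : G) (hg : g ∈ Subgroup.center G) : g * g = 1 := by
  obtain ⟨c, hc⟩ := center_scalar g hg
  obtain ⟨v, hv⟩ := exists_ne_zero (F := F) hm
  obtain ⟨x, hx⟩ := exists_one hv
  have h1 := B_act g v x
  rw [hc, hc, hx] at h1
  simp only [map_smul, LinearMap.smul_apply, smul_eq_mul, hx, mul_one] at h1
  apply act_ext
  intro y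
  rw [act_mul, hc, hc, smul_smul, h1, one_smul, act_one]

variable {p : ℕ} [hp : Fact p.Prime] [hch : CharP F p]

include hp hch

theorem eq_one_of_pow {c : F} {k : ℕ} (h : c ^ (p ^ k) = 1) : c = 1 := by
  haveI : ExpChar F p := ExpChar.prime hp.out
  have := (ExpChar.pow_prime_pow_mul_eq_one_iff p k 1 c).1 (by rw [mul_one]; exact h)
  simpa using this

theorem eq_one_of_center (hm : 1 ≤ m) {g : G} (hg : g ∈ Subgroup.center G) {k : ℕ} (hk : g ^ (p ^ k) = 1) :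
    g = 1 := by
  obtain ⟨c, hc'⟩ := center_scalar g hg
  obtain ⟨v, hv⟩ := exists_ne_zero (F := F) hm
  have h1 := act_pow_scalar g c hc' (p ^ k) v
  rw [hk, act_one] at h1
  have h2 : c ^ (p ^ k) = 1 := by
    have h3 : (c ^ (p ^ k) - 1) • v = 0 := by rw [sub_smul, one_smul, ← h1, sub_self]
    rcases smul_eq_zero.1 h3 with h | h
    · exact sub_eq_zero.1 h
    · exact absurd h hv
  have h3 : c = 1 := eq_one_of_pow (p := p) h2
  apply act_ext
  intro x
  rw [hc', h3, one_smul, act_one]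

theorem eq_of_mk_eq (hm : 1 ≤ m) {g h : G} {k k' : ℕ} (hg : g ^ (p ^ k) = 1) (hh : h ^ (p ^ k') = 1)
    (e : (QuotientGroup.mk g : Gb) = QuotientGroup.mk h) : g = h := by
  have hz : g⁻¹ * h ∈ Subgroup.center G := QuotientGroup.eq.1 e
  have hcomm : Commute g⁻¹ h := by
    have := Subgroup.mem_center_iff.1 hz g
    have h2 : g * g⁻¹ * h = g⁻¹ * h * g := by rw [← this]; group
    rw [mul_inv_cancel, one_mul] at h2
    show g⁻¹ * h = h * g⁻¹
    conv_rhs => rw [h2]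
    group
  have h1 : (g⁻¹ * h) ^ (p ^ (k + k')) = 1 := by
    rw [hcomm.mul_pow, inv_pow, pow_add, pow_mul, hg, one_pow, inv_one, one_mul, mul_comm, pow_mul, hh, one_pow]
  have := eq_one_of_center (p := p) hm hz h1
  exact (inv_mul_eq_one.1 this)

theorem tv_pow_p (w : V) (c : F) : tv w c ^ (p ^ 1) = 1 := by
  rw [pow_one, tv_pow]
  have : (p : ℕ) • c = 0 := by simp [CharP.cast_eq_zero F p]
  rw [this, tv_zero_right]

omit hp hch

/-! ### transvection groups -/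

/-- nonzero vectors -/
def NZ (F : Type*) [Field F] (m : ℕ) := {v : Fin m ⊕ Fin m → F // v ≠ 0}

/-- the action on nonzero vectors -/
def NZ.mv (g : G) (v : NZ F m) : NZ F m := ⟨act g v.1, fun h => v.2 (act_eq_zero g h)⟩

theorem NZ.mv_val (g : G) (v : NZ F m) : (NZ.mv g v).1 = act g v.1 := rfl
theorem NZ.mv_mv (g h : G) (v : NZ F m) : NZ.mv g (NZ.mv h v) = NZ.mv (g * h) v :=
  Subtype.ext (act_mul g h v.1).symm
theorem NZ.mv_one (v : NZ F m) : NZ.mv (1 : G) v = v := Subtype.ext (act_one v.1)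

/-- the transvection group with centre `v`. -/
def X (v : NZ F m) : Subgroup G := Cfsg.Agent.Lib.Helper5.SympSimple.Tv v.1

theorem mem_X {v : NZ F m} {g : G} : g ∈ X v ↔ ∃ b, g = tv v.1 b := Iff.rfl

/-- its image in `PSp`. -/
def Xb (v : NZ F m) : Subgroup Gb := (X v).map (QuotientGroup.mk' _)

theorem mem_Xb {v : NZ F m} {y : Gb} : y ∈ Xb v ↔ ∃ b, y = QuotientGroup.mk (tv v.1 b) := by
  unfold Xb
  rw [Subgroup.mem_map]
  constructor
  · rintro ⟨_, ⟨b, rfl⟩, rfl⟩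
    exact ⟨b, rfl⟩
  · rintro ⟨b, rfl⟩
    exact ⟨_, ⟨b, rfl⟩, rfl⟩

theorem conj_mem_X (g : G) (v : NZ F m) {x : G} (hx : x ∈ X v) : g * x * g⁻¹ ∈ X (NZ.mv g v) := by
  obtain ⟨b, rfl⟩ := hx
  exact ⟨b, conj_tv' g v.1 b⟩

theorem conj_mem_Xb (g : G) (v : NZ F m) (y : Gb) :
    y ∈ Xb v ↔ QuotientGroup.mk g * y * (QuotientGroup.mk g)⁻¹ ∈ Xb (NZ.mv g v) := by
  have key : ∀ (g : G) (v : NZ F m) (y : Gb), y ∈ Xb v →
      QuotientGroup.mk g * y * (QuotientGroup.mk g)⁻¹ ∈ Xb (NZ.mv g v) := by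
    rintro g v _ ⟨x, hx, rfl⟩
    exact ⟨_, conj_mem_X g v hx, rfl⟩
  refine ⟨key g v y, fun h => ?_⟩
  have := key g⁻¹ _ _ h
  rw [NZ.mv_mv, inv_mul_cancel, NZ.mv_one] at this
  convert this using 1
  rw [QuotientGroup.mk_inv]
  group

theorem Xb_smul {v v' : NZ F m} {c : F} (h : v'.1 = c • v.1) : Xb v' = Xb v := by
  have hc0 : c ≠ 0 := by
    rintro rfl
    rw [zero_smul] at h
    exact v'.2 h
  unfold Xb X
  rw [h, Cfsg.Agent.Lib.Helper5.SympSimple.Tv_smul c hc0]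

theorem commute_of_orth {v w : NZ F m} (h : ⟪v.1, w.1⟫ = 0) {x y : Gb} (hx : x ∈ Xb v) (hy : y ∈ Xb w) :
    x * y = y * x := by
  obtain ⟨b, rfl⟩ := mem_Xb.1 hx
  obtain ⟨b', rfl⟩ := mem_Xb.1 hy
  rw [← QuotientGroup.mk_mul, ← QuotientGroup.mk_mul]
  congr 1
  apply act_ext
  intro z
  have h' := B_zero_symm h
  rw [act_mul, act_mul, act_tv, act_tv, act_tv, act_tv]
  simp only [map_add, map_smul, LinearMap.add_apply, LinearMap.smul_apply, h, h', smul_zero, add_zero]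
  abel

include hp hch

theorem par_of_tv_eq (hm : 1 ≤ m) {v v' : NZ F m} {b b' : F} (hb0 : b ≠ 0)
    (h : (QuotientGroup.mk (tv v.1 b) : Gb) = QuotientGroup.mk (tv v'.1 b')) :
    ∃ c : F, v.1 = c • v'.1 :=
  par_of_tv_eq' v.2 hb0 (eq_of_mk_eq (p := p) hm (tv_pow_p v.1 b) (tv_pow_p v'.1 b') h)

theorem tv_mk_inj (hm : 1 ≤ m) (v : NZ F m) {b b' : F}
    (h : (QuotientGroup.mk (tv v.1 b) : Gb) = QuotientGroup.mk (tv v.1 b')) : b = b' := by
  have h1 := eq_of_mk_eq (p := p) hm (tv_pow_p v.1 b) (tv_pow_p v.1 b') h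
  obtain ⟨x, hx⟩ := exists_one v.2
  have h2 : act (tv v.1 b) x = act (tv v.1 b') x := by rw [h1]
  rw [act_tv, act_tv, B_swap, hx] at h2
  have h3 := smul_left_injective F v.2 (add_left_cancel h2)
  linear_combination -h3

/-- equal transvection groups have proportional centres -/
theorem par_of_Xb_le (hm : 1 ≤ m) {v v' : NZ F m} (h : Xb v ≤ Xb v') : ∃ c : F, v.1 = c • v'.1 := by
  obtain ⟨b', e⟩ := mem_Xb.1 (h (mem_Xb.2 ⟨1, rfl⟩))
  exact par_of_tv_eq (p := p) hm one_ne_zero e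

theorem orth_of_commute (hm : 1 ≤ m) {v w : NZ F m} (h : ∀ x ∈ Xb v, ∀ y ∈ Xb w, x * y = y * x) :
    ⟪v.1, w.1⟫ = 0 := by
  by_contra hne
  have h1 := h _ (mem_Xb.2 ⟨1, rfl⟩) _ (mem_Xb.2 ⟨1, rfl⟩)
  have h2 : (QuotientGroup.mk (tv v.1 1 * tv w.1 1 * (tv v.1 1)⁻¹) : Gb) = QuotientGroup.mk (tv w.1 1) := by
    rw [QuotientGroup.mk_mul, QuotientGroup.mk_mul, h1, QuotientGroup.mk_inv]
    group
  rw [conj_tv'] at h2
  obtain ⟨c, hc'⟩ := par_of_tv_eq (p := p) hm (v := NZ.mv (tv v.1 1) w) (v' := w) one_ne_zero h2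
  rw [NZ.mv_val, act_tv] at hc'
  have h3 : (1 * ⟪w.1, v.1⟫) • v.1 = (c - 1) • w.1 := by
    rw [sub_smul, one_smul, ← hc']; abel
  have h4 := congrArg (sympB m F w.1) h3
  rw [map_smul, map_smul, B_self, smul_zero, smul_eq_mul, one_mul] at h4
  rcases mul_eq_zero.1 h4 with h5 | h5
  · exact hne (B_zero_symm h5)
  · exact hne (B_zero_symm h5)

end Cfsg.Agent.Lib.Helper4.PSp
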