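import Mathlib
import Cfsg.Agent.Lib.Helper4.PSpA

set_option linter.unusedSimpArgs false
set_option linter.unusedSectionVars false
set_option linter.style.haveILetI false

namespace Cfsg.Agent.Lib.Helper4.PSp

open Matrix
open Cfsg.Agent.Lib.Helper5.Symp Cfsg.Agent.Lib.Helper5.SympGen Cfsg.Agent.Lib.Helper5.SympBridge
  Cfsg.Agent.Lib.Helper5.SympPerfect
open scoped Pointwise

variable {F : Type*} [Field F] {m : ℕ}

local notation "V" => (Fin m ⊕ Fin m → F)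
local notation "G" => Matrix.symplecticGroup (Fin m) F
local notation "Gb" => Cfsg.PSp m F
local notation "⟪" u ", " v "⟫" => sympB m F u v

/-- hyperbolic pairs -/
structure HP (F : Type*) [Field F] (m : ℕ) where
  e : Fin m ⊕ Fin m → F
  f : Fin m ⊕ Fin m → F
  ef : sympB m F e f = 1

namespace HP

variable (H : HP F m)

theorem fe : ⟪H.f, H.e⟫ = -1 := by rw [B_swap, H.ef]

theorem e_ne_zero : H.e ≠ 0 := by
  intro h
  have := H.ef
  rw [h] at this
  simp at this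

theorem f_ne_zero : H.f ≠ 0 := by
  intro h
  have := H.ef
  rw [h] at this
  simp at this

/-- `e` as a nonzero vector -/
def eN : NZ F m := ⟨H.e, H.e_ne_zero⟩
/-- `f` as a nonzero vector -/
def fN : NZ F m := ⟨H.f, H.f_ne_zero⟩

theorem exists_u (y : V) (hy : ⟪H.e, y⟫ = 0) : ∃ A : G, ∀ x,
    act A x = x + ⟪H.e, x⟫ • y + (⟪y, x⟫ - ⟪y, H.f⟫ * ⟪H.e, x⟫) • H.e := by
  let L : V →ₗ[F] V := LinearMap.id + (sympB m F H.e).smulRight y +
    ((sympB m F y) - ⟪y, H.f⟫ • (sympB m F H.e)).smulRight H.e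
  have hL : ∀ x, L x = x + ⟪H.e, x⟫ • y + (⟪y, x⟫ - ⟪y, H.f⟫ * ⟪H.e, x⟫) • H.e := fun x => rfl
  obtain ⟨A, hA⟩ := Cfsg.Agent.Lib.Helper5.SympCard.exists_sp_of_linearMap L (by
    intro u v
    change ⟪L u, L v⟫ = ⟪u, v⟫
    have e1 := B_swap u y
    have e2 := B_swap u H.e
    have e3 : ⟪y, H.e⟫ = 0 := B_zero_symm hy
    rw [hL, hL]
    simp only [map_add, map_smul, LinearMap.add_apply, LinearMap.smul_apply, smul_eq_mul, e1, e2, e3, hy, B_self]
    ring)
  exact ⟨A, fun x => by rw [← hL]; exact hA x⟩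

open Classical in
/-- elements of the unipotent radical of the stabiliser of `e`, parametrised by the image of `f` -/
noncomputable def u (y : V) : G := if h : ⟪H.e, y⟫ = 0 then Classical.choose (H.exists_u y h) else 1

theorem act_u {y : V} (hy : ⟪H.e, y⟫ = 0) (x : V) :
    act (H.u y) x = x + ⟪H.e, x⟫ • y + (⟪y, x⟫ - ⟪y, H.f⟫ * ⟪H.e, x⟫) • H.e := by
  unfold u
  rw [dif_pos hy]
  exact Classical.choose_spec (H.exists_u y hy) x

theorem u_e {y : V} (hy : ⟪H.e, y⟫ = 0) : act (H.u y) H.e = H.e := by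
  rw [H.act_u hy, B_self, B_zero_symm hy]
  simp

theorem u_f {y : V} (hy : ⟪H.e, y⟫ = 0) : act (H.u y) H.f = H.f + y := by
  rw [H.act_u hy, H.ef]
  simp

theorem u_perp {y : V} (hy : ⟪H.e, y⟫ = 0) {z : V} (hz : ⟪H.e, z⟫ = 0) :
    act (H.u y) z = z + ⟪y, z⟫ • H.e := by
  rw [H.act_u hy, hz]
  simp

theorem u_inj {y y' : V} (hy : ⟪H.e, y⟫ = 0) (hy' : ⟪H.e, y'⟫ = 0) (h : H.u y = H.u y') : y = y' := by
  have := H.u_f hy
  rw [h, H.u_f hy'] at this
  exact (add_left_cancel this).symm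

/-- characterisation of the unipotent radical -/
theorem Q_char (g : G) (he : act g H.e = H.e) (hq : ∀ z, ⟪H.e, z⟫ = 0 → ∃ b : F, act g z = z + b • H.e) :
    ⟪H.e, act g H.f - H.f⟫ = 0 ∧ g = H.u (act g H.f - H.f) := by
  have h0 : ⟪H.e, act g H.f - H.f⟫ = 0 := by
    have := B_act g H.e H.f
    rw [he] at this
    rw [map_sub, this, sub_self]
  refine ⟨h0, ?_⟩
  apply act_ext
  intro x
  set y₀ := act g H.f - H.f with hy₀
  have hgf : act g H.f = H.f + y₀ := by rw [hy₀]; abel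
  have hz : ⟪H.e, x - ⟪H.e, x⟫ • H.f⟫ = 0 := by
    simp only [map_sub, map_smul, smul_eq_mul, H.ef]; ring
  set z := x - ⟪H.e, x⟫ • H.f with hzdef
  have hx : x = ⟪H.e, x⟫ • H.f + z := by rw [hzdef]; abel
  obtain ⟨b, hb⟩ := hq z hz
  have hb' : b = ⟪y₀, z⟫ := by
    have h1 := B_act g z H.f
    rw [hb, hgf] at h1
    simp only [map_add, map_smul, LinearMap.add_apply, LinearMap.smul_apply, smul_eq_mul, H.ef, h0] at h1
    rw [B_swap y₀ z]
    linear_combination h1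
  conv_lhs => rw [hx, act_add, act_smul, hgf, hb, hb']
  conv_rhs => rw [hx, act_add, act_smul, H.u_f h0, H.u_perp h0 hz]

theorem perp_mul {y y' : V} (hy : ⟪H.e, y⟫ = 0) (hy' : ⟪H.e, y'⟫ = 0) :
    ⟪H.e, y + y' + ⟪y, y'⟫ • H.e⟫ = 0 := by
  simp only [map_add, map_smul, hy, hy', B_self]; simp

theorem u_mul {y y' : V} (hy : ⟪H.e, y⟫ = 0) (hy' : ⟪H.e, y'⟫ = 0) :
    H.u y * H.u y' = H.u (y + y' + ⟪y, y'⟫ • H.e) := by
  apply act_ext
  intro x
  have e3 : ⟪y, H.e⟫ = 0 := B_zero_symm hy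
  rw [act_mul, H.act_u hy', H.act_u hy, H.act_u (H.perp_mul hy hy')]
  simp only [map_add, map_smul, LinearMap.add_apply, LinearMap.smul_apply, smul_eq_mul, e3, hy, hy', B_self, H.ef]
  module

theorem u_zero : H.u 0 = 1 := by
  apply act_ext
  intro x
  rw [H.act_u (by simp), act_one]
  simp

theorem u_inv {y : V} (hy : ⟪H.e, y⟫ = 0) : (H.u y)⁻¹ = H.u (-y) := by
  apply inv_eq_of_mul_eq_one_right
  rw [H.u_mul hy (by rw [map_neg, hy, neg_zero])]
  have : y + -y + ⟪y, -y⟫ • H.e = 0 := by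
    rw [map_neg, B_self]; simp
  rw [this, u_zero]

theorem u_pow {y : V} (hy : ⟪H.e, y⟫ = 0) (k : ℕ) : H.u y ^ k = H.u (k • y) := by
  induction k with
  | zero => rw [pow_zero, zero_smul, u_zero]
  | succ k ih =>
    rw [pow_succ, ih, H.u_mul (by rw [map_nsmul, hy, smul_zero]) hy, succ_nsmul]
    congr 1
    have : ⟪k • y, y⟫ = 0 := by
      rw [map_nsmul, LinearMap.smul_apply, B_self, smul_zero]
    rw [this, zero_smul, add_zero]

theorem u_smul_e (c : F) : H.u (c • H.e) = tv H.e (-c) := by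
  apply act_ext
  intro x
  rw [H.act_u (by rw [map_smul, B_self, smul_zero]), act_tv, B_swap x H.e]
  simp only [map_smul, LinearMap.smul_apply, smul_eq_mul, H.ef]
  module

/-- the unipotent radical -/
def Q : Subgroup G where
  carrier := {g | ∃ y, ⟪H.e, y⟫ = 0 ∧ g = H.u y}
  one_mem' := ⟨0, by simp, H.u_zero.symm⟩
  mul_mem' := by
    rintro _ _ ⟨y, hy, rfl⟩ ⟨y', hy', rfl⟩
    exact ⟨_, H.perp_mul hy hy', H.u_mul hy hy'⟩
  inv_mem' := by
    rintro _ ⟨y, hy, rfl⟩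
    exact ⟨-y, by rw [map_neg, hy, neg_zero], H.u_inv hy⟩

/-- vectors fixed by `Q` are multiples of `e`. -/
theorem fixed_Q {x : V} (h : ∀ g ∈ H.Q, act g x = x) : ∃ c : F, x = c • H.e := by
  have h1 := h _ ⟨H.e, B_self _, rfl⟩
  rw [H.act_u (B_self _), H.ef] at h1
  have h2 : ⟪H.e, x⟫ = 0 := by
    have h3 : ⟪H.e, x⟫ • H.e = 0 := by
      have h4 : x + ⟪H.e, x⟫ • H.e + (⟪H.e, x⟫ - 1 * ⟪H.e, x⟫) • H.e = x + ⟪H.e, x⟫ • H.e := by
        rw [one_mul, sub_self, zero_smul, add_zero]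
      rw [h4] at h1
      simpa using h1
    exact (smul_eq_zero.1 h3).resolve_right H.e_ne_zero
  apply par_of_perp
  intro y hy
  have h4 := h _ ⟨y, hy, rfl⟩
  rw [H.u_perp hy h2] at h4
  have h5 : ⟪y, x⟫ • H.e = 0 := by simpa using h4
  exact B_zero_symm ((smul_eq_zero.1 h5).resolve_right H.e_ne_zero)

variable {p : ℕ} [hp : Fact p.Prime] [hch : CharP F p]

include hp hch

theorem u_pow_p {y : V} (hy : ⟪H.e, y⟫ = 0) : H.u y ^ (p ^ 1) = 1 := by
  rw [pow_one, H.u_pow hy]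
  have : (p : ℕ) • y = 0 := by
    funext i
    simp [CharP.cast_eq_zero F p]
  rw [this, u_zero]

theorem isPGroup_Q : IsPGroup p H.Q := by
  rintro ⟨_, y, hy, rfl⟩
  exact ⟨1, Subtype.ext (H.u_pow_p hy)⟩

theorem mk_u_inj (hm : 1 ≤ m) {y y' : V} (hy : ⟪H.e, y⟫ = 0) (hy' : ⟪H.e, y'⟫ = 0)
    (h : (QuotientGroup.mk (H.u y) : Gb) = QuotientGroup.mk (H.u y')) : y = y' :=
  H.u_inj hy hy' (eq_of_mk_eq (p := p) hm (H.u_pow_p hy) (H.u_pow_p hy') h)

variable [Fintype F]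

theorem fix_e (hm : 1 ≤ m) (U : Subgroup G) (hU : IsPGroup p U) (hQ : H.Q ≤ U) : ∀ g ∈ U, act g H.e = H.e := by
  letI : MulAction G V :=
    { smul := act
      one_smul := act_one
      mul_smul := act_mul }
  have hsm : ∀ (g : G) (x : V), g • x = act g x := fun _ _ => rfl
  have hpF : p ∣ Fintype.card F := by
    obtain ⟨k, hpp, hk⟩ := FiniteField.card F p
    rw [hk]
    exact dvd_pow_self p k.ne_zero
  have hpα : p ∣ Nat.card V := by
    rw [Nat.card_eq_fintype_card, Fintype.card_fun, Fintype.card_sum, Fintype.card_fin]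
    exact hpF.trans (dvd_pow_self _ (by omega))
  have h0 : (0 : V) ∈ MulAction.fixedPoints U V := by
    intro g
    exact act_zero g.1
  obtain ⟨x, hx, hx0⟩ := hU.exists_fixed_point_of_prime_dvd_card_of_fixed_point _ hpα h0
  have hx' : ∀ g ∈ U, act g x = x := fun g hg => hx ⟨g, hg⟩
  obtain ⟨c, h1⟩ := H.fixed_Q (fun g hg => hx' g (hQ hg))
  have h2 : c ≠ 0 := by
    intro h
    rw [h, zero_smul] at h1
    exact hx0 h1.symm
  intro g hg
  have h3 := hx' g hg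
  rw [h1, act_smul] at h3
  exact smul_right_injective _ h2 h3

theorem center_sylow (h2 : (2 : F) ≠ 0) (hm : 1 ≤ m) (U : Subgroup G) (hU : IsPGroup p U) (hQ : H.Q ≤ U) (g : G) :
    (g ∈ U ∧ ∀ s ∈ U, s * g = g * s) ↔ ∃ b, g = tv H.e b := by
  have hfix := H.fix_e hm U hU hQ
  constructor
  · rintro ⟨hg, hcomm⟩
    have he := hfix g hg
    have hegf : ⟪H.e, act g H.f⟫ = 1 := by
      have := B_act g H.e H.f
      rwa [he, H.ef] at this
    have key : ∀ y, ⟪H.e, y⟫ = 0 → act g y = y + ⟪y, act g H.f - H.f⟫ • H.e := by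
      intro y hy
      have h1 := hcomm _ (hQ ⟨y, hy, rfl⟩)
      have h3 : act (H.u y * g) H.f = act (g * H.u y) H.f := by rw [h1]
      rw [act_mul, act_mul, H.u_f hy, H.act_u hy, hegf, act_add] at h3
      have h4 : act g y = y + (⟪y, act g H.f⟫ - ⟪y, H.f⟫ * 1) • H.e := by
        have : act g H.f + (1 : F) • y + (⟪y, act g H.f⟫ - ⟪y, H.f⟫ * 1) • H.e =
            act g H.f + (y + (⟪y, act g H.f⟫ - ⟪y, H.f⟫ * 1) • H.e) := by
          rw [one_smul, add_assoc]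
        rw [this] at h3
        exact (add_left_cancel h3).symm
      rw [h4, map_sub, mul_one]
    obtain ⟨h0, hgu⟩ := H.Q_char g he (fun z hz => ⟨_, key z hz⟩)
    set y₀ := act g H.f - H.f with hy₀
    obtain ⟨c, hc⟩ := par_of_perp (v := H.e) (v' := y₀) (by
      intro y hy
      have h3 := key y hy
      rw [hgu, H.u_perp h0 hy] at h3
      have h4 := smul_left_injective F H.e_ne_zero (add_left_cancel h3)
      rw [B_swap y y₀] at h4
      have h5 : (2 : F) * ⟪y₀, y⟫ = 0 := by linear_combination h4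
      exact (mul_eq_zero.1 h5).resolve_left h2)
    exact ⟨-c, by rw [hgu, hc, u_smul_e]⟩
  · rintro ⟨b, rfl⟩
    refine ⟨hQ ⟨(-b) • H.e, by rw [map_smul, B_self, smul_zero], by rw [u_smul_e, neg_neg]⟩, fun s hs => ?_⟩
    have h1 : s * tv H.e b * s⁻¹ = tv H.e b := by
      rw [conj_tv', hfix s hs]
    have := congrArg (· * s) h1
    simpa using this

end HP

variable {p : ℕ} [hp : Fact p.Prime] [hch : CharP F p] [Fintype F]

include hp hch

/-- automorphisms permute the transvection groups. -/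
theorem T1 (h2 : (2 : F) ≠ 0) (hm : 1 ≤ m) (β : MulAut Gb) (v : NZ F m) :
    ∃ v' : NZ F m, ∀ y, y ∈ Xb v ↔ β y ∈ Xb v' := by
  classical
  obtain ⟨f, hef⟩ := exists_one v.2
  let H : HP F m := ⟨v.1, f, hef⟩
  have : Finite G := Finite.of_injective (fun g : G => g.1) Subtype.val_injective
  obtain ⟨U, hU⟩ := (H.isPGroup_Q (p := p)).exists_le_sylow
  have hsurj : Function.Surjective (QuotientGroup.mk' (Subgroup.center G)) := QuotientGroup.mk'_surjective _
  let P : Sylow p Gb := U.mapSurjective hsurj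
  have hpow : ∀ x ∈ U, ∃ k, x ^ (p ^ k) = 1 := by
    intro x hx
    obtain ⟨k, hk⟩ := U.2 ⟨x, hx⟩
    exact ⟨k, congrArg Subtype.val hk⟩
  have key : ∀ y : Gb, (y ∈ P ∧ ∀ s ∈ P, s * y = y * s) ↔ y ∈ Xb v := by
    intro y
    constructor
    · rintro ⟨⟨g, hg, rfl⟩, hcomm⟩
      have h1 : ∀ s ∈ U, s * g = g * s := by
        intro s hs
        obtain ⟨k, hk⟩ := hpow _ (U.mul_mem hs hg)
        obtain ⟨k', hk'⟩ := hpow _ (U.mul_mem hg hs)
        exact eq_of_mk_eq (p := p) hm hk hk' (hcomm _ ⟨s, hs, rfl⟩)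
      obtain ⟨b, rfl⟩ := (H.center_sylow (p := p) h2 hm U U.2 hU g).1 ⟨hg, h1⟩
      exact mem_Xb.2 ⟨b, rfl⟩
    · intro hy
      obtain ⟨b, rfl⟩ := mem_Xb.1 hy
      have h1 := (H.center_sylow (p := p) h2 hm U U.2 hU (tv v.1 b)).2 ⟨b, rfl⟩
      refine ⟨⟨_, h1.1, rfl⟩, ?_⟩
      rintro _ ⟨s, hs, rfl⟩
      exact congrArg (QuotientGroup.mk' (Subgroup.center G)) (h1.2 s hs)
  obtain ⟨x, hx⟩ := PSU.sylow_center_transfer P β
  obtain ⟨g, rfl⟩ := QuotientGroup.mk_surjective x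
  refine ⟨NZ.mv g⁻¹ v, fun y => ?_⟩
  rw [← key, hx, key, conj_mem_Xb g⁻¹ v]
  have : (QuotientGroup.mk g⁻¹ : Gb) * (QuotientGroup.mk g * β y * (QuotientGroup.mk g)⁻¹) *
      (QuotientGroup.mk g⁻¹ : Gb)⁻¹ = β y := by
    rw [QuotientGroup.mk_inv]; group
  rw [this]

end Cfsg.Agent.Lib.Helper4.PSp
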