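import Mathlib
import Cfsg.Agent.Lib.Helper4.PSpB

set_option linter.unusedSimpArgs false
set_option linter.unusedSectionVars false
set_option linter.style.haveILetI false

namespace Cfsg.Agent.Lib.Helper4.PSp

open Matrix
open Cfsg.Agent.Lib.Helper5.Symp Cfsg.Agent.Lib.Helper5.SympGen Cfsg.Agent.Lib.Helper5.SympBridge
  Cfsg.Agent.Lib.Helper5.SympPerfect
open Cfsg.Agent.Lib.Helper4.PSL2Aut (liftAut liftAut_mk)
open scoped Pointwise

variable {F : Type*} [Field F] {m : ℕ}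

local notation "V" => (Fin m ⊕ Fin m → F)
local notation "G" => Matrix.symplecticGroup (Fin m) F
local notation "Gb" => Cfsg.PSp m F
local notation "GS" => Cfsg.GSp m F
local notation "⟪" u ", " v "⟫" => sympB m F u v

/-- action of `GSp` on vectors -/
def gact (g : GS) (x : V) : V := g.1.1 *ᵥ x

theorem gact_mul (g h : GS) (x : V) : gact (g * h) x = gact g (gact h x) := by
  unfold gact
  rw [mulVec_mulVec]
  rfl

theorem gact_one (x : V) : gact (1 : GS) x = x := one_mulVec x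

theorem gact_inv_gact (g : GS) (x : V) : gact g⁻¹ (gact g x) = x := by
  rw [← gact_mul, inv_mul_cancel, gact_one]

theorem gact_gact_inv (g : GS) (x : V) : gact g (gact g⁻¹ x) = x := by
  rw [← gact_mul, mul_inv_cancel, gact_one]

theorem gact_add (g : GS) (x y : V) : gact g (x + y) = gact g x + gact g y := mulVec_add _ _ _
theorem gact_sub (g : GS) (x y : V) : gact g (x - y) = gact g x - gact g y := mulVec_sub _ _ _
theorem gact_smul (g : GS) (a : F) (x : V) : gact g (a • x) = a • gact g x := mulVec_smul _ _ _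
theorem gact_zero (g : GS) : gact g (0 : V) = 0 := mulVec_zero _
theorem gact_eq_zero (g : GS) {x : V} (h : gact g x = 0) : x = 0 := by
  rw [← gact_inv_gact g x, h, gact_zero]

theorem gact_ext {g h : GS} (H : ∀ x, gact g x = gact h x) : g = h := by
  apply Subtype.ext
  apply Units.ext
  exact Matrix.ext_iff_mulVec.mpr H

/-- the multiplier -/
noncomputable def mu (g : GS) : Fˣ := Classical.choose g.2

theorem B_gact (g : GS) (u v : V) : ⟪gact g u, gact g v⟫ = (mu g : F) * ⟪u, v⟫ :=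
  Classical.choose_spec g.2 u v

theorem B_gact_inv (g : GS) (u v : V) : ⟪gact g⁻¹ u, v⟫ = (mu g : F)⁻¹ * ⟪u, gact g v⟫ := by
  have := B_gact g (gact g⁻¹ u) v
  rw [gact_gact_inv] at this
  rw [this, inv_mul_cancel_left₀ (mu g).ne_zero]

/-- conjugation by an element of `GSp` -/
def conjFun (g : GS) (s : G) : G := ⟨g.1.1 * s.1 * (g⁻¹ : GS).1.1, by
  rw [mem_symplecticGroup_iff_preserves]
  intro u v
  have h1 : ∀ x : V, (g.1.1 * s.1 * (g⁻¹ : GS).1.1) *ᵥ x = gact g (act s (gact g⁻¹ x)) := by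
    intro x
    unfold gact act
    rw [mulVec_mulVec, mulVec_mulVec]
  rw [h1, h1]
  change ⟪_, _⟫ = ⟪u, v⟫
  rw [B_gact, B_act, ← B_gact, gact_gact_inv, gact_gact_inv]⟩

theorem conjFun_val (g : GS) (s : G) : (conjFun g s).1 = g.1.1 * s.1 * (g⁻¹ : GS).1.1 := rfl

theorem act_conjFun (g : GS) (s : G) (x : V) : act (conjFun g s) x = gact g (act s (gact g⁻¹ x)) := by
  unfold gact act
  rw [conjFun_val, mulVec_mulVec, mulVec_mulVec]

theorem conjFun_mul (g : GS) (s t : G) : conjFun g (s * t) = conjFun g s * conjFun g t := by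
  apply act_ext
  intro x
  rw [act_mul, act_conjFun, act_conjFun, act_conjFun, act_mul, gact_inv_gact]

theorem conjFun_conjFun (g h : GS) (s : G) : conjFun g (conjFun h s) = conjFun (g * h) s := by
  apply act_ext
  intro x
  rw [act_conjFun, act_conjFun, act_conjFun, gact_mul, _root_.mul_inv_rev, gact_mul]

theorem conjFun_one (s : G) : conjFun (1 : GS) s = s := by
  apply act_ext
  intro x
  rw [act_conjFun, inv_one, gact_one, gact_one]

/-- conjugation by `GSp` on `Sp` -/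
def conjSp : GS →* MulAut G where
  toFun g :=
    { toFun := conjFun g
      invFun := conjFun g⁻¹
      left_inv := fun s => by rw [conjFun_conjFun, inv_mul_cancel, conjFun_one]
      right_inv := fun s => by rw [conjFun_conjFun, mul_inv_cancel, conjFun_one]
      map_mul' := conjFun_mul g }
  map_one' := by
    ext s : 1
    exact conjFun_one s
  map_mul' g h := by
    ext s : 1
    exact (conjFun_conjFun g h s).symm

theorem conjSp_val (g : GS) (s : G) : (conjSp g s).1 = g.1.1 * s.1 * (g⁻¹ : GS).1.1 := rfl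
theorem act_conjSp (g : GS) (s : G) (x : V) : act (conjSp g s) x = gact g (act s (gact g⁻¹ x)) :=
  act_conjFun g s x

theorem B_tau (τ : F ≃+* F) (x y : V) : ⟪τ ∘ x, τ ∘ y⟫ = τ ⟪x, y⟫ := by
  change Cfsg.sympForm m F _ _ = τ (Cfsg.sympForm m F _ _)
  rw [sympForm_explicit, sympForm_explicit]
  simp only [map_sum, map_sub, map_mul, Function.comp]

theorem map_mulVec_tau (τ : F ≃+* F) (M : Matrix (Fin m ⊕ Fin m) (Fin m ⊕ Fin m) F) (x : V) :
    (M.map τ) *ᵥ x = τ ∘ (M *ᵥ (τ.symm ∘ x)) := by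
  funext i
  have := RingHom.map_mulVec (τ : F →+* F) M (τ.symm ∘ x) i
  have h2 : (⇑(τ : F →+* F) ∘ ⇑τ.symm ∘ x) = x := by
    funext j
    simp
  rw [h2] at this
  exact this.symm

theorem tau_symm_comp (τ : F ≃+* F) (x : V) : τ ∘ (τ.symm ∘ x) = x := by
  funext j
  simp

theorem symm_tau_comp (τ : F ≃+* F) (x : V) : τ.symm ∘ (τ ∘ x) = x := by
  funext j
  simp

/-- entrywise field automorphism -/
def mapFun (τ : F ≃+* F) (s : G) : G := ⟨s.1.map τ, by
  rw [mem_symplecticGroup_iff_preserves]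
  intro u v
  rw [map_mulVec_tau, map_mulVec_tau]
  change ⟪_, _⟫ = ⟪u, v⟫
  rw [B_tau]
  have := B_act s (τ.symm ∘ u) (τ.symm ∘ v)
  unfold act at this
  rw [this, ← B_tau, tau_symm_comp, tau_symm_comp]⟩

theorem mapFun_val (τ : F ≃+* F) (s : G) : (mapFun τ s).1 = s.1.map τ := rfl

/-- field automorphisms of `Sp` -/
def fSp (τ : F ≃+* F) : MulAut G where
  toFun := mapFun τ
  invFun := mapFun τ.symm
  left_inv s := by
    apply Subtype.ext
    rw [mapFun_val, mapFun_val]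
    ext i j
    simp
  right_inv s := by
    apply Subtype.ext
    rw [mapFun_val, mapFun_val]
    ext i j
    simp
  map_mul' s t := by
    apply Subtype.ext
    change (s.1 * t.1).map τ = s.1.map τ * t.1.map τ
    exact Matrix.map_mul

theorem fSp_val (τ : F ≃+* F) (s : G) : (fSp τ s).1 = s.1.map τ := rfl

theorem act_fSp (τ : F ≃+* F) (s : G) (x : V) : act (fSp τ s) x = τ ∘ (act s (τ.symm ∘ x)) :=
  map_mulVec_tau τ s.1 x

/-- induced automorphisms of `PSp` -/
noncomputable def cbar : GS →* MulAut Gb := liftAut.comp conjSp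
noncomputable def fbar (τ : F ≃+* F) : MulAut Gb := liftAut (fSp τ)

theorem cbar_mk (g : GS) (s : G) : cbar g (QuotientGroup.mk s) = QuotientGroup.mk (conjSp g s) := rfl
theorem fbar_mk (τ : F ≃+* F) (s : G) : fbar τ (QuotientGroup.mk s) = QuotientGroup.mk (fSp τ s) := rfl

theorem conjSp_tv (g : GS) (w : V) (c : F) : conjSp g (tv w c) = tv (gact g w) (c * (mu g : F)⁻¹) := by
  apply act_ext
  intro x
  rw [act_conjSp, act_tv, act_tv, gact_add, gact_smul, gact_gact_inv, B_gact_inv]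
  congr 2
  ring

theorem fSp_tv (τ : F ≃+* F) (w : V) (c : F) : fSp τ (tv w c) = tv (τ ∘ w) (τ c) := by
  apply act_ext
  intro x
  rw [act_fSp, act_tv, act_tv]
  have h1 : ⟪x, τ ∘ w⟫ = τ ⟪τ.symm ∘ x, w⟫ := by
    rw [← B_tau, tau_symm_comp]
  rw [h1]
  funext i
  simp

/-- action of `GSp` on nonzero vectors -/
def NZ.gmv (g : GS) (v : NZ F m) : NZ F m := ⟨gact g v.1, fun h => v.2 (gact_eq_zero g h)⟩

/-- action of field automorphisms on nonzero vectors -/
def NZ.tmv (τ : F ≃+* F) (v : NZ F m) : NZ F m :=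
  ⟨τ ∘ v.1, fun h => v.2 (by
    funext i
    have := congrFun h i
    simpa using this)⟩

theorem cbar_mem_Xb (g : GS) (v : NZ F m) (y : Gb) : y ∈ Xb v ↔ cbar g y ∈ Xb (NZ.gmv g v) := by
  have key : ∀ (g : GS) (v : NZ F m) (y : Gb), y ∈ Xb v → cbar g y ∈ Xb (NZ.gmv g v) := by
    intro g v y hy
    obtain ⟨b, rfl⟩ := mem_Xb.1 hy
    refine mem_Xb.2 ⟨b * (mu g : F)⁻¹, ?_⟩
    rw [cbar_mk, conjSp_tv]
    rfl
  refine ⟨key g v y, fun h => ?_⟩
  have := key g⁻¹ _ _ h
  rw [← MulAut.mul_apply, ← map_mul, inv_mul_cancel, map_one, MulAut.one_apply] at this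
  convert this using 2
  exact Subtype.ext (gact_inv_gact g v.1).symm

theorem fbar_mem_Xb_aux (τ : F ≃+* F) (v : NZ F m) (y : Gb) (hy : y ∈ Xb v) :
    fbar τ y ∈ Xb (NZ.tmv τ v) := by
  obtain ⟨b, rfl⟩ := mem_Xb.1 hy
  refine mem_Xb.2 ⟨τ b, ?_⟩
  rw [fbar_mk, fSp_tv]
  rfl

theorem fbar_symm (τ : F ≃+* F) (y : Gb) : fbar τ.symm (fbar τ y) = y := by
  obtain ⟨s, rfl⟩ := QuotientGroup.mk_surjective y
  rw [fbar_mk, fbar_mk]
  congr 1
  apply Subtype.ext
  rw [fSp_val, fSp_val]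
  ext i j
  simp

theorem fbar_mem_Xb (τ : F ≃+* F) (v : NZ F m) (y : Gb) : y ∈ Xb v ↔ fbar τ y ∈ Xb (NZ.tmv τ v) := by
  refine ⟨fbar_mem_Xb_aux τ v y, fun h => ?_⟩
  have := fbar_mem_Xb_aux τ.symm _ _ h
  rw [fbar_symm] at this
  convert this using 2
  apply Subtype.ext
  funext i
  simp [NZ.tmv]

theorem fbar_mul (τ τ' : RingAut F) : (fbar (τ * τ') : MulAut Gb) = fbar τ * fbar τ' := by
  ext x
  obtain ⟨g, rfl⟩ := QuotientGroup.mk_surjective x
  rfl

theorem fbar_one : (fbar (1 : RingAut F) : MulAut Gb) = 1 := by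
  ext x
  obtain ⟨g, rfl⟩ := QuotientGroup.mk_surjective x
  rfl

theorem fbar_inv (τ : RingAut F) : (fbar (τ⁻¹) : MulAut Gb) = (fbar τ)⁻¹ := by
  rw [eq_inv_iff_mul_eq_one, ← fbar_mul, inv_mul_cancel, fbar_one]

/-- field automorphisms act on `GSp` -/
def mapGS (τ : F ≃+* F) (g : GS) : GS :=
  ⟨Matrix.GeneralLinearGroup.map (τ : F →+* F) g.1, by
    refine ⟨Units.map (τ : F →* F) (mu g), fun u v => ?_⟩
    change ⟪(g.1.1.map τ) *ᵥ u, (g.1.1.map τ) *ᵥ v⟫ = τ (mu g : F) * ⟪u, v⟫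
    rw [map_mulVec_tau, map_mulVec_tau, B_tau]
    have := B_gact g (τ.symm ∘ u) (τ.symm ∘ v)
    unfold gact at this
    rw [this, map_mul, ← B_tau, tau_symm_comp, tau_symm_comp]⟩

theorem mapGS_val (τ : F ≃+* F) (g : GS) : (mapGS τ g).1.1 = g.1.1.map τ := rfl

theorem fbar_cbar (τ : F ≃+* F) (g : GS) : fbar τ * cbar g = cbar (mapGS τ g) * fbar τ := by
  ext x
  obtain ⟨s, rfl⟩ := QuotientGroup.mk_surjective x
  rw [MulAut.mul_apply, MulAut.mul_apply, cbar_mk, fbar_mk, fbar_mk, cbar_mk]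
  congr 1
  apply Subtype.ext
  rw [fSp_val, conjSp_val, conjSp_val, fSp_val, Matrix.map_mul, Matrix.map_mul]
  rfl

theorem cbar_of_scalar {g : GS} {μ : F} (h : ∀ x, gact g x = μ • x) : cbar g = 1 := by
  ext y
  obtain ⟨s, rfl⟩ := QuotientGroup.mk_surjective y
  rw [cbar_mk, MulAut.one_apply]
  congr 1
  apply act_ext
  intro x
  rw [act_conjSp, h, ← act_smul, ← h, gact_gact_inv]

/-- `Sp → GSp` -/
def toGS (s : G) : GS := ⟨⟨s.1, (s⁻¹ : G).1, congrArg Subtype.val (mul_inv_cancel s),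
  congrArg Subtype.val (inv_mul_cancel s)⟩, ⟨1, fun u v => by
    rw [Units.val_one, one_mul]
    exact preserves s u v⟩⟩

theorem gact_toGS (s : G) (x : V) : gact (toGS s) x = act s x := rfl

theorem cbar_toGS (s : G) : cbar (toGS s) = MulAut.conj (QuotientGroup.mk s) := by
  ext y
  obtain ⟨t, rfl⟩ := QuotientGroup.mk_surjective y
  rw [cbar_mk, MulAut.conj_apply, ← QuotientGroup.mk_inv, ← QuotientGroup.mk_mul, ← QuotientGroup.mk_mul]
  congr 1

end Cfsg.Agent.Lib.Helper4.PSp
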