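import Mathlib
import Cfsg.Agent.Lib.Helper4.PSpC

set_option linter.unusedSimpArgs false
set_option linter.unusedSectionVars false
set_option linter.style.haveILetI false

namespace Cfsg.Agent.Lib.Helper4.PSp

open Matrix
open Cfsg.Agent.Lib.Helper5.Symp Cfsg.Agent.Lib.Helper5.SympGen Cfsg.Agent.Lib.Helper5.SympBridge
  Cfsg.Agent.Lib.Helper5.SympPerfect
open scoped Pointwise

variable {F : Type*} [Field F] {m : ℕ}

local notation "V" => (Fin m ⊕ Fin m → F)
local notation "G" => Matrix.symplecticGroup (Fin m) F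
local notation "Gb" => Cfsg.PSp m F
local notation "GS" => Cfsg.GSp m F
local notation "⟪" u ", " v "⟫" => sympB m F u v

/-- an additive bijection preserving lines is semilinear -/
theorem semilin_of_lines {U : Type*} [AddCommGroup U] [Module F U] (A A' : U → U)
    (hadd : ∀ x y, A (x + y) = A x + A y) (hl : ∀ x, A' (A x) = x)
    (hA : ∀ (t : F) y, ∃ s : F, A (t • y) = s • A y) (hA' : ∀ (t : F) y, ∃ s : F, A' (t • y) = s • A' y)
    (y₁ y₂ : U) (hind : ∀ a b : F, a • y₁ + b • y₂ = 0 → a = 0 ∧ b = 0) :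
    ∃ τ : F →+* F, ∀ t y, A (t • y) = τ t • A y := by
  have A0 : A 0 = 0 := by
    have := hadd 0 0
    rw [add_zero] at this
    exact left_eq_add.1 this
  have Ainj : ∀ x, A x = 0 → x = 0 := by
    intro x hx
    have := hl x
    rw [hx, ← A0, hl] at this
    exact this.symm
  have key1 : ∀ y y' : U, (∀ a b : F, a • y + b • y' = 0 → a = 0 ∧ b = 0) →
      ∀ a b : F, a • A y + b • A y' = 0 → a = 0 ∧ b = 0 := by
    intro y y' hi a b hab
    have hy0 : y ≠ 0 := by
      intro h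
      have := hi 1 0 (by rw [h]; simp)
      exact one_ne_zero this.1
    have hb : b = 0 := by
      by_contra hb
      have h1 : A y' = (-(b⁻¹ * a)) • A y := by
        have h3 : b • A y' = -(a • A y) := by
          rw [eq_neg_iff_add_eq_zero, add_comm]; exact hab
        calc A y' = b⁻¹ • (b • A y') := by rw [smul_smul, inv_mul_cancel₀ hb, one_smul]
          _ = _ := by rw [h3, smul_neg, smul_smul, neg_smul]
      obtain ⟨s, hs⟩ := hA' (-(b⁻¹ * a)) (A y)
      rw [← h1, hl, hl] at hs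
      have := hi s (-1) (by rw [← hs]; simp)
      exact (neg_ne_zero.2 one_ne_zero) this.2
    subst hb
    rw [zero_smul, add_zero] at hab
    rcases smul_eq_zero.1 hab with h | h
    · exact ⟨h, rfl⟩
    · exact absurd (Ainj y h) hy0
  choose s hs using hA
  have key2 : ∀ y y' : U, (∀ a b : F, a • y + b • y' = 0 → a = 0 ∧ b = 0) → ∀ t, s t y = s t y' := by
    intro y y' hi t
    have h1 := hs t (y + y')
    rw [smul_add, hadd, hadd, hs, hs, smul_add] at h1
    have h2 := key1 y y' hi (s t y - s t (y + y')) (s t y' - s t (y + y')) (by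
      rw [sub_smul, sub_smul]
      rw [← sub_eq_zero] at h1
      rw [← h1]; abel)
    rw [sub_eq_zero.1 h2.1, sub_eq_zero.1 h2.2]
  have y₁0 : y₁ ≠ 0 := by
    intro h
    have := hind 1 0 (by rw [h]; simp)
    exact one_ne_zero this.1
  have hc₁ : A y₁ ≠ 0 := fun h => y₁0 (Ainj _ h)
  have key3 : ∀ y, y ≠ 0 → ∀ t, s t y = s t y₁ := by
    intro y hy t
    by_cases hc : ∃ c : F, y = c • y₁
    · obtain ⟨c, rfl⟩ := hc
      have hc0 : c ≠ 0 := by
        rintro rfl
        exact hy (zero_smul _ _)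
      rw [key2 (c • y₁) y₂ (by
        intro a b hab
        rw [smul_smul] at hab
        obtain ⟨h1, h2⟩ := hind _ _ hab
        exact ⟨(mul_eq_zero.1 h1).resolve_right hc0, h2⟩) t, key2 y₁ y₂ hind t]
    · apply key2
      intro a b hab
      have ha : a = 0 := by
        by_contra ha
        apply hc
        refine ⟨-(a⁻¹ * b), ?_⟩
        have h3 : a • y = -(b • y₁) := by
          rw [eq_neg_iff_add_eq_zero]; exact hab
        calc y = a⁻¹ • (a • y) := by rw [smul_smul, inv_mul_cancel₀ ha, one_smul]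
          _ = _ := by rw [h3, smul_neg, smul_smul, neg_smul]
      subst ha
      rw [zero_smul, zero_add] at hab
      exact ⟨rfl, (smul_eq_zero.1 hab).resolve_right y₁0⟩
  have h2 : ∀ t y, A (t • y) = s t y₁ • A y := by
    intro t y
    by_cases hy : y = 0
    · subst hy
      rw [smul_zero, A0, smul_zero]
    · rw [hs, key3 y hy]
  have hinj : ∀ x y : F, x • A y₁ = y • A y₁ → x = y := fun x y h => smul_left_injective F hc₁ h
  let τ₀ : F →+* F :=
    { toFun := fun t => s t y₁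
      map_one' := by
        apply hinj
        rw [← h2, one_smul, one_smul]
      map_mul' := by
        intro x y
        apply hinj
        rw [← h2, ← smul_smul, h2, h2, smul_smul]
      map_zero' := by
        apply hinj
        rw [← h2, zero_smul, zero_smul, A0]
      map_add' := by
        intro x y
        apply hinj
        rw [← h2, add_smul, hadd, h2, h2, add_smul] }
  exact ⟨τ₀, h2⟩

/-- `α` maps the transvection group of `v` onto that of `v'` -/
def Mp (α : MulAut Gb) (v v' : NZ F m) : Prop := ∀ y, y ∈ Xb v ↔ α y ∈ Xb v'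

theorem Mp.inv {α : MulAut Gb} {v v' : NZ F m} (h : Mp α v v') : Mp α⁻¹ v' v := by
  intro y
  rw [h (α⁻¹ y), MulAut.apply_inv_self]

theorem Mp.mul {α β : MulAut Gb} {v v' v'' : NZ F m} (h : Mp α v' v'') (h' : Mp β v v') : Mp (α * β) v v'' := by
  intro y
  rw [h' y, h (β y), MulAut.mul_apply]

theorem Mp.congr_left {α : MulAut Gb} {v v₁ v' : NZ F m} {c : F} (h : Mp α v v') (e : v₁.1 = c • v.1) :
    Mp α v₁ v' := by
  intro y
  rw [Xb_smul e]
  exact h y

theorem Mp.congr_right {α : MulAut Gb} {v v₁ v' : NZ F m} {c : F} (h : Mp α v v') (e : v₁.1 = c • v'.1) :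
    Mp α v v₁ := by
  intro y
  rw [Xb_smul e]
  exact h y

theorem Mp.conj {α : MulAut Gb} {v v' : NZ F m} (h : Mp α v v') {g g' : G}
    (e : α (QuotientGroup.mk g) = QuotientGroup.mk g') : Mp α (NZ.mv g v) (NZ.mv g' v') := by
  intro y
  have h1 := conj_mem_Xb g v ((QuotientGroup.mk g : Gb)⁻¹ * y * QuotientGroup.mk g)
  have h2 := conj_mem_Xb g' v' (α ((QuotientGroup.mk g : Gb)⁻¹ * y * QuotientGroup.mk g))
  have e1 : (QuotientGroup.mk g : Gb) * ((QuotientGroup.mk g : Gb)⁻¹ * y * QuotientGroup.mk g) *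
      (QuotientGroup.mk g : Gb)⁻¹ = y := by group
  have e2 : (QuotientGroup.mk g' : Gb) * α ((QuotientGroup.mk g : Gb)⁻¹ * y * QuotientGroup.mk g) *
      (QuotientGroup.mk g' : Gb)⁻¹ = α y := by
    rw [map_mul, map_mul, map_inv, e]; group
  rw [e1] at h1
  rw [e2] at h2
  rw [← h1, ← h2]
  exact h _

theorem Mp_conj (g : G) (v : NZ F m) : Mp (MulAut.conj (QuotientGroup.mk g : Gb)) v (NZ.mv g v) :=
  fun y => conj_mem_Xb g v y

theorem Mp_cbar (g : GS) (v : NZ F m) : Mp (cbar g) v (NZ.gmv g v) := fun y => cbar_mem_Xb g v y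

theorem Mp_fbar (τ : F ≃+* F) (v : NZ F m) : Mp (fbar τ) v (NZ.tmv τ v) := fun y => fbar_mem_Xb τ v y

variable {p : ℕ} [hp : Fact p.Prime] [hch : CharP F p]

include hp hch

theorem Mp.orth' (hm : 1 ≤ m) {α : MulAut Gb} {u u' v v' : NZ F m} (hu : Mp α u u') (hv : Mp α v v')
    (h : ⟪u.1, v.1⟫ = 0) : ⟪u'.1, v'.1⟫ = 0 := by
  apply orth_of_commute (p := p) hm
  intro x hx y hy
  have hx' := (hu.inv x).1 hx
  have hy' := (hv.inv y).1 hy
  have := congrArg α (commute_of_orth h hx' hy')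
  rwa [map_mul, map_mul, MulAut.apply_inv_self, MulAut.apply_inv_self] at this

theorem Mp.orth (hm : 1 ≤ m) {α : MulAut Gb} {u u' v v' : NZ F m} (hu : Mp α u u') (hv : Mp α v v') :
    ⟪u.1, v.1⟫ = 0 ↔ ⟪u'.1, v'.1⟫ = 0 :=
  ⟨Mp.orth' (p := p) hm hu hv, Mp.orth' (p := p) hm hu.inv hv.inv⟩

theorem Mp.par (hm : 1 ≤ m) {α : MulAut Gb} {v v' v'' : NZ F m} (h : Mp α v v') (h' : Mp α v v'') :
    ∃ c : F, v'.1 = c • v''.1 := by
  apply par_of_Xb_le (p := p) hm
  intro y hy
  have := (h' _).1 ((h.inv y).1 hy)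
  rwa [MulAut.apply_inv_self] at this

variable [Fintype F]

theorem exists_pre (h2 : (2 : F) ≠ 0) (hm : 1 ≤ m) (α : MulAut Gb) (v' : NZ F m) : ∃ v, Mp α v v' := by
  obtain ⟨v, hv⟩ := T1 (p := p) h2 hm α⁻¹ v'
  refine ⟨v, ?_⟩
  have : Mp α⁻¹ v' v := hv
  have h3 := this.inv
  rwa [inv_inv] at h3

/-- automorphisms preserve collinearity -/
theorem col (h2 : (2 : F) ≠ 0) (hm : 1 ≤ m) {α : MulAut Gb} {a a' b b' x x' : NZ F m} (ha : Mp α a a')
    (hb : Mp α b b') (hx : Mp α x x') {c₁ c₂ : F} (e : x.1 = c₁ • a.1 + c₂ • b.1) :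
    ∃ d₁ d₂ : F, x'.1 = d₁ • a'.1 + d₂ • b'.1 := by
  apply span2_of_perp
  intro z hz1 hz2
  by_cases hz : z = 0
  · rw [hz]; simp
  obtain ⟨z₀, hz₀⟩ := exists_pre (p := p) h2 hm α ⟨z, hz⟩
  have k1 := (Mp.orth (p := p) hm ha hz₀).2 hz1
  have k2 := (Mp.orth (p := p) hm hb hz₀).2 hz2
  apply (Mp.orth (p := p) hm hx hz₀).1
  rw [e]
  simp only [map_add, map_smul, LinearMap.add_apply, LinearMap.smul_apply, k1, k2]
  simp

namespace HP

variable (H : HP F m)

omit hp hch [Fintype F] in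
theorem iter_e {g : G} {l : F} (he : act g H.e = l • H.e) (n : ℕ) : act (g ^ n) H.e = l ^ n • H.e := by
  induction n with
  | zero => rw [pow_zero, act_one, pow_zero, one_smul]
  | succ n ih => rw [pow_succ', act_mul, ih, act_smul, he, smul_smul, pow_succ]

omit hp hch [Fintype F] in
theorem iter {g : G} (he : act g H.e = H.e) {z : V} {a b : F} (hz : act g z = a • z + b • H.e) (n : ℕ) :
    ∃ c : F, act (g ^ n) z = a ^ n • z + c • H.e := by
  induction n with
  | zero => exact ⟨0, by rw [pow_zero, act_one, pow_zero, one_smul, zero_smul, add_zero]⟩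
  | succ n ih =>
    obtain ⟨c, hc⟩ := ih
    refine ⟨a ^ n * b + c, ?_⟩
    rw [pow_succ', act_mul, hc, act_add, act_smul, act_smul, hz, he, pow_succ]
    module

/-- the image of the unipotent radical under an automorphism fixing the point `e` -/
theorem Q_map (h2 : (2 : F) ≠ 0) (hm : 1 ≤ m) {α : MulAut Gb} (hα : Mp α H.eN H.eN) {y : V}
    (hy : ⟪H.e, y⟫ = 0) : ∃ y', ⟪H.e, y'⟫ = 0 ∧ α (QuotientGroup.mk (H.u y)) = QuotientGroup.mk (H.u y') := by
  obtain ⟨h, hh⟩ := QuotientGroup.mk_surjective (α (QuotientGroup.mk (H.u y)))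
  have hpodd : Odd p := by
    rcases hp.out.eq_two_or_odd' with h | h
    · exfalso
      apply h2
      have := CharP.cast_eq_zero F p
      rw [h] at this
      exact_mod_cast this
    · exact h
  have hz : h ^ p ∈ Subgroup.center G := by
    rw [← QuotientGroup.eq_one_iff, QuotientGroup.mk_pow, hh, ← map_pow, ← QuotientGroup.mk_pow]
    have := H.u_pow_p (p := p) hy
    rw [pow_one] at this
    rw [this, QuotientGroup.mk_one, map_one]
  set z := h ^ p with hzdef
  have hzz := center_sq hm z hz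
  have hcomm : Commute z h := (Subgroup.mem_center_iff.1 hz h).symm
  set h₁ := z * h with hh₁
  have hp1 : h₁ ^ p = 1 := by
    rw [hh₁, hcomm.mul_pow, ← hzdef, ← pow_succ]
    obtain ⟨k, hk⟩ := hpodd
    rw [hk, show 2 * k + 1 + 1 = 2 * (k + 1) by ring, pow_mul, sq, hzz, one_pow]
  have hmk : α (QuotientGroup.mk (H.u y)) = QuotientGroup.mk h₁ := by
    rw [hh₁, QuotientGroup.mk_mul, (QuotientGroup.eq_one_iff z).2 hz, one_mul, hh]
  have hc : ∀ z' : V, ⟪H.e, z'⟫ = 0 → ∃ a b : F, act h₁ z' = a • z' + b • H.e := by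
    intro z' hz'
    by_cases h0 : z' = 0
    · exact ⟨0, 0, by rw [h0, act_zero]; simp⟩
    obtain ⟨z₀, hz₀⟩ := exists_pre (p := p) h2 hm α ⟨z', h0⟩
    have k1 : ⟪H.e, z₀.1⟫ = 0 := (Mp.orth (p := p) hm hα hz₀).2 hz'
    have k2 := hz₀.conj hmk
    exact col (p := p) h2 hm hz₀ hα k2 (c₁ := 1) (c₂ := ⟪y, z₀.1⟫) (by
      rw [NZ.mv_val, H.u_perp hy k1, one_smul]
      rfl)
  have he : act h₁ H.e = H.e := by
    obtain ⟨a, b, hab⟩ := hc H.e (B_self _)
    rw [← add_smul] at hab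
    have h3 := H.iter_e hab p
    rw [hp1, act_one] at h3
    have h4 : (a + b) ^ (p ^ 1) = 1 := by
      rw [pow_one]
      have h5 : ((a + b) ^ p - 1) • H.e = 0 := by rw [sub_smul, one_smul, ← h3, sub_self]
      exact sub_eq_zero.1 ((smul_eq_zero.1 h5).resolve_right H.e_ne_zero)
    rw [hab, eq_one_of_pow (p := p) h4, one_smul]
  have hq : ∀ z', ⟪H.e, z'⟫ = 0 → ∃ b : F, act h₁ z' = z' + b • H.e := by
    intro z' hz'
    by_cases hpar : ∃ c : F, z' = c • H.e
    · obtain ⟨c, rfl⟩ := hpar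
      exact ⟨0, by rw [act_smul, he]; simp⟩
    obtain ⟨a, b, hab⟩ := hc z' hz'
    obtain ⟨c, hc'⟩ := H.iter he hab p
    rw [hp1, act_one] at hc'
    have h4 : a ^ (p ^ 1) = 1 := by
      rw [pow_one]
      by_contra hne
      apply hpar
      have hne' : a ^ p - 1 ≠ 0 := sub_ne_zero.2 hne
      refine ⟨-((a ^ p - 1)⁻¹ * c), ?_⟩
      have h5 : (a ^ p - 1) • z' = -(c • H.e) := by
        have h6 : a ^ p • z' = z' - c • H.e := by
          rw [eq_sub_iff_add_eq]; exact hc'.symm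
        rw [sub_smul, one_smul, h6]; abel
      calc z' = (a ^ p - 1)⁻¹ • ((a ^ p - 1) • z') := by rw [smul_smul, inv_mul_cancel₀ hne', one_smul]
        _ = _ := by rw [h5, smul_neg, smul_smul, neg_smul]
    exact ⟨b, by rw [hab, eq_one_of_pow (p := p) h4, one_smul]⟩
  obtain ⟨k1, k2⟩ := H.Q_char h₁ he hq
  exact ⟨_, k1, by rw [hmk]; congr 1⟩

end HP

end Cfsg.Agent.Lib.Helper4.PSp
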