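import Mathlib
import Cfsg.Agent.Lib.Helper4.PSpD

set_option linter.unusedSimpArgs false
set_option linter.unusedSectionVars false
set_option linter.style.haveILetI false

namespace Cfsg.Agent.Lib.Helper4.PSp

open Matrix
open Cfsg.Agent.Lib.Helper5.Symp Cfsg.Agent.Lib.Helper5.SympGen Cfsg.Agent.Lib.Helper5.SympBridge
  Cfsg.Agent.Lib.Helper5.SympPerfect
open scoped Pointwise

variable {F : Type*} [Field F] {m : ℕ}

local notation "V" => (Fin m ⊕ Fin m → F)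
local notation "G" => Matrix.symplecticGroup (Fin m) F
local notation "Gb" => Cfsg.PSp m F
local notation "GS" => Cfsg.GSp m F
local notation "⟪" u ", " v "⟫" => sympB m F u v

namespace HP

variable (H : HP F m)

open Classical in
/-- the map induced on the unipotent radical -/
noncomputable def Am (α : MulAut Gb) (y : V) : V :=
  if h : ∃ y', ⟪H.e, y'⟫ = 0 ∧ α (QuotientGroup.mk (H.u y)) = QuotientGroup.mk (H.u y') then Classical.choose h
  else 0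

/-- the map induced on the centre of the unipotent radical -/
noncomputable def rho (α : MulAut Gb) (c : F) : F := ⟪H.Am α (c • H.e), H.f⟫

variable {p : ℕ} [hp : Fact p.Prime] [hch : CharP F p]

include hp hch

theorem Am_unique (hm : 1 ≤ m) {α : MulAut Gb} {y y' : V} (hy' : ⟪H.e, y'⟫ = 0)
    (h : α (QuotientGroup.mk (H.u y)) = QuotientGroup.mk (H.u y')) : H.Am α y = y' := by
  have h' : ∃ y', ⟪H.e, y'⟫ = 0 ∧ α (QuotientGroup.mk (H.u y)) = QuotientGroup.mk (H.u y') := ⟨y', hy', h⟩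
  unfold Am
  rw [dif_pos h']
  have hs := Classical.choose_spec h'
  exact H.mk_u_inj (p := p) hm hs.1 hy' (hs.2.symm.trans h)

theorem Am_zero (hm : 1 ≤ m) (α : MulAut Gb) : H.Am α 0 = 0 := by
  apply H.Am_unique (p := p) hm (by simp)
  rw [u_zero, QuotientGroup.mk_one, map_one]

variable [Fintype F]

theorem Am_spec (h2 : (2 : F) ≠ 0) (hm : 1 ≤ m) {α : MulAut Gb} (hα : Mp α H.eN H.eN) {y : V}
    (hy : ⟪H.e, y⟫ = 0) :
    ⟪H.e, H.Am α y⟫ = 0 ∧ α (QuotientGroup.mk (H.u y)) = QuotientGroup.mk (H.u (H.Am α y)) := by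
  have h' := H.Q_map (p := p) h2 hm hα hy
  unfold Am
  rw [dif_pos h']
  exact Classical.choose_spec h'

theorem Am_mul (h2 : (2 : F) ≠ 0) (hm : 1 ≤ m) {α : MulAut Gb} (hα : Mp α H.eN H.eN) {y y' : V}
    (hy : ⟪H.e, y⟫ = 0) (hy' : ⟪H.e, y'⟫ = 0) :
    H.Am α (y + y' + ⟪y, y'⟫ • H.e) = H.Am α y + H.Am α y' + ⟪H.Am α y, H.Am α y'⟫ • H.e := by
  obtain ⟨k1, k2⟩ := H.Am_spec (p := p) h2 hm hα hy
  obtain ⟨k3, k4⟩ := H.Am_spec (p := p) h2 hm hα hy'
  apply H.Am_unique (p := p) hm (H.perp_mul k1 k3)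
  rw [← H.u_mul hy hy', QuotientGroup.mk_mul, map_mul, k2, k4, ← QuotientGroup.mk_mul, H.u_mul k1 k3]

omit [Fintype F] in
theorem perp_e (c : F) : ⟪H.e, c • H.e⟫ = 0 := by rw [map_smul, B_self, smul_zero]

theorem Am_e (hm : 1 ≤ m) {α : MulAut Gb} (hα : Mp α H.eN H.eN) (c : F) :
    H.Am α (c • H.e) = H.rho α c • H.e := by
  have h1 : (QuotientGroup.mk (H.u (c • H.e)) : Gb) ∈ Xb H.eN := by
    rw [u_smul_e]
    exact mem_Xb.2 ⟨_, rfl⟩
  obtain ⟨b, hb⟩ := mem_Xb.1 ((hα _).1 h1)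
  have h3 : H.Am α (c • H.e) = (-b) • H.e := by
    apply H.Am_unique (p := p) hm (H.perp_e (p := p) _)
    rw [hb, u_smul_e, neg_neg]
    rfl
  unfold rho
  rw [h3, map_smul, LinearMap.smul_apply, H.ef, smul_eq_mul, mul_one]

theorem Am_add_e (h2 : (2 : F) ≠ 0) (hm : 1 ≤ m) {α : MulAut Gb} (hα : Mp α H.eN H.eN) {w : V}
    (hw : ⟪H.e, w⟫ = 0) (c : F) : H.Am α (w + c • H.e) = H.Am α w + H.rho α c • H.e := by
  have h1 := H.Am_mul (p := p) h2 hm hα hw (H.perp_e (p := p) c)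
  have k1 := (H.Am_spec (p := p) h2 hm hα hw).1
  have e1 : ⟪w, c • H.e⟫ = 0 := by rw [map_smul, B_zero_symm hw, smul_zero]
  have e2 : ⟪H.Am α w, H.rho α c • H.e⟫ = 0 := by rw [map_smul, B_zero_symm k1, smul_zero]
  rw [e1, zero_smul, add_zero, H.Am_e (p := p) hm hα, e2, zero_smul, add_zero] at h1
  exact h1

theorem rho_neg (h2 : (2 : F) ≠ 0) (hm : 1 ≤ m) {α : MulAut Gb} (hα : Mp α H.eN H.eN) (t : F) :
    H.rho α (-t) = -H.rho α t := by
  have h1 := H.Am_add_e (p := p) h2 hm hα (H.perp_e (p := p) t) (-t)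
  rw [← add_smul, add_neg_cancel, zero_smul, H.Am_zero (p := p) hm, H.Am_e (p := p) hm hα, ← add_smul] at h1
  have := (smul_eq_zero.1 h1.symm).resolve_right H.e_ne_zero
  linear_combination this

theorem Am_add' (h2 : (2 : F) ≠ 0) (hm : 1 ≤ m) {α : MulAut Gb} (hα : Mp α H.eN H.eN) {y y' : V}
    (hy : ⟪H.e, y⟫ = 0) (hy' : ⟪H.e, y'⟫ = 0) :
    H.Am α (y + y') = H.Am α y + H.Am α y' ∧ H.rho α ⟪y, y'⟫ = ⟪H.Am α y, H.Am α y'⟫ := by
  have hyy : ⟪H.e, y + y'⟫ = 0 := by rw [map_add, hy, hy', add_zero]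
  have E1 := H.Am_mul (p := p) h2 hm hα hy hy'
  have E2 := H.Am_mul (p := p) h2 hm hα hy' hy
  rw [H.Am_add_e (p := p) h2 hm hα hyy] at E1
  rw [add_comm y' y, H.Am_add_e (p := p) h2 hm hα hyy, B_swap y' y, H.rho_neg (p := p) h2 hm hα,
    B_swap (H.Am α y') (H.Am α y)] at E2
  set S := H.Am α (y + y')
  set P := H.Am α y
  set P' := H.Am α y'
  set r := H.rho α ⟪y, y'⟫
  set T := ⟪P, P'⟫
  have h3 : (2 : F) • S = (2 : F) • (P + P') := by
    have : S + r • H.e + (S + -r • H.e) = P + P' + T • H.e + (P' + P + -T • H.e) := by rw [E1, E2]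
    have e1 : S + r • H.e + (S + -r • H.e) = (2 : F) • S := by module
    have e2 : P + P' + T • H.e + (P' + P + -T • H.e) = (2 : F) • (P + P') := by module
    rw [e1, e2] at this
    exact this
  have h4 : S = P + P' := smul_right_injective _ h2 h3
  refine ⟨h4, ?_⟩
  rw [h4] at E1
  exact smul_left_injective F H.e_ne_zero (add_left_cancel E1)

theorem Am_inv (h2 : (2 : F) ≠ 0) (hm : 1 ≤ m) {α : MulAut Gb} (hα : Mp α H.eN H.eN) {y : V}
    (hy : ⟪H.e, y⟫ = 0) : H.Am α⁻¹ (H.Am α y) = y := by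
  apply H.Am_unique (p := p) hm hy
  rw [← (H.Am_spec (p := p) h2 hm hα hy).2, MulAut.inv_apply_self]

/-- normalised automorphisms -/
def Std (α : MulAut Gb) : Prop := Mp α H.eN H.eN ∧ Mp α H.fN H.fN

omit hp hch [Fintype F] in
theorem Std.inv {α : MulAut Gb} (h : H.Std α) : H.Std α⁻¹ := ⟨h.1.inv, h.2.inv⟩

theorem Mp_fy (h2 : (2 : F) ≠ 0) (hm : 1 ≤ m) {α : MulAut Gb} (hα : H.Std α) {y : V} (hy : ⟪H.e, y⟫ = 0) :
    Mp α (NZ.mv (H.u y) H.fN) (NZ.mv (H.u (H.Am α y)) H.fN) :=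
  hα.2.conj (H.Am_spec (p := p) h2 hm hα.1 hy).2

theorem Am_line (h2 : (2 : F) ≠ 0) (hm : 1 ≤ m) {α : MulAut Gb} (hα : H.Std α) {y : V} (hy : ⟪H.e, y⟫ = 0)
    (t : F) : ∃ s : F, H.Am α (t • y) = s • H.Am α y := by
  have hty : ⟪H.e, t • y⟫ = 0 := by rw [map_smul, hy, smul_zero]
  have k1 := H.Mp_fy (p := p) h2 hm hα hy
  have k2 := H.Mp_fy (p := p) h2 hm hα hty
  have s1 := (H.Am_spec (p := p) h2 hm hα.1 hy).1
  have s2 := (H.Am_spec (p := p) h2 hm hα.1 hty).1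
  obtain ⟨d₁, d₂, hd⟩ := col (p := p) h2 hm hα.2 k1 k2 (c₁ := 1 - t) (c₂ := t) (by
    rw [NZ.mv_val, NZ.mv_val]
    change act (H.u (t • y)) H.f = (1 - t) • H.f + t • act (H.u y) H.f
    rw [H.u_f hy, H.u_f hty]
    module)
  rw [NZ.mv_val, NZ.mv_val] at hd
  change act (H.u (H.Am α (t • y))) H.f = d₁ • H.f + d₂ • act (H.u (H.Am α y)) H.f at hd
  rw [H.u_f s1, H.u_f s2] at hd
  have h3 := congrArg (sympB m F H.e) hd
  simp only [map_add, map_smul, H.ef, s1, s2, smul_eq_mul, mul_one, add_zero, mul_zero] at h3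
  refine ⟨d₂, ?_⟩
  have h4 : H.Am α (t • y) = d₁ • H.f + d₂ • (H.f + H.Am α y) - H.f := by rw [← hd]; abel
  rw [h4]
  have h5 : d₁ = 1 - d₂ := by linear_combination -h3
  rw [h5]
  module

theorem semilin (h2 : (2 : F) ≠ 0) (hm : 1 ≤ m) {α : MulAut Gb} (hα : H.Std α) (y₂ : V) (hy₂ : ⟪H.e, y₂⟫ = 0)
    (hind : ∀ c : F, y₂ ≠ c • H.e) :
    ∃ τ : F →+* F, ∀ (t : F) (y : V), ⟪H.e, y⟫ = 0 → H.Am α (t • y) = τ t • H.Am α y := by
  let U := LinearMap.ker (sympB m F H.e)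
  let A : U → U := fun y => ⟨H.Am α y.1, LinearMap.mem_ker.2
    (H.Am_spec (p := p) h2 hm hα.1 (LinearMap.mem_ker.1 y.2)).1⟩
  let A' : U → U := fun y => ⟨H.Am α⁻¹ y.1, LinearMap.mem_ker.2
    (H.Am_spec (p := p) h2 hm (hα.inv H).1 (LinearMap.mem_ker.1 y.2)).1⟩
  obtain ⟨τ, hτ⟩ := semilin_of_lines (F := F) A A'
    (fun x y => Subtype.ext (H.Am_add' (p := p) h2 hm hα.1 (LinearMap.mem_ker.1 x.2) (LinearMap.mem_ker.1 y.2)).1)
    (fun x => Subtype.ext (H.Am_inv (p := p) h2 hm hα.1 (LinearMap.mem_ker.1 x.2)))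
    (fun t y => by
      obtain ⟨s, hs⟩ := H.Am_line (p := p) h2 hm hα (LinearMap.mem_ker.1 y.2) t
      exact ⟨s, Subtype.ext hs⟩)
    (fun t y => by
      obtain ⟨s, hs⟩ := H.Am_line (p := p) h2 hm (hα.inv H) (LinearMap.mem_ker.1 y.2) t
      exact ⟨s, Subtype.ext hs⟩)
    ⟨H.e, LinearMap.mem_ker.2 (B_self _)⟩ ⟨y₂, LinearMap.mem_ker.2 hy₂⟩ (by
      intro a b hab
      have hab' : a • H.e + b • y₂ = 0 := congrArg Subtype.val hab
      have hb : b = 0 := by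
        by_contra hb
        apply hind (-(b⁻¹ * a))
        have h3 : b • y₂ = -(a • H.e) := by
          rw [eq_neg_iff_add_eq_zero, add_comm]; exact hab'
        calc y₂ = b⁻¹ • (b • y₂) := by rw [smul_smul, inv_mul_cancel₀ hb, one_smul]
          _ = _ := by rw [h3, smul_neg, smul_smul, neg_smul]
      subst hb
      rw [zero_smul, add_zero] at hab'
      exact ⟨(smul_eq_zero.1 hab').resolve_right H.e_ne_zero, rfl⟩)
  exact ⟨τ, fun t y hy => congrArg Subtype.val (hτ t ⟨y, LinearMap.mem_ker.2 hy⟩)⟩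

end HP

end Cfsg.Agent.Lib.Helper4.PSp
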