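import Mathlib
import Cfsg.Agent.Lib.Helper4.PSpE

set_option linter.unusedSimpArgs false
set_option linter.unusedSectionVars false
set_option linter.style.haveILetI false

namespace Cfsg.Agent.Lib.Helper4.PSp

open Matrix
open Cfsg.Agent.Lib.Helper5.Symp Cfsg.Agent.Lib.Helper5.SympGen Cfsg.Agent.Lib.Helper5.SympBridge
  Cfsg.Agent.Lib.Helper5.SympPerfect
open scoped Pointwise

variable {F : Type*} [Field F] {m : ℕ}

local notation "V" => (Fin m ⊕ Fin m → F)
local notation "G" => Matrix.symplecticGroup (Fin m) F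
local notation "Gb" => Cfsg.PSp m F
local notation "GS" => Cfsg.GSp m F
local notation "⟪" u ", " v "⟫" => sympB m F u v

variable {p : ℕ} [hp : Fact p.Prime] [hch : CharP F p]

include hp hch

/-- an automorphism fixing all transvection groups is trivial -/
theorem rigid2 (hm : 1 ≤ m) {β : MulAut Gb} (h : ∀ v, Mp β v v) : β = 1 := by
  ext y
  obtain ⟨t, rfl⟩ := QuotientGroup.mk_surjective y
  obtain ⟨h', hh⟩ := QuotientGroup.mk_surjective (β (QuotientGroup.mk t))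
  rw [MulAut.one_apply, ← hh, QuotientGroup.eq]
  obtain ⟨c, hc⟩ := Cfsg.Agent.Lib.Helper5.SympSimple.scalar_of_fix_lines (h'⁻¹ * t).1 (by
    intro v
    by_cases hv : v = 0
    · exact ⟨0, by rw [hv]; simp⟩
    let w : NZ F m := ⟨v, hv⟩
    have k1 := (h w).conj hh.symm
    have k2 := h (NZ.mv t w)
    obtain ⟨c, hc⟩ := Mp.par (p := p) hm k2 k1
    have hc' : act t v = c • act h' v := hc
    refine ⟨c, ?_⟩
    change act (h'⁻¹ * t) v = c • v
    rw [act_mul, hc', act_smul, act_inv_act])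
  exact scalar_center _ c hc

variable [Fintype F]

namespace HP

variable (H : HP F m)

theorem rigid1 (h2 : (2 : F) ≠ 0) (hm : 1 ≤ m) {β : MulAut Gb} (he : Mp β H.eN H.eN)
    (h : ∀ v : NZ F m, ⟪H.e, v.1⟫ ≠ 0 → Mp β v v) : ∀ v, Mp β v v := by
  intro v
  by_cases hv : ⟪H.e, v.1⟫ = 0
  swap
  · exact h v hv
  by_cases hpar : ∃ c : F, v.1 = c • H.e
  · obtain ⟨c, hc⟩ := hpar
    exact (he.congr_left (v₁ := v) hc).congr_right hc
  obtain ⟨v', hv'⟩ := T1 (p := p) h2 hm β v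
  replace hv' : Mp β v v' := hv'
  have hx₀ : ∃ x₀, ⟪v'.1, x₀⟫ = 0 ∧ ⟪H.e, x₀⟫ ≠ 0 := by
    by_contra hcon
    push Not at hcon
    obtain ⟨c, hc⟩ := par_of_perp (v := v'.1) (v' := H.e) hcon
    have k1 : Mp β v H.eN := hv'.congr_right (v₁ := H.eN) hc
    obtain ⟨d, hd⟩ := Mp.par (p := p) hm k1.inv he.inv
    exact hpar ⟨d, hd⟩
  obtain ⟨x₀, hx1, hx2⟩ := hx₀
  have key : ∀ x, ⟪H.e, x⟫ ≠ 0 → ⟪v'.1, x⟫ = 0 → ⟪v.1, x⟫ = 0 := by
    intro x hx hvx
    have hx0 : x ≠ 0 := by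
      rintro rfl
      simp at hx
    exact (Mp.orth (p := p) hm hv' (h ⟨x, hx0⟩ hx)).2 hvx
  obtain ⟨c, hc⟩ := par_of_perp (v := v'.1) (v' := v.1) (by
    intro x hvx
    by_cases hx : ⟪H.e, x⟫ = 0
    · have k1 := key (x + x₀) (by rw [map_add, hx, zero_add]; exact hx2) (by rw [map_add, hvx, hx1, add_zero])
      have k2 := key x₀ hx2 hx1
      rw [map_add, k2, add_zero] at k1
      exact k1
    · exact key x hx hvx)
  exact hv'.congr_right hc

theorem aut_std (h2 : (2 : F) ≠ 0) (hm : 1 ≤ m) {α : MulAut Gb} (hα : H.Std α) (y₂ : V) (hy₂ : ⟪H.e, y₂⟫ = 0)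
    (hind : ∀ c : F, y₂ ≠ c • H.e) : ∃ (g : GS) (τ : F ≃+* F), α = cbar g * fbar τ := by
  classical
  obtain ⟨τ₀, hτ₀⟩ := H.semilin (p := p) h2 hm hα y₂ hy₂ hind
  let τ : F ≃+* F := RingEquiv.ofBijective τ₀ ⟨τ₀.injective, Finite.injective_iff_surjective.1 τ₀.injective⟩
  have hτ : ∀ (t : F) (y : V), ⟪H.e, y⟫ = 0 → H.Am α (t • y) = τ t • H.Am α y := hτ₀
  set κ := H.rho α 1 with hκ
  have hAe : H.Am α H.e = κ • H.e := by
    have := H.Am_e (p := p) hm hα.1 1
    rwa [one_smul] at this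
  have hrho : ∀ t, H.rho α t = τ t * κ := by
    intro t
    have h1 := H.Am_e (p := p) hm hα.1 t
    rw [hτ t H.e (B_self _), hAe, smul_smul] at h1
    exact (smul_left_injective F H.e_ne_zero h1).symm
  have hκ0 : κ ≠ 0 := by
    intro h0
    rw [h0, zero_smul] at hAe
    have := H.Am_inv (p := p) h2 hm hα.1 (B_self H.e)
    rw [hAe, H.Am_zero (p := p) hm] at this
    exact H.e_ne_zero this.symm
  let P : V → V := fun x => x - ⟪H.e, x⟫ • H.f
  have hP : ∀ x, ⟪H.e, P x⟫ = 0 := by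
    intro x
    simp only [P, map_sub, map_smul, H.ef, smul_eq_mul, mul_one, sub_self]
  let gf : V → V := fun x => τ ⟪H.e, x⟫ • H.f + H.Am α (P x)
  have gf_def : ∀ x, gf x = τ ⟪H.e, x⟫ • H.f + H.Am α (P x) := fun x => rfl
  have gf_add : ∀ x x', gf (x + x') = gf x + gf x' := by
    intro x x'
    have : P (x + x') = P x + P x' := by
      simp only [P, map_add, add_smul]; abel
    rw [gf_def, gf_def, gf_def, this, (H.Am_add' (p := p) h2 hm hα.1 (hP x) (hP x')).1, map_add, map_add, add_smul]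
    abel
  have gf_smul : ∀ (c : F) x, gf (c • x) = τ c • gf x := by
    intro c x
    have : P (c • x) = c • P x := by
      simp only [P, map_smul, smul_eq_mul, smul_sub, smul_smul]
    rw [gf_def, gf_def, this, hτ c _ (hP x), map_smul, smul_eq_mul, map_mul, smul_add, smul_smul]
  have hFF : ∀ y, ⟪H.e, y⟫ = 0 → ⟪H.Am α y, H.f⟫ = κ * τ ⟪y, H.f⟫ := by
    intro y hy
    set c := ⟪y, H.f⟫ with hc
    have hw : ⟪H.e, y - c • H.e⟫ = 0 := by rw [map_sub, hy, H.perp_e (p := p), sub_zero]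
    have hwf : ⟪y - c • H.e, H.f⟫ = 0 := by
      rw [map_sub, LinearMap.sub_apply, map_smul, LinearMap.smul_apply, H.ef, smul_eq_mul, mul_one, ← hc, sub_self]
    have h1 : H.Am α y = H.Am α (y - c • H.e) + H.rho α c • H.e := by
      rw [← H.Am_add_e (p := p) h2 hm hα.1 hw, sub_add_cancel]
    have h3 : ⟪H.Am α (y - c • H.e), H.f⟫ = 0 := by
      have k1 := H.Mp_fy (p := p) h2 hm hα hw
      have k2 := (Mp.orth (p := p) hm k1 hα.2).1 (by
        rw [NZ.mv_val]
        change ⟪act (H.u _) H.f, H.f⟫ = 0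
        rw [H.u_f hw, map_add, LinearMap.add_apply, B_self, hwf, add_zero])
      rw [NZ.mv_val] at k2
      change ⟪act (H.u _) H.f, H.f⟫ = 0 at k2
      rw [H.u_f (H.Am_spec (p := p) h2 hm hα.1 hw).1, map_add, LinearMap.add_apply, B_self, zero_add] at k2
      exact k2
    rw [h1, map_add, LinearMap.add_apply, h3, map_smul, LinearMap.smul_apply, H.ef, hrho, smul_eq_mul]
    ring
  have hform : ∀ x x', ⟪gf x, gf x'⟫ = κ * τ ⟪x, x'⟫ := by
    intro x x'
    have e1 : ⟪x, x'⟫ = ⟪H.e, x⟫ * ⟪H.f, P x'⟫ + ⟪H.e, x'⟫ * ⟪P x, H.f⟫ + ⟪P x, P x'⟫ := by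
      simp only [P, map_sub, map_smul, LinearMap.sub_apply, LinearMap.smul_apply, smul_eq_mul, B_self]
      ring
    have e2 := (H.Am_add' (p := p) h2 hm hα.1 (hP x) (hP x')).2
    rw [gf_def, gf_def]
    simp only [map_add, map_smul, LinearMap.add_apply, LinearMap.smul_apply, smul_eq_mul, B_self]
    rw [← e2, hrho, B_swap H.f (H.Am α (P x')), hFF _ (hP x'), hFF _ (hP x), e1, B_swap H.f (P x')]
    simp only [map_add, map_mul, map_neg]
    ring
  let L : V →ₗ[F] V :=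
    { toFun := fun x => gf (τ.symm ∘ x)
      map_add' := by
        intro x x'
        have : τ.symm ∘ (x + x') = τ.symm ∘ x + τ.symm ∘ x' := by
          funext i; simp
        rw [this, gf_add]
      map_smul' := by
        intro c x
        have : τ.symm ∘ (c • x) = τ.symm c • (τ.symm ∘ x) := by
          funext i; simp
        rw [this, gf_smul, RingEquiv.apply_symm_apply]
        rfl }
  let M := LinearMap.toMatrix' L
  have hM : ∀ x, M *ᵥ x = gf (τ.symm ∘ x) := by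
    intro x
    rw [← Matrix.toLin'_apply, Matrix.toLin'_toMatrix']
    rfl
  have hMB : ∀ u v, ⟪M *ᵥ u, M *ᵥ v⟫ = κ * ⟪u, v⟫ := by
    intro u v
    rw [hM, hM, hform, ← B_tau, tau_symm_comp, tau_symm_comp]
  have hMu : IsUnit M := by
    rw [← Matrix.mulVec_injective_iff_isUnit]
    intro v v' hvv
    rw [← sub_eq_zero]
    apply eq_zero_of_B
    intro u
    have h5 := hMB (v - v') u
    have h6 : M *ᵥ (v - v') = 0 := by
      rw [mulVec_sub]
      exact sub_eq_zero.2 hvv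
    rw [h6, map_zero, LinearMap.zero_apply] at h5
    exact (mul_eq_zero.1 h5.symm).resolve_left hκ0
  let g : GS := ⟨hMu.unit, ⟨Units.mk0 κ hκ0, fun u v => hMB u v⟩⟩
  have hg : ∀ x, gact g x = gf (τ.symm ∘ x) := hM
  have gf_ne : ∀ v : NZ F m, gf v.1 ≠ 0 := by
    intro v h0
    have : gact g (τ ∘ v.1) = 0 := by rw [hg, symm_tau_comp, h0]
    exact (NZ.tmv τ v).2 (gact_eq_zero g this)
  have hγ : ∀ v : NZ F m, Mp (cbar g * fbar τ) v ⟨gf v.1, gf_ne v⟩ := by
    intro v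
    have := (Mp_cbar g (NZ.tmv τ v)).mul (Mp_fbar τ v)
    refine this.congr_right (c := 1) ?_
    change gf v.1 = (1 : F) • gact g (τ ∘ v.1)
    rw [hg, symm_tau_comp, one_smul]
  have hα' : ∀ v : NZ F m, ⟪H.e, v.1⟫ ≠ 0 → Mp α v ⟨gf v.1, gf_ne v⟩ := by
    intro v hv
    set a := ⟪H.e, v.1⟫ with ha
    have hy : ⟪H.e, a⁻¹ • P v.1⟫ = 0 := by rw [map_smul, hP, smul_zero]
    have k := H.Mp_fy (p := p) h2 hm hα hy
    refine (k.congr_left (v₁ := v) (c := a) ?_).congr_right (c := τ a) ?_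
    · rw [NZ.mv_val]
      change v.1 = a • act (H.u _) H.f
      rw [H.u_f hy, smul_add, smul_smul, mul_inv_cancel₀ hv, one_smul]
      simp only [P, ← ha]
      abel
    · rw [NZ.mv_val]
      change gf v.1 = τ a • act (H.u _) H.f
      rw [H.u_f (H.Am_spec (p := p) h2 hm hα.1 hy).1, hτ _ _ (hP _), smul_add, smul_smul, ← map_mul,
        mul_inv_cancel₀ hv, map_one, one_smul]
  have hαe : Mp α H.eN ⟨gf H.e, gf_ne H.eN⟩ := by
    refine hα.1.congr_right (c := κ) ?_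
    change gf H.e = κ • H.e
    simp only [gf, P, B_self, map_zero, zero_smul, sub_zero, zero_add, hAe]
  have hβ : (cbar g * fbar τ)⁻¹ * α = 1 := by
    apply rigid2 (p := p) hm
    apply H.rigid1 (p := p) h2 hm
    · exact (hγ H.eN).inv.mul hαe
    · intro v hv
      exact (hγ v).inv.mul (hα' v hv)
  exact ⟨g, τ, (inv_mul_eq_one.1 hβ).symm⟩

end HP

/-- every automorphism of `PSp_{2m}(q)`, `q` odd, `m ≥ 2`, is induced by a semilinear similitude. -/
theorem aut_eq (h2 : (2 : F) ≠ 0) (hm : 2 ≤ m) (α : MulAut Gb) :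
    ∃ (g : GS) (τ : F ≃+* F), α = cbar g * fbar τ := by
  classical
  have hm1 : 1 ≤ m := by omega
  let e : V := Pi.single (Sum.inr ⟨0, hm1⟩) 1
  let f : V := Pi.single (Sum.inl ⟨0, hm1⟩) 1
  let y₂ : V := Pi.single (Sum.inr ⟨1, hm⟩) 1
  have hef : ⟪e, f⟫ = 1 := by
    change Cfsg.sympForm m F e (Pi.single (Sum.inl ⟨0, hm1⟩) 1) = 1
    rw [sympForm_single_inl]
    simp [e]
  let H : HP F m := ⟨e, f, hef⟩
  have hy₂ : ⟪H.e, y₂⟫ = 0 := by
    change Cfsg.sympForm m F e (Pi.single (Sum.inr ⟨1, hm⟩) 1) = 0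
    rw [sympForm_single_inr]
    simp [e]
  have hind : ∀ c : F, y₂ ≠ c • H.e := by
    intro c h
    have := congrFun h (Sum.inr ⟨1, hm⟩)
    simp [y₂, H, e] at this
  obtain ⟨e', he'⟩ := T1 (p := p) h2 hm1 α H.eN
  obtain ⟨f', hf'⟩ := T1 (p := p) h2 hm1 α H.fN
  replace he' : Mp α H.eN e' := he'
  replace hf' : Mp α H.fN f' := hf'
  have hne : ⟪e'.1, f'.1⟫ ≠ 0 := by
    intro h
    have := (Mp.orth (p := p) hm1 he' hf').2 h
    change ⟪e, f⟫ = 0 at this
    rw [hef] at this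
    exact one_ne_zero this
  obtain ⟨t, -, ht1, ht2⟩ := trans_pair (W := (⊤ : Submodule F V)) (u := e'.1) (v := (⟪e'.1, f'.1⟫)⁻¹ • f'.1)
    (u' := e) (v' := f) trivial trivial trivial trivial (by
      change ⟪e'.1, (⟪e'.1, f'.1⟫)⁻¹ • f'.1⟫ = 1
      rw [map_smul, smul_eq_mul, inv_mul_cancel₀ hne]) hef
  have hstd : H.Std (MulAut.conj (QuotientGroup.mk t : Gb) * α) := by
    constructor
    · have := (Mp_conj t e').mul he'
      refine this.congr_right (c := 1) ?_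
      change e = (1 : F) • act t e'.1
      rw [one_smul]
      exact ht1.symm
    · have := (Mp_conj t f').mul hf'
      refine this.congr_right (c := (⟪e'.1, f'.1⟫)⁻¹) ?_
      change f = (⟪e'.1, f'.1⟫)⁻¹ • act t f'.1
      rw [← act_smul]
      exact ht2.symm
  obtain ⟨g, τ, hg⟩ := H.aut_std (p := p) h2 hm1 hstd y₂ hy₂ hind
  refine ⟨(toGS t)⁻¹ * g, τ, ?_⟩
  rw [map_mul, map_inv, cbar_toGS, mul_assoc, ← hg]
  group

end Cfsg.Agent.Lib.Helper4.PSp
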