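import Mathlib
import Cfsg.Agent.Lib.Helper4.PSpF
import Cfsg.Agent.Lib.Helper4.H90g
import Cfsg.Agent.Lib.Helper5.SympAbstract

set_option linter.unusedSimpArgs false
set_option linter.unusedSectionVars false
set_option linter.style.haveILetI false

namespace Cfsg.Agent.Lib.Helper4.PSp

open Matrix
open Cfsg.Agent.Lib.Helper5.Symp Cfsg.Agent.Lib.Helper5.SympGen Cfsg.Agent.Lib.Helper5.SympBridge
  Cfsg.Agent.Lib.Helper5.SympPerfect
open scoped Pointwise

variable {F : Type*} [Field F] {m : ℕ}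

local notation "V" => (Fin m ⊕ Fin m → F)
local notation "G" => Matrix.symplecticGroup (Fin m) F
local notation "Gb" => Cfsg.PSp m F
local notation "GS" => Cfsg.GSp m F
local notation "⟪" u ", " v "⟫" => sympB m F u v

theorem map_refl (M : Matrix (Fin m ⊕ Fin m) (Fin m ⊕ Fin m) F) : M.map (RingEquiv.refl F) = M := by
  ext i j; rfl

theorem isInnerDiag_iff (β : MulAut Gb) : Cfsg.IsInnerDiagonalAutPSp β ↔ ∃ g : GS, β = cbar g := by
  constructor
  · rintro ⟨g, hg, h⟩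
    refine ⟨⟨g, hg⟩, ?_⟩
    ext y
    obtain ⟨s, rfl⟩ := QuotientGroup.mk_surjective y
    rw [cbar_mk]
    apply h s _
    rw [conjSp_val, map_refl]
    rfl
  · rintro ⟨g, rfl⟩
    refine ⟨g.1, g.2, fun s s' h => ?_⟩
    rw [cbar_mk]
    congr 1
    apply Subtype.ext
    rw [conjSp_val, h, map_refl]
    rfl

theorem isStdField_iff (τ : F ≃+* F) (β : MulAut Gb) : Cfsg.IsStdFieldAutPSp τ β ↔ β = fbar τ := by
  constructor
  · intro h
    ext y
    obtain ⟨s, rfl⟩ := QuotientGroup.mk_surjective y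
    exact h s (fSp τ s) rfl
  · rintro rfl s s' hs'
    rw [fbar_mk]
    congr 1
    apply Subtype.ext
    rw [hs']; rfl

theorem inndiag_eq : Cfsg.inndiagPSp m F = (cbar : GS →* MulAut Gb).range := by
  apply le_antisymm
  · unfold Cfsg.inndiagPSp Cfsg.autSubgroupOf
    rw [Subgroup.closure_le]
    intro β hβ
    obtain ⟨g, rfl⟩ := (isInnerDiag_iff β).1 hβ
    exact ⟨g, rfl⟩
  · rintro _ ⟨g, rfl⟩
    exact Subgroup.subset_closure ((isInnerDiag_iff _).2 ⟨g, rfl⟩)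

/-! ### the multiplier -/

theorem mu_unique (hm : 1 ≤ m) (g : GS) (c : F) (h : ∀ u v, ⟪gact g u, gact g v⟫ = c * ⟪u, v⟫) :
    (mu g : F) = c := by
  obtain ⟨v, hv⟩ := exists_ne_zero (F := F) hm
  obtain ⟨x, hx⟩ := exists_one hv
  have h1 := B_gact g v x
  rw [h v x, hx, mul_one, mul_one] at h1
  exact h1.symm

/-- the multiplier as a homomorphism -/
noncomputable def muH (F : Type*) [Field F] {m : ℕ} (hm : 1 ≤ m) : Cfsg.GSp m F →* Fˣ :=
  MonoidHom.mk' mu (by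
    intro a b
    apply Units.ext
    rw [Units.val_mul]
    apply mu_unique hm
    intro u v
    rw [gact_mul, gact_mul, B_gact, B_gact, mul_assoc])

theorem muH_apply (hm : 1 ≤ m) (g : GS) : muH F hm g = mu g := rfl

/-- build an element of `GSp` -/
noncomputable def mkGS (M : Matrix (Fin m ⊕ Fin m) (Fin m ⊕ Fin m) F) (c : F) (hc : c ≠ 0)
    (h : ∀ u v, ⟪M *ᵥ u, M *ᵥ v⟫ = c * ⟪u, v⟫) : GS :=
  have hMu : IsUnit M := by
    rw [← Matrix.mulVec_injective_iff_isUnit]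
    intro v v' hvv
    rw [← sub_eq_zero]
    apply eq_zero_of_B
    intro u
    have h5 := h (v - v') u
    have h6 : M *ᵥ (v - v') = 0 := by
      rw [mulVec_sub]
      exact sub_eq_zero.2 hvv
    rw [h6, map_zero, LinearMap.zero_apply] at h5
    exact (mul_eq_zero.1 h5.symm).resolve_left hc
  ⟨hMu.unit, ⟨Units.mk0 c hc, fun u v => h u v⟩⟩

theorem mkGS_val (M : Matrix (Fin m ⊕ Fin m) (Fin m ⊕ Fin m) F) (c : F) (hc : c ≠ 0)
    (h : ∀ u v, ⟪M *ᵥ u, M *ᵥ v⟫ = c * ⟪u, v⟫) : (mkGS M c hc h).1.1 = M := rfl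

theorem gact_mkGS (M : Matrix (Fin m ⊕ Fin m) (Fin m ⊕ Fin m) F) (c : F) (hc : c ≠ 0)
    (h : ∀ u v, ⟪M *ᵥ u, M *ᵥ v⟫ = c * ⟪u, v⟫) (x : V) : gact (mkGS M c hc h) x = M *ᵥ x := rfl

theorem mu_mkGS (hm : 1 ≤ m) (M : Matrix (Fin m ⊕ Fin m) (Fin m ⊕ Fin m) F) (c : F) (hc : c ≠ 0)
    (h : ∀ u v, ⟪M *ᵥ u, M *ᵥ v⟫ = c * ⟪u, v⟫) : (mu (mkGS M c hc h) : F) = c :=
  mu_unique hm _ c h

/-- `diag(a, …, a, b, …, b)` -/
noncomputable def dgS (a b : Fˣ) : GS :=
  mkGS (diagonal (Sum.elim (fun _ => (a : F)) (fun _ => (b : F)))) (a * b) (mul_ne_zero a.ne_zero b.ne_zero) (by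
    intro u v
    change Cfsg.sympForm m F _ _ = _ * Cfsg.sympForm m F _ _
    rw [sympForm_explicit, sympForm_explicit, Finset.mul_sum]
    apply Finset.sum_congr rfl
    intro i _
    simp only [mulVec_diagonal, Sum.elim_inl, Sum.elim_inr]
    ring)

theorem dgS_val (a b : Fˣ) :
    (dgS a b : GS).1.1 = diagonal (Sum.elim (fun _ => (a : F)) (fun _ => (b : F))) := rfl

theorem mu_dgS (hm : 1 ≤ m) (a b : Fˣ) : mu (dgS a b : GS) = a * b :=
  Units.ext (mu_mkGS hm _ _ _ _)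

theorem gact_dgS_self (a : Fˣ) (x : V) : gact (dgS a a : GS) x = (a : F) • x := by
  change (diagonal _) *ᵥ x = _
  funext i
  rw [mulVec_diagonal]
  cases i <;> rfl

theorem dgS_self_val (a : Fˣ) : (dgS a a : GS).1.1 = (a : F) • 1 := by
  apply Matrix.ext_iff_mulVec.mpr
  intro x
  rw [smul_mulVec, one_mulVec]
  exact gact_dgS_self a x

theorem cbar_eq_of_smul {P Q : GS} {c : F} (h : P.1.1 = c • Q.1.1) : cbar P = cbar Q := by
  have h1 : ∀ x, gact (P * Q⁻¹) x = c • x := by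
    intro x
    rw [gact_mul]
    change P.1.1 *ᵥ _ = _
    rw [h, smul_mulVec]
    change c • gact Q (gact Q⁻¹ x) = _
    rw [gact_gact_inv]
  have h2 := cbar_of_scalar h1
  rw [map_mul, map_inv, mul_inv_eq_one] at h2
  exact h2

/-- elements whose multiplier is a square induce inner automorphisms -/
theorem cbar_of_mu_sq (g : GS) (c : Fˣ) (h : mu g = c ^ 2) : ∃ s : G, cbar g = MulAut.conj (QuotientGroup.mk s) := by
  have hs : ((c : F)⁻¹ • g.1.1) ∈ Matrix.symplecticGroup (Fin m) F := by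
    rw [mem_symplecticGroup_iff_preserves]
    intro u v
    rw [smul_mulVec, smul_mulVec]
    change ⟪(c : F)⁻¹ • gact g u, (c : F)⁻¹ • gact g v⟫ = ⟪u, v⟫
    simp only [map_smul, LinearMap.smul_apply, smul_eq_mul, B_gact, h]
    have := c.ne_zero
    push_cast
    field_simp
  refine ⟨⟨_, hs⟩, ?_⟩
  rw [← cbar_toGS]
  apply cbar_eq_of_smul (c := (c : F))
  change g.1.1 = (c : F) • ((c : F)⁻¹ • g.1.1)
  rw [smul_smul, mul_inv_cancel₀ c.ne_zero, one_smul]

theorem conj_conj (α : MulAut Gb) (y : Gb) : α * MulAut.conj y * α⁻¹ = MulAut.conj (α y) := by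
  ext z
  simp [MulAut.mul_apply, MulAut.conj_apply]

theorem fbar_comm [Finite F] (τ τ' : RingAut F) : (fbar τ * fbar τ' : MulAut Gb) = fbar τ' * fbar τ := by
  rw [← fbar_mul, ← fbar_mul, PSLn.ringAut_comm]

/-- `fbar` as a homomorphism -/
noncomputable def fbarHom (F : Type*) [Field F] (m : ℕ) : RingAut F →* MulAut (Cfsg.PSp m F) :=
  MonoidHom.mk' fbar fbar_mul

variable {p : ℕ} [hp : Fact p.Prime] [hch : CharP F p]

include hp hch

theorem scalar_of_cbar (hm : 1 ≤ m) {g : GS} (h : cbar g = 1) : ∃ μ : F, ∀ x, gact g x = μ • x := by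
  apply Cfsg.Agent.Lib.Helper5.SympSimple.scalar_of_fix_lines
  intro v
  by_cases hv : v = 0
  · exact ⟨0, by rw [hv]; simp⟩
  let w : NZ F m := ⟨v, hv⟩
  apply par_of_Xb_le (p := p) hm (v := NZ.gmv g w) (v' := w)
  intro y hy
  rw [cbar_mem_Xb g w, h]
  exact hy

theorem smul_of_cbar_eq (hm : 1 ≤ m) {P Q : GS} (h : cbar P = cbar Q) : ∃ c : F, P.1.1 = c • Q.1.1 := by
  have h1 : cbar (P * Q⁻¹) = 1 := by rw [map_mul, map_inv, h, mul_inv_cancel]
  obtain ⟨μ, hμ⟩ := scalar_of_cbar (p := p) hm h1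
  refine ⟨μ, ?_⟩
  apply Matrix.ext_iff_mulVec.mpr
  intro x
  have := hμ (gact Q x)
  rw [gact_mul, gact_inv_gact] at this
  rw [smul_mulVec]
  exact this

theorem fbar_injective (hm : 1 ≤ m) {τ τ' : RingAut F} (h : (fbar τ : MulAut Gb) = fbar τ') : τ = τ' := by
  classical
  ext a
  let e : V := Pi.single (Sum.inl ⟨0, hm⟩) 1
  have he : e ≠ 0 := by
    intro h
    have := congrFun h (Sum.inl ⟨0, hm⟩)
    simp [e] at this
  have hτe : ∀ t : RingAut F, (t : F ≃+* F) ∘ e = e := by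
    intro t
    funext i
    by_cases hi : i = Sum.inl ⟨0, hm⟩
    · subst hi; simp [e]
    · simp [e, hi]
  have h1 := congrArg (fun β : MulAut Gb => β (QuotientGroup.mk (tv e a))) h
  simp only [fbar_mk, fSp_tv, hτe] at h1
  exact tv_mk_inj (p := p) hm ⟨e, he⟩ h1

theorem orderOf_fbar (hm : 1 ≤ m) (τ : RingAut F) : orderOf (fbar τ : MulAut Gb) = orderOf τ :=
  orderOf_injective (fbarHom F m) (fun _ _ h => fbar_injective (p := p) hm h) τ

variable [Fintype F]

/-- the inner-diagonal group is normal in the automorphism group -/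
theorem conj_cbar (hm : 2 ≤ m) (α : MulAut Gb) (g : GS) : ∃ g' : GS, α * cbar g * α⁻¹ = cbar g' := by
  by_cases h2 : (2 : F) = 0
  · have hchar : ringChar F = 2 := CharP.ringChar_of_prime_eq_zero Nat.prime_two (by exact_mod_cast h2)
    obtain ⟨c, hc⟩ := FiniteField.isSquare_of_char_two hchar (mu g : F)
    have hc0 : c ≠ 0 := by
      rintro rfl
      rw [mul_zero] at hc
      exact (mu g).ne_zero hc
    obtain ⟨s, hs⟩ := cbar_of_mu_sq g (Units.mk0 c hc0) (by
      apply Units.ext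
      rw [hc, sq]
      rfl)
    obtain ⟨s', hs'⟩ := QuotientGroup.mk_surjective (α (QuotientGroup.mk s))
    exact ⟨toGS s', by rw [hs, conj_conj, cbar_toGS, hs']⟩
  · obtain ⟨Q, τ, h⟩ := aut_eq (p := p) h2 hm α
    refine ⟨Q * mapGS τ g * Q⁻¹, ?_⟩
    have h1 : α * cbar g = cbar (Q * mapGS τ g * Q⁻¹) * α := by
      rw [h, mul_assoc, fbar_cbar, map_mul, map_mul, map_inv]
      group
    rw [h1, mul_assoc, mul_inv_cancel, mul_one]

end Cfsg.Agent.Lib.Helper4.PSp
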