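import Mathlib
import Cfsg.Agent.Lib.Helper4.PSpG

set_option linter.unusedSimpArgs false
set_option linter.unusedSectionVars false
set_option linter.style.haveILetI false

namespace Cfsg.Agent.Lib.Helper4.PSp

open Matrix
open Cfsg.Agent.Lib.Helper5.Symp Cfsg.Agent.Lib.Helper5.SympGen Cfsg.Agent.Lib.Helper5.SympBridge
  Cfsg.Agent.Lib.Helper5.SympPerfect
open Cfsg.Agent.Lib.Helper4.H90 (nrm nrm_zero nrm_succ nrm_mul nrm_surj)
open Cfsg.Agent.Lib.Helper4.H90g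
open scoped Pointwise

variable {F : Type*} [Field F] {m : ℕ}

local notation "V" => (Fin m ⊕ Fin m → F)
local notation "G" => Matrix.symplecticGroup (Fin m) F
local notation "Gb" => Cfsg.PSp m F
local notation "GS" => Cfsg.GSp m F
local notation "⟪" u ", " v "⟫" => sympB m F u v

/-- twisted partial norms in `GSp` -/
noncomputable def twGS (τ : RingAut F) (A : GS) : ℕ → GS
  | 0 => 1
  | k + 1 => A * mapGS τ (twGS τ A k)

theorem twGS_val (τ : RingAut F) (A : GS) (k : ℕ) : (twGS τ A k).1.1 = tw τ A.1.1 k := by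
  induction k with
  | zero => rfl
  | succ k ih =>
    change A.1.1 * (twGS τ A k).1.1.map τ = _
    rw [ih]; rfl

theorem pow_cbar_fbar (τ : RingAut F) (A : GS) (k : ℕ) :
    (cbar A * fbar τ) ^ k = cbar (twGS τ A k) * fbar (τ ^ k) := by
  induction k with
  | zero =>
    rw [pow_zero, pow_zero, fbar_one, mul_one]
    exact (map_one cbar).symm
  | succ k ih =>
    rw [pow_succ', ih, pow_succ', fbar_mul]
    change _ = cbar (A * mapGS τ (twGS τ A k)) * _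
    rw [map_mul]
    calc cbar A * fbar τ * (cbar (twGS τ A k) * fbar (τ ^ k))
        = cbar A * (fbar τ * cbar (twGS τ A k)) * fbar (τ ^ k) := by simp only [mul_assoc]
      _ = _ := by rw [fbar_cbar]; simp only [mul_assoc]

/-! ### subfield data -/

variable {F₀ : Type*} [Field F₀] {τ : RingAut F}

/-- an embedding of a field onto the fixed field of `τ` -/
structure Sub (τ : RingAut F) (F₀ : Type*) [Field F₀] where
  ι : F₀ →+* F
  fix : ∀ y : F, τ y = y ↔ ∃ t, ι t = y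

namespace Sub

variable (S : Sub τ F₀)

theorem descend {M : Matrix (Fin m ⊕ Fin m) (Fin m ⊕ Fin m) F} (h : M.map τ = M) :
    ∃ M₀ : Matrix (Fin m ⊕ Fin m) (Fin m ⊕ Fin m) F₀, M₀.map S.ι = M := by
  have hent : ∀ i j, ∃ t, S.ι t = M i j := fun i j => (S.fix _).1 (congrFun (congrFun h i) j)
  choose P hP using hent
  exact ⟨Matrix.of P, by ext i j; exact hP i j⟩

theorem map_fix (M₀ : Matrix (Fin m ⊕ Fin m) (Fin m ⊕ Fin m) F₀) : (M₀.map S.ι).map τ = M₀.map S.ι := by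
  ext i j
  exact (S.fix _).2 ⟨_, rfl⟩

end Sub

theorem J_map {R R' : Type*} [CommRing R] [CommRing R'] (j : R →+* R') :
    (Matrix.J (Fin m) R).map j = Matrix.J (Fin m) R' := by
  unfold Matrix.J
  rw [Matrix.fromBlocks_map]
  congr 1
  · ext a b; simp
  · ext a b
    by_cases h : a = b
    · subst h; simp
    · simp [h]
  · ext a b
    by_cases h : a = b
    · subst h; simp
    · simp [h]
  · ext a b; simp

theorem mat_eq_of_form {R : Type*} [CommRing R] {M N : Matrix (Fin m ⊕ Fin m) (Fin m ⊕ Fin m) R}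
    (h : ∀ u v, u ⬝ᵥ (M *ᵥ v) = u ⬝ᵥ (N *ᵥ v)) : M = N := by
  classical
  ext i j
  have := h (Pi.single i 1) (Pi.single j 1)
  simpa using this

theorem gram_iff {R : Type*} [CommRing R] (M : Matrix (Fin m ⊕ Fin m) (Fin m ⊕ Fin m) R) (c : R) :
    Mᵀ * Matrix.J (Fin m) R * M = c • Matrix.J (Fin m) R ↔
      ∀ u v, Cfsg.sympForm m R (M *ᵥ u) (M *ᵥ v) = c * Cfsg.sympForm m R u v := by
  constructor
  · intro h u v
    rw [sympForm_mulVec, h, smul_mulVec, dotProduct_smul, smul_eq_mul]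
    rfl
  · intro h
    apply mat_eq_of_form
    intro u v
    rw [← sympForm_mulVec, h, smul_mulVec, dotProduct_smul, smul_eq_mul]
    rfl

/-- Hilbert 90 for the conformal symplectic group. -/
theorem h90S [Finite F₀] (hm : 1 ≤ m) (S : Sub τ F₀) {r : ℕ} (hr : orderOf τ = r) (hr0 : 0 < r) (A : GS)
    (htw : tw τ A.1.1 r = 1) : ∃ B : GS, A.1.1 * B.1.1.map τ = B.1.1 := by
  classical
  obtain ⟨B, hB⟩ := h90 τ A.1.1 hr hr0 htw
  have hJ : (Matrix.J (Fin m) F).map τ = Matrix.J (Fin m) F := J_map ((τ : F ≃+* F) : F →+* F)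
  have hA : A.1.1ᵀ * Matrix.J (Fin m) F * A.1.1 = (mu A : F) • Matrix.J (Fin m) F :=
    (gram_iff _ _).2 (fun u v => B_gact A u v)
  set K := B.1ᵀ * Matrix.J (Fin m) F * B.1 with hKdef
  have hKτ : K.map τ = (B.1.map τ)ᵀ * Matrix.J (Fin m) F * B.1.map τ := by
    rw [hKdef, Matrix.map_mul, Matrix.map_mul, hJ, Matrix.transpose_map]
  have hK : K = (mu A : F) • K.map τ := by
    rw [hKτ]
    conv_lhs => rw [hKdef, ← hB]
    rw [transpose_mul]
    calc (B.1.map τ)ᵀ * A.1.1ᵀ * Matrix.J (Fin m) F * (A.1.1 * B.1.map τ)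
        = (B.1.map τ)ᵀ * (A.1.1ᵀ * Matrix.J (Fin m) F * A.1.1) * B.1.map τ := by
          simp only [Matrix.mul_assoc]
      _ = _ := by rw [hA, mul_smul_comm, smul_mul_assoc]
  have hdetB : B.1.det ≠ 0 := ((Matrix.isUnit_iff_isUnit_det _).1 B.isUnit).ne_zero
  have hdetJ : (Matrix.J (Fin m) F).det ≠ 0 := (Matrix.isUnit_det_J (Fin m) F).ne_zero
  have hdetK : K.det ≠ 0 := by
    rw [hKdef, det_mul, det_mul, det_transpose]
    exact mul_ne_zero (mul_ne_zero hdetB hdetJ) hdetB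
  have hK0 : K ≠ 0 := by
    intro h0
    apply hdetK
    rw [h0]
    haveI : Nonempty (Fin m ⊕ Fin m) := ⟨Sum.inl ⟨0, hm⟩⟩
    exact det_zero
  obtain ⟨b, hb0, hb⟩ := descent τ hr hr0 K hK0 hK
  obtain ⟨H₀, hH₀⟩ := S.descend hb
  have hdet : H₀.det ≠ 0 := by
    intro h0
    have h1 : (H₀.map S.ι).det = 0 := by
      have := RingHom.map_det S.ι H₀
      rw [h0, map_zero] at this
      exact this.symm
    rw [hH₀, det_smul] at h1
    rcases mul_eq_zero.1 h1 with h3 | h3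
    · exact hb0 (pow_eq_zero_iff (by rw [Fintype.card_sum, Fintype.card_fin]; omega) |>.1 h3)
    · exact hdetK h3
  let B₀ : LinearMap.BilinForm F₀ (Fin m ⊕ Fin m → F₀) := Matrix.toBilin' H₀
  have hB₀ : ∀ u v, B₀ u v = u ⬝ᵥ (H₀ *ᵥ v) := fun u v => Matrix.toBilin'_apply' H₀ u v
  have hB₀ι : ∀ u v, S.ι (B₀ u v) = b * Cfsg.sympForm m F (B.1 *ᵥ (S.ι ∘ u)) (B.1 *ᵥ (S.ι ∘ v)) := by
    intro u v
    rw [hB₀, RingHom.map_dotProduct, sympForm_mulVec, ← hKdef]
    have h1 : S.ι ∘ (H₀ *ᵥ v) = (b • K) *ᵥ (S.ι ∘ v) := by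
      rw [← hH₀]
      funext i
      exact RingHom.map_mulVec S.ι H₀ v i
    rw [h1, smul_mulVec, dotProduct_smul, smul_eq_mul]
  have halt : B₀.IsAlt := by
    intro u
    apply S.ι.injective
    rw [hB₀ι, sympForm_self, mul_zero, map_zero]
  have hnd : B₀.Nondegenerate := LinearMap.BilinForm.nondegenerate_toBilin'_iff_det_ne_zero.2 hdet
  obtain ⟨Ψ, hΨ⟩ := Cfsg.Agent.Lib.Helper5.SympAbstract.exists_equiv_std B₀ hnd halt (m := m) (by
    rw [Module.finrank_fintype_fun_eq_card, Fintype.card_sum, Fintype.card_fin]; omega)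
  let P₀ := LinearMap.toMatrix' (Ψ.symm : (Fin m ⊕ Fin m → F₀) →ₗ[F₀] (Fin m ⊕ Fin m → F₀))
  have hP₀ : ∀ x, P₀ *ᵥ x = Ψ.symm x := by
    intro x
    rw [← Matrix.toLin'_apply, Matrix.toLin'_toMatrix']
    rfl
  have hmat₀ : P₀ᵀ * H₀ * P₀ = Matrix.J (Fin m) F₀ := by
    apply mat_eq_of_form
    intro u v
    have h1 : u ⬝ᵥ ((P₀ᵀ * H₀ * P₀) *ᵥ v) = B₀ (P₀ *ᵥ u) (P₀ *ᵥ v) := by
      rw [hB₀, mulVec_dotProduct_eq, mulVec_mulVec, mulVec_mulVec, Matrix.mul_assoc]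
    rw [h1, hP₀, hP₀, ← hΨ, LinearEquiv.apply_symm_apply, LinearEquiv.apply_symm_apply]
    rfl
  set P := P₀.map S.ι with hP
  have hmat : Pᵀ * (b • K) * P = Matrix.J (Fin m) F := by
    have h1 := congrArg (fun M => M.map S.ι) hmat₀
    rw [← J_map S.ι, ← h1]
    change _ = (P₀ᵀ * H₀ * P₀).map S.ι
    rw [Matrix.map_mul, Matrix.map_mul, hH₀, Matrix.transpose_map]
  have hgram : (B.1 * P)ᵀ * Matrix.J (Fin m) F * (B.1 * P) = b⁻¹ • Matrix.J (Fin m) F := by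
    have h1 : (B.1 * P)ᵀ * Matrix.J (Fin m) F * (B.1 * P) = Pᵀ * K * P := by
      rw [transpose_mul, hKdef]
      simp only [Matrix.mul_assoc]
    have h2 : b • (Pᵀ * K * P) = Matrix.J (Fin m) F := by
      rw [← hmat, mul_smul_comm, smul_mul_assoc]
    rw [h1, ← h2, smul_smul, inv_mul_cancel₀ hb0, one_smul]
  refine ⟨mkGS (B.1 * P) b⁻¹ (inv_ne_zero hb0) ((gram_iff _ _).1 hgram), ?_⟩
  change A.1.1 * (B.1 * P).map τ = B.1 * P
  rw [Matrix.map_mul, hP, S.map_fix, ← Matrix.mul_assoc, hB]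

variable {p : ℕ} [hp : Fact p.Prime] [hch : CharP F p]

include hp hch

omit hp hch in
theorem GS_ne_zero (hm : 1 ≤ m) (A : GS) : A.1.1 ≠ 0 := by
  intro h
  obtain ⟨v, hv⟩ := exists_ne_zero (F := F) hm
  apply hv
  apply gact_eq_zero A
  change A.1.1 *ᵥ v = 0
  rw [h, zero_mulVec]

/-- an element of order dividing `r` in the coset `Inndiag · fbar τ` is conjugate to `fbar τ`. -/
theorem field_conj_S [Finite F] [Finite F₀] (S : Sub τ F₀) (hm : 1 ≤ m) {r : ℕ} (hr : orderOf τ = r) (hr0 : 0 < r)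
    (A : GS) (h : (cbar A * fbar τ) ^ r = 1) :
    ∃ B : GS, cbar A * fbar τ = cbar B * fbar τ * (cbar B)⁻¹ := by
  have hτ : τ ^ r = 1 := by rw [← hr]; exact pow_orderOf_eq_one τ
  rw [pow_cbar_fbar, hτ, fbar_one, mul_one] at h
  obtain ⟨lam, hlam⟩ := smul_of_cbar_eq (p := p) hm (P := twGS τ A r) (Q := 1) (by rw [h, map_one])
  rw [twGS_val] at hlam
  replace hlam : tw τ A.1.1 r = lam • 1 := hlam
  have hA0 := GS_ne_zero hm A
  have hlam0 : lam ≠ 0 := by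
    rintro rfl
    rw [zero_smul, ← twGS_val] at hlam
    exact GS_ne_zero hm _ hlam
  have hfix : τ lam = lam := by
    have h1 := tw_succ τ A.1.1 r
    rw [tw_succ', hlam, hτ, smul_map, one_map, mul_smul_comm, mul_one, smul_mul_assoc, one_mul] at h1
    have h2 : A.1.1.map ⇑(1 : RingAut F) = A.1.1 := by ext i j; rfl
    rw [h2] at h1
    have h3 : (lam - τ lam) • A.1.1 = 0 := by rw [sub_smul, h1, sub_self]
    rcases smul_eq_zero.1 h3 with h4 | h4
    · linear_combination -h4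
    · exact absurd h4 hA0
  obtain ⟨μ, hμ0, hμ⟩ := nrm_surj τ hr hr0 lam hlam0 hfix
  let A' : GS := dgS (Units.mk0 μ hμ0)⁻¹ (Units.mk0 μ hμ0)⁻¹ * A
  have hA' : A'.1.1 = μ⁻¹ • A.1.1 := by
    change (dgS (Units.mk0 μ hμ0)⁻¹ (Units.mk0 μ hμ0)⁻¹ : GS).1.1 * A.1.1 = _
    rw [dgS_self_val, smul_mul_assoc, one_mul]
    simp
  have htw : tw τ A'.1.1 r = 1 := by
    rw [hA', tw_smul, hlam, smul_smul, ← hμ, ← nrm_mul, inv_mul_cancel₀ hμ0]
    have : nrm τ r (1 : F) = 1 := by unfold nrm; simp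
    rw [this, one_smul]
  obtain ⟨B, hB⟩ := h90S hm S hr hr0 A' htw
  refine ⟨B, ?_⟩
  rw [eq_mul_inv_iff_mul_eq, mul_assoc, fbar_cbar, ← mul_assoc, ← map_mul]
  congr 1
  apply cbar_eq_of_smul (c := μ)
  change A.1.1 * B.1.1.map τ = μ • B.1.1
  conv_rhs => rw [← hB, hA', smul_mul_assoc, smul_smul, mul_inv_cancel₀ hμ0, one_smul]

end Cfsg.Agent.Lib.Helper4.PSp
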