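import Mathlib
import Cfsg.Agent.Lib.Helper4.PSpH
import Cfsg.Agent.Lib.Helper4.PSLnCent2

set_option linter.unusedSimpArgs false
set_option linter.unusedSectionVars false
set_option linter.style.haveILetI false

namespace Cfsg.Agent.Lib.Helper4.PSp

open Matrix
open Cfsg.Agent.Lib.Helper5.Symp Cfsg.Agent.Lib.Helper5.SympGen Cfsg.Agent.Lib.Helper5.SympBridge
  Cfsg.Agent.Lib.Helper5.SympPerfect
open Cfsg.Agent.Lib.Helper4.H90 (nrm nrm_zero nrm_succ nrm_mul nrm_surj Dh mem_ker_Dh)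
open Cfsg.Agent.Lib.Helper4.H90g Cfsg.Agent.Lib.Helper4.Fix Cfsg.Agent.Lib.Helper4.Split
open scoped Pointwise

/-! ### transport along a conjugation -/

section Transport

variable {X : Type*} [Group X]

theorem isConjUnder_conj (H : Subgroup X) (a : X) (hH : ∀ h, h ∈ H ↔ a * h * a⁻¹ ∈ H) (x y : X) :
    Cfsg.IsConjUnder H x y ↔ Cfsg.IsConjUnder H (a * x * a⁻¹) (a * y * a⁻¹) := by
  constructor
  · rintro ⟨h, hh, rfl⟩
    exact ⟨a * h * a⁻¹, (hH h).1 hh, by group⟩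
  · rintro ⟨h, hh, e⟩
    refine ⟨a⁻¹ * h * a, (hH _).2 (by convert hh using 1; group), ?_⟩
    calc y = a⁻¹ * (a * y * a⁻¹) * a := by group
      _ = _ := by rw [e]; group

theorem splitClassCount_conj (H K : Subgroup X) (a : X) (hH : ∀ h, h ∈ H ↔ a * h * a⁻¹ ∈ H)
    (hK : ∀ h, h ∈ K ↔ a * h * a⁻¹ ∈ K) (x : X) :
    Cfsg.splitClassCount H K x = Cfsg.splitClassCount H K (a * x * a⁻¹) := by
  unfold Cfsg.splitClassCount
  apply Nat.card_congr
  let e : {y : X // Cfsg.IsConjUnder H x y} ≃ {y : X // Cfsg.IsConjUnder H (a * x * a⁻¹) y} :=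
    Equiv.subtypeEquiv (MulAut.conj a).toEquiv (fun y => isConjUnder_conj H a hH x y)
  exact Quot.congr e (fun y z => isConjUnder_conj K a hK y.1 z.1)

/-- transport of the centraliser -/
noncomputable def centConj (H : Subgroup X) (a : X) (hH : ∀ h, h ∈ H ↔ a * h * a⁻¹ ∈ H) (x : X) :
    ↥(H ⊓ Subgroup.centralizer {x}) ≃* ↥(H ⊓ Subgroup.centralizer {a * x * a⁻¹}) :=
  (MulAut.conj a).subgroupMap (H ⊓ Subgroup.centralizer {x}) |>.trans (MulEquiv.subgroupCongr (by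
    ext y
    have h0 : y ∈ Subgroup.map (↑(MulAut.conj a) : X →* X) (H ⊓ Subgroup.centralizer {x}) ↔
        a⁻¹ * y * a ∈ H ⊓ Subgroup.centralizer {x} := by
      constructor
      · rintro ⟨z, hz, rfl⟩
        have : a⁻¹ * (a * z * a⁻¹) * a = z := by group
        change a⁻¹ * (a * z * a⁻¹) * a ∈ _
        rw [this]; exact hz
      · intro h
        exact ⟨_, h, by change a * (a⁻¹ * y * a) * a⁻¹ = y; group⟩
    rw [h0, Subgroup.mem_inf, Subgroup.mem_inf, Subgroup.mem_centralizer_singleton_iff,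
      Subgroup.mem_centralizer_singleton_iff]
    constructor
    · rintro ⟨h1, h2⟩
      refine ⟨by have := (hH _).1 h1; convert this using 1; group, ?_⟩
      calc y * (a * x * a⁻¹) = a * (a⁻¹ * y * a * x) * a⁻¹ := by group
        _ = _ := by rw [h2]; group
    · rintro ⟨h1, h2⟩
      refine ⟨(hH _).2 (by convert h1 using 1; group), ?_⟩
      calc a⁻¹ * y * a * x = a⁻¹ * (y * (a * x * a⁻¹)) * a := by group
        _ = _ := by rw [h2]; group))

end Transport

variable {F : Type*} [Field F] {m : ℕ}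

local notation "V" => (Fin m ⊕ Fin m → F)
local notation "G" => Matrix.symplecticGroup (Fin m) F
local notation "Gb" => Cfsg.PSp m F
local notation "GS" => Cfsg.GSp m F
local notation "⟪" u ", " v "⟫" => sympB m F u v

theorem inn_conj (α h : MulAut Gb) : h ∈ Cfsg.Inn Gb ↔ α * h * α⁻¹ ∈ Cfsg.Inn Gb := by
  constructor
  · rintro ⟨y, rfl⟩
    exact ⟨α y, (conj_conj α y).symm⟩
  · rintro ⟨y, hy⟩
    refine ⟨α⁻¹ y, ?_⟩
    have h1 := conj_conj α⁻¹ y
    rw [inv_inv] at h1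
    change MulAut.conj (α⁻¹ y) = h
    rw [← h1]
    have hy' : MulAut.conj y = α * h * α⁻¹ := hy
    rw [hy']; group

/-- the fixed field as subfield data -/
def subFix (τ : RingAut F) : Sub τ (fixF τ) where
  ι := (fixF τ).subtype
  fix := fun y => ⟨fun h => ⟨⟨y, (mem_fixF τ y).2 h⟩, rfl⟩, by rintro ⟨t, rfl⟩; exact (mem_fixF τ _).1 t.2⟩

variable {p : ℕ} [hp : Fact p.Prime] [hch : CharP F p] [Fintype F]

include hp hch

theorem inndiag_conj (hm : 2 ≤ m) (α h : MulAut Gb) :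
    h ∈ Cfsg.inndiagPSp m F ↔ α * h * α⁻¹ ∈ Cfsg.inndiagPSp m F := by
  rw [inndiag_eq]
  constructor
  · rintro ⟨g, rfl⟩
    obtain ⟨g', hg'⟩ := conj_cbar (p := p) hm α g
    exact ⟨g', hg'.symm⟩
  · rintro ⟨g, hg⟩
    obtain ⟨g', hg'⟩ := conj_cbar (p := p) hm α⁻¹ g
    refine ⟨g', ?_⟩
    rw [← hg', hg]; group

/-- the coset statement for the standard field automorphism -/
theorem coset_std (hm : 1 ≤ m) (τ : RingAut F) {r : ℕ} (hr : orderOf τ = r) (hr0 : 0 < r) (δ : MulAut Gb)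
    (hδ : δ ∈ Cfsg.inndiagPSp m F) :
    orderOf (δ * fbar τ) = r ↔ Cfsg.IsConjUnder (Cfsg.inndiagPSp m F) (fbar τ) (δ * fbar τ) := by
  constructor
  · intro h
    rw [inndiag_eq] at hδ ⊢
    obtain ⟨D, rfl⟩ := hδ
    obtain ⟨B, hB⟩ := field_conj_S (p := p) (subFix τ) hm hr hr0 D (by rw [← h]; exact pow_orderOf_eq_one _)
    exact ⟨cbar B, ⟨B, rfl⟩, hB⟩
  · rintro ⟨h, -, e⟩
    rw [e, PSLn.orderOf_conj', orderOf_fbar (p := p) hm, hr]

/-- the coset statement for a conjugate of the standard field automorphism -/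
theorem coset_gen (hm : 2 ≤ m) (τ : RingAut F) {r : ℕ} (hr0 : 0 < r) (α x δ : MulAut Gb)
    (hα : α * x * α⁻¹ = fbar τ) (hxr : orderOf x = r) (hδ : δ ∈ Cfsg.inndiagPSp m F) :
    orderOf (δ * x) = r ↔ Cfsg.IsConjUnder (Cfsg.inndiagPSp m F) x (δ * x) := by
  have hord : orderOf τ = r := by
    rw [← hxr, ← orderOf_fbar (p := p) (m := m) (by omega), ← hα, PSLn.orderOf_conj']
  have e : α * (δ * x) * α⁻¹ = (α * δ * α⁻¹) * fbar τ := by rw [← hα]; group
  rw [isConjUnder_conj _ α (inndiag_conj (p := p) hm α), hα, e, ← PSLn.orderOf_conj' α (δ * x), e]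
  exact coset_std (p := p) (by omega) τ hord hr0 _ ((inndiag_conj (p := p) hm α δ).1 hδ)

end Cfsg.Agent.Lib.Helper4.PSp
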