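import Mathlib
import Cfsg.Agent.Lib.Helper4.PSpI

set_option linter.unusedSimpArgs false
set_option linter.unusedSectionVars false
set_option linter.style.haveILetI false

namespace Cfsg.Agent.Lib.Helper4.PSp

open Matrix
open Cfsg.Agent.Lib.Helper5.Symp Cfsg.Agent.Lib.Helper5.SympGen Cfsg.Agent.Lib.Helper5.SympBridge
  Cfsg.Agent.Lib.Helper5.SympPerfect
open Cfsg.Agent.Lib.Helper4.H90 (nrm nrm_zero nrm_succ nrm_mul nrm_surj Dh mem_ker_Dh)
open Cfsg.Agent.Lib.Helper4.H90g Cfsg.Agent.Lib.Helper4.Fix Cfsg.Agent.Lib.Helper4.Split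
open scoped Pointwise

variable {F : Type*} [Field F] {m : ℕ}
variable {F₀ : Type*} [Field F₀] {τ : RingAut F}

local notation "V" => (Fin m ⊕ Fin m → F)
local notation "G" => Matrix.symplecticGroup (Fin m) F
local notation "Gb" => Cfsg.PSp m F
local notation "GS" => Cfsg.GSp m F
local notation "⟪" u ", " v "⟫" => sympB m F u v

theorem gram_GS (g : GS) : g.1.1ᵀ * Matrix.J (Fin m) F * g.1.1 = (mu g : F) • Matrix.J (Fin m) F :=
  (gram_iff _ _).2 (fun u v => B_gact g u v)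

theorem gram_map (j : F₀ →+* F) {M₀ : Matrix (Fin m ⊕ Fin m) (Fin m ⊕ Fin m) F₀} {c₀ : F₀}
    (h : M₀ᵀ * Matrix.J (Fin m) F₀ * M₀ = c₀ • Matrix.J (Fin m) F₀) :
    (M₀.map j)ᵀ * Matrix.J (Fin m) F * M₀.map j = j c₀ • Matrix.J (Fin m) F := by
  have h1 := congrArg (fun M => M.map j) h
  change (M₀ᵀ * Matrix.J (Fin m) F₀ * M₀).map j = (c₀ • Matrix.J (Fin m) F₀).map j at h1
  rw [Matrix.map_mul, Matrix.map_mul, J_map j, Matrix.transpose_map] at h1
  rw [h1]
  ext a b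
  have := congrFun (congrFun (J_map (m := m) j) a) b
  simp only [Matrix.map_apply, Matrix.smul_apply, smul_eq_mul, map_mul] at this ⊢
  rw [this]

/-- `GSp(F₀) → GSp(F)` -/
def Sub.mapS (S : Sub τ F₀) : Cfsg.GSp m F₀ →* Cfsg.GSp m F :=
  ((Matrix.GeneralLinearGroup.map S.ι).comp (Cfsg.GSp m F₀).subtype).codRestrict (Cfsg.GSp m F) (fun P =>
    ⟨Units.map (S.ι : F₀ →* F) (mu P), (gram_iff _ _).1 (gram_map S.ι (gram_GS P))⟩)

theorem Sub.mapS_val (S : Sub τ F₀) (P : Cfsg.GSp m F₀) : (S.mapS P).1.1 = P.1.1.map S.ι := rfl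

theorem Sub.mu_mapS (S : Sub τ F₀) (hm : 1 ≤ m) (P : Cfsg.GSp m F₀) : (mu (S.mapS P) : F) = S.ι (mu P : F₀) :=
  mu_unique hm _ _ ((gram_iff _ _).1 (gram_map S.ι (gram_GS P)))

/-- a conformal symplectic matrix that is `τ`-fixed up to a scalar is a scalar times a `τ`-fixed one. -/
theorem descentS (S : Sub τ F₀) (hm : 1 ≤ m) {r : ℕ} (hr : orderOf τ = r) (hr0 : 0 < r) (a : GS) {lam : F}
    (h : a.1.1 = lam • a.1.1.map τ) :
    ∃ (s : Fˣ) (P : Cfsg.GSp m F₀), a.1.1 = (s : F) • P.1.1.map S.ι := by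
  obtain ⟨b, hb0, hb⟩ := descent τ hr hr0 a.1.1 (GS_ne_zero hm a) h
  obtain ⟨M₀, hM₀⟩ := S.descend hb
  have hG : (b • a.1.1)ᵀ * Matrix.J (Fin m) F * (b • a.1.1) = (b * b * (mu a : F)) • Matrix.J (Fin m) F := by
    rw [transpose_smul, smul_mul_assoc, smul_mul_assoc, mul_smul_comm, gram_GS, smul_smul, smul_smul]
  set N₀ := M₀ᵀ * Matrix.J (Fin m) F₀ * M₀ with hN₀
  have hN : N₀.map S.ι = (b * b * (mu a : F)) • Matrix.J (Fin m) F := by
    rw [hN₀, Matrix.map_mul, Matrix.map_mul, J_map S.ι, Matrix.transpose_map, hM₀, hG]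
  let z : Fin m := ⟨0, hm⟩
  set c₀ : F₀ := - N₀ (Sum.inl z) (Sum.inr z) with hc₀
  have hc : S.ι c₀ = b * b * (mu a : F) := by
    have h1 := congrFun (congrFun hN (Sum.inl z)) (Sum.inr z)
    rw [hc₀, map_neg]
    change S.ι (N₀ (Sum.inl z) (Sum.inr z)) = _ at h1
    rw [h1]
    simp [Matrix.J]
  have hc0 : c₀ ≠ 0 := by
    intro h0
    rw [h0, map_zero] at hc
    exact mul_ne_zero (mul_ne_zero hb0 hb0) (mu a).ne_zero hc.symm
  have hgram : M₀ᵀ * Matrix.J (Fin m) F₀ * M₀ = c₀ • Matrix.J (Fin m) F₀ := by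
    apply map_inj S.ι
    rw [← hN₀, hN, ← hc]
    ext i j
    have := congrFun (congrFun (J_map (m := m) S.ι) i) j
    simp only [Matrix.map_apply, Matrix.smul_apply, smul_eq_mul, map_mul] at this ⊢
    rw [this]
  refine ⟨(Units.mk0 b hb0)⁻¹, mkGS M₀ c₀ hc0 ((gram_iff _ _).1 hgram), ?_⟩
  change a.1.1 = _ • M₀.map S.ι
  rw [hM₀, smul_smul]
  simp [hb0]

theorem inn_eq (hm : 1 ≤ m) : Cfsg.Inn Gb = (muH F hm).ker.map (cbar : GS →* MulAut Gb) := by
  ext α
  constructor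
  · rintro ⟨y, rfl⟩
    obtain ⟨s, rfl⟩ := QuotientGroup.mk_surjective y
    refine ⟨toGS s, ?_, cbar_toGS s⟩
    change toGS s ∈ (muH F hm).ker
    rw [MonoidHom.mem_ker, muH_apply]
    apply Units.ext
    apply mu_unique hm
    intro u v
    rw [gact_toGS, gact_toGS, B_act, Units.val_one, one_mul]
  · rintro ⟨g, hg, rfl⟩
    have hg' : mu g = 1 := hg
    obtain ⟨s, hs⟩ := cbar_of_mu_sq g 1 (by rw [hg', one_pow])
    rw [hs]
    exact ⟨_, rfl⟩

theorem muH_surj (hm : 1 ≤ m) : Function.Surjective (muH F hm) :=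
  fun u => ⟨dgS u 1, by rw [muH_apply, mu_dgS hm, mul_one]⟩

/-- the homomorphism `GSp(F₀) → Aut(PSp(F))` -/
noncomputable def ThetaS (S : Sub τ F₀) : Cfsg.GSp m F₀ →* MulAut Gb := cbar.comp S.mapS

theorem ThetaS_apply (S : Sub τ F₀) (P : Cfsg.GSp m F₀) : ThetaS S P = cbar (S.mapS P) := rfl

variable {p : ℕ} [hp : Fact p.Prime] [hch : CharP F p]

include hp hch

/-- commuting with `fbar τ` -/
theorem comm_fbar_iff (hm : 1 ≤ m) (τ : RingAut F) (a : GS) :
    cbar a * fbar τ = fbar τ * cbar a ↔ ∃ lam : F, a.1.1 = lam • a.1.1.map τ := by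
  rw [fbar_cbar]
  constructor
  · intro h
    exact smul_of_cbar_eq (p := p) hm (mul_right_cancel h)
  · rintro ⟨lam, h⟩
    rw [cbar_eq_of_smul (P := a) (Q := mapGS τ a) h]

theorem ThetaS_ker (hm : 1 ≤ m) (S : Sub τ F₀) :
    (ThetaS S).ker = (Cfsg.Geo.scalars (Fin m ⊕ Fin m) F₀).subgroupOf (Cfsg.GSp m F₀) := by
  ext P
  rw [MonoidHom.mem_ker, ThetaS_apply, Subgroup.mem_subgroupOf, Cfsg.Geo.mem_scalars_iff]
  constructor
  · intro h
    obtain ⟨μ, hμ⟩ := smul_of_cbar_eq (p := p) hm (P := S.mapS P) (Q := 1) (by rw [h, map_one])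
    have hμ' : P.1.1.map S.ι = μ • 1 := hμ
    let z : Fin m ⊕ Fin m := Sum.inl ⟨0, hm⟩
    have hz : S.ι (P.1.1 z z) = μ := by
      have := congrFun (congrFun hμ' z) z
      simpa using this
    have hP : P.1.1 = (P.1.1 z z) • 1 := by
      apply map_inj S.ι
      rw [hμ']
      ext i j
      by_cases hij : i = j
      · subst hij; simp [hz]
      · simp [hij]
    have h00 : P.1.1 z z ≠ 0 := by
      intro h0
      rw [h0, zero_smul] at hP
      exact GS_ne_zero hm P hP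
    exact ⟨Units.mk0 _ h00, hP⟩
  · rintro ⟨u, hu⟩
    have h1 : cbar (S.mapS P) = cbar 1 := by
      apply cbar_eq_of_smul (c := S.ι u)
      change P.1.1.map S.ι = S.ι u • 1
      have hu' : P.1.1 = (u : F₀) • 1 := hu
      rw [hu']
      ext i j
      by_cases hij : i = j
      · subst hij; simp
      · simp [hij]
    rw [h1, map_one]

theorem ThetaS_range (hm : 1 ≤ m) (S : Sub τ F₀) {r : ℕ} (hr : orderOf τ = r) (hr0 : 0 < r) :
    (ThetaS S).range = Cfsg.inndiagPSp m F ⊓ Subgroup.centralizer {fbar τ} := by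
  rw [inndiag_eq]
  ext y
  rw [Subgroup.mem_inf, Subgroup.mem_centralizer_singleton_iff]
  constructor
  · rintro ⟨P, rfl⟩
    rw [ThetaS_apply]
    refine ⟨⟨_, rfl⟩, ?_⟩
    rw [comm_fbar_iff (p := p) hm]
    refine ⟨1, ?_⟩
    rw [one_smul]
    exact (S.map_fix _).symm
  · rintro ⟨⟨a, rfl⟩, ha⟩
    rw [comm_fbar_iff (p := p) hm] at ha
    obtain ⟨lam, hlam⟩ := ha
    obtain ⟨s, P, hP⟩ := descentS S hm hr hr0 _ hlam
    exact ⟨P, (cbar_eq_of_smul (Q := S.mapS P) hP).symm⟩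

/-- the centraliser of a standard field automorphism in `Inndiag` is `PGSp` of the fixed field. -/
theorem cent_field_S (hm : 1 ≤ m) (S : Sub τ F₀) {r : ℕ} (hr : orderOf τ = r) (hr0 : 0 < r) :
    Nonempty (↥(Cfsg.inndiagPSp m F ⊓ Subgroup.centralizer {fbar τ}) ≃* Cfsg.PGSp m F₀) := by
  have e1 : Cfsg.GSp m F₀ ⧸ (ThetaS (F := F) S).ker ≃* (ThetaS (F := F) S).range :=
    QuotientGroup.quotientKerEquivRange _
  have e2 : (ThetaS (F := F) S).range ≃* ↥(Cfsg.inndiagPSp m F ⊓ Subgroup.centralizer {fbar τ}) :=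
    MulEquiv.subgroupCongr (ThetaS_range (p := p) hm S hr hr0)
  have e3 : Cfsg.GSp m F₀ ⧸ (ThetaS (F := F) S).ker ≃* Cfsg.PGSp m F₀ :=
    QuotientGroup.quotientMulEquivOfEq (ThetaS_ker (p := p) hm S)
  exact ⟨(e2.symm.trans e1.symm).trans e3⟩

/-- multipliers of the stabiliser of a field automorphism -/
theorem mu_stab (S : Sub τ F₀) (hm : 1 ≤ m) {r : ℕ} (hr : orderOf τ = r) (hr0 : 0 < r) :
    ((Subgroup.centralizer {fbar τ}).comap (cbar : GS →* MulAut Gb)).map (muH F hm) =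
      (powMonoidHom 2 : Fˣ →* Fˣ).range ⊔ (Dh τ).ker := by
  apply le_antisymm
  · rintro _ ⟨a, ha, rfl⟩
    have ha' : cbar a * fbar τ = fbar τ * cbar a := Subgroup.mem_centralizer_singleton_iff.1 ha
    obtain ⟨lam, hlam⟩ := (comm_fbar_iff (p := p) hm τ _).1 ha'
    obtain ⟨s, P, hP⟩ := descentS S hm hr hr0 _ hlam
    have e0 : a = dgS s s * S.mapS P := by
      apply Subtype.ext
      apply Units.ext
      change a.1.1 = (dgS s s : GS).1.1 * P.1.1.map S.ι
      rw [dgS_self_val, smul_mul_assoc, one_mul, hP]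
    have e : muH F hm a = s ^ 2 * muH F hm (S.mapS P) := by
      rw [e0, map_mul, muH_apply, mu_dgS hm, sq]
    rw [e]
    refine Subgroup.mul_mem_sup ⟨s, rfl⟩ ?_
    rw [mem_ker_Dh, muH_apply, S.mu_mapS hm]
    exact (S.fix _).2 ⟨_, rfl⟩
  · rw [sup_le_iff]
    constructor
    · rintro _ ⟨u, rfl⟩
      refine ⟨dgS u u, ?_, by rw [muH_apply, mu_dgS hm]; exact (sq u).symm⟩
      change dgS u u ∈ Subgroup.comap _ _
      rw [Subgroup.mem_comap, cbar_of_scalar (gact_dgS_self u)]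
      exact Subgroup.one_mem _
    · intro t ht
      rw [mem_ker_Dh] at ht
      refine ⟨dgS t 1, ?_, by rw [muH_apply, mu_dgS hm, mul_one]⟩
      change _ ∈ Subgroup.comap _ _
      rw [Subgroup.mem_comap, Subgroup.mem_centralizer_singleton_iff, comm_fbar_iff (p := p) hm]
      refine ⟨1, ?_⟩
      rw [one_smul, dgS_val]
      ext i j
      by_cases hij : i = j
      · subst hij
        rcases i with i | i
        · simp [ht]
        · simp
      · simp [hij]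

omit hp hch in
theorem gcd_two_congr {a b : ℕ} (h : a % 2 = b % 2) : Nat.gcd 2 a = Nat.gcd 2 b := by
  rw [Nat.gcd_rec, h, ← Nat.gcd_rec]

omit hch in
theorem gcd_num {f r : ℕ} (hf : 1 ≤ f) (hr0 : 0 < r) (hrf : r ∣ f) :
    Nat.gcd 2 ((p ^ f - 1) / (p ^ (f / r) - 1)) = Nat.gcd (Nat.gcd 2 (p ^ f - 1)) r := by
  have hp2 : 2 ≤ p := hp.out.two_le
  obtain ⟨k, rfl⟩ := hrf
  have hk : 1 ≤ k := by
    rcases Nat.eq_zero_or_pos k with rfl | h
    · omega
    · exact h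
  rw [Nat.mul_div_cancel_left k hr0, mul_comm r k, pow_mul]
  set Q := p ^ k with hQ
  have hQ2 : 2 ≤ Q := le_trans hp2 (Nat.le_self_pow (by omega) p)
  rw [← Nat.geomSum_eq hQ2 r]
  rcases hp.out.eq_two_or_odd with h2 | hodd
  · -- `Q` even
    have hQe : Q % 2 = 0 := by
      rw [hQ, h2]
      obtain ⟨k', rfl⟩ : ∃ k', k = k' + 1 := ⟨k - 1, by omega⟩
      rw [pow_succ]; omega
    have h1 : (∑ i ∈ Finset.range r, Q ^ i) % 2 = 1 % 2 := by
      obtain ⟨r', rfl⟩ : ∃ r', r = r' + 1 := ⟨r - 1, by omega⟩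
      rw [Finset.sum_range_succ', pow_zero]
      have h3 : 2 ∣ ∑ i ∈ Finset.range r', Q ^ (i + 1) := by
        apply Finset.dvd_sum
        intro i _
        rw [pow_succ]
        exact Dvd.dvd.mul_left (Nat.dvd_of_mod_eq_zero hQe) _
      omega
    have h4 : (Q ^ r - 1) % 2 = 1 % 2 := by
      have h5 : Q ^ r % 2 = 0 := by
        obtain ⟨r', rfl⟩ : ∃ r', r = r' + 1 := ⟨r - 1, by omega⟩
        rw [pow_succ, Nat.mul_mod, hQe]
        simp
      have h6 : 0 < Q ^ r := by positivity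
      omega
    rw [gcd_two_congr h1, gcd_two_congr h4]
    simp
  · have hQo : Q % 2 = 1 := by
      rw [hQ, Nat.pow_mod, hodd, one_pow]; rfl
    have h1 : ∀ n, (∑ i ∈ Finset.range n, Q ^ i) % 2 = n % 2 := by
      intro n
      induction n with
      | zero => simp
      | succ n ih =>
        rw [Finset.sum_range_succ, Nat.add_mod, ih, Nat.pow_mod, hQo, one_pow]
        omega
    have h4 : (Q ^ r - 1) % 2 = 0 % 2 := by
      have h5 : Q ^ r % 2 = 1 := by rw [Nat.pow_mod, hQo, one_pow]; rfl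
      omega
    rw [gcd_two_congr (h1 r), gcd_two_congr h4]
    simp

/-- the number of `Inn`-classes in the `Inndiag`-class of a standard field automorphism -/
theorem split_field_S [Fintype F] {f : ℕ} (hF : Fintype.card F = p ^ f) (hf : 1 ≤ f) (S : Sub τ F₀) (hm : 1 ≤ m)
    {r : ℕ} (hr : orderOf τ = r) (hr0 : 0 < r) :
    Cfsg.splitClassCount (Cfsg.inndiagPSp m F) (Cfsg.Inn Gb) (fbar τ) = Nat.gcd (Nat.gcd 2 (p ^ f - 1)) r := by
  rw [inndiag_eq, inn_eq hm, split_count (cbar : GS →* MulAut Gb) (muH F hm) (muH_surj hm),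
    mu_stab (p := p) S hm hr hr0, index_pow_sup, PSLn.index_ker_Dh hF τ hr,
    gcd_num (p := p) hf hr0 (card_fixF hF τ hr).1]

/-- subfield data from a field of the right cardinality -/
theorem exists_sub [Fintype F] {f r : ℕ} (hF : Fintype.card F = p ^ f) (τ : RingAut F) (hr : orderOf τ = r)
    (F₀ : Type*) [Field F₀] [Fintype F₀] (hF₀ : Fintype.card F₀ = p ^ (f / r)) : Nonempty (Sub τ F₀) := by
  classical
  obtain ⟨hdvd, hcard⟩ := card_fixF hF τ hr
  have : Fintype (fixF τ) := Fintype.ofFinite _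
  have hcc : Fintype.card F₀ = Fintype.card (fixF τ) := by
    rw [hF₀, ← hcard, Nat.card_eq_fintype_card]
  let e : F₀ ≃+* fixF τ := FiniteField.ringEquivOfCardEq hcc
  let ι : F₀ →+* F := (fixF τ).subtype.comp (e : F₀ →+* fixF τ)
  refine ⟨⟨ι, ?_⟩⟩
  intro y
  constructor
  · intro hy
    refine ⟨e.symm ⟨y, (mem_fixF _ _).2 hy⟩, ?_⟩
    change ((e (e.symm ⟨y, _⟩) : fixF τ) : F) = y
    rw [RingEquiv.apply_symm_apply]
  · rintro ⟨t, rfl⟩
    exact (mem_fixF _ _).1 (e t).2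

/-- the full statement for a conjugate of a standard field automorphism -/
theorem field_main [Fintype F] {f : ℕ} (hF : Fintype.card F = p ^ f) (hf : 1 ≤ f) (hm : 2 ≤ m) (τ : RingAut F)
    {r : ℕ} (hr0 : 0 < r) (α x : MulAut Gb) (hα : α * x * α⁻¹ = fbar τ) (hxr : orderOf x = r)
    (F₀ : Type*) [Field F₀] [Fintype F₀] (hF₀ : Fintype.card F₀ = p ^ (f / r)) :
    r ∣ f ∧ Nonempty (↥(Cfsg.inndiagPSp m F ⊓ Subgroup.centralizer {x}) ≃* Cfsg.PGSp m F₀) ∧
      Cfsg.splitClassCount (Cfsg.inndiagPSp m F) (Cfsg.Inn Gb) x = Nat.gcd (Nat.gcd 2 (p ^ f - 1)) r := by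
  have hord : orderOf τ = r := by
    rw [← hxr, ← orderOf_fbar (p := p) (m := m) (by omega), ← hα, PSLn.orderOf_conj']
  obtain ⟨S⟩ := exists_sub (p := p) hF τ hord F₀ hF₀
  refine ⟨(card_fixF hF τ hord).1, ?_, ?_⟩
  · obtain ⟨e⟩ := cent_field_S (p := p) (m := m) (by omega) S hord hr0
    have e' := centConj (Cfsg.inndiagPSp m F) α (inndiag_conj (p := p) hm α) x
    rw [hα] at e'
    exact ⟨e'.trans e⟩
  · rw [splitClassCount_conj _ _ α (inndiag_conj (p := p) hm α) (inn_conj α), hα]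
    exact split_field_S (p := p) hF hf S (by omega) hord hr0

end Cfsg.Agent.Lib.Helper4.PSp
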