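import Mathlib
import Cfsg.Prelude.Def_Classical

namespace Cfsg.Agent.Lib.Helper4.QuadCount

variable {F : Type*} [Field F]

theorem card_fiber_dot [Fintype F] [DecidableEq F] {k : ℕ} (x : Fin k → F) (hx : x ≠ 0) (t : F) :
    Fintype.card {y : Fin k → F // x ⬝ᵥ y = t} = Fintype.card F ^ (k - 1) := by
  classical
  let φ : (Fin k → F) →ₗ[F] F := dotProductBilin F F x
  have hφ : ∀ y, φ y = x ⬝ᵥ y := fun y => rfl
  obtain ⟨i, hi⟩ : ∃ i, x i ≠ 0 := by
    by_contra h
    push Not at h
    exact hx (funext h)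
  have hsurj : Function.Surjective φ := by
    intro a
    refine ⟨Pi.single i (a / x i), ?_⟩
    rw [hφ, dotProduct_single]
    field_simp
  obtain ⟨y₀, hy₀⟩ := hsurj t
  have e : {y : Fin k → F // x ⬝ᵥ y = t} ≃ LinearMap.ker φ :=
    { toFun := fun y => ⟨y.1 - y₀, by rw [LinearMap.mem_ker, map_sub, hy₀, hφ, y.2, sub_self]⟩
      invFun := fun z => ⟨z.1 + y₀, by rw [← hφ, map_add, hy₀, LinearMap.mem_ker.1 z.2, zero_add]⟩
      left_inv := fun y => by simp
      right_inv := fun z => by simp }
  rw [Fintype.card_congr e, Module.card_eq_pow_finrank (K := F)]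
  congr 1
  have := LinearMap.finrank_range_add_finrank_ker φ
  rw [LinearMap.range_eq_top.2 hsurj, finrank_top, Module.finrank_self, Module.finrank_fin_fun] at this
  omega

theorem card_zeros_hyp_add [Fintype F] [DecidableEq F] {A : Type*} [Fintype A] (k : ℕ) (c : A → F) :
    Fintype.card {p : ((Fin k → F) × (Fin k → F)) × A // p.1.1 ⬝ᵥ p.1.2 + c p.2 = 0}
      = Fintype.card A * (Fintype.card F ^ k - 1) * Fintype.card F ^ (k - 1)
        + Fintype.card {a // c a = 0} * Fintype.card F ^ k := by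
  classical
  rw [Fintype.card_subtype, Finset.card_filter, Fintype.sum_prod_type, Fintype.sum_prod_type]
  simp only
  have inner : ∀ (x : Fin k → F) (a : A), (∑ y : Fin k → F, if x ⬝ᵥ y + c a = 0 then 1 else 0)
      = if x = 0 then (if c a = 0 then Fintype.card F ^ k else 0) else Fintype.card F ^ (k - 1) := by
    intro x a
    rw [← Finset.card_filter, ← Fintype.card_subtype]
    split_ifs with hx hc
    · subst hx
      simp [hc]
    · subst hx
      simp [hc]
    · rw [← card_fiber_dot x hx (-c a)]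
      apply Fintype.card_congr
      exact Equiv.subtypeEquivRight (fun y => by rw [add_eq_zero_iff_eq_neg])
  have step : ∀ x : Fin k → F, (∑ y : Fin k → F, ∑ a : A, if x ⬝ᵥ y + c a = 0 then 1 else 0)
      = if x = 0 then Fintype.card {a // c a = 0} * Fintype.card F ^ k
        else Fintype.card A * Fintype.card F ^ (k - 1) := by
    intro x
    rw [Finset.sum_comm]
    simp only [inner]
    split_ifs with hx
    · rw [← Finset.sum_filter, Finset.sum_const, Fintype.card_subtype, smul_eq_mul]
    · rw [Finset.sum_const, Finset.card_univ, smul_eq_mul]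
  simp only [step]
  rw [Finset.sum_ite, Finset.sum_const, Finset.sum_const, Finset.filter_eq' , if_pos (Finset.mem_univ _),
    Finset.card_singleton, Finset.filter_ne' , Finset.card_erase_of_mem (Finset.mem_univ _), Finset.card_univ]
  simp only [Fintype.card_pi, Finset.prod_const, Finset.card_univ, Fintype.card_fin, smul_eq_mul, one_mul]
  ring

theorem card_plus [Fintype F] (m : ℕ) :
    Nat.card {v : Fin m ⊕ Fin m → F // Cfsg.quadFormPlus m F v = 0}
      = (Fintype.card F ^ m - 1) * Fintype.card F ^ (m - 1) + Fintype.card F ^ m := by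
  classical
  have h := card_zeros_hyp_add (F := F) (A := Unit) m (fun _ => 0)
  simp only [Fintype.card_unit, one_mul, Fintype.card_subtype, Finset.filter_true, Finset.card_univ] at h
  rw [← h, ← Fintype.card_subtype, Nat.card_eq_fintype_card]
  apply Fintype.card_congr
  refine Equiv.subtypeEquiv ((Equiv.sumArrowEquivProdArrow _ _ _).trans (Equiv.prodPUnit _).symm) ?_
  intro v
  simp [Cfsg.quadFormPlus, dotProduct, Equiv.sumArrowEquivProdArrow]

theorem card_minus [Fintype F] (k : ℕ) (a b : F)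
    (hab : ∀ z₁ z₂ : F, z₁ ^ 2 + a * z₁ * z₂ + b * z₂ ^ 2 = 0 → z₁ = 0 ∧ z₂ = 0) :
    Nat.card {v : (Fin k ⊕ Fin k) ⊕ Fin 2 → F // Cfsg.quadFormMinus k F a b v = 0}
      = Fintype.card F ^ 2 * (Fintype.card F ^ k - 1) * Fintype.card F ^ (k - 1) + Fintype.card F ^ k := by
  classical
  have h := card_zeros_hyp_add (F := F) (A := Fin 2 → F) k (fun z => z 0 ^ 2 + a * z 0 * z 1 + b * z 1 ^ 2)
  have h1 : Fintype.card {z : Fin 2 → F // z 0 ^ 2 + a * z 0 * z 1 + b * z 1 ^ 2 = 0} = 1 := by
    rw [Fintype.card_eq_one_iff]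
    refine ⟨⟨0, by simp⟩, ?_⟩
    rintro ⟨z, hz⟩
    obtain ⟨h0, h1⟩ := hab _ _ hz
    apply Subtype.ext
    funext i; fin_cases i
    · exact h0
    · exact h1
  rw [h1, one_mul] at h
  simp only [Fintype.card_pi, Finset.prod_const, Finset.card_univ, Fintype.card_fin] at h
  rw [← h, Nat.card_eq_fintype_card]
  apply Fintype.card_congr
  refine Equiv.subtypeEquiv ((Equiv.sumArrowEquivProdArrow _ _ _).trans
    (Equiv.prodCongr (Equiv.sumArrowEquivProdArrow _ _ _) (Equiv.refl _))) ?_
  intro v
  simp [Cfsg.quadFormMinus, dotProduct, Equiv.sumArrowEquivProdArrow]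

theorem card_odd [Fintype F] (m : ℕ) :
    Nat.card {v : Unit ⊕ (Fin m ⊕ Fin m) → F // Cfsg.quadFormOdd m F v = 0}
      = Fintype.card F * (Fintype.card F ^ m - 1) * Fintype.card F ^ (m - 1) + Fintype.card F ^ m := by
  classical
  have h := card_zeros_hyp_add (F := F) (A := Unit → F) m (fun z => z () ^ 2)
  have h1 : Fintype.card {z : Unit → F // z () ^ 2 = 0} = 1 := by
    rw [Fintype.card_eq_one_iff]
    refine ⟨⟨0, by simp⟩, ?_⟩
    rintro ⟨z, hz⟩
    apply Subtype.ext
    funext i
    exact pow_eq_zero_iff (two_ne_zero) |>.1 hz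
  rw [h1, one_mul] at h
  simp only [Fintype.card_pi, Finset.prod_const, Finset.card_univ, Fintype.card_unit, pow_one] at h
  rw [← h, Nat.card_eq_fintype_card]
  apply Fintype.card_congr
  refine Equiv.subtypeEquiv ((Equiv.sumArrowEquivProdArrow _ _ _).trans
    ((Equiv.prodCongr (Equiv.refl _) (Equiv.sumArrowEquivProdArrow _ _ _)).trans (Equiv.prodComm _ _))) ?_
  intro v
  simp [Cfsg.quadFormOdd, dotProduct, Equiv.sumArrowEquivProdArrow, add_comm]

end Cfsg.Agent.Lib.Helper4.QuadCount
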