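import Mathlib
import Cfsg.Agent.Lib.Helper4.QuadFin

namespace Cfsg.Agent.Lib.Helper4.QuadFin

open QuadraticMap

variable {F V : Type*} [Field F] [AddCommGroup V] [Module F V]

/-- The orthogonal complement of a vector. -/
def perp1 (Q : QuadraticForm F V) (u : V) : Submodule F V := LinearMap.ker (polarBilin Q u)

theorem mem_perp1 {Q : QuadraticForm F V} {u v : V} : v ∈ perp1 Q u ↔ polar Q u v = 0 := by
  simp [perp1]

theorem finrank_perp1 [FiniteDimensional F V] {Q : QuadraticForm F V} {u : V} (h : polar Q u u ≠ 0) :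
    Module.finrank F (perp1 Q u) + 1 = Module.finrank F V := by
  have hsurj : LinearMap.range (polarBilin Q u) = ⊤ := by
    rw [LinearMap.range_eq_top]
    intro a
    refine ⟨(a / polar Q u u) • u, ?_⟩
    rw [polarBilin_apply_apply, polar_smul_r]
    field_simp
  have := LinearMap.finrank_range_add_finrank_ker (polarBilin Q u)
  rw [hsurj, finrank_top, Module.finrank_self] at this
  unfold perp1
  omega

theorem nd_perp1 {Q : QuadraticForm F V} (hQ : ND Q) {u : V} (h : polar Q u u ≠ 0) :
    ND (Q.comp (perp1 Q u).subtype) := by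
  intro w hw
  apply Subtype.ext
  apply hQ
  intro v
  have hmem : v + (-(polar Q u v / polar Q u u)) • u ∈ perp1 Q u := by
    rw [mem_perp1, polar_add_r, polar_smul_r]
    field_simp
    ring
  have h1 := hw ⟨_, hmem⟩
  have h2 : polar Q (w : V) (v + (-(polar Q u v / polar Q u u)) • u) = 0 := h1
  have h3 := mem_perp1.1 w.2
  rw [polar_add_r, polar_smul_r, polar_comm Q (w : V) u, h3] at h2
  simpa using h2

theorem exists_normal [Finite F] (h2 : (2 : F) ≠ 0) (n : ℕ) :
    ∀ (V : Type _) [AddCommGroup V] [Module F V] [FiniteDimensional F V] (Q : QuadraticForm F V) (_ : ND Q)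
      (_ : Module.finrank F V = n + 1),
    ∃ (v : Fin (n + 1) → V) (δ : F), δ ≠ 0 ∧ (∀ i j, i ≠ j → polar Q (v i) (v j) = 0) ∧
      (∀ i, Q (v i) = if i = Fin.last n then δ else 1) := by
  induction n with
  | zero =>
    intro V _ _ _ Q hQ hn
    have : Nontrivial V := Module.nontrivial_of_finrank_pos (R := F) (by omega)
    obtain ⟨x, hx⟩ := exists_ne (0 : V)
    refine ⟨fun _ => x, Q x, ?_, ?_, ?_⟩
    · intro hq
      apply hx
      apply hQ
      intro w
      obtain ⟨c, rfl⟩ := exists_smul_eq_of_finrank_eq_one (by simpa using hn) hx w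
      rw [polar_smul_r, polar_self', hq]; ring
    · intro i j hij
      exact absurd (Fin.ext (by omega)) hij
    · intro i
      rw [if_pos (Fin.ext (by simp))]
  | succ n ih =>
    intro V _ _ _ Q hQ hn
    obtain ⟨u, hu⟩ := represents hQ (by omega) 1
    have huu : polar Q u u ≠ 0 := by rw [polar_self', hu]; simpa using h2
    have hfr := finrank_perp1 huu
    obtain ⟨v', δ, hδ, horth, hval⟩ := ih (perp1 Q u) (Q.comp (perp1 Q u).subtype) (nd_perp1 hQ huu) (by omega)
    refine ⟨Fin.cons u (fun i => (v' i : V)), δ, hδ, ?_, ?_⟩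
    · intro i j
      refine Fin.cases ?_ (fun i => ?_) i <;> refine Fin.cases ?_ (fun j => ?_) j
      · intro h; exact absurd rfl h
      · intro _; simpa using mem_perp1.1 (v' j).2
      · intro _; rw [polar_comm]; simpa using mem_perp1.1 (v' i).2
      · intro h
        have := horth i j (fun h' => h (by rw [h']))
        simpa [polar_comp_subtype] using this
    · intro i
      refine Fin.cases ?_ (fun i => ?_) i
      · rw [if_neg (by simp [Fin.ext_iff])]
        simpa using hu
      · have := hval i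
        simp only [Fin.cons_succ]
        simp only [← Fin.succ_last, Fin.succ_inj]
        exact this

theorem li_of_orth (h2 : (2 : F) ≠ 0) {Q : QuadraticForm F V} {ι : Type*} [Fintype ι] (v : ι → V)
    (horth : ∀ i j, i ≠ j → polar Q (v i) (v j) = 0) (hne : ∀ i, Q (v i) ≠ 0) : LinearIndependent F v := by
  classical
  rw [Fintype.linearIndependent_iff]
  intro g hg j
  have := congrArg (fun w => polarBilin Q (v j) w) hg
  simp only [map_sum, map_smul, polarBilin_apply_apply, smul_eq_mul, map_zero] at this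
  rw [Finset.sum_eq_single j (fun i _ hij => by rw [horth j i (Ne.symm hij), mul_zero]) (by simp),
    polar_self'] at this
  rcases mul_eq_zero.1 this with h | h
  · exact h
  · exact absurd h (mul_ne_zero h2 (hne j))

theorem exists_normal_basis [Finite F] [FiniteDimensional F V] (h2 : (2 : F) ≠ 0) {n : ℕ}
    (Q : QuadraticForm F V) (hQ : ND Q) (hn : Module.finrank F V = n + 1) :
    ∃ (b : Module.Basis (Fin (n + 1)) F V) (δ : F), δ ≠ 0 ∧ (∀ i j, i ≠ j → polar Q (b i) (b j) = 0) ∧
      (∀ i, Q (b i) = if i = Fin.last n then δ else 1) := by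
  obtain ⟨v, δ, hδ, horth, hval⟩ := exists_normal h2 n V Q hQ hn
  have hli : LinearIndependent F v := li_of_orth h2 v horth (by
    intro i; rw [hval]; split_ifs
    · exact hδ
    · exact one_ne_zero)
  let b := basisOfLinearIndependentOfCardEqFinrank hli (by simp [hn])
  have hb : ⇑b = v := coe_basisOfLinearIndependentOfCardEqFinrank _ _
  exact ⟨b, δ, hδ, by rw [hb]; exact horth, by rw [hb]; exact hval⟩

theorem constr_isometry {V' : Type*} [AddCommGroup V'] [Module F V'] {ι : Type*} (b : Module.Basis ι F V)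
    (Q : QuadraticForm F V) (Q' : QuadraticForm F V') (t : ι → V')
    (h1 : ∀ i, Q' (t i) = Q (b i)) (h2 : ∀ i j, polar Q' (t i) (t j) = polar Q (b i) (b j)) (v : V) :
    Q' (b.constr F t v) = Q v := by
  have key : Q'.comp (b.constr F t) = Q := by
    apply ext_basis b
    · intro i
      simp only [comp_apply, Module.Basis.constr_basis]
      exact h1 i
    · intro i j
      have e1 : polar (Q'.comp (b.constr F t)) (b i) (b j) = polar Q' (b.constr F t (b i)) (b.constr F t (b j)) := by
        simp [polar]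
      rw [e1, Module.Basis.constr_basis, Module.Basis.constr_basis]
      exact h2 i j
  have := congrArg (fun q => q v) key
  simpa using this

theorem isometry_equiv [FiniteDimensional F V] {Q Q' : QuadraticForm F V} (hQ : ND Q) (g : V →ₗ[F] V)
    (hg : ∀ v, Q' (g v) = Q v) : ∃ g' : V ≃ₗ[F] V, ∀ v, g' v = g v := by
  have hinj : Function.Injective g := by
    rw [← LinearMap.ker_eq_bot, LinearMap.ker_eq_bot']
    intro u hu
    apply hQ
    intro w
    have h1 : polar Q' (g u) (g w) = polar Q u w := by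
      unfold polar
      rw [← map_add, hg, hg, hg]
    rw [hu] at h1
    rw [← h1]; simp
  exact ⟨LinearEquiv.ofInjectiveEndo g hinj, fun v => rfl⟩

/-- Gram determinant in a normal basis. -/
theorem det_normal {n : ℕ} {Q : QuadraticForm F V} (b : Module.Basis (Fin (n + 1)) F V) (δ : F)
    (horth : ∀ i j, i ≠ j → polar Q (b i) (b j) = 0) (hval : ∀ i, Q (b i) = if i = Fin.last n then δ else 1) :
    (LinearMap.BilinForm.toMatrix b (polarBilin Q)).det = 2 ^ (n + 1) * δ := by
  have : LinearMap.BilinForm.toMatrix b (polarBilin Q) =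
      Matrix.diagonal (fun i => 2 * (if i = Fin.last n then δ else 1)) := by
    ext i j
    rw [LinearMap.BilinForm.toMatrix_apply, polarBilin_apply_apply]
    by_cases hij : i = j
    · subst hij
      rw [Matrix.diagonal_apply_eq, polar_self', hval]
    · rw [Matrix.diagonal_apply_ne _ hij, horth i j hij]
  rw [this, Matrix.det_diagonal, Finset.prod_mul_distrib, Finset.prod_const, Finset.card_univ, Fintype.card_fin,
    Finset.prod_ite_eq' Finset.univ (Fin.last n) (fun _ => δ)]
  simp

theorem det_gram_change {ι : Type*} [Fintype ι] [DecidableEq ι] (B : LinearMap.BilinForm F V)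
    (b c : Module.Basis ι F V) :
    (LinearMap.BilinForm.toMatrix c B).det = (b.toMatrix c).det ^ 2 * (LinearMap.BilinForm.toMatrix b B).det := by
  rw [← LinearMap.BilinForm.toMatrix_mul_basis_toMatrix b c B, Matrix.det_mul, Matrix.det_mul,
    Matrix.det_transpose]
  ring

theorem det_toMatrix_ne_zero {ι : Type*} [Fintype ι] [DecidableEq ι] (b c : Module.Basis ι F V) :
    (b.toMatrix c).det ≠ 0 := by
  intro h
  have := congrArg Matrix.det (Module.Basis.toMatrix_mul_toMatrix_flip b c)
  rw [Matrix.det_mul, h, zero_mul, Matrix.det_one] at this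
  exact zero_ne_one this

theorem isometric_of_isSquare [Finite F] (h2 : (2 : F) ≠ 0) {n : ℕ} (Q₁ Q₂ : QuadraticForm F (Fin n → F))
    (h₁ : ND Q₁) (h₂ : ND Q₂)
    (hsq : IsSquare ((LinearMap.BilinForm.toMatrix' (polarBilin Q₁)).det *
      (LinearMap.BilinForm.toMatrix' (polarBilin Q₂)).det)) :
    ∃ g : (Fin n → F) ≃ₗ[F] (Fin n → F), ∀ v, Q₂ (g v) = Q₁ v := by
  classical
  cases n with
  | zero =>
    refine ⟨LinearEquiv.refl _ _, fun v => ?_⟩
    rw [LinearEquiv.refl_apply, Subsingleton.elim v 0, map_zero, map_zero]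
  | succ n =>
    obtain ⟨b₁, δ₁, hδ₁, ho₁, hv₁⟩ := exists_normal_basis h2 Q₁ h₁ (n := n) (by simp)
    obtain ⟨b₂, δ₂, hδ₂, ho₂, hv₂⟩ := exists_normal_basis h2 Q₂ h₂ (n := n) (by simp)
    have e₁ := det_gram_change (polarBilin Q₁) (Pi.basisFun F (Fin (n + 1))) b₁
    have e₂ := det_gram_change (polarBilin Q₂) (Pi.basisFun F (Fin (n + 1))) b₂
    rw [det_normal b₁ δ₁ ho₁ hv₁, LinearMap.BilinForm.toMatrix_basisFun] at e₁
    rw [det_normal b₂ δ₂ ho₂ hv₂, LinearMap.BilinForm.toMatrix_basisFun] at e₂
    obtain ⟨s, hs⟩ := hsq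
    set p₁ := ((Pi.basisFun F (Fin (n + 1))).toMatrix b₁).det
    set p₂ := ((Pi.basisFun F (Fin (n + 1))).toMatrix b₂).det
    have h2n : (2 : F) ^ (n + 1) ≠ 0 := pow_ne_zero _ h2
    obtain ⟨r, hrr⟩ : ∃ r, δ₁ * δ₂ = r * r := by
      refine ⟨p₁ * p₂ * s / 2 ^ (n + 1), ?_⟩
      have e := congrArg₂ (· * ·) e₁ e₂
      field_simp
      linear_combination e + p₁ ^ 2 * p₂ ^ 2 * hs
    have hr0 : r ≠ 0 := by
      rintro h0
      rw [h0, mul_zero] at hrr
      exact (mul_ne_zero hδ₁ hδ₂) hrr
    let t : Fin (n + 1) → (Fin (n + 1) → F) := fun i => (if i = Fin.last n then δ₁ / r else 1) • b₂ i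
    have hg := constr_isometry b₁ Q₁ Q₂ t (by
      intro i
      simp only [t]
      rw [map_smul', hv₁, hv₂]
      split_ifs
      · field_simp
        linear_combination hrr
      · ring) (by
      intro i j
      simp only [t]
      rw [polar_smul_l, polar_smul_r]
      by_cases hij : i = j
      · subst hij
        rw [polar_self', polar_self', hv₁, hv₂]
        split_ifs
        · field_simp
          linear_combination hrr
        · ring
      · rw [ho₁ i j hij, ho₂ i j hij]; ring)
    obtain ⟨g', hg'⟩ := isometry_equiv h₁ _ hg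
    exact ⟨g', fun v => by rw [hg', hg]⟩

theorem isSquare_of_isometric {n : ℕ} (Q₁ Q₂ : QuadraticForm F (Fin n → F))
    (g : (Fin n → F) →ₗ[F] (Fin n → F)) (c : F) (hg : ∀ v, Q₂ (g v) = c * Q₁ v) :
    c ^ n * (LinearMap.BilinForm.toMatrix' (polarBilin Q₁)).det =
      (LinearMap.toMatrix' g).det ^ 2 * (LinearMap.BilinForm.toMatrix' (polarBilin Q₂)).det := by
  have h : c • polarBilin Q₁ = LinearMap.BilinForm.comp (polarBilin Q₂) g g := by
    apply LinearMap.ext; intro x
    apply LinearMap.ext; intro y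
    rw [LinearMap.BilinForm.comp_apply, LinearMap.smul_apply, LinearMap.smul_apply, polarBilin_apply_apply,
      polarBilin_apply_apply, smul_eq_mul]
    unfold polar
    rw [← map_add, hg, hg, hg]; ring
  have h' := congrArg (fun B => (LinearMap.BilinForm.toMatrix' B).det) h
  simp only [map_smul, LinearMap.BilinForm.toMatrix'_comp, Matrix.det_mul, Matrix.det_transpose,
    Matrix.det_smul, Fintype.card_fin] at h'
  rw [h']; ring

theorem gram_eq {ι : Type*} [Fintype ι] [DecidableEq ι] (Q : QuadraticForm F (ι → F)) :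
    Matrix.of (fun i j : ι => polar Q (Pi.single i 1) (Pi.single j 1)) =
      LinearMap.BilinForm.toMatrix' (polarBilin Q) := by
  ext i j
  rw [LinearMap.BilinForm.toMatrix'_apply]; rfl

theorem det_ne_zero_of_nondegenerate {ι : Type*} [Fintype ι] [DecidableEq ι] {Q : QuadraticForm F (ι → F)}
    (h : (polarBilin Q).Nondegenerate) : (LinearMap.BilinForm.toMatrix' (polarBilin Q)).det ≠ 0 := by
  rw [← LinearMap.BilinForm.toMatrix_basisFun]
  exact (LinearMap.BilinForm.nondegenerate_iff_det_ne_zero _).1 h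

end Cfsg.Agent.Lib.Helper4.QuadFin
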