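import Mathlib
import Cfsg.Prelude.Def_Classical

namespace Cfsg.Agent.Lib.Helper4.QuadTS

variable {F : Type*} [Field F]

theorem finrank_add_le_of_dot_orth {k : ℕ} (S R : Submodule F (Fin k → F))
    (h : ∀ s ∈ S, ∀ r ∈ R, s ⬝ᵥ r = 0) : Module.finrank F S + Module.finrank F R ≤ k := by
  let B : LinearMap.BilinForm F (Fin k → F) := Matrix.toBilin' 1
  have hB : ∀ x y, B x y = x ⬝ᵥ y := fun x y => by
    rw [Matrix.toBilin'_apply', Matrix.one_mulVec]
  have hnd : B.Nondegenerate := LinearMap.BilinForm.nondegenerate_toBilin'_of_det_ne_zero' 1 (by simp)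
  have hle : R ≤ B.orthogonal S := by
    intro r hr s hs
    change B s r = 0
    rw [hB]; exact h s hs r hr
  have h1 := Submodule.finrank_mono hle
  rw [LinearMap.BilinForm.finrank_orthogonal hnd, Module.finrank_fin_fun] at h1
  have h2 : Module.finrank F S ≤ k := by
    have := Submodule.finrank_le S
    rwa [Module.finrank_fin_fun] at this
  omega

theorem finrank_le_of_ts {V : Type*} [AddCommGroup V] [Module F V] [FiniteDimensional F V] {k : ℕ}
    (U : Submodule F V) (px py : V →ₗ[F] (Fin k → F))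
    (h1 : ∀ v ∈ U, py v = 0 → px v = 0 → v = 0)
    (h2 : ∀ u ∈ U, ∀ v ∈ U, py v = 0 → px v ⬝ᵥ py u = 0) : Module.finrank F U ≤ k := by
  let π : U →ₗ[F] (Fin k → F) := py.domRestrict U
  let σ : LinearMap.ker π →ₗ[F] (Fin k → F) := (px.domRestrict U).domRestrict (LinearMap.ker π)
  have hσ : Function.Injective σ := by
    rw [← LinearMap.ker_eq_bot, LinearMap.ker_eq_bot']
    rintro ⟨⟨v, hv⟩, hk⟩ hs
    have hk' : py v = 0 := hk
    have hs' : px v = 0 := hs
    have := h1 v hv hk' hs'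
    subst this
    rfl
  have e1 := LinearMap.finrank_range_of_inj hσ
  have e2 := LinearMap.finrank_range_add_finrank_ker π
  have e3 := finrank_add_le_of_dot_orth (LinearMap.range σ) (LinearMap.range π) (by
    rintro _ ⟨⟨⟨v, hv⟩, hk⟩, rfl⟩ _ ⟨⟨u, hu⟩, rfl⟩
    exact h2 u hu v hv hk)
  omega

/-- `x`-coordinates and `y`-coordinates on `F^(2m)`. -/
def pX (F : Type*) [Field F] (m : ℕ) : (Fin m ⊕ Fin m → F) →ₗ[F] (Fin m → F) := LinearMap.funLeft F F Sum.inl
def pY (F : Type*) [Field F] (m : ℕ) : (Fin m ⊕ Fin m → F) →ₗ[F] (Fin m → F) := LinearMap.funLeft F F Sum.inr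

theorem pX_apply (m : ℕ) (v : Fin m ⊕ Fin m → F) (i : Fin m) : pX F m v i = v (Sum.inl i) := rfl
theorem pY_apply (m : ℕ) (v : Fin m ⊕ Fin m → F) (i : Fin m) : pY F m v i = v (Sum.inr i) := rfl

theorem plus_eq (m : ℕ) (v : Fin m ⊕ Fin m → F) : Cfsg.quadFormPlus m F v = pX F m v ⬝ᵥ pY F m v := rfl

theorem plus_add (m : ℕ) (u v : Fin m ⊕ Fin m → F) :
    Cfsg.quadFormPlus m F (u + v) = Cfsg.quadFormPlus m F u + Cfsg.quadFormPlus m F v
      + (pX F m u ⬝ᵥ pY F m v + pX F m v ⬝ᵥ pY F m u) := by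
  simp only [plus_eq, map_add, add_dotProduct, dotProduct_add]
  ring

theorem ts_plus_le (m : ℕ) (U : Submodule F (Fin m ⊕ Fin m → F))
    (hU : ∀ u ∈ U, Cfsg.quadFormPlus m F u = 0) : Module.finrank F U ≤ m := by
  apply finrank_le_of_ts U (pX F m) (pY F m)
  · intro v _ hy hx
    funext i
    rcases i with i | i
    · exact congrFun hx i
    · exact congrFun hy i
  · intro u hu v hv hy
    have := plus_add m u v
    rw [hU _ (U.add_mem hu hv), hU u hu, hU v hv, hy] at this
    simpa using this.symm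

theorem finrank_ker_pY (m : ℕ) : Module.finrank F (LinearMap.ker (pY F m)) = m := by
  have hs : LinearMap.range (pY F m) = ⊤ :=
    LinearMap.range_eq_top.2 (LinearMap.funLeft_surjective_of_injective F F _ Sum.inr_injective)
  have := LinearMap.finrank_range_add_finrank_ker (pY F m)
  rw [hs, finrank_top, Module.finrank_fin_fun, Module.finrank_fintype_fun_eq_card] at this
  simp at this
  omega

theorem plus_ker_pY (m : ℕ) (v : Fin m ⊕ Fin m → F) (hv : v ∈ LinearMap.ker (pY F m)) :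
    Cfsg.quadFormPlus m F v = 0 := by
  rw [plus_eq, LinearMap.mem_ker.1 hv, dotProduct_zero]

/-- coordinates for the minus-type space -/
def qH (F : Type*) [Field F] (k : ℕ) : ((Fin k ⊕ Fin k) ⊕ Fin 2 → F) →ₗ[F] (Fin k ⊕ Fin k → F) :=
  LinearMap.funLeft F F Sum.inl
def qZ (F : Type*) [Field F] (k : ℕ) : ((Fin k ⊕ Fin k) ⊕ Fin 2 → F) →ₗ[F] (Fin 2 → F) :=
  LinearMap.funLeft F F Sum.inr

theorem minus_eq (k : ℕ) (a b : F) (v : (Fin k ⊕ Fin k) ⊕ Fin 2 → F) :
    Cfsg.quadFormMinus k F a b v = Cfsg.quadFormPlus k F (qH F k v)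
      + (qZ F k v 0 ^ 2 + a * qZ F k v 0 * qZ F k v 1 + b * qZ F k v 1 ^ 2) := rfl

theorem ts_minus_le (k : ℕ) (a b : F)
    (hab : ∀ z₁ z₂ : F, z₁ ^ 2 + a * z₁ * z₂ + b * z₂ ^ 2 = 0 → z₁ = 0 ∧ z₂ = 0)
    (U : Submodule F ((Fin k ⊕ Fin k) ⊕ Fin 2 → F))
    (hU : ∀ u ∈ U, Cfsg.quadFormMinus k F a b u = 0) : Module.finrank F U ≤ k := by
  have hz : ∀ v ∈ U, pY F k (qH F k v) = 0 → qZ F k v = 0 := by
    intro v hv hy
    have := hU v hv
    rw [minus_eq, plus_eq, hy, dotProduct_zero, zero_add] at this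
    obtain ⟨h0, h1⟩ := hab _ _ this
    funext i; fin_cases i
    · exact h0
    · exact h1
  apply finrank_le_of_ts U ((pX F k).comp (qH F k)) ((pY F k).comp (qH F k))
  · intro v hv hy hx
    have hz' := hz v hv hy
    funext i
    rcases i with (i | i) | i
    · exact congrFun hx i
    · exact congrFun hy i
    · exact congrFun hz' i
  · intro u hu v hv hy
    have hz' := hz v hv hy
    have h1 := hU _ (U.add_mem hu hv)
    have h2 := hU u hu
    have h3 := hU v hv
    rw [minus_eq] at h1 h2 h3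
    rw [map_add, map_add, plus_add, hz', add_zero] at h1
    have hy' : pY F k (qH F k v) = 0 := hy
    rw [hy', dotProduct_zero, zero_add] at h1
    rw [hz'] at h3
    simp only [Pi.zero_apply] at h3
    simp only [LinearMap.comp_apply]
    linear_combination h1 - h2 - h3

theorem finrank_minus_std (k : ℕ) :
    Module.finrank F (LinearMap.ker (((pY F k).comp (qH F k)).prod (qZ F k))) = k := by
  have hs : LinearMap.range (((pY F k).comp (qH F k)).prod (qZ F k)) = ⊤ := by
    rw [LinearMap.range_eq_top]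
    rintro ⟨y, z⟩
    refine ⟨Sum.elim (Sum.elim 0 y) z, ?_⟩
    rfl
  have := LinearMap.finrank_range_add_finrank_ker (((pY F k).comp (qH F k)).prod (qZ F k))
  rw [hs, finrank_top, Module.finrank_prod, Module.finrank_fin_fun, Module.finrank_fin_fun,
    Module.finrank_fintype_fun_eq_card] at this
  simp at this
  omega

theorem minus_std_ts (k : ℕ) (a b : F) (v : (Fin k ⊕ Fin k) ⊕ Fin 2 → F)
    (hv : v ∈ LinearMap.ker (((pY F k).comp (qH F k)).prod (qZ F k))) :
    Cfsg.quadFormMinus k F a b v = 0 := by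
  have h := LinearMap.mem_ker.1 hv
  have h1 : pY F k (qH F k v) = 0 := congrArg Prod.fst h
  have h2 : qZ F k v = 0 := congrArg Prod.snd h
  rw [minus_eq, plus_eq, h1, h2]
  simp

end Cfsg.Agent.Lib.Helper4.QuadTS
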