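import Mathlib
import Cfsg.Agent.Lib.Helper4.QuadFin
import Cfsg.Agent.Lib.Helper4.QuadTS

namespace Cfsg.Agent.Lib.Helper4.QuadFin

open QuadraticMap Cfsg.Agent.Lib.Helper4.QuadTS

variable {F V : Type*} [Field F] [AddCommGroup V] [Module F V]

/-- The plus-type form as a `QuadraticForm`. -/
noncomputable def QP (F : Type*) [Field F] (m : ℕ) : QuadraticForm F (Fin m ⊕ Fin m → F) :=
  ∑ i : Fin m, linMulLin (LinearMap.proj (Sum.inl i)) (LinearMap.proj (Sum.inr i))

theorem QP_apply (m : ℕ) (v : Fin m ⊕ Fin m → F) : QP F m v = Cfsg.quadFormPlus m F v := by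
  simp [QP, Cfsg.quadFormPlus]

theorem QP_coe (m : ℕ) : ⇑(QP F m) = Cfsg.quadFormPlus m F := funext (QP_apply m)

/-- The minus-type form as a `QuadraticForm`. -/
noncomputable def QM (F : Type*) [Field F] (k : ℕ) (a b : F) : QuadraticForm F ((Fin k ⊕ Fin k) ⊕ Fin 2 → F) :=
  (∑ i : Fin k, linMulLin (LinearMap.proj (Sum.inl (Sum.inl i))) (LinearMap.proj (Sum.inl (Sum.inr i))))
    + (linMulLin (LinearMap.proj (Sum.inr 0)) (LinearMap.proj (Sum.inr 0))
      + a • linMulLin (LinearMap.proj (Sum.inr 0)) (LinearMap.proj (Sum.inr 1))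
      + b • linMulLin (LinearMap.proj (Sum.inr 1)) (LinearMap.proj (Sum.inr 1)))

theorem QM_apply (k : ℕ) (a b : F) (v : (Fin k ⊕ Fin k) ⊕ Fin 2 → F) :
    QM F k a b v = Cfsg.quadFormMinus k F a b v := by
  simp [QM, Cfsg.quadFormMinus]
  ring

theorem QM_coe (k : ℕ) (a b : F) : ⇑(QM F k a b) = Cfsg.quadFormMinus k F a b := funext (QM_apply k a b)

theorem polar_QP (m : ℕ) (u v : Fin m ⊕ Fin m → F) :
    polar (QP F m) u v = ∑ i, (u (Sum.inl i) * v (Sum.inr i) + v (Sum.inl i) * u (Sum.inr i)) := by
  unfold polar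
  simp only [QP_apply, Cfsg.quadFormPlus, Pi.add_apply, ← Finset.sum_sub_distrib]
  apply Finset.sum_congr rfl; intro i _; ring

theorem polar_QM (k : ℕ) (a b : F) (u v : (Fin k ⊕ Fin k) ⊕ Fin 2 → F) :
    polar (QM F k a b) u v =
      ∑ i, (u (Sum.inl (Sum.inl i)) * v (Sum.inl (Sum.inr i)) + v (Sum.inl (Sum.inl i)) * u (Sum.inl (Sum.inr i)))
      + (2 * u (Sum.inr 0) * v (Sum.inr 0) + a * (u (Sum.inr 0) * v (Sum.inr 1) + u (Sum.inr 1) * v (Sum.inr 0))
        + 2 * b * u (Sum.inr 1) * v (Sum.inr 1)) := by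
  unfold polar
  simp only [QM_apply, Cfsg.quadFormMinus, Pi.add_apply]
  have : ∑ i, (u (Sum.inl (Sum.inl i)) + v (Sum.inl (Sum.inl i))) * (u (Sum.inl (Sum.inr i)) + v (Sum.inl (Sum.inr i)))
      = ∑ i, u (Sum.inl (Sum.inl i)) * u (Sum.inl (Sum.inr i)) + ∑ i, v (Sum.inl (Sum.inl i)) * v (Sum.inl (Sum.inr i))
        + ∑ i, (u (Sum.inl (Sum.inl i)) * v (Sum.inl (Sum.inr i)) + v (Sum.inl (Sum.inl i)) * u (Sum.inl (Sum.inr i))) := by
    rw [← Finset.sum_add_distrib, ← Finset.sum_add_distrib]
    apply Finset.sum_congr rfl; intro i _; ring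
  rw [this]; ring

theorem nd_QP (m : ℕ) : ND (QP F m) := by
  classical
  intro v hv
  funext i
  rcases i with i | i
  · have := hv (Pi.single (Sum.inr i) 1)
    rw [polar_QP] at this
    simpa [Pi.single_apply] using this
  · have := hv (Pi.single (Sum.inl i) 1)
    rw [polar_QP] at this
    simpa [Pi.single_apply] using this

/-- variant of `ext_basis` only requiring off-diagonal polar values -/
theorem ext_basis' {ι : Type*} (b : Module.Basis ι F V) {Q Q' : QuadraticForm F V}
    (h1 : ∀ i, Q (b i) = Q' (b i)) (h2 : ∀ i j, i ≠ j → polar Q (b i) (b j) = polar Q' (b i) (b j)) : Q = Q' := by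
  classical
  apply ext_basis b h1
  intro i j
  by_cases hij : i = j
  · subst hij; rw [polar_self', polar_self', h1]
  · exact h2 i j hij

theorem classify_even [Finite F] [FiniteDimensional F V] (Q : QuadraticForm F V) (hQ : ND Q) {m : ℕ}
    (hm : 1 ≤ m) (hV : Module.finrank F V = 2 * m) :
    (∃ g : V ≃ₗ[F] (Fin m ⊕ Fin m → F), ∀ v, Q v = Cfsg.quadFormPlus m F (g v)) ∨
    (∃ ζ : F, (∀ t : F, t ^ 2 + t + ζ ≠ 0) ∧
      ∃ g : V ≃ₗ[F] ((Fin (m - 1) ⊕ Fin (m - 1)) ⊕ Fin 2 → F), ∀ v, Q v = Cfsg.quadFormMinus (m - 1) F 1 ζ (g v)) := by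
  classical
  rcases even_dim Q hQ hV with ⟨e, f, h⟩ | ⟨_, e, f, x, y, h, hx, hy, hli, hqx, hxy, ht⟩
  · left
    have : Nonempty (Fin m ⊕ Fin m) := ⟨Sum.inl ⟨0, hm⟩⟩
    let b := basisOfLinearIndependentOfCardEqFinrank h.linearIndependent (by simp [hV]; ring)
    have hb : ⇑b = Sum.elim e f := coe_basisOfLinearIndependentOfCardEqFinrank _ _
    refine ⟨b.equivFun, ?_⟩
    have key : Q = (QP F m).comp b.equivFun.toLinearMap := by
      apply ext_basis' b
      · intro i
        simp only [comp_apply, LinearEquiv.coe_coe, Module.Basis.equivFun_self, QP_apply, Cfsg.quadFormPlus]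
        rw [hb]
        rcases i with i | i
        · simp [h.qe]
        · simp [h.qf]
      · intro i j hij
        have e1 : polar ((QP F m).comp b.equivFun.toLinearMap) (b i) (b j)
            = polar (QP F m) (b.equivFun (b i)) (b.equivFun (b j)) := by
          simp [polar]
        rw [e1, polar_QP]
        simp only [Module.Basis.equivFun_self]
        rw [hb]
        rcases i with i | i <;> rcases j with j | j
        · simp [h.ee]
        · simp [h.ef, eq_comm]
        · rw [polar_comm]
          simp [h.ef, eq_comm]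
        · simp [h.ff]
    intro v
    rw [← QP_apply]
    exact congrArg (fun q => q v) key
  · right
    have hli' := li_total h ![x, y] hli (by
      intro j i; fin_cases j
      · exact hx i
      · exact hy i)
    let b := basisOfLinearIndependentOfCardEqFinrank hli' (by simp [hV]; omega)
    have hb : ⇑b = Sum.elim (Sum.elim e f) ![x, y] := coe_basisOfLinearIndependentOfCardEqFinrank _ _
    refine ⟨Q y, ht, b.equivFun, ?_⟩
    have hyx : polar Q y x = 1 := by rw [polar_comm]; exact hxy
    have hxe : ∀ i, polar Q x (e i) = 0 := fun i => by rw [polar_comm]; exact (hx i).1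
    have hxf : ∀ i, polar Q x (f i) = 0 := fun i => by rw [polar_comm]; exact (hx i).2
    have hye : ∀ i, polar Q y (e i) = 0 := fun i => by rw [polar_comm]; exact (hy i).1
    have hyf : ∀ i, polar Q y (f i) = 0 := fun i => by rw [polar_comm]; exact (hy i).2
    have key : Q = (QM F (m - 1) 1 (Q y)).comp b.equivFun.toLinearMap := by
      apply ext_basis' b
      · intro i
        simp only [comp_apply, LinearEquiv.coe_coe, Module.Basis.equivFun_self, QM_apply, Cfsg.quadFormMinus]
        rw [hb]
        rcases i with (i | i) | i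
        · simp [h.qe]
        · simp [h.qf]
        · fin_cases i
          · simp [hqx]
          · simp
      · intro i j hij
        have e1 : polar ((QM F (m - 1) 1 (Q y)).comp b.equivFun.toLinearMap) (b i) (b j)
            = polar (QM F (m - 1) 1 (Q y)) (b.equivFun (b i)) (b.equivFun (b j)) := by
          simp [polar]
        rw [e1, polar_QM]
        simp only [Module.Basis.equivFun_self]
        rw [hb]
        rcases i with (i | i) | i <;> rcases j with (j | j) | j
        · simp [h.ee]
        · simp [h.ef, eq_comm]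
        · fin_cases j <;> simp [hx, hy]
        · rw [polar_comm]
          simp [h.ef, eq_comm]
        · simp [h.ff]
        · fin_cases j <;> simp [hx, hy]
        · fin_cases i <;> simp [hxe, hye]
        · fin_cases i <;> simp [hxf, hyf]
        · fin_cases i <;> fin_cases j <;> simp [hxy, hyx] at hij ⊢
    intro v
    rw [← QM_apply]
    exact congrArg (fun q => q v) key

end Cfsg.Agent.Lib.Helper4.QuadFin
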