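import Mathlib
import Cfsg.Agent.Lib.Helper4.QuadDisc
import Cfsg.Agent.Lib.Helper4.QuadStd

namespace Cfsg.Agent.Lib.Helper4.QuadFin

open QuadraticMap

variable {F : Type*} [Field F]

theorem det_gram_any {ι κ : Type*} [Fintype ι] [DecidableEq ι] [Fintype κ] [DecidableEq κ]
    (Q : QuadraticForm F (κ → F)) (b : Module.Basis ι F (κ → F)) :
    ∃ u : F, u ≠ 0 ∧ (Matrix.of (fun i j : ι => polar Q (b i) (b j))).det
      = u ^ 2 * (LinearMap.BilinForm.toMatrix' (polarBilin Q)).det := by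
  let e : ι ≃ κ := b.indexEquiv (Pi.basisFun F κ)
  let b' : Module.Basis κ F (κ → F) := b.reindex e
  have h1 : Matrix.of (fun i j : ι => polar Q (b i) (b j))
      = (LinearMap.BilinForm.toMatrix b' (polarBilin Q)).submatrix e e := by
    ext i j
    simp [b', LinearMap.BilinForm.toMatrix_apply]
  refine ⟨((Pi.basisFun F κ).toMatrix b').det, det_toMatrix_ne_zero _ _, ?_⟩
  rw [h1, Matrix.det_submatrix_equiv_self, det_gram_change (polarBilin Q) (Pi.basisFun F κ) b',
    LinearMap.BilinForm.toMatrix_basisFun]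

theorem det_swap_blocks (m : ℕ) :
    (Matrix.fromBlocks (0 : Matrix (Fin m) (Fin m) F) (1 : Matrix (Fin m) (Fin m) F)
      (1 : Matrix (Fin m) (Fin m) F) (0 : Matrix (Fin m) (Fin m) F)).det = (-1) ^ m := by
  have h1 : Matrix.fromBlocks (1 : Matrix (Fin m) (Fin m) F) (1 : Matrix (Fin m) (Fin m) F)
        (0 : Matrix (Fin m) (Fin m) F) (1 : Matrix (Fin m) (Fin m) F)
      * Matrix.fromBlocks (0 : Matrix (Fin m) (Fin m) F) (1 : Matrix (Fin m) (Fin m) F)
        (1 : Matrix (Fin m) (Fin m) F) (0 : Matrix (Fin m) (Fin m) F)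
      = Matrix.fromBlocks (1 : Matrix (Fin m) (Fin m) F) (1 : Matrix (Fin m) (Fin m) F)
        (1 : Matrix (Fin m) (Fin m) F) (0 : Matrix (Fin m) (Fin m) F) := by
    simp [Matrix.fromBlocks_multiply]
  have h2 := congrArg Matrix.det h1
  rw [Matrix.det_mul, Matrix.det_fromBlocks_zero₂₁, Matrix.det_one, one_mul, one_mul,
    Matrix.det_fromBlocks_one₁₁] at h2
  rw [h2]
  simp [Matrix.det_neg]

theorem gram_QP (m : ℕ) :
    LinearMap.BilinForm.toMatrix' (polarBilin (QP F m)) = Matrix.fromBlocks 0 1 1 0 := by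
  ext i j
  rw [LinearMap.BilinForm.toMatrix'_apply, polarBilin_apply_apply, polar_QP]
  rcases i with i | i <;> rcases j with j | j <;> simp [Pi.single_apply, Matrix.one_apply, eq_comm]

theorem det_QP (m : ℕ) : (LinearMap.BilinForm.toMatrix' (polarBilin (QP F m))).det = (-1) ^ m := by
  rw [gram_QP, det_swap_blocks]

theorem gram_QM (k : ℕ) (a c : F) :
    LinearMap.BilinForm.toMatrix' (polarBilin (QM F k a c))
      = Matrix.fromBlocks (Matrix.fromBlocks 0 1 1 0) 0 0 !![2, a; a, 2 * c] := by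
  ext i j
  rw [LinearMap.BilinForm.toMatrix'_apply, polarBilin_apply_apply, polar_QM]
  rcases i with (i | i) | i <;> rcases j with (j | j) | j
  · simp [Pi.single_apply]
  · simp [Pi.single_apply, Matrix.one_apply, eq_comm]
  · simp [Pi.single_apply]
  · simp [Pi.single_apply, Matrix.one_apply, eq_comm]
  · simp [Pi.single_apply]
  · simp [Pi.single_apply]
  · simp [Pi.single_apply]
  · simp [Pi.single_apply]
  · fin_cases i <;> fin_cases j <;> simp

theorem det_QM (k : ℕ) (a c : F) :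
    (LinearMap.BilinForm.toMatrix' (polarBilin (QM F k a c))).det = (-1) ^ k * (4 * c - a ^ 2) := by
  rw [gram_QM, Matrix.det_fromBlocks_zero₂₁, det_swap_blocks, Matrix.det_fin_two_of]
  ring

theorem isSquare_sq_mul {u x : F} (hu : u ≠ 0) : IsSquare (u ^ 2 * x) ↔ IsSquare x := by
  constructor
  · rintro ⟨r, hr⟩
    refine ⟨r / u, ?_⟩
    field_simp
    linear_combination hr
  · rintro ⟨r, rfl⟩
    exact ⟨u * r, by ring⟩

theorem isSquare_neg_one_pow [Fintype F] {q : ℕ} (hF : Fintype.card F = q) (hq : Odd q) (m : ℕ) :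
    IsSquare ((-1 : F) ^ m) ↔ Even (m * (q - 1) / 2) := by
  obtain ⟨k, hk⟩ := hq
  have e1 : m * (q - 1) / 2 = m * k := by
    rw [hk, Nat.add_sub_cancel, mul_left_comm, Nat.mul_div_cancel_left _ (by norm_num)]
  rw [e1, Nat.even_mul]
  rcases Nat.even_or_odd m with hm | hm
  · simp only [hm, true_or, iff_true]
    rw [hm.neg_one_pow]; exact IsSquare.one
  · rw [hm.neg_one_pow, FiniteField.isSquare_neg_one_iff, hF, hk]
    have : ¬ Even m := Nat.not_even_iff_odd.2 hm
    simp only [this, false_or]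
    rw [Nat.even_iff]
    omega

end Cfsg.Agent.Lib.Helper4.QuadFin
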