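import Mathlib
import Cfsg.Agent.Lib.Helper4.QuadExt
import Cfsg.Agent.Lib.Helper4.QuadStd
import Cfsg.Agent.Lib.Helper4.QuadCount

set_option autoImplicit false

namespace Cfsg.Agent.Lib.Helper4.QuadExt2

open Module Polynomial Cfsg.Agent.Lib.Helper4.UniCount Cfsg.Agent.Lib.Helper4.UniLines
  Cfsg.Agent.Lib.Helper4.QuadExt

variable {K F : Type*} [Field K] [Fintype K] [Field F] [Fintype F] {q : ℕ} [Algebra F K]

/-- an irreducible quadratic over `F` has conjugate roots in the quadratic extension. -/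
theorem exists_root (hK : Fintype.card K = q ^ 2) (hF : Fintype.card F = q)
    (hι : ∀ x : K, x ^ q = x ↔ x ∈ Set.range (algebraMap F K)) (a b : F)
    (hab : ∀ z₁ z₂ : F, z₁ ^ 2 + a * z₁ * z₂ + b * z₂ ^ 2 = 0 → z₁ = 0 ∧ z₂ = 0) :
    ∃ θ : K, θ ^ q ≠ θ ∧ θ + θ ^ q = - algebraMap F K a ∧ θ * θ ^ q = algebraMap F K b := by
  classical
  obtain ⟨σ, hσ⟩ := exists_sig hK
  let f : F[X] := X ^ 2 + C a * X + C b
  have hdeg : f.natDegree = 2 := by
    simp only [f]; compute_degree!
  have hmonic : f.Monic := by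
    simp only [f]; monicity!
  have hnoroot : ∀ x, ¬ f.IsRoot x := by
    intro x hx
    have h1 : x ^ 2 + a * x * 1 + b * 1 ^ 2 = 0 := by
      simpa [f, IsRoot] using hx
    exact one_ne_zero (hab x 1 h1).2
  have hirr : Irreducible f := by
    rw [Polynomial.Monic.irreducible_iff_roots_eq_zero_of_degree_le_three hmonic (by omega) (by omega)]
    rw [Multiset.eq_zero_iff_forall_notMem]
    intro x hx
    exact hnoroot x (Polynomial.isRoot_of_mem_roots hx)
  have : Fact (Irreducible f) := ⟨hirr⟩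
  have hfr : finrank F (AdjoinRoot f) = 2 := by
    rw [(AdjoinRoot.powerBasis hirr.ne_zero).finrank, AdjoinRoot.powerBasis_dim, hdeg]
  obtain ⟨φ⟩ := FiniteField.nonempty_algHom_of_finrank_dvd (F := F) (K := AdjoinRoot f) (L := K)
    (by rw [hfr, finrank_ext hK hF])
  let θ := φ (AdjoinRoot.root f)
  have hθ : θ ^ 2 + algebraMap F K a * θ + algebraMap F K b = 0 := by
    have h1 : aeval θ f = 0 := by
      rw [aeval_algHom_apply, AdjoinRoot.aeval_eq, AdjoinRoot.mk_self, map_zero]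
    simpa [f] using h1
  have hne : θ ^ q ≠ θ := by
    intro h
    obtain ⟨x, hx⟩ := (hι θ).1 h
    rw [← hx, ← map_pow, ← map_mul, ← map_add, ← map_add, map_eq_zero] at hθ
    have h1 : x ^ 2 + a * x * 1 + b * 1 ^ 2 = 0 := by linear_combination hθ
    exact one_ne_zero (hab x 1 h1).2
  have hfix : ∀ c : F, σ (algebraMap F K c) = algebraMap F K c := fun c => by
    rw [hσ]; exact (hι _).2 ⟨c, rfl⟩
  have hθ' : (θ ^ q) ^ 2 + algebraMap F K a * θ ^ q + algebraMap F K b = 0 := by
    have := congrArg σ hθ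
    simpa only [map_add, map_mul, map_pow, hfix, map_zero, hσ θ] using this
  have hsum : θ + θ ^ q = - algebraMap F K a := by
    have h1 : (θ ^ q - θ) * (θ + θ ^ q + algebraMap F K a) = 0 := by linear_combination hθ' - hθ
    rcases mul_eq_zero.1 h1 with h | h
    · exact absurd (sub_eq_zero.1 h) hne
    · linear_combination h
  refine ⟨θ, hne, hsum, ?_⟩
  linear_combination θ * hsum - hθ

/-- the discriminant of an anisotropic binary form over a finite field is nonzero. -/
theorem disc_ne_zero {a b : F} {θ : K} (hne : θ ^ q ≠ θ) (hs : θ + θ ^ q = - algebraMap F K a)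
    (hp : θ * θ ^ q = algebraMap F K b) :
    (algebraMap F K a) ^ 2 - 4 * algebraMap F K b ≠ 0 := by
  have h1 : (algebraMap F K a) ^ 2 - 4 * algebraMap F K b = (θ ^ q - θ) ^ 2 := by
    have : algebraMap F K a = -(θ + θ ^ q) := by rw [hs, neg_neg]
    rw [this, ← hp]; ring
  rw [h1]
  exact pow_ne_zero 2 (sub_ne_zero.2 hne)

/-- an anisotropic binary form is the norm form of the quadratic extension. -/
theorem binary_equiv_norm (hK : Fintype.card K = q ^ 2) (hF : Fintype.card F = q)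
    (hι : ∀ x : K, x ^ q = x ↔ x ∈ Set.range (algebraMap F K)) (a b : F)
    (hab : ∀ z₁ z₂ : F, z₁ ^ 2 + a * z₁ * z₂ + b * z₂ ^ 2 = 0 → z₁ = 0 ∧ z₂ = 0) :
    ∃ T : (Fin 2 → F) ≃ₗ[F] K, ∀ z, algebraMap F K (z 0 ^ 2 + a * z 0 * z 1 + b * z 1 ^ 2) = (T z) ^ (q + 1) := by
  classical
  obtain ⟨σ, hσ⟩ := exists_sig hK
  obtain ⟨θ, hne, hs, hp⟩ := exists_root hK hF hι a b hab
  have hfix : ∀ c : F, σ (algebraMap F K c) = algebraMap F K c := fun c => by
    rw [hσ]; exact (hι _).2 ⟨c, rfl⟩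
  let T₀ : (Fin 2 → F) →ₗ[F] K :=
    (LinearMap.proj 0).smulRight (1 : K) - (LinearMap.proj 1).smulRight θ
  have hT₀ : ∀ z, T₀ z = algebraMap F K (z 0) - algebraMap F K (z 1) * θ := by
    intro z
    simp [T₀, Algebra.smul_def]
  have hN : ∀ z, algebraMap F K (z 0 ^ 2 + a * z 0 * z 1 + b * z 1 ^ 2) = (T₀ z) ^ (q + 1) := by
    intro z
    rw [pow_succ (T₀ z) q, ← hσ, hT₀, map_sub, map_mul, hfix, hfix, hσ θ]
    simp only [map_add, map_mul, map_pow]
    have ha : algebraMap F K a = -(θ + θ ^ q) := by rw [hs, neg_neg]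
    rw [ha, ← hp]; ring
  have hinj : Function.Injective T₀ := by
    rw [injective_iff_map_eq_zero]
    intro z hz
    have h1 := hN z
    rw [hz, zero_pow (by omega), map_eq_zero] at h1
    obtain ⟨h0, h1⟩ := hab _ _ h1
    funext i; fin_cases i
    · exact h0
    · exact h1
  have hfr : finrank F (Fin 2 → F) = finrank F K := by
    rw [finrank_ext hK hF]; simp
  refine ⟨LinearEquiv.ofInjectiveOfFinrankEq T₀ hinj hfr, ?_⟩
  intro z
  exact hN z

end Cfsg.Agent.Lib.Helper4.QuadExt2
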