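import Mathlib
import Cfsg.Agent.Lib.Helper4.QuadFin

namespace Cfsg.Agent.Lib.Helper4.QuadFin

open QuadraticMap

variable {F V : Type*} [Field F] [AddCommGroup V] [Module F V]

theorem binary_universal [Finite F] (α β : F)
    (h : ∀ z₁ z₂ : F, z₁ ^ 2 + α * z₁ * z₂ + β * z₂ ^ 2 = 0 → z₁ = 0 ∧ z₂ = 0) (c : F) :
    ∃ a b : F, a ^ 2 + α * a * b + β * b ^ 2 = c := by
  let p : Fin 3 → ((Fin 3 → F) →ₗ[F] F) := fun i => LinearMap.proj i
  let Q3 : QuadraticForm F (Fin 3 → F) :=
    linMulLin (p 0) (p 0) + α • linMulLin (p 0) (p 1) + β • linMulLin (p 1) (p 1) + (-c) • linMulLin (p 2) (p 2)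
  obtain ⟨v, hv, hq⟩ := exists_singular Q3 (by simp)
  have hq' : v 0 * v 0 + α * (v 0 * v 1) + β * (v 1 * v 1) + (-c) * (v 2 * v 2) = 0 := by
    simpa [Q3, p] using hq
  by_cases hu : v 2 = 0
  · exfalso
    rw [hu] at hq'
    obtain ⟨h0, h1⟩ := h (v 0) (v 1) (by linear_combination hq')
    apply hv
    funext i; fin_cases i
    · exact h0
    · exact h1
    · exact hu
  · refine ⟨v 0 / v 2, v 1 / v 2, ?_⟩
    field_simp
    linear_combination hq'

theorem aniso_of_noroot {ζ : F} (hζ : ∀ t : F, t ^ 2 + t + ζ ≠ 0) (z₁ z₂ : F)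
    (h : z₁ ^ 2 + 1 * z₁ * z₂ + ζ * z₂ ^ 2 = 0) : z₁ = 0 ∧ z₂ = 0 := by
  by_cases h2 : z₂ = 0
  · subst h2
    refine ⟨?_, rfl⟩
    have : z₁ ^ 2 = 0 := by linear_combination h
    exact pow_eq_zero_iff (two_ne_zero) |>.1 this
  · exfalso
    apply hζ (z₁ / z₂)
    field_simp
    linear_combination h

/-- A linear endomorphism scaling a nondegenerate form by a nonzero scalar is bijective. -/
theorem similarity_equiv [FiniteDimensional F V] {Q : QuadraticForm F V} (hQ : ND Q) (g : V →ₗ[F] V) {c : F}
    (hc : c ≠ 0) (hg : ∀ v, Q (g v) = c * Q v) : ∃ g' : V ≃ₗ[F] V, ∀ v, g' v = g v := by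
  have hinj : Function.Injective g := by
    rw [← LinearMap.ker_eq_bot, LinearMap.ker_eq_bot']
    intro u hu
    apply hQ
    intro w
    have h1 : polar Q (g u) (g w) = c * polar Q u w := by
      unfold polar
      rw [← map_add, hg, hg, hg]; ring
    rw [hu] at h1
    have h2 : c * polar Q u w = 0 := by rw [← h1]; simp
    exact (mul_eq_zero.1 h2).resolve_left hc
  exact ⟨LinearEquiv.ofInjectiveEndo g hinj, fun v => rfl⟩

theorem constr_similarity {ι : Type*} (b : Module.Basis ι F V) (Q : QuadraticForm F V) (t : ι → V) (c : F)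
    (h1 : ∀ i, Q (t i) = c * Q (b i)) (h2 : ∀ i j, polar Q (t i) (t j) = c * polar Q (b i) (b j)) (v : V) :
    Q (b.constr F t v) = c * Q v := by
  have key : Q.comp (b.constr F t) = c • Q := by
    apply ext_basis b
    · intro i
      simp only [comp_apply, Module.Basis.constr_basis, smul_apply, smul_eq_mul]
      exact h1 i
    · intro i j
      have e1 : polar (Q.comp (b.constr F t)) (b i) (b j) = polar Q (b.constr F t (b i)) (b.constr F t (b j)) := by
        simp [polar]
      have e2 : polar (c • Q) (b i) (b j) = c * polar Q (b i) (b j) := by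
        simp [polar]; ring
      rw [e1, e2, Module.Basis.constr_basis, Module.Basis.constr_basis]
      exact h2 i j
  have := congrArg (fun q => q v) key
  simpa using this

theorem exists_similarity [Finite F] [FiniteDimensional F V] (Q : QuadraticForm F V) (hQ : ND Q) {m : ℕ}
    (hV : Module.finrank F V = 2 * m) {c : F} (hc : c ≠ 0) :
    ∃ g : V ≃ₗ[F] V, ∀ v, Q (g v) = c * Q v := by
  classical
  by_cases hm : m = 0
  · subst hm
    have : Subsingleton V := Module.finrank_zero_iff.1 (by simpa using hV)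
    refine ⟨LinearEquiv.refl F V, fun v => ?_⟩
    rw [Subsingleton.elim v 0]; simp
  have hm1 : 1 ≤ m := Nat.one_le_iff_ne_zero.2 hm
  suffices h : ∃ g : V →ₗ[F] V, ∀ v, Q (g v) = c * Q v by
    obtain ⟨g, hg⟩ := h
    obtain ⟨g', hg'⟩ := similarity_equiv hQ g hc hg
    exact ⟨g', fun v => by rw [hg', hg]⟩
  rcases even_dim Q hQ hV with ⟨e, f, h⟩ | ⟨_, e, f, x, y, h, hx, hy, hli, hqx, hxy, ht⟩
  · have : Nonempty (Fin m ⊕ Fin m) := ⟨Sum.inl ⟨0, hm1⟩⟩
    let b := basisOfLinearIndependentOfCardEqFinrank h.linearIndependent (by simp [hV]; ring)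
    have hb : ⇑b = Sum.elim e f := coe_basisOfLinearIndependentOfCardEqFinrank _ _
    refine ⟨b.constr F (Sum.elim (fun i => c • e i) f), constr_similarity b Q _ c ?_ ?_⟩
    · rw [hb]
      rintro (i | i)
      · simp [map_smul', h.qe]
      · simp [h.qf]
    · rw [hb]
      intro i j
      rcases i with i | i <;> rcases j with j | j <;>
        simp only [Sum.elim_inl, Sum.elim_inr, polar_smul_l, polar_smul_r, h.ee, h.ff, mul_zero]
  · obtain ⟨a, d, had⟩ := binary_universal 1 (Q y) (aniso_of_noroot ht) c
    have hli' := li_total h ![x, y] hli (by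
      intro j i; fin_cases j
      · exact hx i
      · exact hy i)
    let b := basisOfLinearIndependentOfCardEqFinrank hli' (by simp [hV]; omega)
    have hb : ⇑b = Sum.elim (Sum.elim e f) ![x, y] := coe_basisOfLinearIndependentOfCardEqFinrank _ _
    have hyx : polar Q y x = 1 := by rw [polar_comm]; exact hxy
    have hxe : ∀ i, polar Q x (e i) = 0 := fun i => by rw [polar_comm]; exact (hx i).1
    have hxf : ∀ i, polar Q x (f i) = 0 := fun i => by rw [polar_comm]; exact (hx i).2
    have hye : ∀ i, polar Q y (e i) = 0 := fun i => by rw [polar_comm]; exact (hy i).1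
    have hyf : ∀ i, polar Q y (f i) = 0 := fun i => by rw [polar_comm]; exact (hy i).2
    refine ⟨b.constr F (Sum.elim (Sum.elim (fun i => c • e i) f)
      ![a • x + d • y, (-(d * Q y)) • x + (a + d) • y]), constr_similarity b Q _ c ?_ ?_⟩
    · rw [hb]
      rintro ((i | i) | i)
      · simp [map_smul', h.qe]
      · simp [h.qf]
      · fin_cases i
        · simp [map_smul', map_add', hqx, hxy]
          linear_combination had
        · simp [map_smul', map_add', hqx, hxy]
          linear_combination (Q y) * had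
    · rw [hb]
      intro i j
      rcases i with (i | i) | i <;> rcases j with (j | j) | j
      all_goals try fin_cases i
      all_goals try fin_cases j
      all_goals simp [h.ee, h.ff, hx, hy, hxe, hxf, hye, hyf, hxy, hyx, hqx]
      · rw [map_add', map_smul', map_smul', polar_smul_l, polar_smul_r, hqx, hxy]
        linear_combination 2 * had
      · linear_combination had
      · linear_combination had
      · rw [map_add', ← neg_smul, map_smul', map_smul', polar_smul_l, polar_smul_r, hqx, hxy]
        linear_combination 2 * Q y * had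


end Cfsg.Agent.Lib.Helper4.QuadFin
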