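import Mathlib
import Cfsg.Agent.Lib.Helper4.QuadExt2
import Cfsg.Agent.Lib.Helper4.QuadSim

set_option autoImplicit false

namespace Cfsg.Agent.Lib.Helper4.QuadExt3

open Module QuadraticMap Matrix Cfsg.Agent.Lib.Helper4.UniCount Cfsg.Agent.Lib.Helper4.UniLines
  Cfsg.Agent.Lib.Helper4.UniMat Cfsg.Agent.Lib.Helper4.QuadFin Cfsg.Agent.Lib.Helper4.QuadTS
  Cfsg.Agent.Lib.Helper4.QuadExt Cfsg.Agent.Lib.Helper4.QuadExt2 Cfsg.Agent.Lib.Helper4.QuadCount

section general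
variable {F : Type*} [Field F]

/-- a faithful isometric representation on a space isometric to a standard one embeds in the isometry group. -/
theorem exists_hom_of_equiv {ι : Type} [Fintype ι] [DecidableEq ι] {V : Type*} [AddCommGroup V] [Module F V]
    (Q₀ : (ι → F) → F) (Q : V → F) (Ψ : V ≃ₗ[F] (ι → F)) (hΨ : ∀ v, Q v = Q₀ (Ψ v))
    {G : Type*} [Group G] (ρ : G →* (V →ₗ[F] V)) (hiso : ∀ g x, Q (ρ g x) = Q x)
    (hfaith : ∀ g, (∀ x, ρ g x = x) → g = 1) :
    ∃ f : G →* Cfsg.isometryGroup F Q₀, Function.Injective f := by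
  let f₀ : G →* Matrix ι ι F :=
    { toFun := fun g => LinearMap.toMatrix' ((Ψ : V →ₗ[F] (ι → F)) ∘ₗ ρ g ∘ₗ (Ψ.symm : (ι → F) →ₗ[F] V))
      map_one' := by
        rw [map_one, ← LinearMap.toMatrix'_id]
        congr 1
        ext x
        simp
      map_mul' := by
        intro g h
        rw [map_mul, ← LinearMap.toMatrix'_comp]
        congr 1
        ext x
        simp }
  have hf₀ : ∀ g x, f₀ g *ᵥ x = Ψ (ρ g (Ψ.symm x)) := by
    intro g x
    change (LinearMap.toMatrix' _) *ᵥ x = _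
    rw [← Matrix.toLin'_apply, Matrix.toLin'_toMatrix']
    rfl
  let f₁ : G →* Matrix.GeneralLinearGroup ι F := f₀.toHomUnits
  have hf₁ : ∀ g, (f₁ g).1 = f₀ g := fun g => rfl
  have hmem : ∀ g, f₁ g ∈ Cfsg.isometryGroup F Q₀ := by
    intro g u v
    change Q₀ ((f₁ g).1 *ᵥ u) = Q₀ u
    rw [hf₁, hf₀, ← hΨ, hiso, hΨ, Ψ.apply_symm_apply]
  refine ⟨f₁.codRestrict _ hmem, ?_⟩
  rw [injective_iff_map_eq_one]
  intro g hg
  apply hfaith
  intro x
  have h1 : (f₁ g).1 = 1 := by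
    have := congrArg (fun t : Cfsg.isometryGroup F Q₀ => t.1.1) hg
    exact this
  have h2 := hf₀ g (Ψ x)
  rw [← hf₁, h1, Matrix.one_mulVec, Ψ.symm_apply_apply] at h2
  exact (Ψ.injective h2).symm

theorem nd_QM (k : ℕ) (a b : F) (h : a ^ 2 - 4 * b ≠ 0) : ND (QM F k a b) := by
  classical
  intro v hv
  have h0 := hv (Pi.single (Sum.inr 0) 1)
  have h1 := hv (Pi.single (Sum.inr 1) 1)
  rw [polar_QM] at h0 h1
  simp at h0 h1
  funext i
  rcases i with (i | i) | i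
  · have := hv (Pi.single (Sum.inl (Sum.inr i)) 1)
    rw [polar_QM] at this
    simpa [Pi.single_apply] using this
  · have := hv (Pi.single (Sum.inl (Sum.inl i)) 1)
    rw [polar_QM] at this
    simpa [Pi.single_apply] using this
  · fin_cases i
    · have : (a ^ 2 - 4 * b) * v (Sum.inr 0) = 0 := by linear_combination a * h1 - 2 * b * h0
      exact (mul_eq_zero.1 this).resolve_left h
    · have : (a ^ 2 - 4 * b) * v (Sum.inr 1) = 0 := by linear_combination a * h0 - 2 * h1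
      exact (mul_eq_zero.1 this).resolve_left h

/-- change of the binary part. -/
theorem QM_equiv_of_binary (k : ℕ) (a b a' b' : F) (S : (Fin 2 → F) ≃ₗ[F] (Fin 2 → F))
    (hS : ∀ z, z 0 ^ 2 + a * z 0 * z 1 + b * z 1 ^ 2 = S z 0 ^ 2 + a' * S z 0 * S z 1 + b' * S z 1 ^ 2) :
    ∃ g : ((Fin k ⊕ Fin k) ⊕ Fin 2 → F) ≃ₗ[F] ((Fin k ⊕ Fin k) ⊕ Fin 2 → F),
      ∀ v, Cfsg.quadFormMinus k F a b v = Cfsg.quadFormMinus k F a' b' (g v) := by
  let E := LinearEquiv.sumArrowLequivProdArrow (Fin k ⊕ Fin k) (Fin 2) F F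
  refine ⟨E.trans ((LinearEquiv.prodCongr (LinearEquiv.refl F _) S).trans E.symm), ?_⟩
  intro v
  rw [minus_eq, minus_eq]
  have h1 : qH F k ((E.trans ((LinearEquiv.prodCongr (LinearEquiv.refl F _) S).trans E.symm)) v) = qH F k v := rfl
  have h2 : qZ F k ((E.trans ((LinearEquiv.prodCongr (LinearEquiv.refl F _) S).trans E.symm)) v) = S (qZ F k v) := rfl
  rw [h1, h2, hS]

end general

variable {K F : Type*} [Field K] [Fintype K] [Field F] [Fintype F] {q : ℕ} [Algebra F K]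

theorem QM_equiv (hK : Fintype.card K = q ^ 2) (hF : Fintype.card F = q)
    (hι : ∀ x : K, x ^ q = x ↔ x ∈ Set.range (algebraMap F K)) (k : ℕ) (a b a' b' : F)
    (hab : ∀ z₁ z₂ : F, z₁ ^ 2 + a * z₁ * z₂ + b * z₂ ^ 2 = 0 → z₁ = 0 ∧ z₂ = 0)
    (hab' : ∀ z₁ z₂ : F, z₁ ^ 2 + a' * z₁ * z₂ + b' * z₂ ^ 2 = 0 → z₁ = 0 ∧ z₂ = 0) :
    ∃ g : ((Fin k ⊕ Fin k) ⊕ Fin 2 → F) ≃ₗ[F] ((Fin k ⊕ Fin k) ⊕ Fin 2 → F),
      ∀ v, Cfsg.quadFormMinus k F a b v = Cfsg.quadFormMinus k F a' b' (g v) := by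
  obtain ⟨T, hT⟩ := binary_equiv_norm hK hF hι a b hab
  obtain ⟨T', hT'⟩ := binary_equiv_norm hK hF hι a' b' hab'
  apply QM_equiv_of_binary k a b a' b' (T.trans T'.symm)
  intro z
  apply (algebraMap F K).injective
  rw [hT, hT']
  simp

theorem trace_eq (hK : Fintype.card K = q ^ 2) (hF : Fintype.card F = q) (x : K) :
    algebraMap F K (Algebra.trace F K x) = x + x ^ q := by
  rw [FiniteField.algebraMap_trace_eq_sum_pow, finrank_ext hK hF, Finset.sum_range_succ, Finset.sum_range_one,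
    Nat.card_eq_fintype_card, hF]
  simp

/-- the hermitian form gives a nondegenerate quadratic form over the subfield. -/
theorem exists_Qh (hK : Fintype.card K = q ^ 2) (hF : Fintype.card F = q)
    (hι : ∀ x : K, x ^ q = x ↔ x ∈ Set.range (algebraMap F K)) (m : ℕ) :
    ∃ Q : QuadraticForm F (Fin m → K), (∀ v, algebraMap F K (Q v) = Cfsg.hermForm m K q v v) ∧ ND Q := by
  classical
  obtain ⟨σ, hσ⟩ := exists_sig hK
  have h2 : ∀ a, σ (σ a) = a := by
    intro a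
    rw [hσ, hσ, pow_q_q hK]
  have hσι : ∀ c : F, σ (algebraMap F K c) = algebraMap F K c := by
    intro c
    rw [hσ]
    exact (hι _).2 ⟨c, rfl⟩
  obtain ⟨t, ht⟩ := exists_trace_one hK hσ
  let l : K →ₗ[F] F := Algebra.trace F K
  have hl : ∀ x, algebraMap F K (l x) = x + σ x := fun x => by rw [hσ]; exact trace_eq hK hF x
  let B : LinearMap.BilinForm F (Fin m → K) := LinearMap.mk₂ F (fun u v => l (t * stdB σ m v u))
    (fun u u' v => by simp only [map_add, mul_add])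
    (fun c u v => by
      rw [← algebraMap_smul K c u, map_smul, smul_eq_mul, mul_left_comm, ← Algebra.smul_def, map_smul])
    (fun u v v' => by simp only [map_add, LinearMap.add_apply, mul_add])
    (fun c u v => by
      rw [← algebraMap_smul K c v, map_smulₛₗ, LinearMap.smul_apply, hσι, smul_eq_mul, mul_left_comm,
        ← Algebra.smul_def, map_smul])
  have hBdef : ∀ u v, B u v = l (t * stdB σ m v u) := fun u v => rfl
  have hQ : ∀ v, algebraMap F K (B.toQuadraticMap v) = Cfsg.hermForm m K q v v := by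
    intro v
    rw [LinearMap.BilinMap.toQuadraticMap_apply, hBdef, hl, map_mul, stdB_self_fixed h2, hermForm_eq hσ,
      ← add_mul, ht, one_mul]
  refine ⟨B.toQuadraticMap, hQ, ?_⟩
  have hS : ∀ x y, σ (stdB σ m x y) = stdB σ m y x := LinearMap.isSymm_def.mp (stdB_isSymm h2)
  have hpol : ∀ u v, polar B.toQuadraticMap u v = l (stdB σ m v u) := by
    intro u v
    apply (algebraMap F K).injective
    unfold polar
    rw [map_sub, map_sub, hQ, hQ, hQ, hl, hermForm_eq hσ, hermForm_eq hσ, hermForm_eq hσ, hS]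
    simp only [map_add, LinearMap.add_apply]
    ring
  have hl0 : l ≠ 0 := by
    intro h
    have h1 := hl t
    rw [h, ht] at h1
    simp at h1
  intro u hu
  apply (stdB_nondeg (σ := σ) (n := m)).2
  intro v
  apply eq_zero_of_functional hl0
  intro c
  have := hu (σ c • v)
  rwa [hpol, map_smulₛₗ, LinearMap.smul_apply, h2, smul_eq_mul] at this

theorem card_zeros_Qh {m : ℕ} (Q : QuadraticForm F (Fin m → K))
    (hQ : ∀ v, algebraMap F K (Q v) = Cfsg.hermForm m K q v v) :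
    Nat.card {v // Q v = 0} = A K q m 0 := by
  unfold A
  apply Nat.card_congr
  apply Equiv.subtypeEquivRight
  intro v
  rw [← hermForm_self, ← hQ, map_eq_zero (algebraMap F K)]

theorem herm_plus (hK : Fintype.card K = q ^ 2) (hF : Fintype.card F = q) {m : ℕ} (hm : Even m) (hm1 : 1 ≤ m)
    (Q : QuadraticForm F (Fin m → K)) (hQ : ∀ v, algebraMap F K (Q v) = Cfsg.hermForm m K q v v) (hND : ND Q) :
    ∃ g : (Fin m → K) ≃ₗ[F] (Fin m ⊕ Fin m → F), ∀ v, Q v = Cfsg.quadFormPlus m F (g v) := by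
  have hq := two_le_q hK
  have hfin : finrank F (Fin m → K) = 2 * m := by
    rw [finrank_pi hK hF]; simp
  rcases classify_even Q hND hm1 hfin with h | ⟨ζ, hζ, g, hg⟩
  · exact h
  · exfalso
    have h1 : Nat.card {v // Q v = 0}
        = Nat.card {w : (Fin (m - 1) ⊕ Fin (m - 1)) ⊕ Fin 2 → F // Cfsg.quadFormMinus (m - 1) F 1 ζ w = 0} :=
      Nat.card_congr (Equiv.subtypeEquiv g.toEquiv (fun v => by rw [hg]; rfl))
    rw [card_zeros_Qh Q hQ, A_zero hK, if_pos hm, card_minus _ _ _ (aniso_of_noroot hζ), hF] at h1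
    obtain ⟨j, rfl⟩ : ∃ j, m = j + 2 := by
      obtain ⟨r, hr⟩ := hm
      exact ⟨m - 2, by omega⟩
    have e1 : j + 2 - 1 = j + 1 := rfl
    have e2 : j + 1 - 1 = j := rfl
    rw [e1, e2] at h1
    have hX : 1 ≤ q ^ j := Nat.one_le_pow _ _ (by omega)
    have hX1 : 1 ≤ q ^ (j + 1) := Nat.one_le_pow _ _ (by omega)
    have hX2 : 1 ≤ q ^ (j + 2) := Nat.one_le_pow _ _ (by omega)
    zify [hX, hX1, hX2] at h1
    have h3 : (q : ℤ) * (q : ℤ) ^ j * ((q : ℤ) - 1) * 2 = 0 := by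
      linear_combination h1
    have hq' : (2 : ℤ) ≤ q := by exact_mod_cast hq
    have : (0 : ℤ) < (q : ℤ) * (q : ℤ) ^ j * ((q : ℤ) - 1) * 2 := by
      have : (0 : ℤ) < (q : ℤ) - 1 := by linarith
      positivity
    omega

theorem herm_minus (hK : Fintype.card K = q ^ 2) (hF : Fintype.card F = q)
    (hι : ∀ x : K, x ^ q = x ↔ x ∈ Set.range (algebraMap F K)) {m : ℕ} (hm : Odd m)
    (Q : QuadraticForm F (Fin m → K)) (hQ : ∀ v, algebraMap F K (Q v) = Cfsg.hermForm m K q v v) (hND : ND Q)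
    (a b : F) (hab : ∀ z₁ z₂ : F, z₁ ^ 2 + a * z₁ * z₂ + b * z₂ ^ 2 = 0 → z₁ = 0 ∧ z₂ = 0) :
    ∃ g : (Fin m → K) ≃ₗ[F] ((Fin (m - 1) ⊕ Fin (m - 1)) ⊕ Fin 2 → F),
      ∀ v, Q v = Cfsg.quadFormMinus (m - 1) F a b (g v) := by
  have hq := two_le_q hK
  have hfin : finrank F (Fin m → K) = 2 * m := by
    rw [finrank_pi hK hF]; simp
  have hm1 : 1 ≤ m := hm.pos
  rcases classify_even Q hND hm1 hfin with ⟨g, hg⟩ | ⟨ζ, hζ, g, hg⟩
  · exfalso
    have h1 : Nat.card {v // Q v = 0}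
        = Nat.card {w : Fin m ⊕ Fin m → F // Cfsg.quadFormPlus m F w = 0} :=
      Nat.card_congr (Equiv.subtypeEquiv g.toEquiv (fun v => by rw [hg]; rfl))
    rw [card_zeros_Qh Q hQ, A_zero hK, if_neg (Nat.not_even_iff_odd.2 hm), card_plus, hF] at h1
    obtain ⟨j, rfl⟩ : ∃ j, m = j + 1 := ⟨m - 1, by omega⟩
    have e1 : j + 1 - 1 = j := rfl
    rw [e1] at h1
    have hX : 1 ≤ q ^ j := Nat.one_le_pow _ _ (by omega)
    have hX1 : 1 ≤ q ^ (j + 1) := Nat.one_le_pow _ _ (by omega)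
    zify [hX, hX1] at h1
    have h3 : (q : ℤ) ^ j * ((q : ℤ) - 1) * 2 = 0 := by
      linear_combination -h1
    have hq' : (2 : ℤ) ≤ q := by exact_mod_cast hq
    have : (0 : ℤ) < (q : ℤ) ^ j * ((q : ℤ) - 1) * 2 := by
      have : (0 : ℤ) < (q : ℤ) - 1 := by linarith
      positivity
    omega
  · obtain ⟨g', hg'⟩ := QM_equiv hK hF hι (m - 1) 1 ζ a b (aniso_of_noroot hζ) hab
    exact ⟨g.trans g', fun v => by rw [hg, hg']; rfl⟩

end Cfsg.Agent.Lib.Helper4.QuadExt3
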