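import Mathlib
import Cfsg.Agent.Lib.Helper4.QuadExt3

set_option autoImplicit false

namespace Cfsg.Agent.Lib.Helper4.QuadExt4

open Module QuadraticMap Matrix Cfsg.Agent.Lib.Helper4.QuadExt3

variable {K F : Type*} [Field K] [Field F] {q : ℕ} [Algebra F K]

theorem gu_hom {ι₀ : Type} [Fintype ι₀] [DecidableEq ι₀] {m : ℕ} (Q₀ : (ι₀ → F) → F)
    (Q : QuadraticForm F (Fin m → K)) (hQ : ∀ v, algebraMap F K (Q v) = Cfsg.hermForm m K q v v)
    (g : (Fin m → K) ≃ₗ[F] (ι₀ → F)) (hg : ∀ v, Q v = Q₀ (g v)) :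
    ∃ φ : ↥(Cfsg.GU m K q) →* ↥(Cfsg.isometryGroup F Q₀), Function.Injective φ := by
  classical
  let ρ : Cfsg.GU m K q →* ((Fin m → K) →ₗ[F] (Fin m → K)) :=
    { toFun := fun A => (Matrix.mulVecLin A.1.1).restrictScalars F
      map_one' := by
        ext x
        simp
      map_mul' := by
        intro A B
        ext x
        simp }
  have hρ : ∀ A x, ρ A x = A.1.1 *ᵥ x := fun A x => rfl
  refine exists_hom_of_equiv Q₀ Q g hg ρ ?_ ?_
  · intro A x
    apply (algebraMap F K).injective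
    rw [hQ, hQ]
    exact A.2 x x
  · intro A hA
    apply Subtype.ext
    apply Units.ext
    apply Matrix.ext_of_mulVec_single
    intro i
    have := hA (Pi.single i 1)
    rw [hρ] at this
    rw [this]
    change _ = (1 : Matrix (Fin m) (Fin m) K).mulVec (Pi.single i 1)
    rw [Matrix.one_mulVec]

end Cfsg.Agent.Lib.Helper4.QuadExt4
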