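import Mathlib
import Cfsg.Agent.Lib.Helper4.QuadStd
import Cfsg.Agent.Lib.Helper4.QuadCount

namespace Cfsg.Agent.Lib.Helper4.QuadFin

open QuadraticMap

/-- `q` polarizes to the polar form of the plus-type form over `𝔽₂`. -/
def Polarizes (m : ℕ) (q : (Fin m ⊕ Fin m → ZMod 2) → ZMod 2) : Prop :=
  ∀ u v : (Fin m ⊕ Fin m → ZMod 2), q (u + v) = q u + q v +
    (Cfsg.quadFormPlus m (ZMod 2) (u + v) - Cfsg.quadFormPlus m (ZMod 2) u - Cfsg.quadFormPlus m (ZMod 2) v)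

theorem fP_eq (m : ℕ) (u v : Fin m ⊕ Fin m → ZMod 2) :
    Cfsg.quadFormPlus m (ZMod 2) (u + v) - Cfsg.quadFormPlus m (ZMod 2) u - Cfsg.quadFormPlus m (ZMod 2) v
      = polar (QP (ZMod 2) m) u v := by
  simp [polar, QP_apply]

theorem Polarizes.zero {m : ℕ} {q : (Fin m ⊕ Fin m → ZMod 2) → ZMod 2} (hq : Polarizes m q) : q 0 = 0 := by
  have := hq 0 0
  rw [fP_eq] at this
  simp at this
  exact this

/-- the quadratic form attached to a polarizing function -/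
noncomputable def ofPolarizes {m : ℕ} (q : (Fin m ⊕ Fin m → ZMod 2) → ZMod 2) (hq : Polarizes m q) :
    QuadraticForm (ZMod 2) (Fin m ⊕ Fin m → ZMod 2) where
  toFun := q
  toFun_smul := by
    intro a x
    fin_cases a
    · change q ((0 : ZMod 2) • x) = ((0 : ZMod 2) * 0) • q x
      rw [zero_smul, hq.zero]; simp
    · change q ((1 : ZMod 2) • x) = ((1 : ZMod 2) * 1) • q x
      rw [one_smul]; simp
  exists_companion' := ⟨polarBilin (QP (ZMod 2) m), fun x y => by rw [hq, fP_eq]; rfl⟩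

theorem ofPolarizes_apply {m : ℕ} (q : (Fin m ⊕ Fin m → ZMod 2) → ZMod 2) (hq : Polarizes m q) (v) :
    ofPolarizes q hq v = q v := rfl

theorem polar_ofPolarizes {m : ℕ} (q : (Fin m ⊕ Fin m → ZMod 2) → ZMod 2) (hq : Polarizes m q) (u v) :
    polar (ofPolarizes q hq) u v = polar (QP (ZMod 2) m) u v := by
  rw [← fP_eq]
  unfold polar
  simp only [ofPolarizes_apply]
  rw [hq]; ring

theorem nd_ofPolarizes {m : ℕ} (q : (Fin m ⊕ Fin m → ZMod 2) → ZMod 2) (hq : Polarizes m q) :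
    ND (ofPolarizes q hq) := by
  intro v hv
  apply nd_QP m v
  intro w
  rw [← polar_ofPolarizes q hq]; exact hv w

theorem classify_polarizes {m : ℕ} (hm : 1 ≤ m) (q : (Fin m ⊕ Fin m → ZMod 2) → ZMod 2) (hq : Polarizes m q) :
    (∃ g : (Fin m ⊕ Fin m → ZMod 2) ≃ₗ[ZMod 2] (Fin m ⊕ Fin m → ZMod 2),
      ∀ v, q v = Cfsg.quadFormPlus m (ZMod 2) (g v)) ∨
    (∃ g : (Fin m ⊕ Fin m → ZMod 2) ≃ₗ[ZMod 2] ((Fin (m - 1) ⊕ Fin (m - 1)) ⊕ Fin 2 → ZMod 2),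
      ∀ v, q v = Cfsg.quadFormMinus (m - 1) (ZMod 2) 1 1 (g v)) := by
  rcases classify_even (ofPolarizes q hq) (nd_ofPolarizes q hq) hm (by simp; ring) with h | ⟨ζ, hζ, h⟩
  · exact Or.inl h
  · right
    have : ζ = 1 := by
      have h0 := hζ 0
      have key : ∀ z : ZMod 2, (0 : ZMod 2) ^ 2 + 0 + z ≠ 0 → z = 1 := by decide
      exact key ζ h0
    subst this
    exact h

theorem card_zeros_polarizes {m : ℕ} (hm : 1 ≤ m) (q : (Fin m ⊕ Fin m → ZMod 2) → ZMod 2) (hq : Polarizes m q) :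
    Nat.card {v // q v = 0} = 2 ^ (2 * m - 1) + 2 ^ (m - 1) ∨
    Nat.card {v // q v = 0} + 2 ^ (m - 1) = 2 ^ (2 * m - 1) := by
  obtain ⟨k, rfl⟩ : ∃ k, m = k + 1 := ⟨m - 1, by omega⟩
  have e1 : 2 ^ (2 * (k + 1) - 1) = 2 ^ (k + 1) * 2 ^ k := by
    rw [← pow_add]; congr 1; omega
  have e2 : 2 ^ (k + 1) = 2 * 2 ^ k := by ring
  rcases classify_polarizes hm q hq with ⟨g, hg⟩ | ⟨g, hg⟩
  · left
    have e : {v // q v = 0} ≃ {w // Cfsg.quadFormPlus (k + 1) (ZMod 2) w = 0} :=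
      Equiv.subtypeEquiv g.toEquiv (fun v => by rw [hg v]; rfl)
    rw [Nat.card_congr e, QuadCount.card_plus, ZMod.card, e1, Nat.add_sub_cancel, Nat.sub_mul]
    have h1 : 2 ^ k ≤ 2 ^ (k + 1) * 2 ^ k := Nat.le_mul_of_pos_left _ (by positivity)
    omega
  · right
    have e : {v // q v = 0} ≃ {w // Cfsg.quadFormMinus (k + 1 - 1) (ZMod 2) 1 1 w = 0} :=
      Equiv.subtypeEquiv g.toEquiv (fun v => by rw [hg v]; rfl)
    rw [Nat.card_congr e, QuadCount.card_minus _ 1 1 (by decide), ZMod.card, e1, Nat.add_sub_cancel]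
    cases k with
    | zero => simp
    | succ j =>
      rw [Nat.add_sub_cancel, mul_assoc, Nat.sub_mul, Nat.mul_sub]
      have e3 : 2 ^ (j + 1 + 1) * 2 ^ (j + 1) = 2 ^ 2 * (2 ^ (j + 1) * 2 ^ j) + 0 := by ring
      have e4 : 2 ^ 2 * (1 * 2 ^ j) = 2 ^ (j + 1) + 2 ^ (j + 1) := by ring
      have h1 : 2 ^ 2 * (1 * 2 ^ j) ≤ 2 ^ 2 * (2 ^ (j + 1) * 2 ^ j) :=
        Nat.mul_le_mul_left _ (Nat.mul_le_mul_right _ (Nat.one_le_two_pow))
      omega

end Cfsg.Agent.Lib.Helper4.QuadFin
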