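import Mathlib
import Cfsg.Agent.Lib.Helper4.QuadStd
import Cfsg.Agent.Lib.Helper4.QuadSim
import Cfsg.Agent.Lib.Helper4.QuadDet
import Cfsg.Agent.S2620
import Cfsg.Agent.S2621

namespace Cfsg.Agent.Lib.Helper4.QuadType

open QuadraticMap Cfsg.Agent.Lib.Helper4.QuadFin Cfsg.Agent.Lib.Helper4.QuadTS

variable {F V : Type*} [Field F] [AddCommGroup V] [Module F V]

/-- A nondegenerate symmetric bilinear form of dimension `2m` over a finite field of odd order `q` has a
totally isotropic subspace of dimension `m` iff (its discriminant is a square iff `m (q-1)/2` is even). -/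
theorem type_criterion [Fintype F] {q : ℕ} (hF : Fintype.card F = q) (h2 : (2 : F) ≠ 0)
    [FiniteDimensional F V] (B : LinearMap.BilinForm F V) (hS : B.IsSymm) (hB : B.Nondegenerate)
    {m : ℕ} (hm : 1 ≤ m) (hV : Module.finrank F V = 2 * m) {ι : Type*} [Fintype ι] [DecidableEq ι]
    (b : Module.Basis ι F V) :
    (∃ X : Submodule F V, Module.finrank F X = m ∧ ∀ x ∈ X, ∀ y ∈ X, B x y = 0) ↔
      (IsSquare (LinearMap.BilinForm.toMatrix b B).det ↔ Even (m * (q - 1) / 2)) := by
  have hq : Odd q := by
    rw [← hF, Nat.odd_iff]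
    exact FiniteField.odd_card_of_char_ne_two (fun h => h2 (by
      have := CharP.cast_eq_zero F (ringChar F)
      rw [h] at this
      exact_mod_cast this))
  let Q : QuadraticForm F V := B.toQuadraticMap
  have hQ : ∀ v, Q v = B v v := fun v => rfl
  have hpol : ∀ x y, polar Q x y = 2 * B x y := by
    intro x y
    unfold polar
    have : B y x = B x y := hS.eq y x
    rw [hQ, hQ, hQ, map_add, map_add, LinearMap.add_apply, LinearMap.add_apply, this]
    ring
  have hND : ND Q := by
    intro v hv
    apply hB.1
    intro w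
    have := hv w
    rw [hpol] at this
    exact (mul_eq_zero.1 this).resolve_left h2
  have hcard : Fintype.card ι = 2 * m := by rw [← hV, Module.finrank_eq_card_basis b]
  have hts : ∀ X : Submodule F V, (∀ x ∈ X, ∀ y ∈ X, B x y = 0) ↔ ∀ x ∈ X, Q x = 0 := by
    intro X
    constructor
    · intro h x hx
      exact h x hx x hx
    · intro h x hx y hy
      have h1 : polar Q x y = 0 := by
        unfold polar
        rw [h _ (X.add_mem hx hy), h x hx, h y hy]; ring
      rw [hpol] at h1
      exact (mul_eq_zero.1 h1).resolve_left h2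
  have hdet : ∀ {W : Type _} [AddCommGroup W] [Module F W] (g : V ≃ₗ[F] W) (q' : W → F),
      (∀ v, Q v = q' (g v)) →
      (IsSquare (Matrix.of (fun i j : ι => polar q' ((b.map g) i) ((b.map g) j))).det ↔
        IsSquare (LinearMap.BilinForm.toMatrix b B).det) := by
    intro W _ _ g q' hg
    have : Matrix.of (fun i j : ι => polar q' ((b.map g) i) ((b.map g) j))
        = (2 : F) • LinearMap.BilinForm.toMatrix b B := by
      ext i j
      simp only [Matrix.of_apply, Matrix.smul_apply, LinearMap.BilinForm.toMatrix_apply, smul_eq_mul,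
        Module.Basis.map_apply]
      rw [← hpol]
      unfold polar
      rw [hg, hg, hg, map_add]
    rw [this, Matrix.det_smul, hcard, pow_mul, pow_two, ← pow_two, ← pow_mul, mul_comm 2 m, pow_mul,
      isSquare_sq_mul (pow_ne_zero _ h2)]
  rcases classify_even Q hND hm hV with ⟨g, hg⟩ | ⟨ζ, hζ, g, hg⟩
  · have h1 := Cfsg.Agent.S2620.result hF hq hm (b.map g)
    rw [hdet g _ hg] at h1
    simp only [h1, iff_true]
    refine ⟨(LinearMap.ker (pY F m)).comap g.toLinearMap, ?_, ?_⟩
    · refine Eq.trans ?_ (finrank_ker_pY (F := F) m)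
      exact (LinearEquiv.finrank_eq (g.submoduleMap ((LinearMap.ker (pY F m)).comap g.toLinearMap))).trans
        (by rw [Submodule.map_comap_eq_of_surjective g.surjective])
    · rw [hts]
      intro x hx
      rw [hg]
      exact plus_ker_pY m _ hx
  · have hab := aniso_of_noroot hζ
    have h1 := Cfsg.Agent.S2621.result hF hq hm 1 ζ hab (b.map g)
    rw [hdet g _ hg] at h1
    have h3 : ¬ (IsSquare (LinearMap.BilinForm.toMatrix b B).det ↔ Even (m * (q - 1) / 2)) := by
      rw [h1]; tauto
    simp only [h3, iff_false]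
    rintro ⟨X, hX, hX0⟩
    rw [hts] at hX0
    have := ts_minus_le (m - 1) 1 ζ hab (X.map g.toLinearMap) (by
      rintro _ ⟨x, hx, rfl⟩
      have := hX0 x hx
      rw [hg] at this
      exact this)
    rw [LinearEquiv.finrank_map_eq, hX] at this
    omega

end Cfsg.Agent.Lib.Helper4.QuadType
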