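import Mathlib

set_option autoImplicit false

namespace Cfsg.Agent.Lib.Helper4.TransposeConj

open Polynomial

theorem frob_monic {F : Type*} [Field F] (g : F[X]) (hg : g.Monic) :
    ∃ l : AdjoinRoot g →ₗ[F] F, ∀ x : AdjoinRoot g, x ≠ 0 → ∃ y, l (x * y) ≠ 0 := by
  refine ⟨(Polynomial.lcoeff F (g.natDegree - 1)) ∘ₗ AdjoinRoot.modByMonicHom hg, ?_⟩
  intro x hx
  set r := AdjoinRoot.modByMonicHom hg x with hr
  have hxr : AdjoinRoot.mk g r = x := AdjoinRoot.mk_leftInverse hg x
  have hr0 : r ≠ 0 := by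
    intro h; apply hx; rw [← hxr, h, map_zero]
  have hdeg : r.degree < g.degree := by
    obtain ⟨f, rfl⟩ := AdjoinRoot.mk_surjective x
    rw [hr, AdjoinRoot.modByMonicHom_mk]; exact degree_modByMonic_lt _ hg
  have hnd : r.natDegree < g.natDegree := natDegree_lt_natDegree hr0 hdeg
  obtain ⟨k, hk⟩ : ∃ k, g.natDegree - 1 = r.natDegree + k := ⟨g.natDegree - 1 - r.natDegree, by omega⟩
  refine ⟨AdjoinRoot.mk g (X ^ k), ?_⟩
  rw [← hxr, ← map_mul]
  simp only [LinearMap.comp_apply, AdjoinRoot.modByMonicHom_mk, lcoeff_apply]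
  have hlt : (r * X ^ k).degree < g.degree := by
    rw [degree_mul, degree_X_pow, degree_eq_natDegree hr0, degree_eq_natDegree hg.ne_zero]
    exact_mod_cast (by omega : r.natDegree + k < g.natDegree)
  rw [(modByMonic_eq_self_iff hg).2 hlt, hk, coeff_mul_X_pow]
  exact leadingCoeff_ne_zero.2 hr0

theorem frob {F : Type*} [Field F] (g : F[X]) (hg : g ≠ 0) :
    ∃ l : (F[X] ⧸ (Submodule.span F[X] {g})) →ₗ[F] F,
      ∀ x : (F[X] ⧸ (Submodule.span F[X] {g})), x ≠ 0 → ∃ y, l (x * y) ≠ 0 := by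
  have key : ∀ I : Ideal F[X], I = Ideal.span {g * C g.leadingCoeff⁻¹} →
      ∃ l : (F[X] ⧸ I) →ₗ[F] F, ∀ x : (F[X] ⧸ I), x ≠ 0 → ∃ y, l (x * y) ≠ 0 := by
    rintro _ rfl
    exact frob_monic _ (monic_mul_leadingCoeff_inv hg)
  apply key
  symm
  apply Ideal.span_singleton_mul_right_unit
  exact isUnit_C.2 (isUnit_iff_ne_zero.2 (inv_ne_zero (leadingCoeff_ne_zero.2 hg)))


open Module DirectSum in
theorem exists_form {F : Type*} [Field F] {ι : Type*} [Fintype ι] [DecidableEq ι] (A : Matrix ι ι F) :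
    ∃ B : LinearMap.BilinForm F (ι → F), (∀ v w, B (A.mulVec v) w = B v (A.mulVec w)) ∧
      (∀ v, (∀ w, B v w = 0) → v = 0) := by
  classical
  set f : Module.End F (ι → F) := Matrix.toLin' A with hf
  have htors : Module.IsTorsion F[X] (AEval' f) := AEval.isTorsion_of_finiteDimensional F (ι → F) f
  obtain ⟨κ, _, p, hp, e, ⟨φ⟩⟩ := Module.equiv_directSum_of_isTorsion htors
  have hne : ∀ i, p i ^ e i ≠ 0 := fun i => pow_ne_zero _ (hp i).ne_zero
  choose l hl using fun i => frob (p i ^ e i) (hne i)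
  let E : (ι → F) →ₗ[F] ⨁ i : κ, F[X] ⧸ (Submodule.span F[X] {p i ^ e i}) :=
    (φ.restrictScalars F).toLinearMap ∘ₗ (AEval'.of f).toLinearMap
  let Ei : ∀ i : κ, (ι → F) →ₗ[F] F[X] ⧸ (Submodule.span F[X] {p i ^ e i}) :=
    fun i => (DirectSum.component F κ _ i) ∘ₗ E
  let B : LinearMap.BilinForm F (ι → F) :=
    ∑ i, ((LinearMap.mul F (F[X] ⧸ (Submodule.span F[X] {p i ^ e i}))).compr₂ (l i)).compl₁₂ (Ei i) (Ei i)
  have hB : ∀ v w, B v w = ∑ i, l i (Ei i v * Ei i w) := by
    intro v w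
    simp [B, LinearMap.sum_apply]
  have hEA : ∀ i v, Ei i (A.mulVec v) = (X : F[X]) • Ei i v := by
    intro i v
    show (φ (AEval'.of f (A.mulVec v))) i = (X : F[X]) • (φ (AEval'.of f v)) i
    have : AEval'.of f (A.mulVec v) = (X : F[X]) • AEval'.of f v := by
      rw [AEval'.X_smul_of]; rfl
    rw [this, map_smul]
    rfl
  refine ⟨B, ?_, ?_⟩
  · intro v w
    rw [hB, hB]
    apply Finset.sum_congr rfl
    intro i _
    rw [hEA, hEA, smul_mul_assoc, mul_smul_comm]
  · intro v hv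
    by_contra hv0
    have hE0 : φ (AEval'.of f v) ≠ 0 := by
      intro h
      apply hv0
      have h1 := φ.injective (h.trans (map_zero φ).symm)
      exact (AEval'.of f).injective (h1.trans (map_zero _).symm)
    obtain ⟨i0, hi0⟩ : ∃ i, (φ (AEval'.of f v)) i ≠ 0 := by
      by_contra hcon
      push Not at hcon
      exact hE0 (DFinsupp.ext hcon)
    obtain ⟨y, hy⟩ := hl i0 _ hi0
    let w : ι → F := (AEval'.of f).symm (φ.symm (DirectSum.of _ i0 y))
    have hw : ∀ i, Ei i w = (DirectSum.of (fun i => F[X] ⧸ (Submodule.span F[X] {p i ^ e i})) i0 y) i := by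
      intro i
      show (φ (AEval'.of f w)) i = _
      simp [w]
    have := hv w
    rw [hB] at this
    rw [Finset.sum_eq_single i0] at this
    · apply hy
      rw [hw, DirectSum.of_eq_same] at this
      exact this
    · intro j _ hj
      rw [hw, DirectSum.of_eq_of_ne _ _ _ hj]
      simp
    · intro h; exact absurd (Finset.mem_univ _) h

theorem isConj_transpose {F : Type*} [Field F] {ι : Type*} [Fintype ι] [DecidableEq ι] (A : Matrix ι ι F) :
    IsConj A A.transpose := by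
  obtain ⟨B, hadj, hnd⟩ := exists_form A
  set S := LinearMap.BilinForm.toMatrix' B with hS
  have hBS : ∀ v w, B v w = v ⬝ᵥ S.mulVec w := by
    intro v w
    rw [← Matrix.toBilin'_apply', hS, Matrix.toBilin'_toMatrix']
  have hdet : S.det ≠ 0 := by
    intro h0
    obtain ⟨v, hv0, hv⟩ := Matrix.exists_vecMul_eq_zero_iff.2 h0
    apply hv0
    apply hnd
    intro w
    rw [hBS, Matrix.dotProduct_mulVec, hv, zero_dotProduct]
  have hSA : S * A = A.transpose * S := by
    have h1 : B.compLeft (Matrix.toLin' A) = B.compRight (Matrix.toLin' A) := by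
      apply LinearMap.ext; intro v
      apply LinearMap.ext; intro w
      exact hadj v w
    have h2 := congrArg LinearMap.BilinForm.toMatrix' h1
    rw [LinearMap.BilinForm.toMatrix'_compLeft, LinearMap.BilinForm.toMatrix'_compRight,
      LinearMap.toMatrix'_toLin'] at h2
    exact h2.symm
  have hunit : IsUnit S := (Matrix.isUnit_iff_isUnit_det S).2 (isUnit_iff_ne_zero.2 hdet)
  obtain ⟨c, hc⟩ := hunit
  exact ⟨c, by rw [SemiconjBy, hc]; exact hSA⟩

end Cfsg.Agent.Lib.Helper4.TransposeConj
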