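import Mathlib

set_option autoImplicit false

namespace Cfsg.Agent.Lib.Helper4.TriCount

open Matrix

variable {F : Type*} [Field F] {n : ℕ}

/-- entry constraint for lower triangular invertible matrices -/
def PL (i j : Fin n) (x : F) : Prop := (i < j → x = 0) ∧ (i = j → x ≠ 0)

theorem card_entry [Fintype F] (i j : Fin n) : Nat.card {x : F // PL i j x} =
    (if j < i then Fintype.card F else 1) * (if j = i then Fintype.card F - 1 else 1) := by
  classical
  rcases lt_trichotomy i j with h | h | h
  · rw [if_neg (not_lt.2 h.le), if_neg h.ne', one_mul]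
    have : Unique {x : F // PL i j x} :=
      { default := ⟨0, fun _ => rfl, fun h' => absurd h' h.ne⟩
        uniq := fun x => Subtype.ext (x.2.1 h) }
    exact Nat.card_unique
  · subst h
    rw [if_neg (lt_irrefl _), if_pos rfl, one_mul, ← Fintype.card_units, ← Nat.card_eq_fintype_card]
    apply Nat.card_congr
    refine (Equiv.subtypeEquivRight (fun x => ?_)).trans unitsEquivNeZero.symm
    exact ⟨fun hx => hx.2 rfl, fun hx => ⟨fun h' => absurd h' (lt_irrefl _), fun _ => hx⟩⟩
  · rw [if_pos h, if_neg h.ne, mul_one, ← Nat.card_eq_fintype_card]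
    apply Nat.card_congr
    exact Equiv.subtypeUnivEquiv (fun x => ⟨fun h' => absurd h' (not_lt.2 h.le),
      fun h' => absurd h' h.ne'⟩)

theorem prod_row (q : ℕ) (i : Fin n) :
    ∏ j : Fin n, ((if j < i then q else 1) * (if j = i then q - 1 else 1)) = q ^ (i : ℕ) * (q - 1) := by
  rw [Finset.prod_mul_distrib, Finset.prod_ite_eq' Finset.univ i, if_pos (Finset.mem_univ i),
    Finset.prod_ite, Finset.prod_const, Finset.prod_const_one, mul_one]
  congr 2
  have : (Finset.univ.filter (fun j : Fin n => j < i)) = Finset.Iio i := by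
    ext j; simp
  rw [this, Fin.card_Iio]

theorem card_tri [Fintype F] : Nat.card {M : Fin n → Fin n → F // ∀ i j, PL i j (M i j)} =
    Fintype.card F ^ (n * (n - 1) / 2) * (Fintype.card F - 1) ^ n := by
  rw [Nat.card_congr (Equiv.subtypePiEquivPi.trans
    (Equiv.piCongrRight fun i => Equiv.subtypePiEquivPi)), Nat.card_pi]
  simp only [Nat.card_pi, card_entry, prod_row]
  rw [Finset.prod_mul_distrib, Finset.prod_pow_eq_pow_sum, Finset.prod_const, Finset.card_univ,
    Fintype.card_fin, Fin.sum_univ_eq_sum_range (fun i => i) n, Finset.sum_range_id]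

theorem det_ne_zero_of_PL (M : Matrix (Fin n) (Fin n) F) (h : ∀ i j, PL i j (M i j)) :
    M.det ≠ 0 := by
  rw [det_of_isLowerTriangular M (fun i j hij => (h i j).1 hij), Finset.prod_ne_zero_iff]
  intro i _
  exact (h i i).2 rfl

end Cfsg.Agent.Lib.Helper4.TriCount
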